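import Mathlib
import Cfsg.Agent.Helper21.JCentC
import Cfsg.Agent.Helper43.HermAdj

set_option autoImplicit false

/-!
# Definitions for CALL S2646 (helper44): centralisers of unipotent elements of `GU_n(q)`

`hT q M` is the conjugate transpose for the `q`-power map on any index type (for `Fin n` it is
`Cfsg.Agent.Helper43.HermAdj.hadj q M` by `rfl`); `invForms q J` is the set of invertible hermitian
matrices `H` with `hT J * H * J = H`; `skewForms q M` the set of invertible hermitian `H` with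
`hT M * H + H * M = 0`.
-/

namespace Cfsg.Agent.Helper44.UC

open Matrix Cfsg.Agent.Helper21.JCent

variable {K : Type*} [Field K]

/-- conjugate transpose for the `q`-power map, any index type -/
def hT (q : ℕ) {ι : Type*} (M : Matrix ι ι K) : Matrix ι ι K := (M.map (fun x : K => x ^ q))ᵀ

theorem hT_apply (q : ℕ) {ι : Type*} (M : Matrix ι ι K) (i j : ι) : hT q M i j = (M j i) ^ q := rfl

theorem hT_eq_hadj (q n : ℕ) (M : Matrix (Fin n) (Fin n) K) :
    hT q M = Cfsg.Agent.Helper43.HermAdj.hadj q M := rfl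

/-- invertible hermitian matrices `H` with `hT J * H * J = H` -/
def invForms (q : ℕ) {ι : Type*} [Fintype ι] [DecidableEq ι] (J : Matrix ι ι K) :
    Set (Matrix ι ι K) :=
  {H | IsUnit H.det ∧ hT q H = H ∧ hT q J * H * J = H}

/-- invertible hermitian matrices `H` with `hT M * H + H * M = 0` -/
def skewForms (q : ℕ) {ι : Type*} [Fintype ι] [DecidableEq ι] (M : Matrix ι ι K) :
    Set (Matrix ι ι K) :=
  {H | IsUnit H.det ∧ hT q H = H ∧ hT q M * H + H * M = 0}

/-- the number of invertible hermitian `a × a` matrices -/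
noncomputable def hermCount (K : Type*) [Field K] (q a : ℕ) : ℕ :=
  Nat.card {H : Matrix (Fin a) (Fin a) K // IsUnit H.det ∧ hT q H = H}

section lemmas

variable [Fintype K] {q : ℕ} (hK : Fintype.card K = q ^ 2)

include hK

theorem q_pos : 0 < q := by
  have := Cfsg.Agent.Helper43.NormH90.two_le_q hK
  omega

theorem hT_eq_map {φ : K →+* K} (hφ : ∀ a, φ a = a ^ q) {ι : Type*} (M : Matrix ι ι K) :
    hT q M = (M.map φ)ᵀ := by
  ext i j
  rw [hT_apply, transpose_apply, map_apply, hφ]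

theorem hT_add {ι : Type*} (M N : Matrix ι ι K) : hT q (M + N) = hT q M + hT q N := by
  ext i j
  rw [hT_apply, Matrix.add_apply, Matrix.add_apply, hT_apply, hT_apply,
    Cfsg.Agent.Helper43.NormH90.add_pow_q hK]

theorem hT_sub {ι : Type*} (M N : Matrix ι ι K) : hT q (M - N) = hT q M - hT q N := by
  ext i j
  rw [hT_apply, Matrix.sub_apply, Matrix.sub_apply, hT_apply, hT_apply,
    Cfsg.Agent.Helper43.NormH90.sub_pow_q hK]

theorem hT_zero {ι : Type*} : hT q (0 : Matrix ι ι K) = 0 := by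
  ext i j
  rw [hT_apply, Matrix.zero_apply, zero_pow (q_pos hK).ne']
  rfl

theorem hT_neg {ι : Type*} (M : Matrix ι ι K) : hT q (-M) = -hT q M := by
  have h := hT_sub hK (0 : Matrix ι ι K) M
  rw [zero_sub, hT_zero hK, zero_sub] at h
  exact h

theorem hT_mul {ι : Type*} [Fintype ι] (M N : Matrix ι ι K) :
    hT q (M * N) = hT q N * hT q M := by
  obtain ⟨φ, hφ⟩ := Cfsg.Agent.Helper43.HermAdj.exists_frobQ hK
  rw [hT_eq_map hK hφ, hT_eq_map hK hφ, hT_eq_map hK hφ, Matrix.map_mul, transpose_mul]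

theorem hT_smul {ι : Type*} (c : K) (M : Matrix ι ι K) : hT q (c • M) = c ^ q • hT q M := by
  ext i j
  rw [hT_apply, Matrix.smul_apply, Matrix.smul_apply, hT_apply, smul_eq_mul, smul_eq_mul, mul_pow]

theorem hT_one {ι : Type*} [DecidableEq ι] : hT q (1 : Matrix ι ι K) = 1 := by
  ext i j
  rw [hT_apply, Matrix.one_apply, Matrix.one_apply]
  by_cases h : i = j
  · subst h
    simp
  · rw [if_neg h, if_neg (Ne.symm h), zero_pow (q_pos hK).ne']

theorem hT_hT {ι : Type*} (M : Matrix ι ι K) : hT q (hT q M) = M := by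
  ext i j
  rw [hT_apply, hT_apply, Cfsg.Agent.Helper43.NormH90.pow_q_q hK]

theorem hT_det {ι : Type*} [Fintype ι] [DecidableEq ι] (M : Matrix ι ι K) :
    (hT q M).det = M.det ^ q := by
  obtain ⟨φ, hφ⟩ := Cfsg.Agent.Helper43.HermAdj.exists_frobQ hK
  rw [hT_eq_map hK hφ, Matrix.det_transpose]
  have : (M.map φ).det = φ M.det := by
    rw [RingHom.map_det, RingHom.mapMatrix_apply]
  rw [this, hφ]

theorem isUnit_det_hT {ι : Type*} [Fintype ι] [DecidableEq ι] (M : Matrix ι ι K)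
    (h : IsUnit M.det) : IsUnit (hT q M).det := by
  rw [hT_det hK]
  exact h.pow q

theorem hT_inv {ι : Type*} [Fintype ι] [DecidableEq ι] (M : Matrix ι ι K) (h : IsUnit M.det) :
    hT q M⁻¹ = (hT q M)⁻¹ := by
  symm
  apply Matrix.inv_eq_left_inv
  rw [← hT_mul hK, Matrix.mul_nonsing_inv M h, hT_one hK]

theorem hT_injective {ι : Type*} : Function.Injective (hT q : Matrix ι ι K → Matrix ι ι K) := by
  intro M N h
  rw [← hT_hT hK M, ← hT_hT hK N, h]

theorem hT_reindex {ι κ : Type*} (e : ι ≃ κ) (M : Matrix ι ι K) :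
    hT q (Matrix.reindex e e M) = Matrix.reindex e e (hT q M) := by
  ext i j
  rfl

end lemmas

/-- the standard invertible skew form for the nilpotent shift `nilp K d` -/
def H0 (K : Type*) [Field K] {t : ℕ} (d : Fin t → ℕ) :
    Matrix ((k : Fin t) × Fin (d k)) ((k : Fin t) × Fin (d k)) K :=
  Matrix.of fun p r =>
    if p.1 = r.1 ∧ (p.2 : ℕ) + (r.2 : ℕ) + 1 = d p.1 then (-1) ^ (p.2 : ℕ) else 0

/-- the exponent of the sign attached to a position -/
def sOf {t : ℕ} (d : Fin t → ℕ) (a : ((k : Fin t) × Fin (d k)) × Fin t) : ℕ :=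
  d a.1.1 - 1 - (a.1.2 : ℕ)

/-- the involution on the admissible positions -/
def theta {t : ℕ} (d : Fin t → ℕ) (a : ((k : Fin t) × Fin (d k)) × Fin t) :
    ((k : Fin t) × Fin (d k)) × Fin t :=
  if h : d a.1.1 ≤ (a.1.2 : ℕ) + d a.2 then
    (⟨a.2, ⟨(a.1.2 : ℕ) + d a.2 - d a.1.1, by have := a.1.2.2; omega⟩⟩, a.1.1)
  else a

/-- the hermitian symmetry of a parameter family -/
def SymC (q : ℕ) {t : ℕ} (d : Fin t → ℕ) (c : ((k : Fin t) × Fin (d k)) × Fin t → K) : Prop :=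
  ∀ a, d a.1.1 ≤ (a.1.2 : ℕ) + d a.2 → c a = (-1) ^ sOf d a * (c (theta d a)) ^ q

theorem theta_eq {t : ℕ} (d : Fin t → ℕ) (a : ((k : Fin t) × Fin (d k)) × Fin t)
    (h : d a.1.1 ≤ (a.1.2 : ℕ) + d a.2) :
    theta d a = (⟨a.2, ⟨(a.1.2 : ℕ) + d a.2 - d a.1.1, by have := a.1.2.2; omega⟩⟩, a.1.1) := by
  unfold theta
  rw [dif_pos h]

theorem theta_adm {t : ℕ} (d : Fin t → ℕ) (a : ((k : Fin t) × Fin (d k)) × Fin t)
    (h : d a.1.1 ≤ (a.1.2 : ℕ) + d a.2) :
    d (theta d a).1.1 ≤ ((theta d a).1.2 : ℕ) + d (theta d a).2 := by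
  rw [theta_eq d a h]
  show d a.2 ≤ (a.1.2 : ℕ) + d a.2 - d a.1.1 + d a.1.1
  omega

theorem theta_theta {t : ℕ} (d : Fin t → ℕ) (a : ((k : Fin t) × Fin (d k)) × Fin t) :
    theta d (theta d a) = a := by
  by_cases h : d a.1.1 ≤ (a.1.2 : ℕ) + d a.2
  · obtain ⟨⟨k, s⟩, l⟩ := a
    have h' : d k ≤ (s : ℕ) + d l := h
    have hs := s.2
    have e1 : theta d (⟨k, s⟩, l) = (⟨l, ⟨(s : ℕ) + d l - d k, by omega⟩⟩, k) :=
      theta_eq d _ h
    rw [e1]
    have h2 : d l ≤ (s : ℕ) + d l - d k + d k := by omega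
    have e2 : theta d ((⟨l, ⟨(s : ℕ) + d l - d k, by omega⟩⟩ : (k : Fin t) × Fin (d k)), k)
        = (⟨k, ⟨(s : ℕ) + d l - d k + d k - d l, by omega⟩⟩, l) :=
      theta_eq d _ h2
    rw [e2]
    have e3 : (⟨(s : ℕ) + d l - d k + d k - d l, by omega⟩ : Fin (d k)) = s :=
      Fin.ext (by show (s : ℕ) + d l - d k + d k - d l = (s : ℕ); omega)
    rw [e3]
  · unfold theta
    rw [dif_neg h, dif_neg h]

theorem sOf_theta {t : ℕ} (d : Fin t → ℕ) (a : ((k : Fin t) × Fin (d k)) × Fin t)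
    (h : d a.1.1 ≤ (a.1.2 : ℕ) + d a.2) : sOf d (theta d a) = sOf d a := by
  rw [theta_eq d a h]
  unfold sOf
  have := a.1.2.2
  show d a.2 - 1 - ((a.1.2 : ℕ) + d a.2 - d a.1.1) = d a.1.1 - 1 - (a.1.2 : ℕ)
  omega

theorem theta_PP {t : ℕ} (d : Fin t → ℕ) (a : ((k : Fin t) × Fin (d k)) × Fin t)
    (h : PP d a) : PP d (theta d a) := by
  have hadm : d a.1.1 ≤ (a.1.2 : ℕ) + d a.2 := by
    have := h.2
    omega
  rw [theta_eq d a hadm]
  refine ⟨?_, h.2.symm⟩
  show (a.1.2 : ℕ) + d a.2 - d a.1.1 = 0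
  have h1 := h.1
  have h2 := h.2
  omega

theorem theta_RR {t : ℕ} (d : Fin t → ℕ) (a : ((k : Fin t) × Fin (d k)) × Fin t)
    (h : RR d a) : RR d (theta d a) := by
  have hadm : d a.1.1 ≤ (a.1.2 : ℕ) + d a.2 := h.1
  rw [theta_eq d a hadm]
  refine ⟨?_, ?_⟩
  · show d a.2 ≤ (a.1.2 : ℕ) + d a.2 - d a.1.1 + d a.1.1
    omega
  · rintro ⟨h1, h2⟩
    have h1' : (a.1.2 : ℕ) + d a.2 - d a.1.1 = 0 := h1
    have h2' : d a.2 = d a.1.1 := h2
    apply h.2
    exact ⟨by omega, h2'.symm⟩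

end Cfsg.Agent.Helper44.UC
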