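import Mathlib
import Cfsg.Agent.Helper44.UCDefs

/-!
# Definitions for CALL S2676 (helper44)

Classes of elements of order `p` of `Sp_2m(q)`, `q` odd: the `Sp`-classes inside the `GL`-class of a
unipotent matrix `U` correspond to the orbits of the centraliser of `U` in `GL` on the invertible
alternating `U`-invariant forms (`IsInvF`, `invRel`); via the Cayley transform these are the
`N`-skew forms for the nilpotent shift `N = nilp F d` (`IsSkF`, `skRel`), and such a form is
determined up to the centraliser by its reductions `bet d hd i ψ` to the multiplicity spaces of the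
Jordan blocks of size `i`, which are invertible `(-1)^i`-symmetric matrices (`IsSymT`, `congRel`).
`tb d hd i X` is the diagonal block (block size `i`) of the top matrix of `X`.
-/

set_option autoImplicit false

namespace Cfsg.Agent.Helper44.SPC

open Matrix Cfsg.Agent.Helper21.JCent Cfsg.Agent.Helper44.UC

section forms

variable {F : Type*} [Field F] {ι : Type*} [Fintype ι] [DecidableEq ι]

/-- invertible skew-symmetric forms invariant under `U` -/
def IsInvF (U ψ : Matrix ι ι F) : Prop := ψᵀ = -ψ ∧ IsUnit ψ.det ∧ Uᵀ * ψ * U = ψ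

/-- twisted congruence by the centraliser of `U` -/
def invRel (U : Matrix ι ι F) (ψ ψ' : {ψ : Matrix ι ι F // IsInvF U ψ}) : Prop :=
  ∃ c : Matrix ι ι F, IsUnit c.det ∧ c * U = U * c ∧ ψ'.1 = cᵀ * ψ.1 * c

/-- invertible skew-symmetric forms for which `M` is skew -/
def IsSkF (M ψ : Matrix ι ι F) : Prop := ψᵀ = -ψ ∧ IsUnit ψ.det ∧ Mᵀ * ψ + ψ * M = 0

/-- twisted congruence by the centraliser of `M` -/
def skRel (M : Matrix ι ι F) (ψ ψ' : {ψ : Matrix ι ι F // IsSkF M ψ}) : Prop :=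
  ∃ c : Matrix ι ι F, IsUnit c.det ∧ c * M = M * c ∧ ψ'.1 = cᵀ * ψ.1 * c

/-- invertible `(-1)^i`-symmetric matrices -/
def IsSymT (i : ℕ) (β : Matrix ι ι F) : Prop := IsUnit β.det ∧ βᵀ = (-1 : F) ^ i • β

/-- congruence -/
def congRel (i : ℕ) (β β' : {β : Matrix ι ι F // IsSymT i β}) : Prop :=
  ∃ g : Matrix ι ι F, IsUnit g.det ∧ β'.1 = gᵀ * β.1 * g

end forms

section blocks

variable {F : Type*} [Field F] {t : ℕ} (d : Fin t → ℕ) (hd : ∀ k, 1 ≤ d k)

/-- the diagonal block (block size `i`) of the top matrix of `X` -/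
def tb (i : Fin (Finset.univ.sup d + 1))
    (X : Matrix ((k : Fin t) × Fin (d k)) ((k : Fin t) × Fin (d k)) F) :
    Matrix {x : Fin t // dd d x = i} {x : Fin t // dd d x = i} F :=
  Matrix.of fun l k => X ⟨l.1, ⟨0, hd l.1⟩⟩ ⟨k.1, ⟨0, hd k.1⟩⟩

/-- the reduction of a form to the multiplicity space of the blocks of size `i` -/
def bet (i : Fin (Finset.univ.sup d + 1))
    (ψ : Matrix ((k : Fin t) × Fin (d k)) ((k : Fin t) × Fin (d k)) F) :
    Matrix {x : Fin t // dd d x = i} {x : Fin t // dd d x = i} F :=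
  Matrix.of fun l k => ψ ⟨l.1, ⟨d l.1 - 1, Nat.sub_lt (hd l.1) Nat.one_pos⟩⟩ ⟨k.1, ⟨0, hd k.1⟩⟩

omit [Field F] in
theorem tb_apply (i : Fin (Finset.univ.sup d + 1))
    (X : Matrix ((k : Fin t) × Fin (d k)) ((k : Fin t) × Fin (d k)) F)
    (l k : {x : Fin t // dd d x = i}) :
    tb d hd i X l k = X ⟨l.1, ⟨0, hd l.1⟩⟩ ⟨k.1, ⟨0, hd k.1⟩⟩ := rfl

omit [Field F] in
theorem bet_apply (i : Fin (Finset.univ.sup d + 1))
    (ψ : Matrix ((k : Fin t) × Fin (d k)) ((k : Fin t) × Fin (d k)) F)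
    (l k : {x : Fin t // dd d x = i}) :
    bet d hd i ψ l k
      = ψ ⟨l.1, ⟨d l.1 - 1, Nat.sub_lt (hd l.1) Nat.one_pos⟩⟩ ⟨k.1, ⟨0, hd k.1⟩⟩ := rfl

end blocks

/-- the number of congruence classes of invertible `(-1)^i`-symmetric `a × a` matrices over a
finite field of odd characteristic -/
def nOrb (i a : ℕ) : ℕ :=
  if Even i then (if a = 0 then 1 else 2) else (if Even a then 1 else 0)

end Cfsg.Agent.Helper44.SPC
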