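import Mathlib
import Cfsg.Agent.Helper13.SpParab

/-!
# Definitions for CALL S2316 (helper44)

Steinberg's count of the unipotent elements of `Sp_2m(q)` (`= q^(2m²)`), by Möbius inversion over
the totally isotropic subspaces fixed pointwise by a unipotent element:
for unipotent `g ≠ 1` the fixed space `K = ker (g - 1)` has a non-zero radical vector, hence
`∑_{W ≤ K totally isotropic} (-1)^(dim W) q^(dim W choose 2) = 0`; summing over all unipotent `g`
and counting the unipotent elements of the pointwise stabiliser of a totally isotropic `k`-space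
(`q^(k(k+1)/2 + 2k(m-k))` times the number of unipotent elements of `Sp_2(m-k)(q)`) gives a
recursion for the number of unipotent elements.
-/

set_option autoImplicit false

namespace Cfsg.Agent.Helper44.SPU

open Matrix

/-- `W` is totally isotropic for the standard symplectic form. -/
def Iso (m : ℕ) (F : Type*) [Field F] (W : Submodule F (Fin m ⊕ Fin m → F)) : Prop :=
  ∀ u ∈ W, ∀ v ∈ W, Cfsg.sympForm m F u v = 0

/-- the fixed space of a matrix -/
def fixSub {F : Type*} [Field F] {m : ℕ} (g : Matrix (Fin m ⊕ Fin m) (Fin m ⊕ Fin m) F) :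
    Submodule F (Fin m ⊕ Fin m → F) where
  carrier := {v | g *ᵥ v = v}
  add_mem' := by
    intro a b ha hb
    show g *ᵥ (a + b) = a + b
    rw [Matrix.mulVec_add, show g *ᵥ a = a from ha, show g *ᵥ b = b from hb]
  zero_mem' := Matrix.mulVec_zero g
  smul_mem' := by
    intro c a ha
    show g *ᵥ (c • a) = c • a
    rw [Matrix.mulVec_smul, show g *ᵥ a = a from ha]

theorem mem_fixSub {F : Type*} [Field F] {m : ℕ}
    (g : Matrix (Fin m ⊕ Fin m) (Fin m ⊕ Fin m) F) (v : Fin m ⊕ Fin m → F) :
    v ∈ fixSub g ↔ g *ᵥ v = v := Iff.rfl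

/-- the weight `(-1)^j q^(j choose 2)` -/
def wt (q j : ℕ) : ℤ := (-1) ^ j * (q : ℤ) ^ (j.choose 2)

/-- the number of totally isotropic `k`-subspaces of the symplectic space of dimension `2m` over
the field with `q` elements (recursive definition: relative to a fixed non-zero vector `v`, a
totally isotropic `W` either contains `v`, or lies in `v^⊥` without containing `v`, or is not
inside `v^⊥`) -/
def isoN (q : ℕ) : ℕ → ℕ → ℕ
  | 0, 0 => 1
  | 0, (_ + 1) => 0
  | (_ + 1), 0 => 1
  | (m + 1), (k + 1) =>
      (1 + q ^ (2 * (m + 1) - (k + 1))) * isoN q m k + q ^ (k + 1) * isoN q m (k + 1)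

/-- forces the equation lemmas of `isoN` to be generated in this file (so that files citing them
do not each generate their own copy) -/
theorem isoN_eqns_here (q : ℕ) : isoN q 0 0 = 1 := by
  have _h1 := @isoN.eq_1
  have _h2 := @isoN.eq_2
  have _h3 := @isoN.eq_3
  have _h4 := @isoN.eq_4
  have _h5 := @isoN.eq_def
  simp [isoN]

/-- the exponent: `q^(uE m k)` unipotent elements of `Sp_2m(q)` fix a given totally isotropic
`k`-space pointwise -/
def uE (m k : ℕ) : ℕ := k * (k + 1) / 2 + 2 * k * (m - k) + 2 * (m - k) ^ 2

end Cfsg.Agent.Helper44.SPU
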