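import Mathlib
import Cfsg.Agent.Helper13.UnitSimple

/-!
# Automorphisms of `PSU_n(q)` (helper44), part A: Siegel elements

Rank one matrices for the Hermitian form, the Siegel elements
`usg hF e w b : x ↦ x - h(x,w) e + h(x,e) (w + b e)` of `SU_n(q)` and their calculus.
-/

set_option autoImplicit false
set_option linter.unusedSimpArgs false
set_option linter.unusedSectionVars false
set_option linter.unusedVariables false

namespace Cfsg.Agent.Helper44.PSUn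

open Matrix
open scoped Pointwise
open Cfsg.Agent.Helper5 (frobQ frobQ_apply frobQ_frobQ frobQ_ne_id)
open Cfsg.Agent.Helper13

variable {F : Type*} [Field F] [Fintype F] {q n : ℕ}

local notation "⟪" x ", " y "⟫" => Cfsg.hermForm n F q x y

/-! ### field facts -/

theorem psu_sigma_tau (hF : Fintype.card F = q ^ 2) (σ : F ≃+* F) (x : F) :
    σ (frobQ hF x) = frobQ hF (σ x) := by
  rw [frobQ_apply, frobQ_apply, map_pow]

theorem psu_exists_tr (hF : Fintype.card F = q ^ 2) (d : F) (hd : frobQ hF d = d) :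
    ∃ b : F, b + frobQ hF b = d := by
  obtain ⟨b, hb⟩ := ufld_exists_trace_one hF
  refine ⟨d * b, ?_⟩
  rw [map_mul, hd, ← mul_add, hb, mul_one]

theorem psu_exists_psi (hF : Fintype.card F = q ^ 2) (c : F) (hc : frobQ hF c = -c) :
    ∃ γ : F, γ - frobQ hF γ = c := by
  obtain ⟨b, hb⟩ := ufld_exists_trace_one hF
  refine ⟨c * b, ?_⟩
  rw [map_mul, hc]
  linear_combination c * hb

theorem psu_norm_fix (hF : Fintype.card F = q ^ 2) (x : F) :
    frobQ hF (x * frobQ hF x) = x * frobQ hF x := by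
  rw [map_mul, frobQ_frobQ, mul_comm]

theorem psu_pow_char (p : ℕ) [Fact p.Prime] [CharP F p] (l : F) (k : ℕ) (h : l ^ (p ^ k) = 1) :
    l = 1 := by
  have h1 : (l - 1) ^ (p ^ k) = 0 := by
    rw [sub_pow_char_pow, h, one_pow, sub_self]
  exact sub_eq_zero.1 ((pow_eq_zero_iff (pow_ne_zero k (Fact.out : p.Prime).ne_zero)).1 h1)

theorem psu_self_fix (hF : Fintype.card F = q ^ 2) (x : Fin n → F) :
    frobQ hF ⟪x, x⟫ = ⟪x, x⟫ := uh_conj hF x x

theorem psu_swap_zero (hF : Fintype.card F = q ^ 2) {x y : Fin n → F} (h : ⟪x, y⟫ = 0) :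
    ⟪y, x⟫ = 0 := by
  rw [← uh_conj hF, h, map_zero]

theorem psu_swap_one (hF : Fintype.card F = q ^ 2) {x y : Fin n → F} (h : ⟪x, y⟫ = 1) :
    ⟪y, x⟫ = 1 := by
  rw [← uh_conj hF, h, map_one]

theorem psu_swap_ne (hF : Fintype.card F = q ^ 2) {x y : Fin n → F} (h : ⟪x, y⟫ ≠ 0) :
    ⟪y, x⟫ ≠ 0 := fun h' => h (psu_swap_zero hF h')

/-! ### rank one matrices -/

/-- the matrix of `x ↦ h(x, v) u` -/
def rk1 (q : ℕ) (u v : Fin n → F) : Matrix (Fin n) (Fin n) F :=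
  Matrix.vecMulVec u (fun j => v j ^ q)

theorem rk1_mulVec (u v x : Fin n → F) : rk1 q u v *ᵥ x = ⟪x, v⟫ • u := by
  unfold rk1
  rw [Matrix.vecMulVec_mulVec]
  have : ((fun j => v j ^ q) ⬝ᵥ x) = ⟪x, v⟫ := by
    unfold Cfsg.hermForm dotProduct
    exact Finset.sum_congr rfl (fun i _ => mul_comm _ _)
  rw [this]
  funext i
  simp only [Pi.smul_apply, smul_eq_mul, MulOpposite.smul_eq_mul_unop, MulOpposite.unop_op]
  ring

theorem det_one_add_rk1 (c : F) (u v : Fin n → F) :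
    (1 + c • rk1 q u v).det = 1 + c * ⟪u, v⟫ := by
  unfold rk1
  have h1 : c • Matrix.vecMulVec u (fun j => v j ^ q) =
      Matrix.replicateCol Unit (c • u) * Matrix.replicateRow Unit (fun j => v j ^ q) := by
    ext i j
    simp [Matrix.vecMulVec_apply, Matrix.mul_apply]
    ring
  rw [h1, Matrix.det_one_add_replicateCol_mul_replicateRow]
  have h2 : (fun j => v j ^ q) ⬝ᵥ (c • u) = c * ⟪u, v⟫ := by
    unfold Cfsg.hermForm dotProduct
    rw [Finset.mul_sum]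
    exact Finset.sum_congr rfl (fun i _ => by simp only [Pi.smul_apply, smul_eq_mul]; ring)
  rw [h2]

theorem one_add_rk1_mulVec (c : F) (u v x : Fin n → F) :
    (1 + c • rk1 q u v) *ᵥ x = x + (c * ⟪x, v⟫) • u := by
  rw [Matrix.add_mulVec, Matrix.one_mulVec, Matrix.smul_mulVec, rk1_mulVec, smul_smul]

/-- an element of `SU` from a matrix of determinant one preserving the form -/
def mkSU (M : Matrix (Fin n) (Fin n) F) (hdet : M.det = 1)
    (hiso : ∀ x y, ⟪M *ᵥ x, M *ᵥ y⟫ = ⟪x, y⟫) : ↥(Cfsg.SU n F q) :=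
  ⟨⟨M, hdet⟩, hiso⟩

theorem uact_mkSU (M : Matrix (Fin n) (Fin n) F) (hdet : M.det = 1)
    (hiso : ∀ x y, ⟪M *ᵥ x, M *ᵥ y⟫ = ⟪x, y⟫) (x : Fin n → F) :
    uact (mkSU M hdet hiso) x = M *ᵥ x := rfl

/-! ### Siegel elements -/

/-- the matrix of `x ↦ x - h(x,w) e + h(x,e) (w + b e)` -/
def sgM (q : ℕ) (e w : Fin n → F) (b : F) : Matrix (Fin n) (Fin n) F :=
  (1 + (1 : F) • rk1 q (w + b • e) e) * (1 + (-1 : F) • rk1 q e w)

theorem sgM_mulVec (e w : Fin n → F) (b : F) (he : ⟪e, e⟫ = 0) (x : Fin n → F) :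
    sgM q e w b *ᵥ x = x - ⟪x, w⟫ • e + ⟪x, e⟫ • (w + b • e) := by
  unfold sgM
  rw [← Matrix.mulVec_mulVec, one_add_rk1_mulVec, one_add_rk1_mulVec]
  simp only [uh_add_left, uh_smul_left, uh_neg_left, he, mul_zero, add_zero, one_mul, neg_mul,
    neg_smul, neg_zero]
  rw [sub_eq_add_neg]

theorem sgM_det (hF : Fintype.card F = q ^ 2) (e w : Fin n → F) (b : F) (he : ⟪e, e⟫ = 0)
    (hwe : ⟪w, e⟫ = 0) : (sgM q e w b).det = 1 := by
  unfold sgM
  rw [Matrix.det_mul, det_one_add_rk1, det_one_add_rk1, uh_add_left, uh_smul_left, he, hwe,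
    psu_swap_zero hF hwe]
  ring

theorem sgM_iso (hF : Fintype.card F = q ^ 2) (e w : Fin n → F) (b : F) (he : ⟪e, e⟫ = 0)
    (hwe : ⟪w, e⟫ = 0) (hb : b + frobQ hF b + ⟪w, w⟫ = 0) (x y : Fin n → F) :
    ⟪sgM q e w b *ᵥ x, sgM q e w b *ᵥ y⟫ = ⟪x, y⟫ := by
  rw [sgM_mulVec e w b he, sgM_mulVec e w b he]
  have hew := psu_swap_zero hF hwe
  simp only [uh_add_left, uh_sub_left, uh_smul_left, uh_add_right hF, uh_sub_right hF,
    uh_smul_right hF, he, hwe, hew, uh_conj hF, mul_zero, add_zero, zero_add, sub_zero]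
  linear_combination (⟪x, e⟫ * ⟪e, y⟫) * hb

/-- the Siegel element `x ↦ x - h(x,w) e + h(x,e) (w + b e)` of `SU` (trivial unless `e` is
isotropic, `w ⟂ e` and `b + b^q + h(w,w) = 0`). -/
noncomputable def usg (hF : Fintype.card F = q ^ 2) (e w : Fin n → F) (b : F) :
    ↥(Cfsg.SU n F q) :=
  open Classical in
  if h : ⟪e, e⟫ = 0 ∧ ⟪w, e⟫ = 0 ∧ b + frobQ hF b + ⟪w, w⟫ = 0 then
    mkSU (sgM q e w b) (sgM_det hF e w b h.1 h.2.1) (sgM_iso hF e w b h.1 h.2.1 h.2.2)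
  else 1

theorem uact_usg (hF : Fintype.card F = q ^ 2) (e w : Fin n → F) (b : F) (he : ⟪e, e⟫ = 0)
    (hwe : ⟪w, e⟫ = 0) (hb : b + frobQ hF b + ⟪w, w⟫ = 0) (x : Fin n → F) :
    uact (usg hF e w b) x = x - ⟪x, w⟫ • e + ⟪x, e⟫ • (w + b • e) := by
  unfold usg
  rw [dif_pos ⟨he, hwe, hb⟩, uact_mkSU]
  exact sgM_mulVec e w b he x

theorem usg_mul (hF : Fintype.card F = q ^ 2) (e w w' : Fin n → F) (b b' : F) (he : ⟪e, e⟫ = 0)
    (hwe : ⟪w, e⟫ = 0) (hb : b + frobQ hF b + ⟪w, w⟫ = 0)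
    (hwe' : ⟪w', e⟫ = 0) (hb' : b' + frobQ hF b' + ⟪w', w'⟫ = 0) :
    (⟪w + w', e⟫ = 0 ∧ (b + b' - ⟪w', w⟫) + frobQ hF (b + b' - ⟪w', w⟫) + ⟪w + w', w + w'⟫ = 0) ∧
    usg hF e w b * usg hF e w' b' = usg hF e (w + w') (b + b' - ⟪w', w⟫) := by
  have h1 : ⟪w + w', e⟫ = 0 := by rw [uh_add_left, hwe, hwe', add_zero]
  have h2 : (b + b' - ⟪w', w⟫) + frobQ hF (b + b' - ⟪w', w⟫) + ⟪w + w', w + w'⟫ = 0 := by
    simp only [map_add, map_sub, uh_conj hF, uh_add_left, uh_add_right hF]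
    linear_combination hb + hb'
  refine ⟨⟨h1, h2⟩, ?_⟩
  rw [uact_eq_iff]
  intro x
  have hew := psu_swap_zero hF hwe
  have hew' := psu_swap_zero hF hwe'
  rw [uact_mul, uact_usg hF e w' b' he hwe' hb', uact_usg hF e w b he hwe hb,
    uact_usg hF e (w + w') _ he h1 h2]
  simp only [uh_add_left, uh_sub_left, uh_smul_left, uh_add_right hF, uh_sub_right hF,
    uh_smul_right hF, he, hwe, hew, hwe', hew', uh_conj hF, mul_zero, add_zero, zero_add, sub_zero]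
  module

theorem usg_zero (hF : Fintype.card F = q ^ 2) (e : Fin n → F) (b : F) (he : ⟪e, e⟫ = 0)
    (hb : frobQ hF b = -b) : usg hF e 0 b = utv hF e b := by
  rw [uact_eq_iff]
  intro x
  rw [uact_usg hF e 0 b he (uh_zero_left _) (by rw [hb, uh_zero_left]; ring), uact_utv hF e b he hb,
    uh_zero_right hF]
  module

theorem usg_conj (hF : Fintype.card F = q ^ 2) (g : ↥(Cfsg.SU n F q)) (e w : Fin n → F) (b : F) :
    g * usg hF e w b * g⁻¹ = usg hF (uact g e) (uact g w) b := by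
  by_cases h : ⟪e, e⟫ = 0 ∧ ⟪w, e⟫ = 0 ∧ b + frobQ hF b + ⟪w, w⟫ = 0
  · rw [uact_eq_iff]
    intro x
    rw [uact_mul, uact_mul, uact_usg hF e w b h.1 h.2.1 h.2.2,
      uact_usg hF (uact g e) (uact g w) b (by rw [uact_herm]; exact h.1)
        (by rw [uact_herm]; exact h.2.1) (by rw [uact_herm]; exact h.2.2)]
    have h1 : ∀ y : Fin n → F, ⟪uact g⁻¹ x, y⟫ = ⟪x, uact g y⟫ := by
      intro y
      rw [← uact_herm g (uact g⁻¹ x) y, uact_uact_inv]
    rw [h1, h1, uact_add, uact_sub, uact_smul, uact_smul, uact_add, uact_smul, uact_uact_inv]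
  · have h' : ¬ (⟪uact g e, uact g e⟫ = 0 ∧ ⟪uact g w, uact g e⟫ = 0 ∧
        b + frobQ hF b + ⟪uact g w, uact g w⟫ = 0) := by
      rw [uact_herm, uact_herm, uact_herm]; exact h
    unfold usg
    rw [dif_neg h, dif_neg h']
    group

theorem usg_smul_left (hF : Fintype.card F = q ^ 2) (l : F) (e w : Fin n → F) (b : F)
    (he : ⟪e, e⟫ = 0) (hwe : ⟪w, e⟫ = 0) (hb : b + frobQ hF b + ⟪w, w⟫ = 0) :
    (⟪frobQ hF l • w, e⟫ = 0 ∧ (l * frobQ hF l * b) + frobQ hF (l * frobQ hF l * b)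
      + ⟪frobQ hF l • w, frobQ hF l • w⟫ = 0) ∧
    usg hF (l • e) w b = usg hF e (frobQ hF l • w) (l * frobQ hF l * b) := by
  have h1 : ⟪frobQ hF l • w, e⟫ = 0 := by rw [uh_smul_left, hwe, mul_zero]
  have h2 : (l * frobQ hF l * b) + frobQ hF (l * frobQ hF l * b)
      + ⟪frobQ hF l • w, frobQ hF l • w⟫ = 0 := by
    simp only [map_mul, frobQ_frobQ, uh_smul_left, uh_smul_right hF]
    linear_combination (l * frobQ hF l) * hb
  refine ⟨⟨h1, h2⟩, ?_⟩
  rw [uact_eq_iff]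
  intro x
  rw [uact_usg hF (l • e) w b (by rw [uh_smul_left, uh_smul_right hF, he]; ring)
      (by rw [uh_smul_right hF, hwe, mul_zero]) hb,
    uact_usg hF e _ _ he h1 h2]
  simp only [uh_smul_right hF, frobQ_frobQ]
  module

theorem usg_add_left (hF : Fintype.card F = q ^ 2) (c : F) (e w : Fin n → F) (b : F)
    (he : ⟪e, e⟫ = 0) (hwe : ⟪w, e⟫ = 0) (hb : b + frobQ hF b + ⟪w, w⟫ = 0) :
    (⟪w + c • e, e⟫ = 0 ∧ (b - c + frobQ hF c) + frobQ hF (b - c + frobQ hF c)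
      + ⟪w + c • e, w + c • e⟫ = 0) ∧
    usg hF e (w + c • e) (b - c + frobQ hF c) = usg hF e w b := by
  have hew := psu_swap_zero hF hwe
  have h1 : ⟪w + c • e, e⟫ = 0 := by rw [uh_add_left, uh_smul_left, hwe, he]; ring
  have h2 : (b - c + frobQ hF c) + frobQ hF (b - c + frobQ hF c)
      + ⟪w + c • e, w + c • e⟫ = 0 := by
    simp only [map_add, map_sub, frobQ_frobQ, uh_add_left, uh_add_right hF, uh_smul_left,
      uh_smul_right hF, he, hwe, hew]
    linear_combination hb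
  refine ⟨⟨h1, h2⟩, ?_⟩
  rw [uact_eq_iff]
  intro x
  rw [uact_usg hF e _ _ he h1 h2, uact_usg hF e w b he hwe hb]
  simp only [uh_add_right hF, uh_smul_right hF]
  module

end Cfsg.Agent.Helper44.PSUn
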