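import Mathlib
import Cfsg.Agent.Helper44.PSUA

/-!
# Automorphisms of `PSU_n(q)` (helper44), part B: the Siegel group `USg hF e`

The group of Siegel elements with centre `e` (the unipotent radical of the stabiliser of the
isotropic point `⟨e⟩`): it is a `p`-group, normalised by the stabiliser of the point, regular on
the isotropic points not orthogonal to `e`, and its centraliser is (scalars) × (root subgroup).
-/

set_option autoImplicit false
set_option linter.unusedSimpArgs false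
set_option linter.unusedSectionVars false
set_option linter.unusedVariables false

namespace Cfsg.Agent.Helper44.PSUn

open Matrix
open scoped Pointwise
open Cfsg.Agent.Helper5 (frobQ frobQ_apply frobQ_frobQ frobQ_ne_id)
open Cfsg.Agent.Helper13

variable {F : Type*} [Field F] [Fintype F] {q n : ℕ}

local notation "⟪" x ", " y "⟫" => Cfsg.hermForm n F q x y

theorem usg_of_not_iso (hF : Fintype.card F = q ^ 2) (e w : Fin n → F) (b : F)
    (he : ¬ ⟪e, e⟫ = 0) : usg hF e w b = 1 := by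
  unfold usg
  rw [dif_neg (fun h => he h.1)]

theorem usg_one (hF : Fintype.card F = q ^ 2) (e : Fin n → F) : usg hF e 0 0 = 1 := by
  by_cases he : ⟪e, e⟫ = 0
  · rw [usg_zero hF e 0 he (by simp), utv_zero_right]
  · exact usg_of_not_iso hF e 0 0 he

theorem usg_inv (hF : Fintype.card F = q ^ 2) (e w : Fin n → F) (b : F) (he : ⟪e, e⟫ = 0)
    (hwe : ⟪w, e⟫ = 0) (hb : b + frobQ hF b + ⟪w, w⟫ = 0) :
    (⟪-w, e⟫ = 0 ∧ frobQ hF b + frobQ hF (frobQ hF b) + ⟪-w, -w⟫ = 0) ∧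
    (usg hF e w b)⁻¹ = usg hF e (-w) (frobQ hF b) := by
  have h1 : ⟪-w, e⟫ = 0 := by rw [uh_neg_left, hwe, neg_zero]
  have h2 : frobQ hF b + frobQ hF (frobQ hF b) + ⟪-w, -w⟫ = 0 := by
    rw [frobQ_frobQ, uh_neg_left, uh_neg_right hF]
    linear_combination hb
  refine ⟨⟨h1, h2⟩, ?_⟩
  apply inv_eq_of_mul_eq_one_right
  rw [(usg_mul hF e w (-w) b (frobQ hF b) he hwe hb h1 h2).2]
  have h3 : w + -w = 0 := by simp
  have h4 : b + frobQ hF b - ⟪-w, w⟫ = 0 := by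
    rw [uh_neg_left]
    linear_combination hb
  rw [h3, h4, usg_one]

/-- the group of Siegel elements with centre `e` -/
def USg (hF : Fintype.card F = q ^ 2) (e : Fin n → F) : Subgroup ↥(Cfsg.SU n F q) where
  carrier := {g | ∃ (w : Fin n → F) (b : F), ⟪w, e⟫ = 0 ∧ b + frobQ hF b + ⟪w, w⟫ = 0 ∧
    g = usg hF e w b}
  one_mem' := ⟨0, 0, uh_zero_left _, by rw [uh_zero_left, map_zero]; ring, (usg_one hF e).symm⟩
  mul_mem' := by
    rintro a b ⟨w, c, hw, hc, rfl⟩ ⟨w', c', hw', hc', rfl⟩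
    by_cases he : ⟪e, e⟫ = 0
    · obtain ⟨⟨h1, h2⟩, h3⟩ := usg_mul hF e w w' c c' he hw hc hw' hc'
      exact ⟨_, _, h1, h2, h3⟩
    · refine ⟨0, 0, uh_zero_left _, by rw [uh_zero_left, map_zero]; ring, ?_⟩
      rw [usg_of_not_iso hF e _ _ he, usg_of_not_iso hF e _ _ he, usg_of_not_iso hF e _ _ he,
        mul_one]
  inv_mem' := by
    rintro a ⟨w, c, hw, hc, rfl⟩
    by_cases he : ⟪e, e⟫ = 0
    · obtain ⟨⟨h1, h2⟩, h3⟩ := usg_inv hF e w c he hw hc
      exact ⟨_, _, h1, h2, h3⟩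
    · refine ⟨0, 0, uh_zero_left _, by rw [uh_zero_left, map_zero]; ring, ?_⟩
      rw [usg_of_not_iso hF e _ _ he, usg_of_not_iso hF e _ _ he, inv_one]

theorem mem_USg (hF : Fintype.card F = q ^ 2) (e : Fin n → F) (g : ↥(Cfsg.SU n F q)) :
    g ∈ USg hF e ↔ ∃ (w : Fin n → F) (b : F), ⟪w, e⟫ = 0 ∧ b + frobQ hF b + ⟪w, w⟫ = 0 ∧
      g = usg hF e w b := Iff.rfl

theorem uroot_le_USg (hF : Fintype.card F = q ^ 2) (e : Fin n → F) (he : ⟪e, e⟫ = 0) :
    uroot hF e ≤ USg hF e := by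
  rintro g ⟨c, hc, rfl⟩
  exact ⟨0, c, uh_zero_left _, by rw [hc, uh_zero_left]; ring, (usg_zero hF e c he hc).symm⟩

theorem USg_conj (hF : Fintype.card F = q ^ 2) (g : ↥(Cfsg.SU n F q)) (e : Fin n → F) :
    MulAut.conj g • USg hF e = USg hF (uact g e) := by
  ext x
  rw [Subgroup.mem_smul_pointwise_iff_exists]
  constructor
  · rintro ⟨t, ⟨w, b, hw, hb, rfl⟩, rfl⟩
    refine ⟨uact g w, b, by rw [uact_herm]; exact hw, by rw [uact_herm]; exact hb, ?_⟩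
    rw [MulAut.smul_def, MulAut.conj_apply, usg_conj]
  · rintro ⟨w, b, hw, hb, rfl⟩
    refine ⟨usg hF e (uact g⁻¹ w) b, ⟨uact g⁻¹ w, b, ?_, ?_, rfl⟩, ?_⟩
    · rw [← uact_herm g, uact_uact_inv]; exact hw
    · rw [uact_herm]; exact hb
    · rw [MulAut.smul_def, MulAut.conj_apply, usg_conj, uact_uact_inv]

theorem USg_smul (hF : Fintype.card F = q ^ 2) (l : F) (hl : l ≠ 0) (e : Fin n → F) :
    USg hF (l • e) = USg hF e := by
  have hl' : frobQ hF l ≠ 0 := fun h => hl ((ufrob_eq_zero hF).1 h)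
  have hN0 : l * frobQ hF l ≠ 0 := mul_ne_zero hl hl'
  by_cases he : ⟪e, e⟫ = 0
  · ext x
    constructor
    · rintro ⟨w, b, hw, hb, rfl⟩
      have hw' : ⟪w, e⟫ = 0 := by
        rw [uh_smul_right hF] at hw
        rcases mul_eq_zero.1 hw with h | h
        · exact absurd h hl'
        · exact h
      obtain ⟨⟨h1, h2⟩, h3⟩ := usg_smul_left hF l e w b he hw' hb
      exact ⟨_, _, h1, h2, h3⟩
    · rintro ⟨w, b, hw, hb, rfl⟩
      have hw' : ⟪(frobQ hF l)⁻¹ • w, e⟫ = 0 := by rw [uh_smul_left, hw, mul_zero]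
      have hb' : (l * frobQ hF l)⁻¹ * b + frobQ hF ((l * frobQ hF l)⁻¹ * b)
          + ⟪(frobQ hF l)⁻¹ • w, (frobQ hF l)⁻¹ • w⟫ = 0 := by
        simp only [map_mul, map_inv₀, frobQ_frobQ, uh_smul_left, uh_smul_right hF]
        field_simp
        linear_combination hb
      obtain ⟨-, h3⟩ := usg_smul_left hF l e _ _ he hw' hb'
      refine ⟨(frobQ hF l)⁻¹ • w, (l * frobQ hF l)⁻¹ * b, ?_, hb', ?_⟩
      · rw [uh_smul_right hF, hw', mul_zero]
      · rw [h3, smul_smul, mul_inv_cancel₀ hl', one_smul, ← mul_assoc, mul_inv_cancel₀ hN0,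
          one_mul]
  · have he' : ¬ ⟪l • e, l • e⟫ = 0 := by
      rw [uh_smul_left, uh_smul_right hF]
      intro h
      rcases mul_eq_zero.1 h with h | h
      · exact hl h
      · rcases mul_eq_zero.1 h with h | h
        · exact hl' h
        · exact he h
    ext x
    constructor
    · rintro ⟨w, b, hw, hb, rfl⟩
      rw [usg_of_not_iso hF _ _ _ he']
      exact Subgroup.one_mem _
    · rintro ⟨w, b, hw, hb, rfl⟩
      rw [usg_of_not_iso hF _ _ _ he]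
      exact Subgroup.one_mem _

theorem utv_pow (hF : Fintype.card F = q ^ 2) (e : Fin n → F) (c : F) (he : ⟪e, e⟫ = 0)
    (hc : frobQ hF c = -c) (k : ℕ) : (utv hF e c) ^ k = utv hF e (k • c) := by
  induction k with
  | zero => rw [pow_zero, zero_smul, utv_zero_right]
  | succ k ih =>
    have hk : frobQ hF (k • c) = -(k • c) := by
      rw [nsmul_eq_mul, map_mul, map_natCast, hc]; ring
    rw [pow_succ, ih, utv_mul hF e _ _ he hk hc, succ_nsmul]

theorem usg_pow (hF : Fintype.card F = q ^ 2) (e w : Fin n → F) (b : F) (he : ⟪e, e⟫ = 0)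
    (hwe : ⟪w, e⟫ = 0) (hb : b + frobQ hF b + ⟪w, w⟫ = 0) (k : ℕ) :
    ∃ b' : F, b' + frobQ hF b' + ⟪k • w, k • w⟫ = 0 ∧ (usg hF e w b) ^ k = usg hF e (k • w) b' := by
  induction k with
  | zero =>
    refine ⟨0, by rw [zero_smul, uh_zero_left, map_zero]; ring, ?_⟩
    rw [pow_zero, zero_smul, usg_one]
  | succ k ih =>
    obtain ⟨b', hb', ih⟩ := ih
    have hkw : ⟪k • w, e⟫ = 0 := by
      rw [← Nat.cast_smul_eq_nsmul F, uh_smul_left, hwe, mul_zero]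
    obtain ⟨⟨h1, h2⟩, h3⟩ := usg_mul hF e (k • w) w b' b he hkw hb' hwe hb
    refine ⟨b' + b - ⟪w, k • w⟫, ?_, ?_⟩
    · rw [succ_nsmul]; exact h2
    · rw [pow_succ, ih, h3, succ_nsmul]

theorem usg_pow_char (hF : Fintype.card F = q ^ 2) (p : ℕ) [Fact p.Prime] [CharP F p]
    (e w : Fin n → F) (b : F) (he : ⟪e, e⟫ = 0)
    (hwe : ⟪w, e⟫ = 0) (hb : b + frobQ hF b + ⟪w, w⟫ = 0) : (usg hF e w b) ^ (p ^ 2) = 1 := by
  obtain ⟨b', hb', h1⟩ := usg_pow hF e w b he hwe hb p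
  have h2 : (p : ℕ) • w = 0 := by
    rw [← Nat.cast_smul_eq_nsmul F, CharP.cast_eq_zero, zero_smul]
  rw [h2, uh_zero_left, add_zero] at hb'
  have hb'' : frobQ hF b' = -b' := by linear_combination hb'
  rw [h2, usg_zero hF e b' he hb''] at h1
  rw [pow_two, pow_mul, h1, utv_pow hF e b' he hb'']
  have h3 : (p : ℕ) • b' = 0 := by
    rw [nsmul_eq_mul, CharP.cast_eq_zero, zero_mul]
  rw [h3, utv_zero_right]

theorem USg_isPGroup (hF : Fintype.card F = q ^ 2) (p : ℕ) [Fact p.Prime] [CharP F p]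
    (e : Fin n → F) : IsPGroup p (USg hF e) := by
  rintro ⟨g, w, b, hw, hb, rfl⟩
  refine ⟨2, ?_⟩
  apply Subtype.ext
  rw [Subgroup.coe_pow, Subgroup.coe_one]
  by_cases he : ⟪e, e⟫ = 0
  · exact usg_pow_char hF p e w b he hw hb
  · show (usg hF e w b) ^ (p ^ 2) = 1
    rw [usg_of_not_iso hF e w b he, one_pow]

/-- `USg hF e` is transitive on the hyperbolic partners of `e`. -/
theorem usg_trans (hF : Fintype.card F = q ^ 2) (e f f₂ : Fin n → F) (he : ⟪e, e⟫ = 0)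
    (hf : ⟪f, f⟫ = 0) (hef : ⟪e, f⟫ = 1) (hf₂ : ⟪f₂, f₂⟫ = 0) (hef₂ : ⟪e, f₂⟫ = 1) :
    ∃ u ∈ USg hF e, uact u f = f₂ := by
  have hfe := psu_swap_one hF hef
  have hfe₂ := psu_swap_one hF hef₂
  have h1 : ⟪f₂ - f, e⟫ = 0 := by rw [uh_sub_left, hfe, hfe₂, sub_self]
  have h2 : ⟪f, f₂⟫ + frobQ hF ⟪f, f₂⟫ + ⟪f₂ - f, f₂ - f⟫ = 0 := by
    simp only [uh_conj hF, uh_sub_left, uh_sub_right hF, hf, hf₂]
    ring
  refine ⟨usg hF e (f₂ - f) ⟪f, f₂⟫, ⟨_, _, h1, h2, rfl⟩, ?_⟩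
  rw [uact_usg hF e _ _ he h1 h2, uh_sub_right hF, hf, hfe]
  module

/-- double perp: a vector orthogonal to `e^⊥` is a multiple of `e` -/
theorem psu_double_perp (hF : Fintype.card F = q ^ 2) (e v : Fin n → F) (he0 : e ≠ 0)
    (he : ⟪e, e⟫ = 0) (hv : ∀ y : Fin n → F, ⟪y, e⟫ = 0 → ⟪v, y⟫ = 0) : ∃ t : F, v = t • e := by
  obtain ⟨f, hf, hef⟩ := uhyp_partner hF e he0 he
  have hfe := psu_swap_one hF hef
  refine ⟨⟪v, f⟫, ?_⟩
  by_contra hne
  have hne' : v - ⟪v, f⟫ • e ≠ 0 := fun h => hne (sub_eq_zero.1 h)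
  obtain ⟨x, hx⟩ := uh_nondeg_right hF _ hne'
  apply hx
  have hx0 : ⟪x - ⟪x, e⟫ • f, e⟫ = 0 := by
    rw [uh_sub_left, uh_smul_left, hfe]; ring
  have h1 := hv _ hx0
  have h2 : ⟪e, x - ⟪x, e⟫ • f⟫ = 0 := psu_swap_zero hF hx0
  have hxd : x = (x - ⟪x, e⟫ • f) + ⟪x, e⟫ • f := by module
  rw [hxd, uh_add_right hF, uh_smul_right hF, uh_sub_left, uh_sub_left, uh_smul_left,
    uh_smul_left, h1, h2, hef]
  ring

end Cfsg.Agent.Helper44.PSUn
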