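import Mathlib
import Cfsg.Agent.Helper44.PSUB

/-!
# Automorphisms of `PSU_n(q)` (helper44), part C: centraliser of the Siegel group, parameters
-/

set_option autoImplicit false
set_option linter.unusedSimpArgs false
set_option linter.unusedSectionVars false
set_option linter.unusedVariables false

namespace Cfsg.Agent.Helper44.PSUn

open Matrix
open scoped Pointwise
open Cfsg.Agent.Helper5 (frobQ frobQ_apply frobQ_frobQ frobQ_ne_id)
open Cfsg.Agent.Helper13

variable {F : Type*} [Field F] [Fintype F] {q n : ℕ}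

local notation "⟪" x ", " y "⟫" => Cfsg.hermForm n F q x y

/-- the centraliser of the Siegel group `USg hF e` consists of the maps `l • (transvection)` -/
theorem USg_centralizer (hF : Fintype.card F = q ^ 2) (e : Fin n → F) (he0 : e ≠ 0)
    (he : ⟪e, e⟫ = 0) (z : ↥(Cfsg.SU n F q)) (hz : ∀ u ∈ USg hF e, z * u = u * z) :
    ∃ l c : F, l * frobQ hF l = 1 ∧ frobQ hF c = -c ∧
      ∀ x, uact z x = l • (x + (c * ⟪x, e⟫) • e) := by
  obtain ⟨f, hf, hef⟩ := uhyp_partner hF e he0 he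
  have hfe := psu_swap_one hF hef
  obtain ⟨c0, hc0, hc0'⟩ := ufld_exists_skew hF
  have h1 : utv hF (uact z e) c0 = utv hF e c0 := by
    rw [← utv_conj, hz _ (uroot_le_USg hF e he ⟨c0, hc0', rfl⟩), mul_inv_cancel_right]
  have hze : ⟪uact z e, uact z e⟫ = 0 := by rw [uact_herm]; exact he
  have h2 : uact (utv hF (uact z e) c0) f = uact (utv hF e c0) f := by rw [h1]
  rw [uact_utv hF _ c0 hze hc0', uact_utv hF e c0 he hc0', hfe, mul_one] at h2
  have h3 : (c0 * ⟪f, uact z e⟫) • uact z e = c0 • e := add_left_cancel h2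
  have h4 : c0 * ⟪f, uact z e⟫ ≠ 0 := by
    intro h
    rw [h, zero_smul] at h3
    exact (smul_ne_zero hc0 he0) h3.symm
  obtain ⟨l, hl⟩ : ∃ l : F, uact z e = l • e :=
    ⟨(c0 * ⟪f, uact z e⟫)⁻¹ * c0, by rw [mul_smul, ← h3, smul_smul, inv_mul_cancel₀ h4, one_smul]⟩
  have hl0 : l ≠ 0 := by
    rintro rfl
    rw [zero_smul] at hl
    exact uact_ne_zero z e he0 hl
  have hl' : frobQ hF l ≠ 0 := fun h => hl0 ((ufrob_eq_zero hF).1 h)
  have hN : l * frobQ hF l = 1 := by
    rw [hl, uh_smul_right hF, hfe, mul_one, smul_smul] at h3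
    have h5 : (c0 * frobQ hF l * l - c0) • e = 0 := by rw [sub_smul, h3, sub_self]
    rcases smul_eq_zero.1 h5 with h | h
    · have : c0 * (l * frobQ hF l - 1) = 0 := by linear_combination h
      rcases mul_eq_zero.1 this with h' | h'
      · exact absurd h' hc0
      · linear_combination h'
    · exact absurd h he0
  have key : ∀ y : Fin n → F, ⟪y, e⟫ = 0 →
      ∃ c : F, frobQ hF c = c ∧ frobQ hF l • uact z y = y + c • e := by
    intro y hy
    obtain ⟨b, hb⟩ := psu_exists_tr hF (-⟪y, y⟫) (by rw [map_neg, psu_self_fix])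
    have hb' : b + frobQ hF b + ⟪y, y⟫ = 0 := by linear_combination hb
    have h5 : usg hF (uact z e) (uact z y) b = usg hF e y b := by
      rw [← usg_conj, hz _ ⟨y, b, hy, hb', rfl⟩, mul_inv_cancel_right]
    have hzy : ⟪uact z y, e⟫ = 0 := by
      have := uact_herm z y e
      rw [hl, uh_smul_right hF, hy] at this
      rcases mul_eq_zero.1 this with h | h
      · exact absurd h hl'
      · exact h
    have hbz : b + frobQ hF b + ⟪uact z y, uact z y⟫ = 0 := by rw [uact_herm]; exact hb'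
    obtain ⟨⟨h6, h7⟩, h8⟩ := usg_smul_left hF l e (uact z y) b he hzy hbz
    rw [hN, one_mul] at h7 h8
    rw [hl, h8] at h5
    have h9 : uact (usg hF e (frobQ hF l • uact z y) b) f = uact (usg hF e y b) f := by rw [h5]
    rw [uact_usg hF e _ b he h6 h7, uact_usg hF e y b he hy hb', hfe, one_smul, one_smul] at h9
    obtain ⟨c, hcdef⟩ : ∃ c : F, c = ⟪f, frobQ hF l • uact z y⟫ - ⟪f, y⟫ := ⟨_, rfl⟩
    have h10 : frobQ hF l • uact z y = y + c • e := by
      rw [hcdef]
      linear_combination (norm := module) h9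
    refine ⟨c, ?_, h10⟩
    rw [h10, uh_add_right hF, uh_smul_right hF, hfe, mul_one] at hcdef
    linear_combination -hcdef
  obtain ⟨w0, hw0⟩ := ufld_exists_not_fixed hF
  have key2 : ∀ y : Fin n → F, ⟪y, e⟫ = 0 → uact z y = l • y := by
    intro y hy
    obtain ⟨c, hc, hcy⟩ := key y hy
    obtain ⟨c', hc', hcy'⟩ := key (w0 • y) (by rw [uh_smul_left, hy, mul_zero])
    rw [uact_smul, smul_comm, hcy] at hcy'
    have h12 : (w0 * c - c') • e = 0 := by linear_combination (norm := module) hcy'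
    have h13 : c' = w0 * c := by
      rcases smul_eq_zero.1 h12 with h | h
      · linear_combination -h
      · exact absurd h he0
    have h14 : c = 0 := by
      rw [h13, map_mul, hc] at hc'
      have : (frobQ hF w0 - w0) * c = 0 := by linear_combination hc'
      rcases mul_eq_zero.1 this with h | h
      · exact absurd (sub_eq_zero.1 h) hw0
      · exact h
    rw [h14, zero_smul, add_zero] at hcy
    calc uact z y = (l * frobQ hF l) • uact z y := by rw [hN, one_smul]
      _ = l • (frobQ hF l • uact z y) := by rw [mul_smul]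
      _ = l • y := by rw [hcy]
  have key3 : ∀ x : Fin n → F, ∃ t : F, frobQ hF l • uact z x - x = t • e := by
    intro x
    apply psu_double_perp hF e _ he0 he
    intro y hy
    have hy' : y = frobQ hF l • uact z y := by
      rw [key2 y hy, smul_smul, mul_comm, hN, one_smul]
    have h15 : ⟪uact z x, y⟫ = l * ⟪x, y⟫ := by
      calc ⟪uact z x, y⟫ = ⟪uact z x, frobQ hF l • uact z y⟫ := by rw [← hy']
        _ = l * ⟪x, y⟫ := by rw [uh_smul_right hF, frobQ_frobQ, uact_herm]
    rw [uh_sub_left, uh_smul_left, h15]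
    linear_combination ⟪x, y⟫ * hN
  obtain ⟨c, hc⟩ := key3 f
  have h16 : frobQ hF l • uact z f = f + c • e := by linear_combination (norm := module) hc
  refine ⟨l, c, hN, ?_, ?_⟩
  · have h17 : ⟪frobQ hF l • uact z f, frobQ hF l • uact z f⟫ = 0 := by
      rw [uh_smul_left, uh_smul_right hF, uact_herm, hf]; ring
    rw [h16] at h17
    simp only [uh_add_left, uh_add_right hF, uh_smul_left, uh_smul_right hF, hf, he, hef, hfe]
      at h17
    linear_combination h17
  · intro x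
    have hx0 : ⟪x - ⟪x, e⟫ • f, e⟫ = 0 := by rw [uh_sub_left, uh_smul_left, hfe]; ring
    have h18 := key2 _ hx0
    have h19 : uact z f = l • (f + c • e) := by
      calc uact z f = (l * frobQ hF l) • uact z f := by rw [hN, one_smul]
        _ = l • (frobQ hF l • uact z f) := by rw [mul_smul]
        _ = l • (f + c • e) := by rw [h16]
    have hxd : x = (x - ⟪x, e⟫ • f) + ⟪x, e⟫ • f := by module
    calc uact z x = uact z ((x - ⟪x, e⟫ • f) + ⟪x, e⟫ • f) := by rw [← hxd]
      _ = l • (x - ⟪x, e⟫ • f) + ⟪x, e⟫ • (l • (f + c • e)) := by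
        rw [uact_add, uact_smul, h18, h19]
      _ = l • (x + (c * ⟪x, e⟫) • e) := by module

/-- an element fixing `e` and centralising `USg hF e` is a transvection with centre `e`. -/
theorem USg_centralizer_fix (hF : Fintype.card F = q ^ 2) (e : Fin n → F) (he0 : e ≠ 0)
    (he : ⟪e, e⟫ = 0) (z : ↥(Cfsg.SU n F q)) (hz : ∀ u ∈ USg hF e, z * u = u * z)
    (hze : uact z e = e) : z ∈ uroot hF e := by
  obtain ⟨l, c, hN, hc, hx⟩ := USg_centralizer hF e he0 he z hz
  have h1 := hx e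
  rw [hze, he, mul_zero, zero_smul, add_zero] at h1
  have hl : l = 1 := by
    have h2 : (l - 1) • e = 0 := by rw [sub_smul, one_smul, ← h1, sub_self]
    rcases smul_eq_zero.1 h2 with h | h
    · linear_combination h
    · exact absurd h he0
  refine ⟨c, hc, ?_⟩
  rw [uact_eq_iff]
  intro x
  rw [hx x, hl, one_smul, uact_utv hF e c he hc]

/-- elements of `USg hF e` are parametrised by `w ⟂ e, f` and `b`. -/
theorem mem_USg_iff (hF : Fintype.card F = q ^ 2) (e f : Fin n → F) (he : ⟪e, e⟫ = 0)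
    (hef : ⟪e, f⟫ = 1) (g : ↥(Cfsg.SU n F q)) :
    g ∈ USg hF e ↔ ∃ (w : Fin n → F) (b : F), ⟪w, e⟫ = 0 ∧ ⟪w, f⟫ = 0 ∧
      b + frobQ hF b + ⟪w, w⟫ = 0 ∧ g = usg hF e w b := by
  constructor
  · rintro ⟨y, b, hy, hb, rfl⟩
    have hw : ⟪y - ⟪y, f⟫ • e, e⟫ = 0 := by rw [uh_sub_left, uh_smul_left, hy, he]; ring
    have hwf : ⟪y - ⟪y, f⟫ • e, f⟫ = 0 := by rw [uh_sub_left, uh_smul_left, hef]; ring
    have hye := psu_swap_zero hF hy
    have hb' : (b + ⟪y, f⟫ - frobQ hF ⟪y, f⟫) + frobQ hF (b + ⟪y, f⟫ - frobQ hF ⟪y, f⟫)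
        + ⟪y - ⟪y, f⟫ • e, y - ⟪y, f⟫ • e⟫ = 0 := by
      simp only [map_add, map_sub, frobQ_frobQ, uh_sub_left, uh_sub_right hF, uh_smul_left,
        uh_smul_right hF, he, hy, hye]
      linear_combination hb
    obtain ⟨-, h3⟩ := usg_add_left hF ⟪y, f⟫ e _ _ he hw hb'
    refine ⟨_, _, hw, hwf, hb', ?_⟩
    rw [← h3]
    congr 1
    · module
    · ring
  · rintro ⟨w, b, hw, -, hb, rfl⟩
    exact ⟨w, b, hw, hb, rfl⟩

theorem usg_apply_f (hF : Fintype.card F = q ^ 2) (e f w : Fin n → F) (b : F) (he : ⟪e, e⟫ = 0)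
    (hef : ⟪e, f⟫ = 1) (hw : ⟪w, e⟫ = 0) (hwf : ⟪w, f⟫ = 0)
    (hb : b + frobQ hF b + ⟪w, w⟫ = 0) : uact (usg hF e w b) f = f + w + b • e := by
  rw [uact_usg hF e w b he hw hb, psu_swap_zero hF hwf, psu_swap_one hF hef]
  module

theorem usg_inj (hF : Fintype.card F = q ^ 2) (e f w w' : Fin n → F) (b b' : F)
    (he : ⟪e, e⟫ = 0) (hef : ⟪e, f⟫ = 1) (hw : ⟪w, e⟫ = 0) (hwf : ⟪w, f⟫ = 0)
    (hb : b + frobQ hF b + ⟪w, w⟫ = 0) (hw' : ⟪w', e⟫ = 0) (hwf' : ⟪w', f⟫ = 0)
    (hb' : b' + frobQ hF b' + ⟪w', w'⟫ = 0) (h : usg hF e w b = usg hF e w' b') :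
    w = w' ∧ b = b' := by
  have h1 : uact (usg hF e w b) f = uact (usg hF e w' b') f := by rw [h]
  rw [usg_apply_f hF e f w b he hef hw hwf hb, usg_apply_f hF e f w' b' he hef hw' hwf' hb'] at h1
  have h2 : w - w' = (b' - b) • e := by linear_combination (norm := module) h1
  have h3 : ⟪w - w', f⟫ = ⟪(b' - b) • e, f⟫ := by rw [h2]
  rw [uh_sub_left, hwf, hwf', uh_smul_left, hef] at h3
  have hbb : b = b' := by linear_combination h3
  refine ⟨?_, hbb⟩
  rw [hbb, sub_self, zero_smul] at h2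
  exact sub_eq_zero.1 h2

end Cfsg.Agent.Helper44.PSUn
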