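import Mathlib
import Cfsg.Agent.Helper44.PSUC

/-!
# Automorphisms of `PSU_n(q)` (helper44), part D: `p`-subgroups and Sylow centres in `SU_n(q)`
-/

set_option autoImplicit false
set_option linter.unusedSimpArgs false
set_option linter.unusedSectionVars false
set_option linter.unusedVariables false

namespace Cfsg.Agent.Helper44.PSUn

open Matrix
open scoped Pointwise
open Cfsg.Agent.Helper5 (frobQ frobQ_apply frobQ_frobQ frobQ_ne_id)
open Cfsg.Agent.Helper13

variable {F : Type*} [Field F] [Fintype F] {q n : ℕ}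

local notation "⟪" x ", " y "⟫" => Cfsg.hermForm n F q x y

/-- a `p`-subgroup of `SU` fixes a non-zero vector in every non-zero invariant subspace -/
theorem psu_fix_sub (p : ℕ) [Fact p.Prime] [CharP F p] (S : Subgroup ↥(Cfsg.SU n F q))
    (hS : IsPGroup p S) (X : Submodule F (Fin n → F))
    (hX : ∀ s ∈ S, ∀ x ∈ X, uact s x ∈ X) (hX0 : X ≠ ⊥) :
    ∃ x ∈ X, x ≠ 0 ∧ ∀ s ∈ S, uact s x = x := by
  classical
  letI : MulAction ↥S ↥X :=
    { smul := fun s x => ⟨uact (s : ↥(Cfsg.SU n F q)) x.1, hX s.1 s.2 x.1 x.2⟩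
      one_smul := fun x => Subtype.ext (uact_one x.1)
      mul_smul := fun s t x => Subtype.ext (uact_mul s.1 t.1 x.1) }
  have hcard : p ∣ Nat.card ↥X := by
    obtain ⟨k, -, hk⟩ := FiniteField.card F p
    have h1 : Module.finrank F ↥X ≠ 0 := by
      intro h
      exact hX0 (Submodule.finrank_eq_zero.1 h)
    rw [Nat.card_eq_fintype_card, Module.card_eq_pow_finrank (K := F) (V := ↥X), hk, ← pow_mul]
    exact dvd_pow_self p (Nat.mul_ne_zero k.ne_zero h1)
  have h0 : (0 : ↥X) ∈ MulAction.fixedPoints ↥S ↥X := fun s => Subtype.ext (uact_zero s.1)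
  obtain ⟨b, hb, hne⟩ := hS.exists_fixed_point_of_prime_dvd_card_of_fixed_point ↥X hcard h0
  refine ⟨b.1, b.2, fun h => hne (Subtype.ext h.symm), fun s hs => ?_⟩
  exact congrArg Subtype.val (hb ⟨s, hs⟩)

/-- the orthogonal complement of a vector, as a submodule -/
noncomputable def perpSub (hF : Fintype.card F = q ^ 2) (v : Fin n → F) :
    Submodule F (Fin n → F) :=
  LinearMap.ker (Cfsg.Agent.Helper5.hermB hF n v)

theorem mem_perpSub (hF : Fintype.card F = q ^ 2) (v x : Fin n → F) :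
    x ∈ perpSub hF v ↔ ⟪x, v⟫ = 0 := by
  unfold perpSub
  rw [LinearMap.mem_ker, Cfsg.Agent.Helper5.hermB_apply]

theorem perpSub_ne_bot (hF : Fintype.card F = q ^ 2) (hn : 2 ≤ n) (v : Fin n → F) :
    perpSub hF v ≠ ⊥ := by
  intro h
  have h1 := LinearMap.finrank_range_add_finrank_ker (Cfsg.Agent.Helper5.hermB hF n v)
  have h2 : Module.finrank F ↥(LinearMap.ker (Cfsg.Agent.Helper5.hermB hF n v)) = 0 := by
    rw [Submodule.finrank_eq_zero]; exact h
  have h3 : Module.finrank F ↥(LinearMap.range (Cfsg.Agent.Helper5.hermB hF n v)) ≤ 1 := by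
    have := Submodule.finrank_le (LinearMap.range (Cfsg.Agent.Helper5.hermB hF n v))
    rwa [Module.finrank_self] at this
  rw [h2, Module.finrank_fin_fun] at h1
  omega

/-- a `p`-subgroup of `SU_n(q)`, `n ≥ 2`, fixes a non-zero isotropic vector -/
theorem psu_fix_iso (hF : Fintype.card F = q ^ 2) (p : ℕ) [Fact p.Prime] [CharP F p]
    (hn : 2 ≤ n) (S : Subgroup ↥(Cfsg.SU n F q)) (hS : IsPGroup p S) :
    ∃ e : Fin n → F, e ≠ 0 ∧ ⟪e, e⟫ = 0 ∧ ∀ s ∈ S, uact s e = e := by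
  obtain ⟨v, -, hv0, hv⟩ := psu_fix_sub p S hS ⊤ (fun _ _ _ _ => Submodule.mem_top) (by
    intro h
    have h1 : (Pi.single (⟨0, by omega⟩ : Fin n) (1 : F)) ∈ (⊤ : Submodule F (Fin n → F)) :=
      Submodule.mem_top
    rw [h, Submodule.mem_bot] at h1
    have := congrFun h1 ⟨0, by omega⟩
    simp at this)
  by_cases hvv : ⟪v, v⟫ = 0
  · exact ⟨v, hv0, hvv, hv⟩
  obtain ⟨v₁, hv₁X, hv₁0, hv₁⟩ := psu_fix_sub p S hS (perpSub hF v) (by
    intro s hs x hx
    rw [mem_perpSub] at hx ⊢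
    rw [← hv s hs, uact_herm]
    exact hx) (perpSub_ne_bot hF hn v)
  rw [mem_perpSub] at hv₁X
  by_cases hvv₁ : ⟪v₁, v₁⟫ = 0
  · exact ⟨v₁, hv₁0, hvv₁, hv₁⟩
  have hc : frobQ hF (-⟪v, v⟫ / ⟪v₁, v₁⟫) = -⟪v, v⟫ / ⟪v₁, v₁⟫ := by
    rw [map_div₀, map_neg, psu_self_fix, psu_self_fix]
  obtain ⟨l, hl0, hl⟩ := ufld_exists_norm hF (c := -⟪v, v⟫ / ⟪v₁, v₁⟫)
    (div_ne_zero (neg_ne_zero.2 hvv) hvv₁) hc
  have hvv₁' := psu_swap_zero hF hv₁X
  refine ⟨v + l • v₁, ?_, ?_, ?_⟩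
  · intro h
    apply hvv
    have h2 : ⟪v + l • v₁, v⟫ = 0 := by rw [h, uh_zero_left]
    rw [uh_add_left, uh_smul_left, hv₁X] at h2
    linear_combination h2
  · simp only [uh_add_left, uh_add_right hF, uh_smul_left, uh_smul_right hF, hv₁X, hvv₁']
    have h3 : l * frobQ hF l * ⟪v₁, v₁⟫ = -⟪v, v⟫ := by
      rw [hl]; field_simp
    linear_combination h3
  · intro s hs
    rw [uact_add, uact_smul, hv s hs, hv₁ s hs]

/-- central elements of `SU_n(q)` are scalar -/
theorem psu_center_scalar (hF : Fintype.card F = q ^ 2) (e : Fin n → F) (he0 : e ≠ 0)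
    (he : ⟪e, e⟫ = 0) (z : ↥(Cfsg.SU n F q)) (hz : z ∈ Subgroup.center ↥(Cfsg.SU n F q)) :
    ∃ l : F, l * frobQ hF l = 1 ∧ ∀ x, uact z x = l • x := by
  rw [Subgroup.mem_center_iff] at hz
  obtain ⟨f, hf, hef⟩ := uhyp_partner hF e he0 he
  have hfe := psu_swap_one hF hef
  have hf0 : f ≠ 0 := by
    rintro rfl
    rw [uh_zero_right hF] at hef
    exact zero_ne_one hef
  obtain ⟨l, c, hN, hc, hx⟩ := USg_centralizer hF e he0 he z (fun u _ => (hz u).symm)
  obtain ⟨l', c', hN', hc', hx'⟩ := USg_centralizer hF f hf0 hf z (fun u _ => (hz u).symm)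
  have h1 := hx e
  rw [hx' e, he, mul_zero, zero_smul, add_zero, hef, mul_one] at h1
  have h2 : ⟪l' • (e + c' • f), f⟫ = ⟪l • e, f⟫ := by rw [h1]
  have h3 : ⟪l' • (e + c' • f), e⟫ = ⟪l • e, e⟫ := by rw [h1]
  simp only [uh_smul_left, uh_add_left, hef, hf, he, hfe, mul_zero, add_zero, mul_one, zero_add]
    at h2 h3
  have hl0 : l' ≠ 0 := by
    rintro rfl
    rw [zero_mul] at hN'
    exact zero_ne_one hN'
  have hc0 : c' = 0 := by
    rcases mul_eq_zero.1 h3 with h | h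
    · exact absurd h hl0
    · exact h
  refine ⟨l', hN', fun x => ?_⟩
  rw [hx' x, hc0, zero_mul, zero_smul, add_zero]

theorem uact_pow_scalar (z : ↥(Cfsg.SU n F q)) (l : F) (hz : ∀ x, uact z x = l • x) (k : ℕ)
    (x : Fin n → F) : uact (z ^ k) x = l ^ k • x := by
  induction k with
  | zero => rw [pow_zero, pow_zero, uact_one, one_smul]
  | succ k ih => rw [pow_succ, uact_mul, hz, uact_smul, ih, smul_smul, pow_succ, mul_comm]

/-- central `p`-elements of `SU_n(q)` are trivial -/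
theorem psu_center_p (hF : Fintype.card F = q ^ 2) (p : ℕ) [Fact p.Prime] [CharP F p]
    (e : Fin n → F) (he0 : e ≠ 0) (he : ⟪e, e⟫ = 0) (z : ↥(Cfsg.SU n F q))
    (hz : z ∈ Subgroup.center ↥(Cfsg.SU n F q)) (k : ℕ) (hk : z ^ (p ^ k) = 1) : z = 1 := by
  obtain ⟨l, -, hl⟩ := psu_center_scalar hF e he0 he z hz
  have h1 := uact_pow_scalar z l hl (p ^ k) e
  rw [hk, uact_one] at h1
  have h2 : (l ^ (p ^ k) - 1) • e = 0 := by rw [sub_smul, one_smul, ← h1, sub_self]
  have h3 : l ^ (p ^ k) = 1 := by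
    rcases smul_eq_zero.1 h2 with h | h
    · linear_combination h
    · exact absurd h he0
  have h4 := psu_pow_char p l k h3
  rw [uact_eq_iff]
  intro x
  rw [hl x, h4, one_smul, uact_one]

/-- two `p`-elements of `SU_n(q)` with the same image in `PSU_n(q)` are equal -/
theorem psu_lift_unique (hF : Fintype.card F = q ^ 2) (p : ℕ) [Fact p.Prime] [CharP F p]
    (e : Fin n → F) (he0 : e ≠ 0) (he : ⟪e, e⟫ = 0) (x y : ↥(Cfsg.SU n F q))
    (hx : ∃ k : ℕ, x ^ (p ^ k) = 1) (hy : ∃ k : ℕ, y ^ (p ^ k) = 1)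
    (h : (QuotientGroup.mk x : Cfsg.PSU n F q) = QuotientGroup.mk y) : x = y := by
  obtain ⟨k, hk⟩ := hx
  obtain ⟨k', hk'⟩ := hy
  have hz : x⁻¹ * y ∈ Subgroup.center ↥(Cfsg.SU n F q) := QuotientGroup.eq.1 h
  have hcomm : Commute x (x⁻¹ * y) := by
    rw [Subgroup.mem_center_iff] at hz
    exact hz x
  have h1 : (x⁻¹ * y) ^ (p ^ (k + k')) = 1 := by
    have h2 : y = x * (x⁻¹ * y) := by group
    have h3 : y ^ (p ^ (k + k')) = 1 := by rw [pow_add, mul_comm, pow_mul, hk', one_pow]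
    have h4 : x ^ (p ^ (k + k')) = 1 := by rw [pow_add, pow_mul, hk, one_pow]
    rw [h2, hcomm.mul_pow, h4, one_mul] at h3
    exact h3
  have h5 := psu_center_p hF p e he0 he _ hz _ h1
  calc x = x * (x⁻¹ * y) := by rw [h5, mul_one]
    _ = y := by group

/-- the centre of a Sylow `p`-subgroup of `SU_n(q)` fixing the isotropic vector `e` is the root
subgroup of `e`; the Sylow subgroup contains the Siegel group of `e`. -/
theorem psu_sylow_center (hF : Fintype.card F = q ^ 2) (p : ℕ) [Fact p.Prime] [CharP F p]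
    (S : Sylow p ↥(Cfsg.SU n F q)) (e : Fin n → F) (he0 : e ≠ 0) (he : ⟪e, e⟫ = 0)
    (hS : ∀ s ∈ S, uact s e = e) :
    USg hF e ≤ S ∧ ∀ z : ↥(Cfsg.SU n F q),
      (z ∈ S ∧ ∀ s ∈ S, z * s = s * z) ↔ z ∈ uroot hF e := by
  have hU : USg hF e ≤ S := by
    have hnorm : (S : Subgroup ↥(Cfsg.SU n F q)) ≤ Subgroup.normalizer (USg hF e) := by
      intro s hs
      have h1 := USg_conj hF s e
      rw [hS s hs] at h1
      rw [Subgroup.mem_normalizer_iff]
      intro u
      constructor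
      · intro hu
        rw [← h1]
        exact Subgroup.smul_mem_pointwise_smul u (MulAut.conj s) _ hu
      · intro hu
        rw [← h1] at hu
        have h2 : s * u * s⁻¹ = MulAut.conj s • u := rfl
        rw [h2, Subgroup.smul_mem_pointwise_smul_iff] at hu
        exact hu
    have h3 := IsPGroup.to_sup_of_normal_right' S.isPGroup' (USg_isPGroup hF p e) hnorm
    have h4 := S.is_maximal' h3 le_sup_left
    exact le_sup_right.trans_eq h4
  refine ⟨hU, fun z => ⟨?_, ?_⟩⟩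
  · rintro ⟨hzS, hz⟩
    exact USg_centralizer_fix hF e he0 he z (fun u hu => hz u (hU hu)) (hS z hzS)
  · rintro ⟨c, hc, rfl⟩
    refine ⟨hU (uroot_le_USg hF e he ⟨c, hc, rfl⟩), fun s hs => ?_⟩
    have h1 := utv_conj hF s e c
    rw [hS s hs] at h1
    calc utv hF e c * s = (s * utv hF e c * s⁻¹) * s := by rw [h1]
      _ = s * utv hF e c := by group

end Cfsg.Agent.Helper44.PSUn
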