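import Mathlib
import Cfsg.Agent.Helper44.PSUD

/-!
# Automorphisms of `PSU_n(q)` (helper44), part E: frames and the geometry of `W = ⟨e, f⟩^⊥`
-/

set_option autoImplicit false
set_option linter.unusedSimpArgs false
set_option linter.unusedSectionVars false
set_option linter.unusedVariables false

namespace Cfsg.Agent.Helper44.PSUn

open Matrix
open scoped Pointwise
open Cfsg.Agent.Helper5 (frobQ frobQ_apply frobQ_frobQ frobQ_ne_id)
open Cfsg.Agent.Helper13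

variable {F : Type*} [Field F] [Fintype F] {q n : ℕ}

local notation "⟪" x ", " y "⟫" => Cfsg.hermForm n F q x y

/-- a hyperbolic pair `e, f`, a unit vector `d` of `W = ⟨e, f⟩^⊥`, and the two facts about `W`
which depend on the dimension -/
structure UFrame (q : ℕ) (e f d : Fin n → F) : Prop where
  ee : Cfsg.hermForm n F q e e = 0
  ff : Cfsg.hermForm n F q f f = 0
  ef : Cfsg.hermForm n F q e f = 1
  de : Cfsg.hermForm n F q d e = 0
  df : Cfsg.hermForm n F q d f = 0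
  dd : Cfsg.hermForm n F q d d = 1
  line3 : n = 3 → ∀ w : Fin n → F, Cfsg.hermForm n F q w e = 0 → Cfsg.hermForm n F q w f = 0 →
    ∃ c : F, w = c • d
  iso4 : 4 ≤ n → ∃ r : Fin n → F, r ≠ 0 ∧ Cfsg.hermForm n F q r e = 0 ∧
    Cfsg.hermForm n F q r f = 0 ∧ Cfsg.hermForm n F q r r = 0

theorem exists_uframe (hF : Fintype.card F = q ^ 2) (hn : 3 ≤ n) :
    ∃ e f d : Fin n → F, UFrame q e f d := by
  classical
  obtain ⟨μ, hμ0, hμ⟩ := ufld_exists_norm hF (c := -1) (by simp) (by simp)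
  obtain ⟨ζ, hζ, hζ'⟩ := ufld_exists_norm_one hF
  have hζ1 : 1 - ζ ≠ 0 := by
    intro h
    have : ζ = 1 := by linear_combination -h
    apply hζ'
    rw [this, map_one]
  have hζ2 : 1 - frobQ hF ζ ≠ 0 := by
    intro h
    apply hζ1
    have h2 : frobQ hF (1 - frobQ hF ζ) = 0 := by rw [h, map_zero]
    rw [map_sub, map_one, frobQ_frobQ] at h2
    exact h2
  have h01 : (⟨0, by omega⟩ : Fin n) ≠ ⟨1, by omega⟩ := by
    intro h; have := congrArg Fin.val h; simp at this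
  have h02 : (⟨0, by omega⟩ : Fin n) ≠ ⟨2, by omega⟩ := by
    intro h; have := congrArg Fin.val h; simp at this
  have h12 : (⟨1, by omega⟩ : Fin n) ≠ ⟨2, by omega⟩ := by
    intro h; have := congrArg Fin.val h; simp at this
  have hμ' : frobQ hF μ ≠ 0 := fun h => hμ0 ((ufrob_eq_zero hF).1 h)
  refine ⟨Pi.single ⟨0, by omega⟩ 1 + μ • Pi.single ⟨1, by omega⟩ 1,
    (1 - ζ)⁻¹ • (Pi.single ⟨0, by omega⟩ 1 + (μ * ζ) • Pi.single ⟨1, by omega⟩ 1),
    Pi.single ⟨2, by omega⟩ 1, ?_⟩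
  constructor
  · simp only [uh_add_left, uh_add_right hF, uh_smul_left, uh_smul_right hF,
      uh_single_single hF, if_neg h01, if_neg h01.symm, if_true]
    linear_combination hμ
  · simp only [uh_add_left, uh_add_right hF, uh_smul_left, uh_smul_right hF,
      uh_single_single hF, if_neg h01, if_neg h01.symm, if_true, map_mul, map_inv₀, map_sub,
      map_one]
    field_simp
    linear_combination (ζ * frobQ hF ζ) * hμ - hζ
  · simp only [uh_add_left, uh_add_right hF, uh_smul_left, uh_smul_right hF,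
      uh_single_single hF, if_neg h01, if_neg h01.symm, if_true, map_mul, map_inv₀, map_sub,
      map_one]
    field_simp
    linear_combination (frobQ hF ζ) * hμ
  · simp only [uh_add_right hF, uh_smul_right hF, uh_single_single hF, if_neg h02.symm,
      if_neg h12.symm]
    ring
  · simp only [uh_add_right hF, uh_smul_right hF, uh_single_single hF, if_neg h02.symm,
      if_neg h12.symm]
    ring
  · rw [uh_single_single hF, if_pos rfl]
  · intro hn3 w hwe hwf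
    simp only [uh_add_right hF, uh_smul_right hF, uh_single_right hF, map_mul, map_inv₀, map_sub,
      map_one] at hwe hwf
    have h1 : w ⟨0, by omega⟩ + frobQ hF μ * frobQ hF ζ * w ⟨1, by omega⟩ = 0 := by
      rcases mul_eq_zero.1 hwf with h | h
      · exact absurd h (inv_ne_zero hζ2)
      · linear_combination h
    have h2 : w ⟨1, by omega⟩ = 0 := by
      have : frobQ hF μ * (1 - frobQ hF ζ) * w ⟨1, by omega⟩ = 0 := by
        linear_combination hwe - h1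
      rcases mul_eq_zero.1 this with h | h
      · rcases mul_eq_zero.1 h with h | h
        · exact absurd h hμ'
        · exact absurd h hζ2
      · exact h
    have h3 : w ⟨0, by omega⟩ = 0 := by rw [h2] at hwe; linear_combination hwe
    refine ⟨w ⟨2, by omega⟩, ?_⟩
    funext i
    have hi : i = ⟨0, by omega⟩ ∨ i = ⟨1, by omega⟩ ∨ i = ⟨2, by omega⟩ := by
      have := i.2
      rcases i with ⟨i, hi⟩
      simp only [Fin.mk.injEq]
      omega
    rcases hi with rfl | rfl | rfl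
    · rw [h3, Pi.smul_apply, Pi.single_eq_of_ne h02, smul_zero]
    · rw [h2, Pi.smul_apply, Pi.single_eq_of_ne h12, smul_zero]
    · rw [Pi.smul_apply, Pi.single_eq_same, smul_eq_mul, mul_one]
  · intro hn4
    have h03 : (⟨0, by omega⟩ : Fin n) ≠ ⟨3, by omega⟩ := by
      intro h; have := congrArg Fin.val h; simp at this
    have h13 : (⟨1, by omega⟩ : Fin n) ≠ ⟨3, by omega⟩ := by
      intro h; have := congrArg Fin.val h; simp at this
    have h23 : (⟨2, by omega⟩ : Fin n) ≠ ⟨3, by omega⟩ := by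
      intro h; have := congrArg Fin.val h; simp at this
    refine ⟨Pi.single ⟨2, by omega⟩ 1 + μ • Pi.single ⟨3, by omega⟩ 1, ?_, ?_, ?_, ?_⟩
    · intro h
      have := congrFun h ⟨2, by omega⟩
      simp [Pi.single_apply, h23] at this
    · simp only [uh_add_left, uh_add_right hF, uh_smul_left, uh_smul_right hF,
        uh_single_single hF, if_neg h02.symm, if_neg h12.symm, if_neg h03.symm, if_neg h13.symm]
      ring
    · simp only [uh_add_left, uh_add_right hF, uh_smul_left, uh_smul_right hF,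
        uh_single_single hF, if_neg h02.symm, if_neg h12.symm, if_neg h03.symm, if_neg h13.symm]
      ring
    · simp only [uh_add_left, uh_add_right hF, uh_smul_left, uh_smul_right hF,
        uh_single_single hF, if_neg h23, if_neg h23.symm, if_true]
      linear_combination hμ

section frame

variable {e f d : Fin n → F}

theorem UFrame.fe (hF : Fintype.card F = q ^ 2) (hfr : UFrame q e f d) : ⟪f, e⟫ = 1 :=
  psu_swap_one hF hfr.ef

theorem UFrame.e_ne (hF : Fintype.card F = q ^ 2) (hfr : UFrame q e f d) : e ≠ 0 := by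
  rintro rfl
  have := hfr.ef
  rw [uh_zero_left] at this
  exact zero_ne_one this

theorem UFrame.f_ne (hF : Fintype.card F = q ^ 2) (hfr : UFrame q e f d) : f ≠ 0 := by
  rintro rfl
  have := hfr.ef
  rw [uh_zero_right hF] at this
  exact zero_ne_one this

/-- the projection to `W = ⟨e, f⟩^⊥` -/
def wproj (q : ℕ) (e f x : Fin n → F) : Fin n → F :=
  x - Cfsg.hermForm n F q x f • e - Cfsg.hermForm n F q x e • f

theorem UFrame.wproj_e (hF : Fintype.card F = q ^ 2) (hfr : UFrame q e f d) (x : Fin n → F) :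
    ⟪wproj q e f x, e⟫ = 0 := by
  unfold wproj
  rw [uh_sub_left, uh_sub_left, uh_smul_left, uh_smul_left, hfr.ee, hfr.fe hF]
  ring

theorem UFrame.wproj_f (hF : Fintype.card F = q ^ 2) (hfr : UFrame q e f d) (x : Fin n → F) :
    ⟪wproj q e f x, f⟫ = 0 := by
  unfold wproj
  rw [uh_sub_left, uh_sub_left, uh_smul_left, uh_smul_left, hfr.ff, hfr.ef]
  ring

theorem wproj_decomp (x : Fin n → F) :
    x = ⟪x, f⟫ • e + ⟪x, e⟫ • f + wproj q e f x := by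
  unfold wproj
  module

theorem wproj_of_mem (x : Fin n → F) (hxe : ⟪x, e⟫ = 0) (hxf : ⟪x, f⟫ = 0) :
    wproj q e f x = x := by
  unfold wproj
  rw [hxe, hxf, zero_smul, zero_smul, sub_zero, sub_zero]

/-- `W` is non-degenerate -/
theorem UFrame.W_nondeg (hF : Fintype.card F = q ^ 2) (hfr : UFrame q e f d) (w : Fin n → F)
    (hwe : ⟪w, e⟫ = 0) (hwf : ⟪w, f⟫ = 0)
    (h : ∀ w' : Fin n → F, ⟪w', e⟫ = 0 → ⟪w', f⟫ = 0 → ⟪w, w'⟫ = 0) : w = 0 := by
  by_contra hne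
  obtain ⟨x, hx⟩ := uh_nondeg_right hF w hne
  apply hx
  rw [wproj_decomp (q := q) (e := e) (f := f) x, uh_add_right hF, uh_add_right hF,
    uh_smul_right hF, uh_smul_right hF, hwe, hwf, h _ (hfr.wproj_e hF x) (hfr.wproj_f hF x)]
  ring

/-- hyperbolic partners inside `W` -/
theorem UFrame.partner (hF : Fintype.card F = q ^ 2) (hfr : UFrame q e f d) (r : Fin n → F)
    (hr0 : r ≠ 0) (hre : ⟪r, e⟫ = 0) (hrf : ⟪r, f⟫ = 0) (hrr : ⟪r, r⟫ = 0) :
    ∃ s : Fin n → F, ⟪s, e⟫ = 0 ∧ ⟪s, f⟫ = 0 ∧ ⟪s, s⟫ = 0 ∧ ⟪r, s⟫ = 1 := by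
  obtain ⟨y, hy, hry⟩ := uhyp_partner hF r hr0 hrr
  have h1 : ⟪r, wproj q e f y⟫ = 1 := by
    unfold wproj
    rw [uh_sub_right hF, uh_sub_right hF, uh_smul_right hF, uh_smul_right hF, hre, hrf, hry]
    ring
  have h1' := psu_swap_one hF h1
  obtain ⟨c, hc⟩ := psu_exists_tr hF (-⟪wproj q e f y, wproj q e f y⟫)
    (by rw [map_neg, psu_self_fix])
  refine ⟨wproj q e f y + c • r, ?_, ?_, ?_, ?_⟩
  · rw [uh_add_left, uh_smul_left, hfr.wproj_e hF, hre]; ring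
  · rw [uh_add_left, uh_smul_left, hfr.wproj_f hF, hrf]; ring
  · simp only [uh_add_left, uh_add_right hF, uh_smul_left, uh_smul_right hF, h1, h1', hrr]
    linear_combination hc
  · rw [uh_add_right hF, uh_smul_right hF, h1, hrr]; ring

/-- two isotropic vectors of `W` have a common isotropic non-neighbour-free vector in `W` -/
theorem UFrame.common (hF : Fintype.card F = q ^ 2) (hfr : UFrame q e f d) (r₁ r₂ : Fin n → F)
    (hr₁0 : r₁ ≠ 0) (hr₁e : ⟪r₁, e⟫ = 0) (hr₁f : ⟪r₁, f⟫ = 0) (hr₁ : ⟪r₁, r₁⟫ = 0)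
    (hr₂0 : r₂ ≠ 0) (hr₂e : ⟪r₂, e⟫ = 0) (hr₂f : ⟪r₂, f⟫ = 0) (hr₂ : ⟪r₂, r₂⟫ = 0) :
    ∃ c : Fin n → F, ⟪c, e⟫ = 0 ∧ ⟪c, f⟫ = 0 ∧ ⟪c, c⟫ = 0 ∧ ⟪r₁, c⟫ ≠ 0 ∧ ⟪r₂, c⟫ ≠ 0 := by
  obtain ⟨s₁, hs₁e, hs₁f, hs₁, hrs₁⟩ := hfr.partner hF r₁ hr₁0 hr₁e hr₁f hr₁
  obtain ⟨s₂, hs₂e, hs₂f, hs₂, hrs₂⟩ := hfr.partner hF r₂ hr₂0 hr₂e hr₂f hr₂
  by_cases h1 : ⟪r₂, s₁⟫ = 0
  swap
  · exact ⟨s₁, hs₁e, hs₁f, hs₁, by rw [hrs₁]; exact one_ne_zero, h1⟩
  by_cases h2 : ⟪r₁, s₂⟫ = 0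
  swap
  · exact ⟨s₂, hs₂e, hs₂f, hs₂, h2, by rw [hrs₂]; exact one_ne_zero⟩
  obtain ⟨κ, hκ0, hκ⟩ : ∃ κ : F, κ ≠ 0 ∧ κ * ⟪s₂, s₁⟫ + frobQ hF κ * ⟪s₁, s₂⟫ = 0 := by
    by_cases h3 : ⟪s₂, s₁⟫ = 0
    · exact ⟨1, one_ne_zero, by rw [h3, psu_swap_zero hF h3]; ring⟩
    · obtain ⟨a, ha0, ha⟩ := ufld_exists_skew hF
      refine ⟨a / ⟪s₂, s₁⟫, div_ne_zero ha0 h3, ?_⟩
      have h4 : frobQ hF (a / ⟪s₂, s₁⟫) * ⟪s₁, s₂⟫ = frobQ hF a := by
        rw [map_div₀, uh_conj hF]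
        field_simp [psu_swap_ne hF h3]
      rw [h4, ha]
      field_simp
      ring
  refine ⟨s₁ + κ • s₂, ?_, ?_, ?_, ?_, ?_⟩
  · rw [uh_add_left, uh_smul_left, hs₁e, hs₂e]; ring
  · rw [uh_add_left, uh_smul_left, hs₁f, hs₂f]; ring
  · simp only [uh_add_left, uh_add_right hF, uh_smul_left, uh_smul_right hF, hs₁, hs₂]
    linear_combination hκ
  · rw [uh_add_right hF, uh_smul_right hF, hrs₁, h2, mul_zero, add_zero]
    exact one_ne_zero
  · rw [uh_add_right hF, uh_smul_right hF, h1, hrs₂, mul_one, zero_add]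
    exact fun h => hκ0 ((ufrob_eq_zero hF).1 h)

/-- every vector of `W` is a sum of isotropic vectors of `W` (`n ≥ 4`): induction principle -/
theorem UFrame.induction (hF : Fintype.card F = q ^ 2) (hfr : UFrame q e f d) (hn4 : 4 ≤ n)
    (P : (Fin n → F) → Prop) (hadd : ∀ x y, P x → P y → P (x + y))
    (hiso : ∀ r : Fin n → F, ⟪r, e⟫ = 0 → ⟪r, f⟫ = 0 → ⟪r, r⟫ = 0 → P r)
    (w : Fin n → F) (hwe : ⟪w, e⟫ = 0) (hwf : ⟪w, f⟫ = 0) : P w := by
  obtain ⟨r, hr0, hre, hrf, hrr⟩ := hfr.iso4 hn4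
  obtain ⟨s, hse, hsf, hss, hrs⟩ := hfr.partner hF r hr0 hre hrf hrr
  have hsr := psu_swap_one hF hrs
  obtain ⟨w₀, hw₀⟩ : ∃ w₀ : Fin n → F, w₀ = w - ⟪w, s⟫ • r - ⟪w, r⟫ • s := ⟨_, rfl⟩
  have hw₀r : ⟪w₀, r⟫ = 0 := by
    rw [hw₀, uh_sub_left, uh_sub_left, uh_smul_left, uh_smul_left, hrr, hsr]; ring
  have hw₀s : ⟪w₀, s⟫ = 0 := by
    rw [hw₀, uh_sub_left, uh_sub_left, uh_smul_left, uh_smul_left, hss, hrs]; ring
  have hw₀e : ⟪w₀, e⟫ = 0 := by
    rw [hw₀, uh_sub_left, uh_sub_left, uh_smul_left, uh_smul_left, hwe, hre, hse]; ring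
  have hw₀f : ⟪w₀, f⟫ = 0 := by
    rw [hw₀, uh_sub_left, uh_sub_left, uh_smul_left, uh_smul_left, hwf, hrf, hsf]; ring
  obtain ⟨b, hb⟩ := psu_exists_tr hF (-⟪w₀, w₀⟫) (by rw [map_neg, psu_self_fix])
  have hrw₀ := psu_swap_zero hF hw₀r
  have hsw₀ := psu_swap_zero hF hw₀s
  have hv : ⟪r + w₀ + b • s, r + w₀ + b • s⟫ = 0 := by
    simp only [uh_add_left, uh_add_right hF, uh_smul_left, uh_smul_right hF, hrr, hss, hrs, hsr,
      hw₀r, hw₀s, hrw₀, hsw₀]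
    linear_combination hb
  have hsm : ∀ (c : F) (v : Fin n → F), ⟪v, e⟫ = 0 → ⟪v, f⟫ = 0 → ⟪v, v⟫ = 0 → P (c • v) := by
    intro c v h1 h2 h3
    apply hiso
    · rw [uh_smul_left, h1, mul_zero]
    · rw [uh_smul_left, h2, mul_zero]
    · rw [uh_smul_left, uh_smul_right hF, h3]; ring
  have hdec : w = ⟪w, s⟫ • r + ⟪w, r⟫ • s + (r + w₀ + b • s) + (-1 : F) • r + (-b) • s := by
    rw [hw₀]; module
  rw [hdec]
  refine hadd _ _ (hadd _ _ (hadd _ _ (hadd _ _ (hsm _ r hre hrf hrr) (hsm _ s hse hsf hss)) ?_)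
    (hsm _ r hre hrf hrr)) (hsm _ s hse hsf hss)
  apply hiso
  · rw [uh_add_left, uh_add_left, uh_smul_left, hre, hw₀e, hse]; ring
  · rw [uh_add_left, uh_add_left, uh_smul_left, hrf, hw₀f, hsf]; ring
  · exact hv

/-- irreducibility of the transvections of `W` on `W` -/
theorem UFrame.irr (hF : Fintype.card F = q ^ 2) (hfr : UFrame q e f d) (hn : 3 ≤ n)
    (X : Submodule F (Fin n → F))
    (hX : ∀ (r : Fin n → F) (a : F), ⟪r, e⟫ = 0 → ⟪r, f⟫ = 0 → ⟪r, r⟫ = 0 → frobQ hF a = -a →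
      ∀ x ∈ X, uact (utv hF r a) x ∈ X)
    (w₀ : Fin n → F) (hw₀ : w₀ ∈ X) (hw₀0 : w₀ ≠ 0) (hw₀e : ⟪w₀, e⟫ = 0) (hw₀f : ⟪w₀, f⟫ = 0)
    (w : Fin n → F) (hwe : ⟪w, e⟫ = 0) (hwf : ⟪w, f⟫ = 0) : w ∈ X := by
  by_cases hn3 : n = 3
  · obtain ⟨c, hc⟩ := hfr.line3 hn3 w₀ hw₀e hw₀f
    obtain ⟨c', hc'⟩ := hfr.line3 hn3 w hwe hwf
    have hc0 : c ≠ 0 := by
      rintro rfl
      rw [zero_smul] at hc
      exact hw₀0 hc
    have hd : d = c⁻¹ • w₀ := by rw [hc, smul_smul, inv_mul_cancel₀ hc0, one_smul]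
    rw [hc', hd]
    exact X.smul_mem _ (X.smul_mem _ hw₀)
  have hn4 : 4 ≤ n := by omega
  obtain ⟨a, ha0, ha⟩ := ufld_exists_skew hF
  -- the basic move
  have move : ∀ (x r : Fin n → F), x ∈ X → ⟪r, e⟫ = 0 → ⟪r, f⟫ = 0 → ⟪r, r⟫ = 0 → ⟪x, r⟫ ≠ 0 →
      r ∈ X := by
    intro x r hx hre hrf hrr hxr
    have h1 := hX r a hre hrf hrr ha x hx
    rw [uact_utv hF r a hrr ha] at h1
    have h2 : (a * ⟪x, r⟫) • r ∈ X := by
      have := X.sub_mem h1 hx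
      rwa [add_sub_cancel_left] at this
    have h3 := X.smul_mem (a * ⟪x, r⟫)⁻¹ h2
    rwa [smul_smul, inv_mul_cancel₀ (mul_ne_zero ha0 hxr), one_smul] at h3
  -- an isotropic vector of `W` not orthogonal to `w₀`
  obtain ⟨r₁, hr₁e, hr₁f, hr₁, hwr₁⟩ : ∃ r₁ : Fin n → F, ⟪r₁, e⟫ = 0 ∧ ⟪r₁, f⟫ = 0 ∧
      ⟪r₁, r₁⟫ = 0 ∧ ⟪w₀, r₁⟫ ≠ 0 := by
    by_contra hcon
    push Not at hcon
    apply hw₀0
    apply hfr.W_nondeg hF w₀ hw₀e hw₀f
    intro w' hw'e hw'f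
    exact hfr.induction hF hn4 (fun y => ⟪w₀, y⟫ = 0)
      (fun x y hx hy => by rw [uh_add_right hF, hx, hy, add_zero])
      (fun r h1 h2 h3 => hcon r h1 h2 h3) w' hw'e hw'f
  have hr₁X : r₁ ∈ X := move w₀ r₁ hw₀ hr₁e hr₁f hr₁ hwr₁
  have hr₁0 : r₁ ≠ 0 := by
    rintro rfl
    exact hwr₁ (uh_zero_right hF _)
  refine hfr.induction hF hn4 (fun y => y ∈ X) (fun x y hx hy => X.add_mem hx hy) ?_ w hwe hwf
  intro r hre hrf hrr
  by_cases hr0 : r = 0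
  · rw [hr0]; exact X.zero_mem
  obtain ⟨c, hce, hcf, hcc, hr₁c, hrc⟩ := hfr.common hF r₁ r hr₁0 hr₁e hr₁f hr₁ hr0 hre hrf hrr
  have hcX : c ∈ X := move r₁ c hr₁X hce hcf hcc hr₁c
  exact move c r hcX hre hrf hrr (psu_swap_ne hF hrc)

end frame

end Cfsg.Agent.Helper44.PSUn
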