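import Mathlib
import Cfsg.Agent.Helper44.PSUE

/-!
# Automorphisms of `PSU_n(q)` (helper44), part F: root subgroups and Siegel groups in `PSU_n(q)`

Every automorphism of `PSU_n(q)` permutes the images of the root subgroups (centres of Sylow
`p`-subgroups), and an automorphism fixing the image of `uroot hF e` fixes the image of the Siegel
group `USg hF e` (the intersection of the Sylow `p`-subgroups with that centre).
-/

set_option autoImplicit false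
set_option linter.unusedSimpArgs false
set_option linter.unusedSectionVars false
set_option linter.unusedVariables false

namespace Cfsg.Agent.Helper44.PSUn

open Matrix
open scoped Pointwise
open Cfsg.Agent.Helper5 (frobQ frobQ_apply frobQ_frobQ frobQ_ne_id)
open Cfsg.Agent.Helper13

section SylowLemmas

variable {G : Type*} [Group G]

theorem psu_sylow_conj_mem {p : ℕ} (g x : G) (P : Sylow p G) :
    x ∈ ((g • P : Sylow p G) : Subgroup G) ↔ ∃ s ∈ (P : Subgroup G), x = g * s * g⁻¹ := by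
  rw [Sylow.smul_def, Sylow.pointwise_smul_def, Subgroup.mem_smul_pointwise_iff_exists]
  constructor
  · rintro ⟨s, hs, rfl⟩
    exact ⟨s, hs, rfl⟩
  · rintro ⟨s, hs, rfl⟩
    exact ⟨s, hs, rfl⟩

theorem psu_sylow_aut_mem {p : ℕ} (α : MulAut G) (x : G) (P : Sylow p G) :
    x ∈ ((α • P : Sylow p G) : Subgroup G) ↔ ∃ s ∈ (P : Subgroup G), x = α s := by
  rw [Sylow.pointwise_smul_def, Subgroup.mem_smul_pointwise_iff_exists]
  constructor
  · rintro ⟨s, hs, rfl⟩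
    exact ⟨s, hs, rfl⟩
  · rintro ⟨s, hs, rfl⟩
    exact ⟨s, hs, rfl⟩

theorem psu_sylow_pelem {p : ℕ} (P : Sylow p G) (x : G) (hx : x ∈ (P : Subgroup G)) :
    ∃ k : ℕ, x ^ (p ^ k) = 1 := by
  obtain ⟨k, hk⟩ := P.isPGroup' ⟨x, hx⟩
  refine ⟨k, ?_⟩
  have := congrArg Subtype.val hk
  simpa using this

end SylowLemmas

variable {F : Type*} [Field F] [Fintype F] {q n : ℕ}

local notation "⟪" x ", " y "⟫" => Cfsg.hermForm n F q x y

/-- the projection `SU_n(q) → PSU_n(q)` -/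
def prU : ↥(Cfsg.SU n F q) →* Cfsg.PSU n F q :=
  QuotientGroup.mk' (Subgroup.center ↥(Cfsg.SU n F q))

theorem prU_surjective : Function.Surjective (prU : ↥(Cfsg.SU n F q) →* Cfsg.PSU n F q) :=
  QuotientGroup.mk'_surjective _

theorem prU_mk (x : ↥(Cfsg.SU n F q)) : prU x = (QuotientGroup.mk x : Cfsg.PSU n F q) := rfl

/-- the image of a root subgroup in `PSU` -/
def Tb (hF : Fintype.card F = q ^ 2) (v : Fin n → F) : Subgroup (Cfsg.PSU n F q) :=
  (uroot hF v).map prU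

/-- the image of a Siegel group in `PSU` -/
def Ub (hF : Fintype.card F = q ^ 2) (e : Fin n → F) : Subgroup (Cfsg.PSU n F q) :=
  (USg hF e).map prU

theorem mem_Tb (hF : Fintype.card F = q ^ 2) (v : Fin n → F) (x : Cfsg.PSU n F q) :
    x ∈ Tb hF v ↔ ∃ t ∈ uroot hF v, prU t = x := Subgroup.mem_map

theorem mem_Ub (hF : Fintype.card F = q ^ 2) (e : Fin n → F) (x : Cfsg.PSU n F q) :
    x ∈ Ub hF e ↔ ∃ t ∈ USg hF e, prU t = x := Subgroup.mem_map

theorem USg_pelem (hF : Fintype.card F = q ^ 2) (p : ℕ) [Fact p.Prime] [CharP F p]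
    (e : Fin n → F) (x : ↥(Cfsg.SU n F q)) (hx : x ∈ USg hF e) : ∃ k : ℕ, x ^ (p ^ k) = 1 := by
  obtain ⟨k, hk⟩ := USg_isPGroup hF p e ⟨x, hx⟩
  refine ⟨k, ?_⟩
  have := congrArg Subtype.val hk
  simpa using this

theorem uroot_pelem (hF : Fintype.card F = q ^ 2) (p : ℕ) [Fact p.Prime] [CharP F p]
    (e : Fin n → F) (he : ⟪e, e⟫ = 0) (x : ↥(Cfsg.SU n F q)) (hx : x ∈ uroot hF e) :
    ∃ k : ℕ, x ^ (p ^ k) = 1 :=
  USg_pelem hF p e x (uroot_le_USg hF e he hx)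

/-- the centre of the Sylow subgroup `Sb` of `PSU` is the image of the root subgroup of `e` -/
def ZIs (hF : Fintype.card F = q ^ 2) (p : ℕ) (Sb : Sylow p (Cfsg.PSU n F q)) (e : Fin n → F) :
    Prop :=
  ∀ x : Cfsg.PSU n F q,
    (x ∈ (Sb : Subgroup (Cfsg.PSU n F q)) ∧ ∀ y ∈ (Sb : Subgroup (Cfsg.PSU n F q)), x * y = y * x)
      ↔ x ∈ Tb hF e

theorem sylow_bar (hF : Fintype.card F = q ^ 2) (p : ℕ) [Fact p.Prime] [CharP F p]
    (S : Sylow p ↥(Cfsg.SU n F q)) (e : Fin n → F) (he0 : e ≠ 0) (he : ⟪e, e⟫ = 0)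
    (hS : ∀ s ∈ (S : Subgroup ↥(Cfsg.SU n F q)), uact s e = e) :
    ZIs hF p (S.mapSurjective prU_surjective) e ∧
      Ub hF e ≤ (S.mapSurjective prU_surjective : Subgroup (Cfsg.PSU n F q)) := by
  obtain ⟨hU, hZ⟩ := psu_sylow_center hF p S e he0 he hS
  constructor
  · intro x
    constructor
    · rintro ⟨hx, hc⟩
      rw [Sylow.coe_mapSurjective, Subgroup.mem_map] at hx
      obtain ⟨x₀, hx₀, rfl⟩ := hx
      have h1 : x₀ ∈ uroot hF e := by
        refine (hZ x₀).1 ⟨hx₀, fun s hs => ?_⟩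
        have h2 := hc (prU s) (by
          rw [Sylow.coe_mapSurjective]; exact Subgroup.mem_map_of_mem _ hs)
        apply psu_lift_unique hF p e he0 he (x₀ * s) (s * x₀)
          (psu_sylow_pelem S _ (Subgroup.mul_mem _ hx₀ hs))
          (psu_sylow_pelem S _ (Subgroup.mul_mem _ hs hx₀))
        rw [← prU_mk, ← prU_mk, map_mul, map_mul]
        exact h2
      exact Subgroup.mem_map_of_mem _ h1
    · intro hx
      obtain ⟨x₀, hx₀, rfl⟩ := (mem_Tb hF e x).1 hx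
      obtain ⟨h1, h2⟩ := (hZ x₀).2 hx₀
      refine ⟨by rw [Sylow.coe_mapSurjective]; exact Subgroup.mem_map_of_mem _ h1, fun y hy => ?_⟩
      rw [Sylow.coe_mapSurjective, Subgroup.mem_map] at hy
      obtain ⟨s, hs, rfl⟩ := hy
      rw [← map_mul, ← map_mul, h2 s hs]
  · rw [Sylow.coe_mapSurjective]
    exact Subgroup.map_mono hU

/-- equal images of root subgroups have proportional centres -/
theorem Tb_eq (hF : Fintype.card F = q ^ 2) (p : ℕ) [Fact p.Prime] [CharP F p]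
    (v v' : Fin n → F) (hv0 : v ≠ 0) (hv : ⟪v, v⟫ = 0) (hv'0 : v' ≠ 0) (hv' : ⟪v', v'⟫ = 0)
    (h : Tb hF v = Tb hF v') : ∃ l : F, l ≠ 0 ∧ v = l • v' := by
  have key : ∀ (a b : Fin n → F), a ≠ 0 → ⟪a, a⟫ = 0 → ⟪b, b⟫ = 0 → Tb hF a = Tb hF b →
      uroot hF a ≤ uroot hF b := by
    intro a b ha0 ha hb hab x hx
    have h1 : prU x ∈ Tb hF b := by rw [← hab]; exact Subgroup.mem_map_of_mem _ hx
    obtain ⟨y, hy, hyx⟩ := (mem_Tb hF b _).1 h1
    have h2 := psu_lift_unique hF p a ha0 ha y x (uroot_pelem hF p b hb y hy)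
      (uroot_pelem hF p a ha x hx) hyx
    rw [← h2]; exact hy
  exact uroot_eq hF v v' hv0 hv hv'
    (le_antisymm (key v v' hv0 hv hv' h) (key v' v hv'0 hv' hv h.symm))

/-- a Sylow `p`-subgroup of `SU` fixing a given isotropic vector -/
theorem exists_sylow_fix (hF : Fintype.card F = q ^ 2) (p : ℕ) [Fact p.Prime] [CharP F p]
    (hn : 3 ≤ n) (h32 : ¬ (n = 3 ∧ q = 2)) (v : Fin n → F) (hv0 : v ≠ 0) (hv : ⟪v, v⟫ = 0) :
    ∃ S : Sylow p ↥(Cfsg.SU n F q), ∀ s ∈ (S : Subgroup ↥(Cfsg.SU n F q)), uact s v = v := by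
  obtain ⟨S₀⟩ := (Sylow.nonempty : Nonempty (Sylow p ↥(Cfsg.SU n F q)))
  obtain ⟨e₀, he₀0, he₀, hfix⟩ := psu_fix_iso hF p (show 2 ≤ n by omega) S₀ S₀.isPGroup'
  haveI := upt_pretransitive hF hn h32
  obtain ⟨g, hg⟩ := MulAction.exists_smul_eq ↥(Cfsg.SU n F q) (umk hF e₀ he₀0 he₀)
    (umk hF v hv0 hv)
  rw [usmul_umk] at hg
  obtain ⟨l, hl0, hl⟩ := (umk_eq_iff hF _ _ _ _ _ _).1 hg
  have hv' : v = l⁻¹ • uact g e₀ := by rw [hl, smul_smul, inv_mul_cancel₀ hl0, one_smul]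
  refine ⟨g • S₀, fun s hs => ?_⟩
  obtain ⟨t, ht, rfl⟩ := (psu_sylow_conj_mem g s S₀).1 hs
  rw [uact_mul, uact_mul]
  calc uact g (uact t (uact g⁻¹ v))
      = uact g (uact t (uact g⁻¹ (l⁻¹ • uact g e₀))) := by rw [← hv']
    _ = l⁻¹ • uact g e₀ := by rw [uact_smul, uact_inv_uact, uact_smul, hfix t ht, uact_smul]
    _ = v := hv'.symm

/-- **every automorphism of `PSU_n(q)` permutes the images of the root subgroups** -/
theorem rel_exists (hF : Fintype.card F = q ^ 2) (p : ℕ) [Fact p.Prime] [CharP F p]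
    (hn : 3 ≤ n) (h32 : ¬ (n = 3 ∧ q = 2)) (α : MulAut (Cfsg.PSU n F q))
    (v : Fin n → F) (hv0 : v ≠ 0) (hv : ⟪v, v⟫ = 0) :
    ∃ v' : Fin n → F, v' ≠ 0 ∧ ⟪v', v'⟫ = 0 ∧ (Tb hF v).map α.toMonoidHom = Tb hF v' := by
  obtain ⟨S₂, hS₂⟩ := exists_sylow_fix hF p hn h32 v hv0 hv
  obtain ⟨hZ₂, -⟩ := sylow_bar hF p S₂ v hv0 hv hS₂
  obtain ⟨S₃, hS₃⟩ := Sylow.mapSurjective_surjective prU_surjective p
    (α • S₂.mapSurjective prU_surjective)
  obtain ⟨e₃, he₃0, he₃, hfix₃⟩ := psu_fix_iso hF p (show 2 ≤ n by omega) S₃ S₃.isPGroup'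
  obtain ⟨hZ₃, -⟩ := sylow_bar hF p S₃ e₃ he₃0 he₃ hfix₃
  rw [hS₃] at hZ₃
  refine ⟨e₃, he₃0, he₃, ?_⟩
  ext x
  rw [← hZ₃ x, Subgroup.mem_map]
  constructor
  · rintro ⟨y, hy, rfl⟩
    obtain ⟨hy1, hy2⟩ := (hZ₂ y).2 hy
    refine ⟨(psu_sylow_aut_mem α _ _).2 ⟨y, hy1, rfl⟩, fun z hz => ?_⟩
    obtain ⟨t, ht, rfl⟩ := (psu_sylow_aut_mem α _ _).1 hz
    show α y * α t = α t * α y
    rw [← map_mul, ← map_mul, hy2 t ht]
  · rintro ⟨hx1, hx2⟩
    obtain ⟨y, hy, rfl⟩ := (psu_sylow_aut_mem α _ _).1 hx1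
    refine ⟨y, (hZ₂ y).1 ⟨hy, fun t ht => ?_⟩, rfl⟩
    have h1 := hx2 (α t) ((psu_sylow_aut_mem α _ _).2 ⟨t, ht, rfl⟩)
    rw [← map_mul, ← map_mul] at h1
    exact α.injective h1

theorem Ub_le_of_ZIs (hF : Fintype.card F = q ^ 2) (p : ℕ) [Fact p.Prime] [CharP F p]
    (Sb : Sylow p (Cfsg.PSU n F q)) (hn : 2 ≤ n) (e : Fin n → F) (he0 : e ≠ 0) (he : ⟪e, e⟫ = 0)
    (hZ : ZIs hF p Sb e) : Ub hF e ≤ (Sb : Subgroup (Cfsg.PSU n F q)) := by
  obtain ⟨S, rfl⟩ := Sylow.mapSurjective_surjective prU_surjective p Sb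
  obtain ⟨e', he'0, he', hfix⟩ := psu_fix_iso hF p hn S S.isPGroup'
  obtain ⟨hZ', hU'⟩ := sylow_bar hF p S e' he'0 he' hfix
  have hT : Tb hF e = Tb hF e' := by
    ext x
    rw [← hZ x, ← hZ' x]
  obtain ⟨l, hl0, hl⟩ := Tb_eq hF p e e' he0 he he'0 he' hT
  have h1 : Ub hF e = Ub hF e' := by
    unfold Ub
    rw [hl, USg_smul hF l hl0]
  rw [h1]
  exact hU'

/-- auxiliary subgroup for `Ub_char` -/
def N0 (S₁ : Subgroup ↥(Cfsg.SU n F q)) (e f : Fin n → F) : Subgroup ↥(Cfsg.SU n F q) where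
  carrier := {y | uact y f = f ∧ ∀ g : ↥(Cfsg.SU n F q), uact g e = e → g⁻¹ * y * g ∈ S₁}
  one_mem' := ⟨uact_one f, fun g _ => by rw [mul_one, inv_mul_cancel]; exact S₁.one_mem⟩
  mul_mem' := by
    rintro a b ⟨ha1, ha2⟩ ⟨hb1, hb2⟩
    refine ⟨by rw [uact_mul, hb1, ha1], fun g hg => ?_⟩
    have h : g⁻¹ * (a * b) * g = (g⁻¹ * a * g) * (g⁻¹ * b * g) := by group
    rw [h]
    exact S₁.mul_mem (ha2 g hg) (hb2 g hg)
  inv_mem' := by
    rintro a ⟨ha1, ha2⟩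
    refine ⟨?_, fun g hg => ?_⟩
    · calc uact a⁻¹ f = uact a⁻¹ (uact a f) := by rw [ha1]
        _ = f := uact_inv_uact a f
    · have h : g⁻¹ * a⁻¹ * g = (g⁻¹ * a * g)⁻¹ := by group
      rw [h]
      exact S₁.inv_mem (ha2 g hg)

theorem uact_inv_fix (g : ↥(Cfsg.SU n F q)) (v : Fin n → F) (h : uact g v = v) :
    uact g⁻¹ v = v := by
  calc uact g⁻¹ v = uact g⁻¹ (uact g v) := by rw [h]
    _ = v := uact_inv_uact g v

/-- the image of the Siegel group is the intersection of the Sylow subgroups whose centre is the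
image of the root subgroup -/
theorem Ub_char (hF : Fintype.card F = q ^ 2) (p : ℕ) [Fact p.Prime] [CharP F p]
    (hn : 3 ≤ n) (h32 : ¬ (n = 3 ∧ q = 2)) {e f d : Fin n → F} (hfr : UFrame q e f d)
    (x : Cfsg.PSU n F q)
    (hx : ∀ Sb : Sylow p (Cfsg.PSU n F q), ZIs hF p Sb e →
      x ∈ (Sb : Subgroup (Cfsg.PSU n F q))) : x ∈ Ub hF e := by
  have he0 := hfr.e_ne hF
  obtain ⟨S₁, hS₁⟩ := exists_sylow_fix hF p hn h32 e he0 hfr.ee
  obtain ⟨hZ₁, hU₁⟩ := sylow_bar hF p S₁ e he0 hfr.ee hS₁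
  obtain ⟨hUS, -⟩ := psu_sylow_center hF p S₁ e he0 hfr.ee hS₁
  have hx1 := hx _ hZ₁
  rw [Sylow.coe_mapSurjective, Subgroup.mem_map] at hx1
  obtain ⟨x₀, hx₀, rfl⟩ := hx1
  have h3 : ∀ g : ↥(Cfsg.SU n F q), uact g e = e →
      g⁻¹ * x₀ * g ∈ (S₁ : Subgroup ↥(Cfsg.SU n F q)) := by
    intro g hg
    have hfix : ∀ s ∈ ((g • S₁ : Sylow p ↥(Cfsg.SU n F q)) : Subgroup ↥(Cfsg.SU n F q)),
        uact s e = e := by
      intro s hs
      obtain ⟨t, ht, rfl⟩ := (psu_sylow_conj_mem g s S₁).1 hs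
      rw [uact_mul, uact_mul, uact_inv_fix g e hg, hS₁ t ht, hg]
    obtain ⟨hZg, -⟩ := sylow_bar hF p (g • S₁) e he0 hfr.ee hfix
    have h4 := hx _ hZg
    rw [Sylow.coe_mapSurjective, Subgroup.mem_map] at h4
    obtain ⟨y, hy, hyx⟩ := h4
    have h5 : y = x₀ := psu_lift_unique hF p e he0 hfr.ee y x₀ (psu_sylow_pelem _ y hy)
      (psu_sylow_pelem _ x₀ hx₀) hyx
    rw [h5] at hy
    obtain ⟨t, ht, hxt⟩ := (psu_sylow_conj_mem g x₀ S₁).1 hy
    have h6 : g⁻¹ * x₀ * g = t := by rw [hxt]; group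
    rw [h6]; exact ht
  have hx₀e : uact x₀ e = e := hS₁ x₀ hx₀
  obtain ⟨u, hu, huf⟩ := usg_trans hF e f (uact x₀ f) hfr.ee hfr.ff hfr.ef
    (by rw [uact_herm]; exact hfr.ff)
    (by
      calc ⟪e, uact x₀ f⟫ = ⟪uact x₀ e, uact x₀ f⟫ := by rw [hx₀e]
        _ = 1 := by rw [uact_herm]; exact hfr.ef)
  have hy₀ : u⁻¹ * x₀ ∈ N0 (S₁ : Subgroup ↥(Cfsg.SU n F q)) e f := by
    refine ⟨?_, fun g hg => ?_⟩
    · rw [uact_mul, ← huf, uact_inv_uact]
    · have h7 : g⁻¹ * (u⁻¹ * x₀) * g = (g⁻¹ * u * g)⁻¹ * (g⁻¹ * x₀ * g) := by group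
      rw [h7]
      refine Subgroup.mul_mem _ (Subgroup.inv_mem _ (hUS ?_)) (h3 g hg)
      have h8 := USg_conj hF g⁻¹ e
      rw [uact_inv_fix g e hg] at h8
      rw [← h8]
      have h9 : g⁻¹ * u * g = MulAut.conj g⁻¹ • u := by
        rw [MulAut.smul_def, MulAut.conj_apply, inv_inv]
      rw [h9]
      exact Subgroup.smul_mem_pointwise_smul _ _ _ hu
  have hN0le : N0 (S₁ : Subgroup ↥(Cfsg.SU n F q)) e f ≤ (S₁ : Subgroup ↥(Cfsg.SU n F q)) := by
    intro y hy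
    have := hy.2 1 (uact_one e)
    simpa using this
  have hN0p : IsPGroup p (N0 (S₁ : Subgroup ↥(Cfsg.SU n F q)) e f) := S₁.isPGroup'.to_le hN0le
  obtain ⟨w₀, hw₀W, hw₀0, hw₀fix⟩ := psu_fix_sub p _ hN0p (perpSub hF e ⊓ perpSub hF f) (by
      intro s hs y hy
      rw [Submodule.mem_inf, mem_perpSub, mem_perpSub] at hy ⊢
      have hse : uact s e = e := hS₁ s (hN0le hs)
      have hsf : uact s f = f := hs.1
      constructor
      · calc ⟪uact s y, e⟫ = ⟪uact s y, uact s e⟫ := by rw [hse]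
          _ = 0 := by rw [uact_herm]; exact hy.1
      · calc ⟪uact s y, f⟫ = ⟪uact s y, uact s f⟫ := by rw [hsf]
          _ = 0 := by rw [uact_herm]; exact hy.2) (by
      intro h
      have hd : d ∈ perpSub hF e ⊓ perpSub hF f := by
        rw [Submodule.mem_inf, mem_perpSub, mem_perpSub]; exact ⟨hfr.de, hfr.df⟩
      rw [h, Submodule.mem_bot] at hd
      have := hfr.dd
      rw [hd, uh_zero_left] at this
      exact zero_ne_one this)
  let X : Submodule F (Fin n → F) :=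
    { carrier := {v | ∀ y ∈ N0 (S₁ : Subgroup ↥(Cfsg.SU n F q)) e f, uact y v = v}
      add_mem' := fun {a b} ha hb y hy => by rw [uact_add, ha y hy, hb y hy]
      zero_mem' := fun y _ => uact_zero y
      smul_mem' := fun c v hv y hy => by rw [uact_smul, hv y hy] }
  have hXW : ∀ w : Fin n → F, ⟪w, e⟫ = 0 → ⟪w, f⟫ = 0 → w ∈ X := by
    intro w hwe hwf
    rw [Submodule.mem_inf, mem_perpSub, mem_perpSub] at hw₀W
    refine hfr.irr hF hn X ?_ w₀ hw₀fix hw₀0 hw₀W.1 hw₀W.2 w hwe hwf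
    intro r a hre hrf hrr ha v hv y hy
    have hke : uact (utv hF r a) e = e := by
      rw [uact_utv hF r a hrr ha, psu_swap_zero hF hre, mul_zero, zero_smul, add_zero]
    have hkf : uact (utv hF r a) f = f := by
      rw [uact_utv hF r a hrr ha, psu_swap_zero hF hrf, mul_zero, zero_smul, add_zero]
    have hk : (utv hF r a)⁻¹ * y * utv hF r a ∈ N0 (S₁ : Subgroup ↥(Cfsg.SU n F q)) e f := by
      refine ⟨?_, fun g hg => ?_⟩
      · rw [uact_mul, uact_mul, hkf, hy.1, uact_inv_fix _ f hkf]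
      · have h10 : g⁻¹ * ((utv hF r a)⁻¹ * y * utv hF r a) * g
            = (utv hF r a * g)⁻¹ * y * (utv hF r a * g) := by group
        rw [h10]
        exact hy.2 _ (by rw [uact_mul, hg, hke])
    have h11 := hv _ hk
    rw [uact_mul, uact_mul] at h11
    calc uact y (uact (utv hF r a) v)
        = uact (utv hF r a) (uact (utv hF r a)⁻¹ (uact y (uact (utv hF r a) v))) := by
          rw [uact_uact_inv]
      _ = uact (utv hF r a) v := by rw [h11]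
  have hy₀1 : u⁻¹ * x₀ = 1 := by
    rw [uact_eq_iff]
    intro v
    have hdec := wproj_decomp (q := q) (e := e) (f := f) v
    have hye : uact (u⁻¹ * x₀) e = e := hS₁ _ (hN0le hy₀)
    have hyf : uact (u⁻¹ * x₀) f = f := hy₀.1
    rw [uact_one]
    calc uact (u⁻¹ * x₀) v = uact (u⁻¹ * x₀) (⟪v, f⟫ • e + ⟪v, e⟫ • f + wproj q e f v) := by
          rw [← hdec]
      _ = ⟪v, f⟫ • e + ⟪v, e⟫ • f + wproj q e f v := by
          rw [uact_add, uact_add, uact_smul, uact_smul, hye, hyf,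
            hXW _ (hfr.wproj_e hF v) (hfr.wproj_f hF v) _ hy₀]
      _ = v := hdec.symm
  have hxu : x₀ = u := by
    calc x₀ = u * (u⁻¹ * x₀) := by group
      _ = u := by rw [hy₀1, mul_one]
  rw [hxu]
  exact Subgroup.mem_map_of_mem _ hu

/-- an automorphism fixing the image of the root subgroup of `e` maps the image of the Siegel
group of `e` into itself -/
theorem Ub_map (hF : Fintype.card F = q ^ 2) (p : ℕ) [Fact p.Prime] [CharP F p]
    (hn : 3 ≤ n) (h32 : ¬ (n = 3 ∧ q = 2)) {e f d : Fin n → F} (hfr : UFrame q e f d)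
    (α : MulAut (Cfsg.PSU n F q)) (hα : (Tb hF e).map α.toMonoidHom = Tb hF e)
    (x : Cfsg.PSU n F q) (hx : x ∈ Ub hF e) : α x ∈ Ub hF e := by
  have he0 := hfr.e_ne hF
  apply Ub_char hF p hn h32 hfr
  intro Sb hZ
  have hZ' : ZIs hF p (α⁻¹ • Sb) e := by
    intro y
    constructor
    · rintro ⟨hy1, hy2⟩
      obtain ⟨t, ht, rfl⟩ := (psu_sylow_aut_mem α⁻¹ y Sb).1 hy1
      have ht' : t ∈ Tb hF e := by
        refine (hZ t).1 ⟨ht, fun z hz => ?_⟩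
        have h1 := hy2 (α⁻¹ z) ((psu_sylow_aut_mem α⁻¹ _ Sb).2 ⟨z, hz, rfl⟩)
        rw [← map_mul, ← map_mul] at h1
        exact (α⁻¹).injective h1
      rw [← hα, Subgroup.mem_map] at ht'
      obtain ⟨s, hs, rfl⟩ := ht'
      have h2 : α⁻¹ (α.toMonoidHom s) = s := by
        show α⁻¹ (α s) = s
        rw [← MulAut.mul_apply, inv_mul_cancel, MulAut.one_apply]
      rw [h2]; exact hs
    · intro hy
      have hαy : α y ∈ Tb hF e := by rw [← hα]; exact Subgroup.mem_map_of_mem _ hy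
      obtain ⟨h1, h2⟩ := (hZ (α y)).2 hαy
      have h3 : ∀ z : Cfsg.PSU n F q, α⁻¹ (α z) = z := by
        intro z
        rw [← MulAut.mul_apply, inv_mul_cancel, MulAut.one_apply]
      refine ⟨(psu_sylow_aut_mem α⁻¹ y Sb).2 ⟨α y, h1, (h3 y).symm⟩, fun z hz => ?_⟩
      obtain ⟨t, ht, rfl⟩ := (psu_sylow_aut_mem α⁻¹ z Sb).1 hz
      have h4 := h2 t ht
      have h5 : y = α⁻¹ (α y) := (h3 y).symm
      rw [h5, ← map_mul, ← map_mul, h4]
  have h1 := Ub_le_of_ZIs hF p (α⁻¹ • Sb) (by omega) e he0 hfr.ee hZ' hx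
  obtain ⟨t, ht, rfl⟩ := (psu_sylow_aut_mem α⁻¹ x Sb).1 h1
  have h2 : α (α⁻¹ t) = t := by
    rw [← MulAut.mul_apply, mul_inv_cancel, MulAut.one_apply]
  rw [h2]; exact ht

end Cfsg.Agent.Helper44.PSUn
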