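import Mathlib
import Cfsg.Agent.Helper44.PSUF

/-!
# Automorphisms of `PSU_n(q)` (helper44), part G: the action of an automorphism on isotropic points
-/

set_option autoImplicit false
set_option linter.unusedSimpArgs false
set_option linter.unusedSectionVars false
set_option linter.unusedVariables false

namespace Cfsg.Agent.Helper44.PSUn

open Matrix
open scoped Pointwise
open Cfsg.Agent.Helper5 (frobQ frobQ_apply frobQ_frobQ frobQ_ne_id)
open Cfsg.Agent.Helper13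

variable {F : Type*} [Field F] [Fintype F] {q n : ℕ}

local notation "⟪" x ", " y "⟫" => Cfsg.hermForm n F q x y

theorem Tb_conj (hF : Fintype.card F = q ^ 2) (x : ↥(Cfsg.SU n F q)) (v : Fin n → F) :
    Tb hF (uact x v) = (Tb hF v).map (MulAut.conj (prU x)).toMonoidHom := by
  unfold Tb
  rw [← uroot_conj, Subgroup.map_map]
  ext y
  rw [Subgroup.mem_map, Subgroup.mem_map]
  constructor
  · rintro ⟨t, ht, rfl⟩
    rw [Subgroup.mem_smul_pointwise_iff_exists] at ht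
    obtain ⟨t₀, ht₀, rfl⟩ := ht
    refine ⟨t₀, ht₀, ?_⟩
    show MulAut.conj (prU x) (prU t₀) = prU (MulAut.conj x • t₀)
    rw [MulAut.smul_def, MulAut.conj_apply, MulAut.conj_apply, map_mul, map_mul, map_inv]
  · rintro ⟨t₀, ht₀, rfl⟩
    refine ⟨MulAut.conj x • t₀, Subgroup.smul_mem_pointwise_smul _ _ _ ht₀, ?_⟩
    show prU (MulAut.conj x • t₀) = MulAut.conj (prU x) (prU t₀)
    rw [MulAut.smul_def, MulAut.conj_apply, MulAut.conj_apply, map_mul, map_mul, map_inv]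

theorem Tb_smul (hF : Fintype.card F = q ^ 2) (l : F) (hl : l ≠ 0) (v : Fin n → F) :
    Tb hF (l • v) = Tb hF v := by
  unfold Tb
  rw [uroot_smul hF l hl]

/-- equivariance of the action on points -/
theorem rel_conj (hF : Fintype.card F = q ^ 2) (α : MulAut (Cfsg.PSU n F q))
    (x x' : ↥(Cfsg.SU n F q)) (hL : α (prU x) = prU x') (v v' : Fin n → F)
    (hv : (Tb hF v).map α.toMonoidHom = Tb hF v') :
    (Tb hF (uact x v)).map α.toMonoidHom = Tb hF (uact x' v') := by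
  rw [Tb_conj, Tb_conj, ← hv, Subgroup.map_map, Subgroup.map_map]
  congr 1
  ext z
  show α (MulAut.conj (prU x) z) = MulAut.conj (prU x') (α z)
  rw [MulAut.conj_apply, MulAut.conj_apply, map_mul, map_mul, map_inv, hL]

theorem rel_inv (hF : Fintype.card F = q ^ 2) (α : MulAut (Cfsg.PSU n F q)) (v v' : Fin n → F)
    (hv : (Tb hF v).map α.toMonoidHom = Tb hF v') :
    (Tb hF v').map (α⁻¹).toMonoidHom = Tb hF v := by
  rw [← hv, Subgroup.map_map]
  have h : (α⁻¹).toMonoidHom.comp α.toMonoidHom = MonoidHom.id _ := by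
    ext z
    show α⁻¹ (α z) = z
    rw [← MulAut.mul_apply, inv_mul_cancel, MulAut.one_apply]
  rw [h, Subgroup.map_id]

/-- lifts of elements fixing the point `⟨e⟩` fix the point `⟨e⟩` -/
theorem lift_line (hF : Fintype.card F = q ^ 2) (p : ℕ) [Fact p.Prime] [CharP F p]
    (α : MulAut (Cfsg.PSU n F q)) (e : Fin n → F) (he0 : e ≠ 0) (he : ⟪e, e⟫ = 0)
    (hα : (Tb hF e).map α.toMonoidHom = Tb hF e)
    (x x' : ↥(Cfsg.SU n F q)) (hL : α (prU x) = prU x') (l : F) (hl : l ≠ 0)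
    (hx : uact x e = l • e) : ∃ l' : F, l' ≠ 0 ∧ uact x' e = l' • e := by
  have h1 := rel_conj hF α x x' hL e e hα
  rw [hx, Tb_smul hF l hl, hα] at h1
  exact Tb_eq hF p (uact x' e) e (uact_ne_zero x' e he0) (by rw [uact_herm]; exact he) he0 he
    h1.symm

/-- root subgroups with orthogonal centres commute -/
theorem utv_comm_of_perp (hF : Fintype.card F = q ^ 2) (v w : Fin n → F) (c c' : F)
    (hv : ⟪v, v⟫ = 0) (hc : frobQ hF c = -c) (hvw : ⟪v, w⟫ = 0) :
    utv hF v c * utv hF w c' = utv hF w c' * utv hF v c := by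
  have h1 := utv_conj hF (utv hF v c) w c'
  rw [uact_utv hF v c hv hc, psu_swap_zero hF hvw, mul_zero, zero_smul, add_zero] at h1
  calc utv hF v c * utv hF w c' = (utv hF v c * utv hF w c' * (utv hF v c)⁻¹) * utv hF v c := by
        group
    _ = utv hF w c' * utv hF v c := by rw [h1]

/-- the images of two root subgroups commute only if the centres are orthogonal -/
theorem perp_of_comm (hF : Fintype.card F = q ^ 2) (p : ℕ) [Fact p.Prime] [CharP F p]
    (v w : Fin n → F) (hv0 : v ≠ 0) (hv : ⟪v, v⟫ = 0) (hw0 : w ≠ 0) (hw : ⟪w, w⟫ = 0)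
    (h : ∀ a ∈ Tb hF v, ∀ b ∈ Tb hF w, a * b = b * a) : ⟪v, w⟫ = 0 := by
  obtain ⟨c0, hc0, hc0'⟩ := ufld_exists_skew hF
  have h1 := h (prU (utv hF v c0)) (Subgroup.mem_map_of_mem _ ⟨c0, hc0', rfl⟩)
    (prU (utv hF w c0)) (Subgroup.mem_map_of_mem _ ⟨c0, hc0', rfl⟩)
  have h2 : (QuotientGroup.mk (utv hF v c0 * utv hF w c0 * (utv hF v c0)⁻¹) : Cfsg.PSU n F q)
      = QuotientGroup.mk (utv hF w c0) := by
    rw [← prU_mk, ← prU_mk, map_mul, map_mul, h1, map_inv, mul_inv_cancel_right]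
  have hw' : ⟪uact (utv hF v c0) w, uact (utv hF v c0) w⟫ = 0 := by rw [uact_herm]; exact hw
  have h3 := psu_lift_unique hF p v hv0 hv _ _
    (by
      rw [utv_conj]
      exact uroot_pelem hF p _ hw' _ ⟨c0, hc0', rfl⟩)
    (uroot_pelem hF p w hw _ ⟨c0, hc0', rfl⟩) h2
  rw [utv_conj] at h3
  have h4 : uact (utv hF (uact (utv hF v c0) w) c0) w = uact (utv hF w c0) w := by rw [h3]
  rw [uact_utv hF _ c0 hw' hc0', uact_utv hF w c0 hw hc0', hw, mul_zero, zero_smul, add_zero]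
    at h4
  have h5 : (c0 * ⟪w, uact (utv hF v c0) w⟫) • uact (utv hF v c0) w = 0 := by
    have := h4
    rwa [add_eq_left] at this
  have h6 : ⟪w, uact (utv hF v c0) w⟫ = 0 := by
    rcases smul_eq_zero.1 h5 with h | h
    · rcases mul_eq_zero.1 h with h | h
      · exact absurd h hc0
      · exact h
    · exact absurd h (uact_ne_zero _ w hw0)
  rw [uact_utv hF v c0 hv hc0', uh_add_right hF, uh_smul_right hF, hw, map_mul, hc0',
    uh_conj hF] at h6
  have h7 : c0 * (⟪v, w⟫ * ⟪w, v⟫) = 0 := by linear_combination -h6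
  rcases mul_eq_zero.1 h7 with h | h
  · exact absurd h hc0
  · rcases mul_eq_zero.1 h with h | h
    · exact h
    · exact psu_swap_zero hF h

/-- automorphisms preserve orthogonality of points -/
theorem rel_perp (hF : Fintype.card F = q ^ 2) (p : ℕ) [Fact p.Prime] [CharP F p]
    (α : MulAut (Cfsg.PSU n F q)) (v v' w w' : Fin n → F)
    (hv : ⟪v, v⟫ = 0) (hw : ⟪w, w⟫ = 0)
    (hv'0 : v' ≠ 0) (hv' : ⟪v', v'⟫ = 0) (hw'0 : w' ≠ 0) (hw' : ⟪w', w'⟫ = 0)
    (hαv : (Tb hF v).map α.toMonoidHom = Tb hF v') (hαw : (Tb hF w).map α.toMonoidHom = Tb hF w')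
    (hvw : ⟪v, w⟫ = 0) : ⟪v', w'⟫ = 0 := by
  apply perp_of_comm hF p v' w' hv'0 hv' hw'0 hw'
  intro a ha b hb
  rw [← hαv, Subgroup.mem_map] at ha
  rw [← hαw, Subgroup.mem_map] at hb
  obtain ⟨a₀, ha₀, rfl⟩ := ha
  obtain ⟨b₀, hb₀, rfl⟩ := hb
  obtain ⟨s, ⟨c, hc, rfl⟩, rfl⟩ := (mem_Tb hF v a₀).1 ha₀
  obtain ⟨t, ⟨c', hc', rfl⟩, rfl⟩ := (mem_Tb hF w b₀).1 hb₀
  show α (prU (utv hF v c)) * α (prU (utv hF w c')) = α (prU (utv hF w c')) * α (prU (utv hF v c))
  rw [← map_mul, ← map_mul, ← map_mul, ← map_mul, utv_comm_of_perp hF v w c c' hv hc hvw]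

/-- **normalisation**: after composing with an inner automorphism, an automorphism fixes the
images of the root subgroups of `e` and of `f`. -/
theorem exists_normalize (hF : Fintype.card F = q ^ 2) (p : ℕ) [Fact p.Prime] [CharP F p]
    (hn : 3 ≤ n) (h32 : ¬ (n = 3 ∧ q = 2)) {e f d : Fin n → F} (hfr : UFrame q e f d)
    (α : MulAut (Cfsg.PSU n F q)) :
    ∃ g : ↥(Cfsg.SU n F q),
      (Tb hF e).map (MulAut.conj (prU g) * α).toMonoidHom = Tb hF e ∧
      (Tb hF f).map (MulAut.conj (prU g) * α).toMonoidHom = Tb hF f := by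
  have he0 := hfr.e_ne hF
  have hf0 := hfr.f_ne hF
  obtain ⟨e', he'0, he', hαe⟩ := rel_exists hF p hn h32 α e he0 hfr.ee
  obtain ⟨f', hf'0, hf', hαf⟩ := rel_exists hF p hn h32 α f hf0 hfr.ff
  have hef' : ⟪e', f'⟫ ≠ 0 := by
    intro h
    have h1 := rel_perp hF p α⁻¹ e' e f' f he' hf' he0 hfr.ee hf0 hfr.ff
      (rel_inv hF α e e' hαe) (rel_inv hF α f f' hαf) h
    rw [hfr.ef] at h1
    exact one_ne_zero h1
  have hef'' : frobQ hF ⟪e', f'⟫ ≠ 0 := fun h => hef' ((ufrob_eq_zero hF).1 h)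
  obtain ⟨g, hge, hgf⟩ := su_trans_hyp hF hn h32 e' ((frobQ hF ⟪e', f'⟫)⁻¹ • f') e f he'
    (by rw [uh_smul_left, uh_smul_right hF, hf']; ring)
    (by rw [uh_smul_right hF, map_inv₀, frobQ_frobQ, inv_mul_cancel₀ hef'])
    hfr.ee hfr.ff hfr.ef
  have hcomp : ∀ v : Fin n → F, (Tb hF v).map (MulAut.conj (prU g) * α).toMonoidHom
      = ((Tb hF v).map α.toMonoidHom).map (MulAut.conj (prU g)).toMonoidHom := by
    intro v
    rw [Subgroup.map_map]
    rfl
  refine ⟨g, ?_, ?_⟩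
  · rw [hcomp, hαe, ← Tb_conj, hge]
  · rw [hcomp, hαf, ← Tb_smul hF (frobQ hF ⟪e', f'⟫)⁻¹ (inv_ne_zero hef'') f', ← Tb_conj, hgf]

end Cfsg.Agent.Helper44.PSUn
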