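import Mathlib
import Cfsg.Agent.Helper44.PSUG

/-!
# Automorphisms of `PSU_n(q)` (helper44), part H: the map induced on `W ≅ USg e / uroot e`

For an automorphism `α` of `PSU_n(q)` fixing the images of the root subgroups of `e` and `f`, the
additive map `Abar α : W → W` with `α [usg e w b] = [usg e (Abar w) b']`.
-/

set_option autoImplicit false
set_option linter.unusedSimpArgs false
set_option linter.unusedSectionVars false
set_option linter.unusedVariables false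

namespace Cfsg.Agent.Helper44.PSUn

open Matrix
open scoped Pointwise
open Cfsg.Agent.Helper5 (frobQ frobQ_apply frobQ_frobQ frobQ_ne_id)
open Cfsg.Agent.Helper13

variable {F : Type*} [Field F] [Fintype F] {q n : ℕ}

local notation "⟪" x ", " y "⟫" => Cfsg.hermForm n F q x y

/-- valid Siegel parameters with `w ∈ W` -/
def SV (hF : Fintype.card F = q ^ 2) (e f w : Fin n → F) (b : F) : Prop :=
  ⟪w, e⟫ = 0 ∧ ⟪w, f⟫ = 0 ∧ b + frobQ hF b + ⟪w, w⟫ = 0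

theorem exists_SV (hF : Fintype.card F = q ^ 2) (e f w : Fin n → F) (hwe : ⟪w, e⟫ = 0)
    (hwf : ⟪w, f⟫ = 0) : ∃ b : F, SV hF e f w b := by
  obtain ⟨b, hb⟩ := psu_exists_tr hF (-⟪w, w⟫) (by rw [map_neg, psu_self_fix])
  exact ⟨b, hwe, hwf, by linear_combination hb⟩

theorem usg_mul_utv (hF : Fintype.card F = q ^ 2) (e w : Fin n → F) (b c : F) (he : ⟪e, e⟫ = 0)
    (hwe : ⟪w, e⟫ = 0) (hb : b + frobQ hF b + ⟪w, w⟫ = 0) (hc : frobQ hF c = -c) :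
    (b + c) + frobQ hF (b + c) + ⟪w, w⟫ = 0 ∧ usg hF e w b * utv hF e c = usg hF e w (b + c) := by
  have h0 : c + frobQ hF c + ⟪(0 : Fin n → F), 0⟫ = 0 := by rw [hc, uh_zero_left]; ring
  obtain ⟨⟨-, h2⟩, h3⟩ := usg_mul hF e w 0 b c he hwe hb (uh_zero_left _) h0
  rw [uh_zero_left, sub_zero, add_zero] at h2 h3
  refine ⟨h2, ?_⟩
  rw [← usg_zero hF e c he hc, h3]

section lifts

variable (hF : Fintype.card F = q ^ 2)

/-- images of transvections are transvections -/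
theorem exists_lift_utv (α : MulAut (Cfsg.PSU n F q)) (v v' : Fin n → F)
    (hv : (Tb hF v).map α.toMonoidHom = Tb hF v') (c : F) (hc : frobQ hF c = -c) :
    ∃ c' : F, frobQ hF c' = -c' ∧ α (prU (utv hF v c)) = prU (utv hF v' c') := by
  have h1 : α (prU (utv hF v c)) ∈ Tb hF v' := by
    rw [← hv]
    exact Subgroup.mem_map_of_mem _ (Subgroup.mem_map_of_mem _ ⟨c, hc, rfl⟩)
  obtain ⟨t, ⟨c', hc', rfl⟩, ht⟩ := (mem_Tb hF v' _).1 h1
  exact ⟨c', hc', ht.symm⟩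

theorem exists_lift_usg (p : ℕ) [Fact p.Prime] [CharP F p] (hn : 3 ≤ n) (h32 : ¬ (n = 3 ∧ q = 2)) {e f d : Fin n → F}
    (hfr : UFrame q e f d) (α : MulAut (Cfsg.PSU n F q))
    (hαe : (Tb hF e).map α.toMonoidHom = Tb hF e) (w : Fin n → F) (b : F)
    (hwb : SV hF e f w b) :
    ∃ (w' : Fin n → F) (b' : F), SV hF e f w' b' ∧
      α (prU (usg hF e w b)) = prU (usg hF e w' b') := by
  have h1 := Ub_map hF p hn h32 hfr α hαe (prU (usg hF e w b))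
    (Subgroup.mem_map_of_mem _ ⟨w, b, hwb.1, hwb.2.2, rfl⟩)
  obtain ⟨u', hu', hu⟩ := (mem_Ub hF e _).1 h1
  obtain ⟨w', b', h2, h3, h4, rfl⟩ := (mem_USg_iff hF e f hfr.ee hfr.ef u').1 hu'
  exact ⟨w', b', ⟨h2, h3, h4⟩, hu.symm⟩

/-- the map induced by `α` on `W` -/
noncomputable def Abar (hF : Fintype.card F = q ^ 2) (e f : Fin n → F)
    (α : MulAut (Cfsg.PSU n F q)) (w : Fin n → F) : Fin n → F :=
  open Classical in
  if h : ∃ w' : Fin n → F, ∃ b b' : F, SV hF e f w b ∧ SV hF e f w' b' ∧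
      α (prU (usg hF e w b)) = prU (usg hF e w' b') then Classical.choose h else 0

theorem Abar_eq (p : ℕ) [Fact p.Prime] [CharP F p] {e f d : Fin n → F} (hfr : UFrame q e f d) (α : MulAut (Cfsg.PSU n F q))
    (hαe : (Tb hF e).map α.toMonoidHom = Tb hF e) (w w' : Fin n → F) (b b' : F)
    (hwb : SV hF e f w b) (hwb' : SV hF e f w' b')
    (h : α (prU (usg hF e w b)) = prU (usg hF e w' b')) : Abar hF e f α w = w' := by
  have he0 := hfr.e_ne hF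
  have hex : ∃ w' : Fin n → F, ∃ b b' : F, SV hF e f w b ∧ SV hF e f w' b' ∧
      α (prU (usg hF e w b)) = prU (usg hF e w' b') := ⟨w', b, b', hwb, hwb', h⟩
  unfold Abar
  rw [dif_pos hex]
  obtain ⟨b₁, b₁', h1, h2, h3⟩ := Classical.choose_spec hex
  have hc : frobQ hF (b - b₁) = -(b - b₁) := by
    rw [map_sub]
    linear_combination hwb.2.2 - h1.2.2
  obtain ⟨-, h4⟩ := usg_mul_utv hF e w b₁ (b - b₁) hfr.ee h1.1 h1.2.2 hc
  obtain ⟨c', hc', h5⟩ := exists_lift_utv hF α e e hαe (b - b₁) hc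
  obtain ⟨h6, h7⟩ := usg_mul_utv hF e (Classical.choose hex) b₁' c' hfr.ee h2.1 h2.2.2 hc'
  have h8 : (QuotientGroup.mk (usg hF e w' b') : Cfsg.PSU n F q)
      = QuotientGroup.mk (usg hF e (Classical.choose hex) (b₁' + c')) := by
    rw [← prU_mk, ← prU_mk, ← h, ← h7, map_mul, ← h3, ← h5, ← map_mul, ← map_mul, h4]
    congr 3
    ring
  have h9 := psu_lift_unique hF p e he0 hfr.ee _ _
    (USg_pelem hF p e _ ⟨w', b', hwb'.1, hwb'.2.2, rfl⟩)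
    (USg_pelem hF p e _ ⟨_, _, h2.1, h6, rfl⟩) h8
  exact (usg_inj hF e f _ _ _ _ hfr.ee hfr.ef hwb'.1 hwb'.2.1 hwb'.2.2 h2.1 h2.2.1 h6 h9).1.symm

theorem Abar_spec (p : ℕ) [Fact p.Prime] [CharP F p] (hn : 3 ≤ n) (h32 : ¬ (n = 3 ∧ q = 2)) {e f d : Fin n → F}
    (hfr : UFrame q e f d) (α : MulAut (Cfsg.PSU n F q))
    (hαe : (Tb hF e).map α.toMonoidHom = Tb hF e) (w : Fin n → F) (b : F)
    (hwb : SV hF e f w b) :
    ∃ b' : F, SV hF e f (Abar hF e f α w) b' ∧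
      α (prU (usg hF e w b)) = prU (usg hF e (Abar hF e f α w) b') := by
  obtain ⟨w', b', h1, h2⟩ := exists_lift_usg hF p hn h32 hfr α hαe w b hwb
  rw [Abar_eq hF p hfr α hαe w w' b b' hwb h1 h2]
  exact ⟨b', h1, h2⟩

theorem Abar_mem (p : ℕ) [Fact p.Prime] [CharP F p] (hn : 3 ≤ n) (h32 : ¬ (n = 3 ∧ q = 2)) {e f d : Fin n → F}
    (hfr : UFrame q e f d) (α : MulAut (Cfsg.PSU n F q))
    (hαe : (Tb hF e).map α.toMonoidHom = Tb hF e) (w : Fin n → F)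
    (hwe : ⟪w, e⟫ = 0) (hwf : ⟪w, f⟫ = 0) :
    ⟪Abar hF e f α w, e⟫ = 0 ∧ ⟪Abar hF e f α w, f⟫ = 0 := by
  obtain ⟨b, hb⟩ := exists_SV hF e f w hwe hwf
  obtain ⟨b', h1, -⟩ := Abar_spec hF p hn h32 hfr α hαe w b hb
  exact ⟨h1.1, h1.2.1⟩

theorem Abar_add (p : ℕ) [Fact p.Prime] [CharP F p] (hn : 3 ≤ n) (h32 : ¬ (n = 3 ∧ q = 2)) {e f d : Fin n → F}
    (hfr : UFrame q e f d) (α : MulAut (Cfsg.PSU n F q))
    (hαe : (Tb hF e).map α.toMonoidHom = Tb hF e) (w₁ w₂ : Fin n → F)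
    (hw₁e : ⟪w₁, e⟫ = 0) (hw₁f : ⟪w₁, f⟫ = 0) (hw₂e : ⟪w₂, e⟫ = 0) (hw₂f : ⟪w₂, f⟫ = 0) :
    Abar hF e f α (w₁ + w₂) = Abar hF e f α w₁ + Abar hF e f α w₂ := by
  obtain ⟨b₁, hb₁⟩ := exists_SV hF e f w₁ hw₁e hw₁f
  obtain ⟨b₂, hb₂⟩ := exists_SV hF e f w₂ hw₂e hw₂f
  obtain ⟨b₁', h1, h1'⟩ := Abar_spec hF p hn h32 hfr α hαe w₁ b₁ hb₁
  obtain ⟨b₂', h2, h2'⟩ := Abar_spec hF p hn h32 hfr α hαe w₂ b₂ hb₂
  obtain ⟨⟨h3, h4⟩, h5⟩ := usg_mul hF e w₁ w₂ b₁ b₂ hfr.ee hb₁.1 hb₁.2.2 hb₂.1 hb₂.2.2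
  obtain ⟨⟨h6, h7⟩, h8⟩ := usg_mul hF e _ _ b₁' b₂' hfr.ee h1.1 h1.2.2 h2.1 h2.2.2
  apply Abar_eq hF p hfr α hαe (w₁ + w₂) _ _ _
    ⟨h3, by rw [uh_add_left, hw₁f, hw₂f, add_zero], h4⟩
    ⟨h6, by rw [uh_add_left, h1.2.1, h2.2.1, add_zero], h7⟩
  rw [← h5, ← h8, map_mul, map_mul, map_mul, h1', h2']

theorem Abar_zero (p : ℕ) [Fact p.Prime] [CharP F p] {e f d : Fin n → F}
    (hfr : UFrame q e f d) (α : MulAut (Cfsg.PSU n F q))
    (hαe : (Tb hF e).map α.toMonoidHom = Tb hF e) : Abar hF e f α 0 = 0 := by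
  have h0 : SV hF e f (0 : Fin n → F) 0 :=
    ⟨uh_zero_left _, uh_zero_left _, by rw [uh_zero_left, map_zero]; ring⟩
  apply Abar_eq hF p hfr α hαe 0 0 0 0 h0 h0
  rw [usg_one, map_one, map_one]

theorem Abar_inj (p : ℕ) [Fact p.Prime] [CharP F p] (hn : 3 ≤ n) (h32 : ¬ (n = 3 ∧ q = 2)) {e f d : Fin n → F}
    (hfr : UFrame q e f d) (α : MulAut (Cfsg.PSU n F q))
    (hαe : (Tb hF e).map α.toMonoidHom = Tb hF e) (w : Fin n → F)
    (hwe : ⟪w, e⟫ = 0) (hwf : ⟪w, f⟫ = 0) (h : Abar hF e f α w = 0) : w = 0 := by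
  have he0 := hfr.e_ne hF
  obtain ⟨b, hb⟩ := exists_SV hF e f w hwe hwf
  obtain ⟨b', h1, h2⟩ := Abar_spec hF p hn h32 hfr α hαe w b hb
  rw [h] at h1 h2
  have hb' : frobQ hF b' = -b' := by
    have := h1.2.2
    rw [uh_zero_left] at this
    linear_combination this
  rw [usg_zero hF e b' hfr.ee hb'] at h2
  have h3 : α (prU (usg hF e w b)) ∈ Tb hF e := by
    rw [h2]; exact Subgroup.mem_map_of_mem _ ⟨b', hb', rfl⟩
  rw [← hαe, Subgroup.mem_map] at h3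
  obtain ⟨t₀, ht₀, ht⟩ := h3
  have h4 : t₀ = prU (usg hF e w b) := α.injective ht
  obtain ⟨t, ⟨c, hc, rfl⟩, ht'⟩ := (mem_Tb hF e t₀).1 ht₀
  rw [h4] at ht'
  have h5 := psu_lift_unique hF p e he0 hfr.ee _ _
    (uroot_pelem hF p e hfr.ee _ ⟨c, hc, rfl⟩)
    (USg_pelem hF p e _ ⟨w, b, hb.1, hb.2.2, rfl⟩) ht'
  rw [← usg_zero hF e c hfr.ee hc] at h5
  exact (usg_inj hF e f 0 w c b hfr.ee hfr.ef (uh_zero_left _) (uh_zero_left _)
    (by rw [uh_zero_left, hc]; ring) hb.1 hb.2.1 hb.2.2 h5).1.symm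

/-- equivariance of `Abar` under elements fixing the points `⟨e⟩` and `⟨f⟩` -/
theorem Abar_conj (p : ℕ) [Fact p.Prime] [CharP F p] (hn : 3 ≤ n) (h32 : ¬ (n = 3 ∧ q = 2)) {e f d : Fin n → F}
    (hfr : UFrame q e f d) (α : MulAut (Cfsg.PSU n F q))
    (hαe : (Tb hF e).map α.toMonoidHom = Tb hF e)
    (l l' : ↥(Cfsg.SU n F q)) (hL : α (prU l) = prU l') (lam kap lam' kap' : F)
    (hlam : lam ≠ 0) (hkap : kap ≠ 0) (hlam' : lam' ≠ 0) (hkap' : kap' ≠ 0)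
    (hle : uact l e = lam • e) (hlf : uact l f = kap • f)
    (hle' : uact l' e = lam' • e) (hlf' : uact l' f = kap' • f)
    (w : Fin n → F) (hwe : ⟪w, e⟫ = 0) (hwf : ⟪w, f⟫ = 0) :
    Abar hF e f α (frobQ hF lam • uact l w) = frobQ hF lam' • uact l' (Abar hF e f α w) := by
  have hfz : ∀ x : F, x ≠ 0 → frobQ hF x ≠ 0 := fun x hx h => hx ((ufrob_eq_zero hF).1 h)
  -- elements fixing the two points preserve `W`
  have hW : ∀ (k : ↥(Cfsg.SU n F q)) (a c : F) (y : Fin n → F), a ≠ 0 → c ≠ 0 →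
      uact k e = a • e → uact k f = c • f → ⟪y, e⟫ = 0 → ⟪y, f⟫ = 0 →
      ⟪uact k y, e⟫ = 0 ∧ ⟪uact k y, f⟫ = 0 := by
    intro k a c y ha hc hke hkf hye hyf
    have h1 := uact_herm k y e
    have h2 := uact_herm k y f
    rw [hke, uh_smul_right hF, hye] at h1
    rw [hkf, uh_smul_right hF, hyf] at h2
    constructor
    · rcases mul_eq_zero.1 h1 with h | h
      · exact absurd h (hfz a ha)
      · exact h
    · rcases mul_eq_zero.1 h2 with h | h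
      · exact absurd h (hfz c hc)
      · exact h
  obtain ⟨b, hb⟩ := exists_SV hF e f w hwe hwf
  obtain ⟨b', h1, h2⟩ := Abar_spec hF p hn h32 hfr α hαe w b hb
  obtain ⟨hlw1, hlw2⟩ := hW l lam kap w hlam hkap hle hlf hwe hwf
  obtain ⟨hlw1', hlw2'⟩ := hW l' lam' kap' _ hlam' hkap' hle' hlf' h1.1 h1.2.1
  obtain ⟨⟨h3, h4⟩, h5⟩ := usg_smul_left hF lam e (uact l w) b hfr.ee hlw1
    (by rw [uact_herm]; exact hb.2.2)
  obtain ⟨⟨h3', h4'⟩, h5'⟩ := usg_smul_left hF lam' e (uact l' (Abar hF e f α w)) b' hfr.ee hlw1'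
    (by rw [uact_herm]; exact h1.2.2)
  apply Abar_eq hF p hfr α hαe _ _ _ _
    ⟨h3, by rw [uh_smul_left, hlw2, mul_zero], h4⟩
    ⟨h3', by rw [uh_smul_left, hlw2', mul_zero], h4'⟩
  rw [← h5, ← h5', ← hle, ← hle', ← usg_conj, ← usg_conj]
  simp only [map_mul, map_inv, hL, h2]

end lifts

end Cfsg.Agent.Helper44.PSUn
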