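import Mathlib
import Cfsg.Agent.Helper44.PSUH

/-!
# Automorphisms of `PSU_n(q)` (helper44), part I: torus elements of `SU_n(q)`
-/

set_option autoImplicit false
set_option linter.unusedSimpArgs false
set_option linter.unusedSectionVars false
set_option linter.unusedVariables false

namespace Cfsg.Agent.Helper44.PSUn

open Matrix
open scoped Pointwise
open Cfsg.Agent.Helper5 (frobQ frobQ_apply frobQ_frobQ frobQ_ne_id)
open Cfsg.Agent.Helper13

variable {F : Type*} [Field F] [Fintype F] {q n : ℕ}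

local notation "⟪" x ", " y "⟫" => Cfsg.hermForm n F q x y

/-- the matrix of the hyperbolic rotation `u ↦ l u`, `v ↦ m v` -/
def rotM (q : ℕ) (u v : Fin n → F) (l m : F) : Matrix (Fin n) (Fin n) F :=
  (1 + (l - 1) • rk1 q u v) * (1 + (m - 1) • rk1 q v u)

theorem rotM_mulVec (u v : Fin n → F) (l m : F) (hv : ⟪v, v⟫ = 0) (x : Fin n → F) :
    rotM q u v l m *ᵥ x = x + ((m - 1) * ⟪x, u⟫) • v + ((l - 1) * ⟪x, v⟫) • u := by
  unfold rotM
  rw [← Matrix.mulVec_mulVec, one_add_rk1_mulVec, one_add_rk1_mulVec, uh_add_left, uh_smul_left,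
    hv, mul_zero, add_zero]

theorem rotM_det (hF : Fintype.card F = q ^ 2) (u v : Fin n → F) (l m : F) (huv : ⟪u, v⟫ = 1) :
    (rotM q u v l m).det = l * m := by
  unfold rotM
  rw [Matrix.det_mul, det_one_add_rk1, det_one_add_rk1, huv, psu_swap_one hF huv]
  ring

theorem rotM_iso (hF : Fintype.card F = q ^ 2) (u v : Fin n → F) (l m : F) (hu : ⟪u, u⟫ = 0)
    (hv : ⟪v, v⟫ = 0) (huv : ⟪u, v⟫ = 1) (hlm : l * frobQ hF m = 1) (x y : Fin n → F) :
    ⟪rotM q u v l m *ᵥ x, rotM q u v l m *ᵥ y⟫ = ⟪x, y⟫ := by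
  have hvu := psu_swap_one hF huv
  have hlm' : m * frobQ hF l = 1 := by
    have := congrArg (frobQ hF) hlm
    rw [map_mul, frobQ_frobQ, map_one] at this
    linear_combination this
  rw [rotM_mulVec u v l m hv, rotM_mulVec u v l m hv]
  simp only [uh_add_left, uh_add_right hF, uh_smul_left, uh_smul_right hF, hu, hv, huv, hvu,
    map_mul, map_sub, map_one, uh_conj hF]
  linear_combination (⟪x, v⟫ * ⟪u, y⟫) * hlm + (⟪x, u⟫ * ⟪v, y⟫) * hlm'

/-- the matrix of the dilation `d ↦ κ d` -/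
def dilM (q : ℕ) (d : Fin n → F) (κ : F) : Matrix (Fin n) (Fin n) F :=
  1 + (κ - 1) • rk1 q d d

theorem dilM_mulVec (d : Fin n → F) (κ : F) (x : Fin n → F) :
    dilM q d κ *ᵥ x = x + ((κ - 1) * ⟪x, d⟫) • d := by
  unfold dilM
  rw [one_add_rk1_mulVec]

theorem dilM_det (d : Fin n → F) (κ : F) (hd : ⟪d, d⟫ = 1) : (dilM q d κ).det = κ := by
  unfold dilM
  rw [det_one_add_rk1, hd]
  ring

theorem dilM_iso (hF : Fintype.card F = q ^ 2) (d : Fin n → F) (κ : F) (hd : ⟪d, d⟫ = 1)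
    (hκ : κ * frobQ hF κ = 1) (x y : Fin n → F) :
    ⟪dilM q d κ *ᵥ x, dilM q d κ *ᵥ y⟫ = ⟪x, y⟫ := by
  rw [dilM_mulVec, dilM_mulVec]
  simp only [uh_add_left, uh_add_right hF, uh_smul_left, uh_smul_right hF, hd,
    map_mul, map_sub, map_one, uh_conj hF]
  linear_combination (⟪x, d⟫ * ⟪d, y⟫) * hκ

/-- torus elements for `n ≥ 4`: `e ↦ lam e`, `f ↦ lam^{-q} f`, `r ↦ kap r` -/
theorem exists_tor4 (hF : Fintype.card F = q ^ 2) (e f r s : Fin n → F)
    (he : ⟪e, e⟫ = 0) (hf : ⟪f, f⟫ = 0) (hef : ⟪e, f⟫ = 1)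
    (hr : ⟪r, r⟫ = 0) (hs : ⟪s, s⟫ = 0) (hrs : ⟪r, s⟫ = 1)
    (hre : ⟪r, e⟫ = 0) (hrf : ⟪r, f⟫ = 0) (hse : ⟪s, e⟫ = 0) (hsf : ⟪s, f⟫ = 0)
    (lam kap : F) (hlam : lam ≠ 0) (hkap : kap ≠ 0)
    (hlk : frobQ hF (lam * kap) = lam * kap) :
    ∃ D : ↥(Cfsg.SU n F q), uact D e = lam • e ∧ uact D f = (frobQ hF lam)⁻¹ • f ∧
      uact D r = kap • r := by
  have hfz : ∀ x : F, x ≠ 0 → frobQ hF x ≠ 0 := fun x hx h => hx ((ufrob_eq_zero hF).1 h)
  have hlam' := hfz lam hlam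
  have hkap' := hfz kap hkap
  have hfe := psu_swap_one hF hef
  have hsr := psu_swap_one hF hrs
  have her := psu_swap_zero hF hre
  have hfr' := psu_swap_zero hF hrf
  have hes := psu_swap_zero hF hse
  have hfs := psu_swap_zero hF hsf
  have hdet : (rotM q e f lam (frobQ hF lam)⁻¹ * rotM q r s kap (frobQ hF kap)⁻¹).det = 1 := by
    rw [Matrix.det_mul, rotM_det hF e f _ _ hef, rotM_det hF r s _ _ hrs]
    rw [map_mul] at hlk
    field_simp
    linear_combination -hlk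
  have hiso : ∀ x y : Fin n → F,
      ⟪(rotM q e f lam (frobQ hF lam)⁻¹ * rotM q r s kap (frobQ hF kap)⁻¹) *ᵥ x,
        (rotM q e f lam (frobQ hF lam)⁻¹ * rotM q r s kap (frobQ hF kap)⁻¹) *ᵥ y⟫ = ⟪x, y⟫ := by
    intro x y
    rw [← Matrix.mulVec_mulVec, ← Matrix.mulVec_mulVec,
      rotM_iso hF e f _ _ he hf hef (by rw [map_inv₀, frobQ_frobQ, mul_inv_cancel₀ hlam]),
      rotM_iso hF r s _ _ hr hs hrs (by rw [map_inv₀, frobQ_frobQ, mul_inv_cancel₀ hkap])]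
  refine ⟨mkSU _ hdet hiso, ?_, ?_, ?_⟩
  · rw [uact_mkSU, ← Matrix.mulVec_mulVec, rotM_mulVec r s _ _ hs, her, hes, mul_zero, zero_smul,
      mul_zero, zero_smul, add_zero, add_zero, rotM_mulVec e f _ _ hf, he, hef]
    module
  · rw [uact_mkSU, ← Matrix.mulVec_mulVec, rotM_mulVec r s _ _ hs, hfr', hfs, mul_zero, zero_smul,
      mul_zero, zero_smul, add_zero, add_zero, rotM_mulVec e f _ _ hf, hf, hfe]
    module
  · rw [uact_mkSU, ← Matrix.mulVec_mulVec, rotM_mulVec r s _ _ hs, hr, hrs, mul_zero, zero_smul,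
      add_zero, mul_one, rotM_mulVec e f _ _ hf]
    simp only [uh_add_left, uh_smul_left, hre, hrf, mul_zero, add_zero, zero_smul]
    module

/-- torus elements for `n = 3`: `e ↦ lam e`, `f ↦ lam^{-q} f`, `d ↦ (lam^q / lam) d` -/
theorem exists_tor3 (hF : Fintype.card F = q ^ 2) (e f d : Fin n → F)
    (he : ⟪e, e⟫ = 0) (hf : ⟪f, f⟫ = 0) (hef : ⟪e, f⟫ = 1)
    (hd : ⟪d, d⟫ = 1) (hde : ⟪d, e⟫ = 0) (hdf : ⟪d, f⟫ = 0)
    (lam : F) (hlam : lam ≠ 0) :
    ∃ D : ↥(Cfsg.SU n F q), uact D e = lam • e ∧ uact D f = (frobQ hF lam)⁻¹ • f ∧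
      uact D d = (frobQ hF lam / lam) • d := by
  have hfz : ∀ x : F, x ≠ 0 → frobQ hF x ≠ 0 := fun x hx h => hx ((ufrob_eq_zero hF).1 h)
  have hlam' := hfz lam hlam
  have hfe := psu_swap_one hF hef
  have hed := psu_swap_zero hF hde
  have hfd := psu_swap_zero hF hdf
  have hdet : (rotM q e f lam (frobQ hF lam)⁻¹ * dilM q d (frobQ hF lam / lam)).det = 1 := by
    rw [Matrix.det_mul, rotM_det hF e f _ _ hef, dilM_det d _ hd]
    field_simp
  have hiso : ∀ x y : Fin n → F,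
      ⟪(rotM q e f lam (frobQ hF lam)⁻¹ * dilM q d (frobQ hF lam / lam)) *ᵥ x,
        (rotM q e f lam (frobQ hF lam)⁻¹ * dilM q d (frobQ hF lam / lam)) *ᵥ y⟫ = ⟪x, y⟫ := by
    intro x y
    rw [← Matrix.mulVec_mulVec, ← Matrix.mulVec_mulVec,
      rotM_iso hF e f _ _ he hf hef (by rw [map_inv₀, frobQ_frobQ, mul_inv_cancel₀ hlam]),
      dilM_iso hF d _ hd (by rw [map_div₀, frobQ_frobQ]; field_simp)]
  refine ⟨mkSU _ hdet hiso, ?_, ?_, ?_⟩
  · rw [uact_mkSU, ← Matrix.mulVec_mulVec, dilM_mulVec, hed, mul_zero, zero_smul, add_zero,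
      rotM_mulVec e f _ _ hf, he, hef]
    module
  · rw [uact_mkSU, ← Matrix.mulVec_mulVec, dilM_mulVec, hfd, mul_zero, zero_smul, add_zero,
      rotM_mulVec e f _ _ hf, hf, hfe]
    module
  · rw [uact_mkSU, ← Matrix.mulVec_mulVec, dilM_mulVec, hd, mul_one, rotM_mulVec e f _ _ hf]
    simp only [uh_add_left, uh_smul_left, hde, hdf, mul_zero, add_zero, zero_smul]
    module

end Cfsg.Agent.Helper44.PSUn
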