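import Mathlib
import Cfsg.Agent.Helper44.SpR
import Cfsg.Agent.Helper97.SpSFFinal

/-!
# `PSp_4(2^f)` (helper44), part S: the exceptional endomorphism of `Sp_4` in characteristic two

For a symplectic `4 × 4` matrix `g` over a field of characteristic two, the `2 × 2` minors of
`g` on the four totally isotropic coordinate pairs form again a symplectic matrix `gphM g`, and
`g ↦ gphM g` is multiplicative: this is the exceptional isogeny of `B_2 = C_2`.  It maps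
transvections to alternating involutions, and its square maps the transvection `x ↦ x + c f(x,e) e`
to `x ↦ x + c² f(x,e) e`.
-/

set_option autoImplicit false
set_option linter.unusedSimpArgs false
set_option linter.unusedSectionVars false
set_option linter.unusedVariables false

namespace Cfsg.Agent.Helper44.PSpn

open Matrix
open scoped Pointwise
open scoped commutatorElement
open Cfsg.Agent.Helper13 (sympForm_add_left sympForm_add_right sympForm_smul_left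
  sympForm_smul_right sympForm_swap sympForm_self sympForm_zero_left sympForm_zero_right
  sympForm_neg_left sympForm_neg_right sympForm_sub_left sympForm_sub_right)
open Cfsg.Agent.Helper5 (spTv spTv_mulVec sp_ext sp_sympForm sp_coe_one sp_mul_mulVec
  sp_inv_mulVec sp_mulVec_inv)

universe u

section graph

variable {F : Type u} [Field F]

local notation "⟪" x ", " y "⟫" => Cfsg.sympForm 2 F x y

/-- first index of the totally isotropic coordinate pair attached to an index -/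
def gphA : Fin 2 ⊕ Fin 2 → Fin 2 ⊕ Fin 2 :=
  Sum.elim ![Sum.inl 0, Sum.inl 0] ![Sum.inr 0, Sum.inl 1]

/-- second index of the totally isotropic coordinate pair attached to an index -/
def gphB : Fin 2 ⊕ Fin 2 → Fin 2 ⊕ Fin 2 :=
  Sum.elim ![Sum.inl 1, Sum.inr 1] ![Sum.inr 1, Sum.inr 0]

/-- the four isotropic Plücker coordinates of `u ∧ v` -/
def gphW (u v : Fin 2 ⊕ Fin 2 → F) : Fin 2 ⊕ Fin 2 → F :=
  fun Q => u (gphA Q) * v (gphB Q) - u (gphB Q) * v (gphA Q)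

/-- the matrix of isotropic `2 × 2` minors -/
def gphM (g : Matrix (Fin 2 ⊕ Fin 2) (Fin 2 ⊕ Fin 2) F) :
    Matrix (Fin 2 ⊕ Fin 2) (Fin 2 ⊕ Fin 2) F :=
  fun Q P => g (gphA Q) (gphA P) * g (gphB Q) (gphB P) - g (gphB Q) (gphA P) * g (gphA Q) (gphB P)

theorem gphM_apply_col (g : Matrix (Fin 2 ⊕ Fin 2) (Fin 2 ⊕ Fin 2) F) (Q P : Fin 2 ⊕ Fin 2) :
    gphM g Q P = gphW (fun k => g k (gphA P)) (fun k => g k (gphB P)) Q := rfl

theorem gphM_apply_row (g : Matrix (Fin 2 ⊕ Fin 2) (Fin 2 ⊕ Fin 2) F) (Q P : Fin 2 ⊕ Fin 2) :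
    gphM g Q P = gphW (g (gphA Q)) (g (gphB Q)) P := by
  unfold gphM gphW
  ring

theorem sf_apply2 (u v : Fin 2 ⊕ Fin 2 → F) :
    ⟪u, v⟫ = u (Sum.inr 0) * v (Sum.inl 0) - u (Sum.inl 0) * v (Sum.inr 0)
      + (u (Sum.inr 1) * v (Sum.inl 1) - u (Sum.inl 1) * v (Sum.inr 1)) := by
  rw [Cfsg.Agent.Helper13.sympForm_apply, Fin.sum_univ_two]

/-- Cauchy–Binet on the isotropic pairs, with the defect -/
theorem gphW_cb (u v x y : Fin 2 ⊕ Fin 2 → F) :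
    (u ⬝ᵥ x) * (v ⬝ᵥ y) - (u ⬝ᵥ y) * (v ⬝ᵥ x)
      = ∑ R, gphW u v R * gphW x y R
        + 2 * ((u (Sum.inl 0) * v (Sum.inr 0) - u (Sum.inr 0) * v (Sum.inl 0))
          * (x (Sum.inl 0) * y (Sum.inr 0) - x (Sum.inr 0) * y (Sum.inl 0)))
        - ⟪u, v⟫ * (x (Sum.inl 1) * y (Sum.inr 1) - x (Sum.inr 1) * y (Sum.inl 1))
        + (u (Sum.inl 0) * v (Sum.inr 0) - u (Sum.inr 0) * v (Sum.inl 0)) * ⟪x, y⟫ := by
  simp only [sf_apply2, dotProduct, gphW, gphA, gphB, Fintype.sum_sum_type, Fin.sum_univ_two,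
    Sum.elim_inl, Sum.elim_inr, Matrix.cons_val_zero, Matrix.cons_val_one]
  ring

/-- the form on the isotropic Plücker coordinates, with the defect -/
theorem gphW_form (x y x' y' : Fin 2 ⊕ Fin 2 → F) :
    ⟪gphW x y, gphW x' y'⟫
      = ⟪x, x'⟫ * ⟪y, y'⟫ - ⟪x, y'⟫ * ⟪y, x'⟫ - ⟪x, y⟫ * ⟪x', y'⟫
        - (x (Sum.inl 0) * y (Sum.inr 0) - x (Sum.inr 0) * y (Sum.inl 0)) * ⟪x', y'⟫
        - (x' (Sum.inl 0) * y' (Sum.inr 0) - x' (Sum.inr 0) * y' (Sum.inl 0)) * ⟪x, y⟫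
        - 2 * ((x (Sum.inl 0) * y (Sum.inl 1) - x (Sum.inl 1) * y (Sum.inl 0))
              * (x' (Sum.inr 0) * y' (Sum.inr 1) - x' (Sum.inr 1) * y' (Sum.inr 0))
            + (x (Sum.inl 0) * y (Sum.inr 1) - x (Sum.inr 1) * y (Sum.inl 0))
              * (x' (Sum.inl 1) * y' (Sum.inr 0) - x' (Sum.inr 0) * y' (Sum.inl 1))
            + (x (Sum.inl 0) * y (Sum.inr 0) - x (Sum.inr 0) * y (Sum.inl 0))
              * (x' (Sum.inl 0) * y' (Sum.inr 0) - x' (Sum.inr 0) * y' (Sum.inl 0))) := by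
  simp only [sf_apply2, gphW, gphA, gphB,
    Sum.elim_inl, Sum.elim_inr, Matrix.cons_val_zero, Matrix.cons_val_one]
  ring

theorem sp_col_form (s : Matrix.symplecticGroup (Fin 2) F) (i j : Fin 2 ⊕ Fin 2) :
    ⟪fun k => (s : Matrix (Fin 2 ⊕ Fin 2) (Fin 2 ⊕ Fin 2) F) k i,
      fun k => (s : Matrix (Fin 2 ⊕ Fin 2) (Fin 2 ⊕ Fin 2) F) k j⟫
      = Matrix.J (Fin 2) F i j := by
  have h := sp_sympForm s (Pi.single i 1) (Pi.single j 1)
  rw [sf_single, Matrix.mulVec_single_one, Matrix.mulVec_single_one] at h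
  exact h

theorem sp_row_form (s : Matrix.symplecticGroup (Fin 2) F) (i j : Fin 2 ⊕ Fin 2) :
    ⟪fun k => (s : Matrix (Fin 2 ⊕ Fin 2) (Fin 2 ⊕ Fin 2) F) i k,
      fun k => (s : Matrix (Fin 2 ⊕ Fin 2) (Fin 2 ⊕ Fin 2) F) j k⟫
      = Matrix.J (Fin 2) F i j :=
  sp_col_form ⟨(s : Matrix (Fin 2 ⊕ Fin 2) (Fin 2 ⊕ Fin 2) F)ᵀ,
    SymplecticGroup.transpose_mem s.2⟩ i j

theorem gph_J (P : Fin 2 ⊕ Fin 2) : Matrix.J (Fin 2) F (gphA P) (gphB P) = 0 := by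
  rcases P with i | i <;> fin_cases i <;>
    simp [gphA, gphB, Matrix.J, Matrix.fromBlocks]

theorem gphM_one : gphM (1 : Matrix (Fin 2 ⊕ Fin 2) (Fin 2 ⊕ Fin 2) F) = 1 := by
  ext Q P
  rcases Q with i | i <;> fin_cases i <;> rcases P with j | j <;> fin_cases j <;>
    simp [gphM, gphA, gphB, Matrix.one_apply]

theorem gphM_mul [CharP F 2] (g h : Matrix.symplecticGroup (Fin 2) F) :
    gphM ((g : Matrix (Fin 2 ⊕ Fin 2) (Fin 2 ⊕ Fin 2) F)
        * (h : Matrix (Fin 2 ⊕ Fin 2) (Fin 2 ⊕ Fin 2) F))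
      = gphM (g : Matrix (Fin 2 ⊕ Fin 2) (Fin 2 ⊕ Fin 2) F)
        * gphM (h : Matrix (Fin 2 ⊕ Fin 2) (Fin 2 ⊕ Fin 2) F) := by
  have h2 : (2 : F) = 0 := CharTwo.two_eq_zero
  ext Q P
  have key := gphW_cb ((g : Matrix (Fin 2 ⊕ Fin 2) (Fin 2 ⊕ Fin 2) F) (gphA Q))
    ((g : Matrix (Fin 2 ⊕ Fin 2) (Fin 2 ⊕ Fin 2) F) (gphB Q))
    (fun k => (h : Matrix (Fin 2 ⊕ Fin 2) (Fin 2 ⊕ Fin 2) F) k (gphA P))
    (fun k => (h : Matrix (Fin 2 ⊕ Fin 2) (Fin 2 ⊕ Fin 2) F) k (gphB P))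
  have hr := sp_row_form g (gphA Q) (gphB Q)
  have hc := sp_col_form h (gphA P) (gphB P)
  rw [gph_J] at hr hc
  rw [hr, hc, h2] at key
  rw [Matrix.mul_apply]
  simp only [gphM_apply_row (g : Matrix (Fin 2 ⊕ Fin 2) (Fin 2 ⊕ Fin 2) F),
    gphM_apply_col (h : Matrix (Fin 2 ⊕ Fin 2) (Fin 2 ⊕ Fin 2) F)]
  have e : gphM ((g : Matrix (Fin 2 ⊕ Fin 2) (Fin 2 ⊕ Fin 2) F)
        * (h : Matrix (Fin 2 ⊕ Fin 2) (Fin 2 ⊕ Fin 2) F)) Q P
      = (g : Matrix (Fin 2 ⊕ Fin 2) (Fin 2 ⊕ Fin 2) F) (gphA Q) ⬝ᵥ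
        (fun k => (h : Matrix (Fin 2 ⊕ Fin 2) (Fin 2 ⊕ Fin 2) F) k (gphA P))
      * ((g : Matrix (Fin 2 ⊕ Fin 2) (Fin 2 ⊕ Fin 2) F) (gphB Q) ⬝ᵥ
        (fun k => (h : Matrix (Fin 2 ⊕ Fin 2) (Fin 2 ⊕ Fin 2) F) k (gphB P)))
      - (g : Matrix (Fin 2 ⊕ Fin 2) (Fin 2 ⊕ Fin 2) F) (gphB Q) ⬝ᵥ
        (fun k => (h : Matrix (Fin 2 ⊕ Fin 2) (Fin 2 ⊕ Fin 2) F) k (gphA P))
      * ((g : Matrix (Fin 2 ⊕ Fin 2) (Fin 2 ⊕ Fin 2) F) (gphA Q) ⬝ᵥ
        (fun k => (h : Matrix (Fin 2 ⊕ Fin 2) (Fin 2 ⊕ Fin 2) F) k (gphB P))) := rfl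
  rw [e]
  linear_combination key

theorem gphM_col (g : Matrix (Fin 2 ⊕ Fin 2) (Fin 2 ⊕ Fin 2) F) (P : Fin 2 ⊕ Fin 2) :
    gphM g *ᵥ Pi.single P 1 = gphW (fun k => g k (gphA P)) (fun k => g k (gphB P)) := by
  rw [Matrix.mulVec_single_one]
  rfl

theorem gph_J_pair [CharP F 2] (P P' : Fin 2 ⊕ Fin 2) :
    Matrix.J (Fin 2) F (gphA P) (gphA P') * Matrix.J (Fin 2) F (gphB P) (gphB P')
      - Matrix.J (Fin 2) F (gphA P) (gphB P') * Matrix.J (Fin 2) F (gphB P) (gphA P')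
      = Matrix.J (Fin 2) F P P' := by
  have h2 : (-1 : F) = 1 := CharTwo.neg_eq 1
  rcases P with i | i <;> fin_cases i <;> rcases P' with j | j <;> fin_cases j <;>
    simp [gphA, gphB, Matrix.J, Matrix.fromBlocks, h2]

theorem gphM_mem [CharP F 2] (g : Matrix.symplecticGroup (Fin 2) F) :
    gphM (g : Matrix (Fin 2 ⊕ Fin 2) (Fin 2 ⊕ Fin 2) F) ∈ Matrix.symplecticGroup (Fin 2) F := by
  have h2 : (2 : F) = 0 := CharTwo.two_eq_zero
  rw [Cfsg.Agent.Helper13.mem_symplecticGroup_iff_sympForm]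
  intro x y
  have h1 := Cfsg.Agent.Helper97.SpSF.sf_gram_ext
    (gphM (g : Matrix (Fin 2 ⊕ Fin 2) (Fin 2 ⊕ Fin 2) F)) 1 (by
      intro a b
      rw [gphM_col, gphM_col, gphW_form, sp_col_form, sp_col_form, sp_col_form, sp_col_form,
        sp_col_form, sp_col_form, gph_J, gph_J, h2, one_mul, sf_single, ← gph_J_pair a b]
      ring) x y
  rw [h1, one_mul]

/-- the exceptional endomorphism of `Sp_4(F)` in characteristic two -/
def gphHom [CharP F 2] :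
    Matrix.symplecticGroup (Fin 2) F →* Matrix.symplecticGroup (Fin 2) F where
  toFun g := ⟨gphM (g : Matrix (Fin 2 ⊕ Fin 2) (Fin 2 ⊕ Fin 2) F), gphM_mem g⟩
  map_one' := Subtype.ext gphM_one
  map_mul' g h := Subtype.ext (gphM_mul g h)

theorem gphHom_coe [CharP F 2] (g : Matrix.symplecticGroup (Fin 2) F) :
    ((gphHom g : Matrix.symplecticGroup (Fin 2) F) : Matrix (Fin 2 ⊕ Fin 2) (Fin 2 ⊕ Fin 2) F)
      = gphM (g : Matrix (Fin 2 ⊕ Fin 2) (Fin 2 ⊕ Fin 2) F) := rfl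

/-- the entries of a transvection -/
theorem tv_coe_apply (v : Fin 2 ⊕ Fin 2 → F) (c : F) (i j : Fin 2 ⊕ Fin 2) :
    ((spTv 2 v c : Matrix.symplecticGroup (Fin 2) F) :
        Matrix (Fin 2 ⊕ Fin 2) (Fin 2 ⊕ Fin 2) F) i j
      = (1 : Matrix (Fin 2 ⊕ Fin 2) (Fin 2 ⊕ Fin 2) F) i j
        + c * (v i * (Matrix.J (Fin 2) F *ᵥ v) j) := by
  rw [Cfsg.Agent.Helper5.spTv_coe]
  unfold Cfsg.sympTransvection
  rw [Matrix.add_apply, Matrix.smul_apply, Matrix.vecMulVec_apply, smul_eq_mul]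

/-- the entries of a transvection along a coordinate vector -/
theorem tv_single_apply (a : Fin 2 ⊕ Fin 2) (c : F) (i j : Fin 2 ⊕ Fin 2) :
    ((spTv 2 (Pi.single a 1) c : Matrix.symplecticGroup (Fin 2) F) :
        Matrix (Fin 2 ⊕ Fin 2) (Fin 2 ⊕ Fin 2) F) i j
      = (1 : Matrix (Fin 2 ⊕ Fin 2) (Fin 2 ⊕ Fin 2) F) i j
        + c * ((Pi.single a 1 : Fin 2 ⊕ Fin 2 → F) i * Matrix.J (Fin 2) F j a) := by
  rw [tv_coe_apply, Matrix.mulVec_single_one]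
  rfl

/-- the square of the exceptional endomorphism on a transvection: the Frobenius map -/
theorem gphHom_sq_tv [CharP F 2] (c : F) :
    gphHom (gphHom (spTv 2 (Pi.single (Sum.inl 0) 1) c))
      = spTv 2 (Pi.single (Sum.inl 0) 1 : Fin 2 ⊕ Fin 2 → F) (c ^ 2) := by
  apply Subtype.ext
  ext i j
  rw [gphHom_coe]
  rcases i with i | i <;> fin_cases i <;> rcases j with j | j <;> fin_cases j <;>
    simp [gphM, gphA, gphB, gphHom_coe, tv_single_apply, Matrix.one_apply, Pi.single_apply,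
      Matrix.J, Matrix.fromBlocks, pow_two]

/-- the images of two transvections do not commute -/
theorem gphHom_tv_not_comm [CharP F 2] :
    gphHom (spTv 2 (Pi.single (Sum.inl 0) 1 : Fin 2 ⊕ Fin 2 → F) 1)
        * gphHom (spTv 2 (Pi.single (Sum.inr 0) 1 : Fin 2 ⊕ Fin 2 → F) 1)
      ≠ gphHom (spTv 2 (Pi.single (Sum.inr 0) 1 : Fin 2 ⊕ Fin 2 → F) 1)
        * gphHom (spTv 2 (Pi.single (Sum.inl 0) 1 : Fin 2 ⊕ Fin 2 → F) 1) := by
  intro h
  have h1 : ((gphHom (spTv 2 (Pi.single (Sum.inl 0) 1 : Fin 2 ⊕ Fin 2 → F) 1)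
        * gphHom (spTv 2 (Pi.single (Sum.inr 0) 1 : Fin 2 ⊕ Fin 2 → F) 1) :
          Matrix.symplecticGroup (Fin 2) F) : Matrix (Fin 2 ⊕ Fin 2) (Fin 2 ⊕ Fin 2) F)
        (Sum.inl 0) (Sum.inl 0)
      = ((gphHom (spTv 2 (Pi.single (Sum.inr 0) 1 : Fin 2 ⊕ Fin 2 → F) 1)
        * gphHom (spTv 2 (Pi.single (Sum.inl 0) 1 : Fin 2 ⊕ Fin 2 → F) 1) :
          Matrix.symplecticGroup (Fin 2) F) : Matrix (Fin 2 ⊕ Fin 2) (Fin 2 ⊕ Fin 2) F)
        (Sum.inl 0) (Sum.inl 0) := by rw [h]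
  rw [Cfsg.Agent.Helper5.sp_coe_mul, Cfsg.Agent.Helper5.sp_coe_mul, Matrix.mul_apply,
    Matrix.mul_apply] at h1
  simp [Fintype.sum_sum_type, gphM, gphA, gphB, gphHom_coe, tv_single_apply, Matrix.one_apply,
    Pi.single_apply, Matrix.J, Matrix.fromBlocks] at h1

/-- the image of a transvection is not a transvection -/
theorem gphHom_tv_not_tvE [CharP F 2] :
    ¬ IsTvE (gphHom (spTv 2 (Pi.single (Sum.inl 0) 1 : Fin 2 ⊕ Fin 2 → F) 1)) := by
  rintro ⟨v, hv0, hv⟩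
  obtain ⟨w, e⟩ : ∃ w : Fin 2 ⊕ Fin 2 → F, ∀ i j : Fin 2 ⊕ Fin 2,
      gphM ((spTv 2 (Pi.single (Sum.inl 0) 1 : Fin 2 ⊕ Fin 2 → F) 1 :
        Matrix.symplecticGroup (Fin 2) F) : Matrix (Fin 2 ⊕ Fin 2) (Fin 2 ⊕ Fin 2) F) i j
        = (1 : Matrix (Fin 2 ⊕ Fin 2) (Fin 2 ⊕ Fin 2) F) i j + v i * w j := by
    refine ⟨Matrix.J (Fin 2) F *ᵥ v, fun i j => ?_⟩
    rw [← gphHom_coe, hv, tv_coe_apply, one_mul]
  have h1 := e (Sum.inl 0) (Sum.inr 0)
  have h2 := e (Sum.inl 1) (Sum.inr 0)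
  have h3 := e (Sum.inl 0) (Sum.inr 1)
  simp [gphM, gphA, gphB, tv_single_apply, Matrix.one_apply, Pi.single_apply, Matrix.J,
    Matrix.fromBlocks] at h1 h2 h3
  rcases h1 with h1 | h1
  · rw [h1, zero_mul] at h3
    exact one_ne_zero (neg_eq_zero.1 h3)
  · rw [h1, mul_zero] at h2
    exact one_ne_zero h2

/-- the exceptional endomorphism is injective -/
theorem gphHom_injective [CharP F 2] :
    Function.Injective (gphHom : Matrix.symplecticGroup (Fin 2) F →* _) := by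
  have h2 : (2 : F) = 0 := CharTwo.two_eq_zero
  rw [← MonoidHom.ker_eq_bot_iff]
  rcases Cfsg.Agent.Helper5.sp_normal_le_center_or_commutator_le (gphHom (F := F)).ker
    with h | h
  · rw [Cfsg.Agent.Helper5.sp_center_eq_bot h2] at h
    exact le_bot_iff.1 h
  · exfalso
    apply gphHom_tv_not_comm (F := F)
    have h1 : ⁅spTv 2 (Pi.single (Sum.inl 0) 1 : Fin 2 ⊕ Fin 2 → F) 1,
        spTv 2 (Pi.single (Sum.inr 0) 1 : Fin 2 ⊕ Fin 2 → F) 1⁆ ∈ (gphHom (F := F)).ker :=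
      h (Subgroup.commutator_mem_commutator (Subgroup.mem_top _) (Subgroup.mem_top _))
    rw [MonoidHom.mem_ker, map_commutatorElement] at h1
    exact commutatorElement_eq_one_iff_mul_comm.1 h1

section finite

variable [Fintype F] [CharP F 2]

/-- the exceptional automorphism of `Sp_4(F)`, `F` finite of characteristic two -/
noncomputable def gphAut : MulAut (Matrix.symplecticGroup (Fin 2) F) :=
  MulEquiv.ofBijective (gphHom : Matrix.symplecticGroup (Fin 2) F →* _)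
    (Finite.injective_iff_bijective.1 gphHom_injective)

theorem gphAut_apply (g : Matrix.symplecticGroup (Fin 2) F) : gphAut g = gphHom g := rfl

/-- the exceptional automorphism swaps transvections and alternating involutions -/
theorem gphAut_swap :
    (∀ z : Matrix.symplecticGroup (Fin 2) F, IsTvE z → IsAltE (gphAut z)) ∧
      (∀ z : Matrix.symplecticGroup (Fin 2) F, IsAltE z → IsTvE (gphAut z)) := by
  rcases aut_dich2 (gphAut (F := F)) with h | h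
  · exfalso
    exact gphHom_tv_not_tvE (F := F) (h _ ⟨_, single_ne_zero2, rfl⟩)
  · exact h

end finite

end graph

end Cfsg.Agent.Helper44.PSpn
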