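import Mathlib
import Cfsg.Agent.Helper44.SpS
import Cfsg.Agent.Helper44.PSLnI

/-!
# `Aut(PSp_{2m}(q))` (helper44), part T: the order of the automorphism group

The automorphisms induced by semilinear similitudes form a subgroup `semiS` of order
`gcd(2, q - 1) · f · |PSp_{2m}(q)|`; it is everything unless `m = 2` and `q` is even, where it
has index two (the exceptional automorphism of part S swaps transvections and alternating
involutions).
-/

set_option autoImplicit false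
set_option linter.unusedSimpArgs false
set_option linter.unusedSectionVars false
set_option linter.unusedVariables false

namespace Cfsg.Agent.Helper44.PSpn

open Matrix
open scoped Pointwise
open Cfsg.Agent.Helper13 (sympForm_add_left sympForm_add_right sympForm_smul_left
  sympForm_smul_right sympForm_swap sympForm_self sympForm_zero_left sympForm_zero_right
  sympForm_neg_left sympForm_neg_right sympForm_sub_left sympForm_sub_right)
open Cfsg.Agent.Helper5 (spTv spTv_mulVec sp_ext sp_sympForm sp_coe_one sp_mul_mulVec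
  sp_inv_mulVec sp_mulVec_inv)

universe u

section semi

variable {F : Type u} [Field F] [Fintype F] {m : ℕ}

/-- the group of automorphisms induced by semilinear similitudes -/
def semiS (m : ℕ) (F : Type u) [Field F] [Fintype F] : Subgroup (MulAut (Cfsg.PSp m F)) where
  carrier := {α | ∃ (g : ↥(Cfsg.GSp m F)) (σ : RingAut F), α = sD g * sF σ}
  mul_mem' := by
    rintro _ _ ⟨g, σ, rfl⟩ ⟨g', σ', rfl⟩
    exact ⟨_, _, ssemi_mul g g' σ σ'⟩
  one_mem' := ⟨1, 1, by rw [map_one, map_one, mul_one]⟩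
  inv_mem' := by
    rintro _ ⟨g, σ, rfl⟩
    exact ⟨_, _, ssemi_inv g σ⟩

theorem mem_semiS (α : MulAut (Cfsg.PSp m F)) :
    α ∈ semiS m F ↔ ∃ (g : ↥(Cfsg.GSp m F)) (σ : RingAut F), α = sD g * sF σ := Iff.rfl

theorem sdecomp_unique (p : ℕ) [Fact p.Prime] [CharP F p] (hm : 1 ≤ m)
    (g g' : ↥(Cfsg.GSp m F)) (σ σ' : RingAut F)
    (h : sD g * sF σ = sD g' * (sF σ' : MulAut (Cfsg.PSp m F))) : σ = σ' := by
  have h1 : (sD g' * sF σ' : MulAut (Cfsg.PSp m F))⁻¹ * (sD g * sF σ) = 1 := by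
    rw [h, inv_mul_cancel]
  rw [ssemi_inv, ssemi_mul] at h1
  have h2' : sD (mapGSp σ'⁻¹ g'⁻¹ * mapGSp σ'⁻¹ g)
      = (sF (σ'⁻¹ * σ) : MulAut (Cfsg.PSp m F))⁻¹ := by
    rw [eq_inv_iff_mul_eq_one, h1]
  have h2 : sD (mapGSp σ'⁻¹ g'⁻¹ * mapGSp σ'⁻¹ g)
      = (sF (σ'⁻¹ * σ)⁻¹ : MulAut (Cfsg.PSp m F)) := by
    rw [h2']
    exact (map_inv sF _).symm
  have h3 := (sD_eq_sF p hm _ _ h2).1
  rw [inv_eq_one, inv_mul_eq_one] at h3
  exact h3.symm

/-- the field part of a semilinear automorphism -/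
noncomputable def galS (α : ↥(semiS m F)) : RingAut F := α.2.choose_spec.choose

theorem galS_spec (α : ↥(semiS m F)) :
    ∃ g : ↥(Cfsg.GSp m F), (α : MulAut (Cfsg.PSp m F)) = sD g * sF (galS α) :=
  ⟨α.2.choose, α.2.choose_spec.choose_spec⟩

theorem galS_eq (p : ℕ) [Fact p.Prime] [CharP F p] (hm : 1 ≤ m) (α : ↥(semiS m F))
    (g : ↥(Cfsg.GSp m F)) (σ : RingAut F) (h : (α : MulAut (Cfsg.PSp m F)) = sD g * sF σ) :
    galS α = σ := by
  obtain ⟨g', hg'⟩ := galS_spec α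
  exact sdecomp_unique p hm g' g _ σ (hg'.symm.trans h)

/-- the homomorphism from the semilinear automorphisms to `Aut(F)` -/
noncomputable def galHomS (p : ℕ) [Fact p.Prime] [CharP F p] (hm : 1 ≤ m) :
    ↥(semiS m F) →* RingAut F where
  toFun := galS
  map_one' := galS_eq p hm 1 1 1 (by
    rw [map_one, map_one, mul_one]
    rfl)
  map_mul' α β := by
    obtain ⟨g, hg⟩ := galS_spec α
    obtain ⟨g', hg'⟩ := galS_spec β
    apply galS_eq p hm _ (g * mapGSp (galS α) g')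
    rw [← ssemi_mul, ← hg, ← hg']
    rfl

/-- the diagonal automorphisms, inside the semilinear ones -/
def sDS : ↥(Cfsg.GSp m F) →* ↥(semiS m F) :=
  (sD : ↥(Cfsg.GSp m F) →* MulAut (Cfsg.PSp m F)).codRestrict (semiS m F)
    (fun g => ⟨g, 1, by rw [map_one, mul_one]⟩)

theorem galHomS_surjective (p : ℕ) [Fact p.Prime] [CharP F p] (hm : 1 ≤ m) :
    Function.Surjective (galHomS (m := m) (F := F) p hm) :=
  fun σ => ⟨⟨sD 1 * sF σ, 1, σ, rfl⟩, galS_eq p hm _ 1 σ rfl⟩

theorem galHomS_ker (p : ℕ) [Fact p.Prime] [CharP F p] (hm : 1 ≤ m) :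
    (galHomS (m := m) (F := F) p hm).ker
      = (sDS : ↥(Cfsg.GSp m F) →* ↥(semiS m F)).range := by
  ext α
  rw [MonoidHom.mem_ker, MonoidHom.mem_range]
  constructor
  · intro h
    obtain ⟨g, hg⟩ := galS_spec α
    have h1 : galS α = 1 := h
    rw [h1, map_one, mul_one] at hg
    exact ⟨g, Subtype.ext hg.symm⟩
  · rintro ⟨g, rfl⟩
    exact galS_eq p hm _ g 1 (by
      rw [map_one, mul_one]
      rfl)

theorem spGSp_injective :
    Function.Injective (spGSp : Matrix.symplecticGroup (Fin m) F →* ↥(Cfsg.GSp m F)) := by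
  intro a b h
  apply Subtype.ext
  have h1 : ((spGSp a : ↥(Cfsg.GSp m F)) : GL (Fin m ⊕ Fin m) F)
      = ((spGSp b : ↥(Cfsg.GSp m F)) : GL (Fin m ⊕ Fin m) F) := by rw [h]
  rw [spGSp_coe, spGSp_coe] at h1
  have h2 := congrArg (fun g : GL (Fin m ⊕ Fin m) F =>
    (g : Matrix (Fin m ⊕ Fin m) (Fin m ⊕ Fin m) F)) h1
  exact h2

theorem scalarGSp_injective (hm : 1 ≤ m) :
    Function.Injective (scalarGSp : Fˣ →* ↥(Cfsg.GSp m F)) := by
  intro a b h
  apply Units.ext
  have h1 : (((scalarGSp a : ↥(Cfsg.GSp m F)) : GL (Fin m ⊕ Fin m) F) :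
      Matrix (Fin m ⊕ Fin m) (Fin m ⊕ Fin m) F) (Sum.inl ⟨0, hm⟩) (Sum.inl ⟨0, hm⟩)
      = (((scalarGSp b : ↥(Cfsg.GSp m F)) : GL (Fin m ⊕ Fin m) F) :
      Matrix (Fin m ⊕ Fin m) (Fin m ⊕ Fin m) F) (Sum.inl ⟨0, hm⟩) (Sum.inl ⟨0, hm⟩) := by
    rw [h]
  rw [scalarGSp_coe, scalarGSp_coe, Matrix.diagonal_apply_eq, Matrix.diagonal_apply_eq] at h1
  exact h1

/-- `|GSp_{2m}(q)| = (q - 1) |Sp_{2m}(q)|` -/
theorem card_GSp (hm : 1 ≤ m) :
    Nat.card ↥(Cfsg.GSp m F)
      = (Fintype.card F - 1) * Nat.card (Matrix.symplecticGroup (Fin m) F) := by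
  have hsurj : Function.Surjective (multGSp (F := F) hm) :=
    fun u => ⟨multDiag u, multGSp_multDiag hm u⟩
  have hker : (multGSp (F := F) hm).ker
      = (spGSp : Matrix.symplecticGroup (Fin m) F →* ↥(Cfsg.GSp m F)).range := by
    ext g
    rw [MonoidHom.mem_ker, MonoidHom.mem_range]
    exact multGSp_eq_one_iff hm g
  have h1 := PSLn.card_of_ker_range (multGSp (F := F) hm) hsurj spGSp hker
  rw [(MonoidHom.ker_eq_bot_iff _).2 spGSp_injective, Subgroup.index_bot, Nat.card_units,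
    Nat.card_eq_fintype_card (α := F)] at h1
  exact h1

theorem card_sD_ker (p : ℕ) [Fact p.Prime] [CharP F p] (hm : 1 ≤ m) :
    Nat.card ↥(sD : ↥(Cfsg.GSp m F) →* MulAut (Cfsg.PSp m F)).ker = Fintype.card F - 1 := by
  have h1 : (sD : ↥(Cfsg.GSp m F) →* MulAut (Cfsg.PSp m F)).ker
      = (scalarGSp : Fˣ →* ↥(Cfsg.GSp m F)).range := by
    ext g
    rw [MonoidHom.mem_ker, MonoidHom.mem_range, sD_eq_one_iff p hm]
    constructor
    · rintro ⟨a, ha⟩
      exact ⟨a, ha.symm⟩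
    · rintro ⟨a, ha⟩
      exact ⟨a, ha.symm⟩
  rw [h1, ← Nat.card_congr (MonoidHom.ofInjective (scalarGSp_injective (F := F) hm)).toEquiv,
    Nat.card_units, Nat.card_eq_fintype_card (α := F)]

/-- **the order of the group of semilinear automorphisms of `PSp_{2m}(q)`** -/
theorem card_semiS (p f : ℕ) [Fact p.Prime] [CharP F p] (hF : Fintype.card F = p ^ f)
    (hm : 1 ≤ m) :
    Nat.card ↥(semiS m F)
      = Nat.gcd 2 (Fintype.card F - 1) * f * Nat.card (Cfsg.PSp m F) := by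
  have h1 := PSLn.card_of_ker_range (galHomS (m := m) (F := F) p hm) (galHomS_surjective p hm)
    sDS (galHomS_ker p hm)
  rw [(Cfsg.Agent.Helper44.ringAut_cyclic_card p f hF).2] at h1
  have hk : (sDS : ↥(Cfsg.GSp m F) →* ↥(semiS m F)).ker
      = (sD : ↥(Cfsg.GSp m F) →* MulAut (Cfsg.PSp m F)).ker := by
    ext g
    rw [MonoidHom.mem_ker, MonoidHom.mem_ker]
    constructor
    · intro h
      exact congrArg Subtype.val h
    · intro h
      exact Subtype.ext h
  rw [hk] at h1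
  have h3 := Subgroup.card_mul_index (sD : ↥(Cfsg.GSp m F) →* MulAut (Cfsg.PSp m F)).ker
  rw [card_sD_ker p hm, card_GSp hm] at h3
  have hq : 0 < Fintype.card F - 1 := by
    have := Fintype.one_lt_card (α := F)
    omega
  have h4 : (sD : ↥(Cfsg.GSp m F) →* MulAut (Cfsg.PSp m F)).ker.index
      = Nat.card (Matrix.symplecticGroup (Fin m) F) := Nat.eq_of_mul_eq_mul_left hq h3
  have h5 := Subgroup.card_mul_index (Subgroup.center (Matrix.symplecticGroup (Fin m) F))
  rw [Cfsg.Agent.Helper5.card_sp_center hm] at h5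
  have h6 : (Subgroup.center (Matrix.symplecticGroup (Fin m) F)).index
      = Nat.card (Cfsg.PSp m F) := rfl
  rw [h6] at h5
  rw [h1, h4, ← h5]
  ring

end semi

/-! ### `PSp_4(2^f)`: the semilinear automorphisms have index two -/

section four

variable {F : Type u} [Field F] [Fintype F] [CharP F 2]

/-- the exceptional automorphism of `PSp_4(2^f)` -/
noncomputable def gphAutP : MulAut (Cfsg.PSp 2 F) := liftAut2.symm gphAut

theorem liftAut2_gphAutP : liftAut2 (gphAutP (F := F)) = gphAut :=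
  MulEquiv.apply_symm_apply _ _

theorem liftAut2_semi (g : ↥(Cfsg.GSp 2 F)) (σ : RingAut F)
    (s : Matrix.symplecticGroup (Fin 2) F) :
    liftAut2 (sD g * sF σ) s = conjSp g (mapSp σ s) := by
  apply prS_injective_char2
  rw [prS_liftAut2, MulAut.mul_apply, sF_prS, sD_prS]

/-- semilinear automorphisms preserve the transvections -/
theorem semiS_good (α : MulAut (Cfsg.PSp 2 F)) (hα : α ∈ semiS 2 F)
    (z : Matrix.symplecticGroup (Fin 2) F) (hz : IsTvE z) : IsTvE (liftAut2 α z) := by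
  obtain ⟨g, σ, rfl⟩ := hα
  obtain ⟨v, hv0, rfl⟩ := hz
  obtain ⟨ν, hν0, hν⟩ := GSp_mult g
  rw [liftAut2_semi, semi_tv g ν hν0 hν, map_one, mul_one]
  obtain ⟨d, hd⟩ := FiniteField.isSquare_of_char_two (ringChar.eq F 2) ν⁻¹
  have hd0 : d ≠ 0 := by
    rintro rfl
    rw [mul_zero] at hd
    exact inv_ne_zero hν0 hd
  refine ⟨d • semiV (g : GL (Fin 2 ⊕ Fin 2) F) σ v,
    smul_ne_zero hd0 (gl_mulVec_ne_zero _ _ (ssv_ne_zero σ v hv0)), ?_⟩
  rw [Cfsg.Agent.Helper5.spTv_smul, mul_one, ← hd]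

/-- automorphisms preserving the transvections are semilinear -/
theorem good_semiS (α : MulAut (Cfsg.PSp 2 F))
    (h : ∀ z, IsTvE z → IsTvE (liftAut2 α z)) : α ∈ semiS 2 F :=
  aut_psp_of_rel 2 (le_refl 2) α (rel_of_tvE α h)

theorem semiS_iff (α : MulAut (Cfsg.PSp 2 F)) :
    α ∈ semiS 2 F ↔ ∀ z, IsTvE z → IsTvE (liftAut2 α z) :=
  ⟨semiS_good α, good_semiS α⟩

/-- an automorphism preserving the transvections does not map an alternating involution to a
transvection -/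
theorem good_alt (ψ : MulAut (Matrix.symplecticGroup (Fin 2) F))
    (h : ∀ z, IsTvE z → IsTvE (ψ z)) (a : Matrix.symplecticGroup (Fin 2) F) (ha : IsAltE a) :
    ¬ IsTvE (ψ a) := by
  intro ht
  rcases aut_dich2 ψ⁻¹ with h' | h'
  · have h1 := h' _ ht
    rw [MulAut.inv_apply_self] at h1
    exact tvE_not_altE a h1 ha
  · have hz0 : IsTvE (spTv 2 (Pi.single (Sum.inl 0) 1 : Fin 2 ⊕ Fin 2 → F) 1) :=
      ⟨_, single_ne_zero2, rfl⟩
    have h2 := h'.1 _ (h _ hz0)
    rw [MulAut.inv_apply_self] at h2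
    exact tvE_not_altE _ hz0 h2

/-- the exceptional automorphism is not semilinear -/
theorem gphAutP_not_mem : gphAutP (F := F) ∉ semiS 2 F := by
  intro h
  have hz0 : IsTvE (spTv 2 (Pi.single (Sum.inl 0) 1 : Fin 2 ⊕ Fin 2 → F) 1) :=
    ⟨_, single_ne_zero2, rfl⟩
  have h1 := (semiS_iff _).1 h _ hz0
  rw [liftAut2_gphAutP] at h1
  exact tvE_not_altE _ h1 (gphAut_swap.1 _ hz0)

/-- the semilinear automorphisms have index two in `Aut(PSp_4(2^f))` -/
theorem semiS_index_two : (semiS 2 F).index = 2 := by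
  have hz0 : IsTvE (spTv 2 (Pi.single (Sum.inl 0) 1 : Fin 2 ⊕ Fin 2 → F) 1) :=
    ⟨_, single_ne_zero2, rfl⟩
  rw [Subgroup.index_eq_two_iff]
  refine ⟨gphAutP, fun b => ?_⟩
  rcases aut_dich2 (liftAut2 b) with hb | hb
  · refine Or.inr ⟨(semiS_iff b).2 hb, fun h => ?_⟩
    have h1 := (semiS_iff _).1 h _ hz0
    rw [map_mul, MulAut.mul_apply, liftAut2_gphAutP] at h1
    exact good_alt (liftAut2 b) hb _ (gphAut_swap.1 _ hz0) h1
  · refine Or.inl ⟨(semiS_iff _).2 ?_, fun h => ?_⟩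
    · intro z hz
      rw [map_mul, MulAut.mul_apply, liftAut2_gphAutP]
      exact hb.2 _ (gphAut_swap.1 z hz)
    · exact tvE_not_altE _ ((semiS_iff b).1 h _ hz0) (hb.1 _ hz0)

end four

/-! ### the order of `Aut(PSp_{2m}(q))` -/

section card

variable {F : Type u} [Field F] [Fintype F] {m : ℕ}

/-- **`|Aut(PSp_{2m}(q))| = gcd(2, q - 1) · f · |PSp_{2m}(q)|`, twice that for `m = 2`, `q`
even** -/
theorem card_aut_psp (p f : ℕ) [Fact p.Prime] (hF : Fintype.card F = p ^ f) (hm : 2 ≤ m) :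
    Nat.card (MulAut (Cfsg.PSp m F))
      = (if m = 2 ∧ p = 2 then 2 else 1) * Nat.gcd 2 (p ^ f - 1) * f
        * Nat.card (Cfsg.PSp m F) := by
  haveI : CharP F p := Cfsg.Agent.Helper44.charP_of_card p f hF
  have hcard := card_semiS (m := m) p f hF (by omega)
  rw [hF] at hcard
  by_cases h : m = 2 ∧ p = 2
  · obtain ⟨rfl, rfl⟩ := h
    rw [if_pos ⟨rfl, rfl⟩, ← Subgroup.card_mul_index (semiS 2 F), semiS_index_two, hcard]
    ring
  · rw [if_neg h, one_mul, ← hcard]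
    have htop : semiS m F = ⊤ := by
      rw [eq_top_iff]
      intro α _
      exact aut_semi_of p hm α (fun h1 h2 => absurd ⟨h1, h2⟩ h)
    rw [htop, Subgroup.card_top]

end card

end Cfsg.Agent.Helper44.PSpn
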