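import Cfsg.Agent.Helper44.BG15TRS

set_option autoImplicit false

namespace Cfsg.Agent.Helper44

open Cfsg Subgroup

universe u

section Pure

variable {Γ : Type u} [Group Γ] [Finite Γ]

/-- TF. TRS applied in `Γ ⧸ X₀` to `mk z` and `L.map mk`. -/
theorem bg15_transfer_false (L X₀ : Subgroup Γ) [L.Normal] [X₀.Normal] (hX₀L : X₀ ≤ L) {q : ℕ}
    (hq : q.Prime) {z : Γ} (hzL : z ∈ L) (hzq : orderOf z = q) (hz' : z ∈ ⁅L, L⁆)
    (hJ : ∀ g ∈ L, g * z * g⁻¹ * z⁻¹ ∈ X₀)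
    (hidx : ¬ q ∣ (X₀ ⊔ zpowers z).relIndex L) : z ∈ X₀ := by
  have hwL : QuotientGroup.mk' X₀ z ∈ L.map (QuotientGroup.mk' X₀) := Subgroup.mem_map_of_mem _ hzL
  have hcent : ∀ g ∈ L.map (QuotientGroup.mk' X₀),
      g * QuotientGroup.mk' X₀ z = QuotientGroup.mk' X₀ z * g := by
    rintro _ ⟨g, hg, rfl⟩
    have h1 : QuotientGroup.mk' X₀ (g * z * g⁻¹ * z⁻¹) = 1 := by
      rw [QuotientGroup.mk'_apply, QuotientGroup.eq_one_iff]
      exact hJ g hg
    rw [map_mul, map_mul, map_mul, map_inv, map_inv, mul_inv_eq_one, mul_inv_eq_iff_eq_mul] at h1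
    exact h1
  have hcomm : QuotientGroup.mk' X₀ z
      ∈ ⁅L.map (QuotientGroup.mk' X₀), L.map (QuotientGroup.mk' X₀)⁆ := by
    rw [← Subgroup.map_commutator]
    exact Subgroup.mem_map_of_mem _ hz'
  have hord : orderOf (QuotientGroup.mk' X₀ z) ∣ q := by
    apply orderOf_dvd_of_pow_eq_one
    rw [← map_pow, ← hzq, pow_orderOf_eq_one, map_one]
  have hcomap : (zpowers (QuotientGroup.mk' X₀ z)).comap (QuotientGroup.mk' X₀)
      = X₀ ⊔ zpowers z := by
    rw [← MonoidHom.map_zpowers, Subgroup.comap_map_eq, QuotientGroup.ker_mk', sup_comm]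
  have hrel : (zpowers (QuotientGroup.mk' X₀ z)).relIndex (L.map (QuotientGroup.mk' X₀))
      = (X₀ ⊔ zpowers z).relIndex L := by
    rw [← Subgroup.relIndex_comap, hcomap]
  have hHall : (orderOf (QuotientGroup.mk' X₀ z)).Coprime
      ((zpowers (QuotientGroup.mk' X₀ z)).relIndex (L.map (QuotientGroup.mk' X₀))) := by
    rw [hrel]
    exact Nat.Coprime.coprime_dvd_left hord ((Nat.Prime.coprime_iff_not_dvd hq).mpr hidx)
  have h1 := bg15_transfer_kill (L.map (QuotientGroup.mk' X₀)) (QuotientGroup.mk' X₀ z)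
    hwL hcent hcomm hHall
  rw [QuotientGroup.mk'_apply, QuotientGroup.eq_one_iff] at h1
  exact h1

end Pure

end Cfsg.Agent.Helper44
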