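import Mathlib
import Cfsg.Agent.Helper44.OmH
import Cfsg.Agent.Helper44.CD
import Cfsg.Agent.Helper45.IDMinus
import Cfsg.Agent.Helper43.OrthEven
import Cfsg.Agent.Helper43.OrthPlane

/-!
# Minus-type orthogonal groups (helper44), part K: the two classes of maximal totally singular
subspaces over a quadratic extension, in any characteristic

A similarity of the minus-type form either preserves the two classes (read over a quadratic
extension) or does so after multiplication by any reflection.
-/

set_option autoImplicit false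
set_option linter.unusedSimpArgs false
set_option linter.unusedSectionVars false
set_option linter.unusedVariables false

namespace Cfsg.Agent.Helper44.POm

open Matrix Cfsg

universe u

/-- the index type of the minus-type form -/
abbrev MI (m : ℕ) : Type := (Fin m ⊕ Fin m) ⊕ Fin 2

section parity

variable {ι : Type} [Fintype ι] [DecidableEq ι] {K : Type u} [Field K]
  (Q : QuadraticForm K (ι → K))

/-- the parity class relation between two images of `E`, through the Dickson invariant -/
theorem sameParity_iff_dick (hQ : (QuadraticMap.polarBilin Q).Nondegenerate)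
    (hR : Helper45.reflGroup Q = ⊤)
    (E : Submodule K (ι → K)) (hE : ∀ w ∈ E, Q w = 0)
    (hdim : 2 * Module.finrank K E = Fintype.card ι) (h h' : ↥(isometryGroup K ⇑Q)) :
    SameParityClass (Helper45.imgSub Q h E) (Helper45.imgSub Q h' E) ↔
      Helper45.dick Q (h⁻¹ * h') = 0 := by
  have hinf : Helper45.imgSub Q h E ⊓ Helper45.imgSub Q h' E
      = Helper45.imgSub Q h (E ⊓ Helper45.imgSub Q (h⁻¹ * h') E) := by
    ext x
    rw [Submodule.mem_inf, Helper45.mem_imgSub, Helper45.mem_imgSub, Helper45.mem_imgSub,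
      Submodule.mem_inf, Helper45.mem_imgSub, ← Helper45.mv_mul]
    have : (h⁻¹ * h')⁻¹ * h⁻¹ = h'⁻¹ := by group
    rw [this]
  have hpar := Helper45.parity_ts' Q hQ hR E hE hdim (h⁻¹ * h')
  have hle : Module.finrank K ↥(E ⊓ Helper45.imgSub Q (h⁻¹ * h') E) ≤ Module.finrank K E :=
    Submodule.finrank_mono inf_le_left
  unfold SameParityClass
  rw [hinf, Helper45.finrank_imgSub, Helper45.finrank_imgSub, ← hpar, ZMod.natCast_eq_zero_iff,
    Nat.even_iff]
  omega

/-- an isometry preserves the two classes exactly when its Dickson invariant vanishes -/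
theorem pres_iff_dick (hQ : (QuadraticMap.polarBilin Q).Nondegenerate)
    (hR : Helper45.reflGroup Q = ⊤)
    (E : Submodule K (ι → K)) (hE : ∀ w ∈ E, Q w = 0)
    (hdim : 2 * Module.finrank K E = Fintype.card ι) (M : ↥(isometryGroup K ⇑Q)) :
    PreservesSingularClasses ⇑Q ((M : GL ι K) : Matrix ι ι K) ↔ Helper45.dick Q M = 0 := by
  have hmem : ∀ x : ↥(isometryGroup K ⇑Q), x ∈ Helper45.reflGroup Q := fun x => by
    rw [hR]; trivial
  have hdk : ∀ h : ↥(isometryGroup K ⇑Q), Helper45.dick Q (h⁻¹ * (M * h)) = Helper45.dick Q M := by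
    intro h
    rw [Helper45.dick_mul_of_mem Q hQ h⁻¹ (hmem _) (M * h),
      Helper45.dick_mul_of_mem Q hQ M (hmem _) h]
    have h2 := Helper45.dick_mul_of_mem Q hQ h⁻¹ (hmem _) h
    rw [inv_mul_cancel, Helper45.dick_one] at h2
    linear_combination (-1 : ZMod 2) * h2
  have key : ∀ U : Submodule K (ι → K), IsMaxTotallySingular ⇑Q U →
      (SameParityClass U (imageSubmodule ((M : GL ι K) : Matrix ι ι K) U) ↔
        Helper45.dick Q M = 0) := by
    intro U hU
    obtain ⟨h, rfl⟩ := Helper45.ID.exists_iso_of_max Q hQ E hE hdim U hU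
    have himg : imageSubmodule ((M : GL ι K) : Matrix ι ι K) (Helper45.imgSub Q h E)
        = Helper45.imgSub Q (M * h) E := by
      rw [Helper45.imgSub_mul]
      rfl
    rw [himg, sameParity_iff_dick Q hQ hR E hE hdim, hdk]
  constructor
  · intro hP
    exact (key E (Helper45.ID.isMax_of_half Q hQ E hE hdim)).mp
      (hP E (Helper45.ID.isMax_of_half Q hQ E hE hdim))
  · intro hd U hU
    exact (key U hU).mpr hd

/-- scalar multiples act in the same way on subspaces -/
theorem pres_smul (q : (ι → K) → K) (ν : K) (hν : ν ≠ 0) (M : Matrix ι ι K) :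
    PreservesSingularClasses q (ν • M) ↔ PreservesSingularClasses q M := by
  have h : ∀ U : Submodule K (ι → K), imageSubmodule (ν • M) U = imageSubmodule M U := by
    intro U
    unfold imageSubmodule
    rw [map_smul, Submodule.map_smul _ _ ν hν]
  unfold PreservesSingularClasses
  simp only [h]

/-- two quadratic forms agreeing on the vectors with entries in a subfield are equal -/
theorem quad_transfer {F₁ : Type*} [Field F₁] (f : F₁ →+* K) (Q₁ Q₂ : QuadraticForm K (ι → K))
    (h : ∀ v : ι → F₁, Q₁ (fun i => f (v i)) = Q₂ (fun i => f (v i))) (x : ι → K) :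
    Q₁ x = Q₂ x := by
  have hs : ∀ j : ι, (fun i => f ((Pi.single j 1 : ι → F₁) i)) = (Pi.single j 1 : ι → K) := by
    intro j
    funext i
    by_cases hij : i = j
    · subst hij
      rw [Pi.single_eq_same, Pi.single_eq_same, map_one]
    · rw [Pi.single_eq_of_ne hij, Pi.single_eq_of_ne hij, map_zero]
  have ha : ∀ j l : ι, (fun i => f ((Pi.single j 1 + Pi.single l 1 : ι → F₁) i))
      = (Pi.single j 1 + Pi.single l 1 : ι → K) := by
    intro j l
    funext i
    rw [Pi.add_apply, map_add, Pi.add_apply, ← hs j, ← hs l]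
  apply Helper43.OrthStd.quad_ext Q₁ Q₂ (Pi.basisFun K ι)
  · intro i
    rw [Pi.basisFun_apply]
    have e := h (Pi.single i 1)
    rw [hs] at e
    exact e
  · intro i j _
    rw [Pi.basisFun_apply, Pi.basisFun_apply]
    have e1 := h (Pi.single i 1)
    rw [hs] at e1
    have e2 := h (Pi.single j 1)
    rw [hs] at e2
    have e3 := h (Pi.single i 1 + Pi.single j 1)
    rw [ha] at e3
    unfold QuadraticMap.polar
    rw [e1, e2, e3]

end parity

section minus

variable {K : Type u} [Field K] {m : ℕ}

/-- the minus-type form commutes with ring homomorphisms -/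
theorem qminus_map {F₁ : Type*} [Field F₁] (f : F₁ →+* K) (a b : F₁) (v : MI m → F₁) :
    quadFormMinus m K (f a) (f b) (fun i => f (v i)) = f (quadFormMinus m F₁ a b v) := by
  unfold quadFormMinus
  simp only [map_add, map_sum, map_mul, map_pow]

theorem polar_qminus_map {F₁ : Type*} [Field F₁] (f : F₁ →+* K) (a b : F₁) (u v : MI m → F₁) :
    QuadraticMap.polar (quadFormMinus m K (f a) (f b)) (fun i => f (u i)) (fun i => f (v i))
      = f (QuadraticMap.polar (quadFormMinus m F₁ a b) u v) := by
  have h : ((fun i => f (u i)) + (fun i => f (v i)) : MI m → K) = fun i => f ((u + v) i) := by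
    funext i
    rw [Pi.add_apply, Pi.add_apply, map_add]
  unfold QuadraticMap.polar
  rw [h, qminus_map, qminus_map, qminus_map, map_sub, map_sub]

/-- a similarity stays one after extension of scalars -/
theorem minus_sim_map {F₁ : Type*} [Field F₁] (f : F₁ →+* K) (a b : F₁)
    (M : Matrix (MI m) (MI m) F₁) (c : F₁)
    (hM : ∀ v, quadFormMinus m F₁ a b (M *ᵥ v) = c * quadFormMinus m F₁ a b v) (x : MI m → K) :
    quadFormMinus m K (f a) (f b) (M.map f *ᵥ x) = f c * quadFormMinus m K (f a) (f b) x := by
  have h := quad_transfer f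
    ((Helper43.minusQF m K (f a) (f b)).comp (Matrix.mulVecLin (M.map f)))
    (f c • Helper43.minusQF m K (f a) (f b)) ?_ x
  · exact h
  · intro v
    show quadFormMinus m K (f a) (f b) (M.map f *ᵥ fun i => f (v i))
      = f c * quadFormMinus m K (f a) (f b) (fun i => f (v i))
    have h1 : M.map f *ᵥ (fun i => f (v i)) = fun i => f ((M *ᵥ v) i) := by
      funext i
      exact (RingHom.map_mulVec f M v i).symm
    rw [h1, qminus_map, qminus_map, hM, map_mul]

/-- the reflection matrix commutes with extension of scalars -/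
theorem minus_refl_map {F₁ : Type*} [Field F₁] (f : F₁ →+* K) (a b : F₁) (w : MI m → F₁) :
    (reflectionMatrix (quadFormMinus m F₁ a b) w).map f
      = reflectionMatrix (quadFormMinus m K (f a) (f b)) (fun i => f (w i)) := by
  have hs : ∀ j : MI m, (fun i => f ((Pi.single j 1 : MI m → F₁) i)) = (Pi.single j 1 : MI m → K) := by
    intro j
    funext i
    by_cases hij : i = j
    · subst hij
      rw [Pi.single_eq_same, Pi.single_eq_same, map_one]
    · rw [Pi.single_eq_of_ne hij, Pi.single_eq_of_ne hij, map_zero]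
  ext i j
  unfold reflectionMatrix polarVec
  rw [Matrix.map_apply, Matrix.sub_apply, Matrix.sub_apply, Matrix.smul_apply, Matrix.smul_apply,
    Matrix.vecMulVec_apply, Matrix.vecMulVec_apply, smul_eq_mul, smul_eq_mul, map_sub, map_mul,
    map_mul, map_inv₀, qminus_map, ← hs j, polar_qminus_map]
  congr 1
  rw [Matrix.one_apply, Matrix.one_apply]
  by_cases hij : i = j
  · rw [if_pos hij, if_pos hij, map_one]
  · rw [if_neg hij, if_neg hij, map_zero]

/-- the polar form of the minus-type form is non-degenerate as soon as the discriminant of the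
binary part is nonzero -/
theorem minusQF_nondeg_disc (n : ℕ) (a c : K) (hD : a ^ 2 - 4 * c ≠ 0) :
    (QuadraticMap.polarBilin (Helper43.minusQF n K a c)).Nondegenerate := by
  classical
  have key : ∀ v : (Fin n ⊕ Fin n) ⊕ Fin 2 → K,
      (∀ w, QuadraticMap.polar (Cfsg.quadFormMinus n K a c) v w = 0) → v = 0 := by
    intro v hv
    have e0 : 2 * v (Sum.inr 0) + a * v (Sum.inr 1) = 0 := by
      have h := hv (Pi.single (Sum.inr 0) 1)
      rw [Helper43.OrthEven.polar_minus] at h
      simpa [Pi.single_apply] using h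
    have e1 : a * v (Sum.inr 0) + 2 * c * v (Sum.inr 1) = 0 := by
      have h := hv (Pi.single (Sum.inr 1) 1)
      rw [Helper43.OrthEven.polar_minus] at h
      simpa [Pi.single_apply] using h
    funext i
    rcases i with (i | i) | i
    · have h := hv (Pi.single (Sum.inl (Sum.inr i)) 1)
      rw [Helper43.OrthEven.polar_minus] at h
      simpa [Pi.single_apply] using h
    · have h := hv (Pi.single (Sum.inl (Sum.inl i)) 1)
      rw [Helper43.OrthEven.polar_minus] at h
      simpa [Pi.single_apply] using h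
    · fin_cases i
      · have h3 : (a ^ 2 - 4 * c) * v (Sum.inr 0) = 0 := by linear_combination a * e1 - 2 * c * e0
        exact (mul_eq_zero.mp h3).resolve_left hD
      · have h3 : (a ^ 2 - 4 * c) * v (Sum.inr 1) = 0 := by linear_combination a * e0 - 2 * e1
        exact (mul_eq_zero.mp h3).resolve_left hD
  refine ⟨fun v hv => key v hv, fun v hv => key v (fun w => ?_)⟩
  rw [QuadraticMap.polar_comm]
  exact hv w

end minus

section ext

variable {F : Type u} [Field F] [Fintype F] {m : ℕ}

/-- a quadratic extension in which the binary part has a root -/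
theorem exists_quad_ext_root (a b : F)
    (hab : ∀ z₁ z₂ : F, z₁ ^ 2 + a * z₁ * z₂ + b * z₂ ^ 2 = 0 → z₁ = 0 ∧ z₂ = 0) :
    ∃ (K : Type u) (_ : Field K) (_ : Algebra F K) (θ : K), Module.finrank F K = 2 ∧
      θ ^ 2 + algebraMap F K a * θ + algebraMap F K b = 0 := by
  obtain ⟨p, hp⟩ : ∃ p : Polynomial F, p = Polynomial.C 1 * Polynomial.X ^ 2
      + Polynomial.C a * Polynomial.X + Polynomial.C b := ⟨_, rfl⟩
  have hdeg : p.natDegree = 2 := by
    rw [hp]
    exact Polynomial.natDegree_quadratic one_ne_zero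
  have hirr : Irreducible p := by
    apply Polynomial.irreducible_of_degree_le_three_of_not_isRoot
    · rw [hdeg]
      decide
    · intro x hx
      rw [Polynomial.IsRoot, hp] at hx
      simp only [Polynomial.eval_add, Polynomial.eval_mul, Polynomial.eval_C, Polynomial.eval_pow,
        Polynomial.eval_X] at hx
      have h1 := (hab x 1 (by linear_combination hx)).2
      exact one_ne_zero h1
  haveI : Fact (Irreducible p) := ⟨hirr⟩
  refine ⟨AdjoinRoot p, inferInstance, inferInstance, AdjoinRoot.root p, ?_, ?_⟩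
  · rw [(AdjoinRoot.powerBasis hirr.ne_zero).finrank, AdjoinRoot.powerBasis_dim, hdeg]
  · have h := AdjoinRoot.eval₂_root p
    have h2 : Polynomial.eval₂ (AdjoinRoot.of p) (AdjoinRoot.root p)
        (Polynomial.C 1 * Polynomial.X ^ 2 + Polynomial.C a * Polynomial.X + Polynomial.C b)
        = 0 := by
      rw [← hp]
      exact h
    simp only [Polynomial.eval₂_add, Polynomial.eval₂_mul, Polynomial.eval₂_C, Polynomial.eval₂_pow,
      Polynomial.eval₂_X, map_one, one_mul] at h2
    rw [AdjoinRoot.algebraMap_eq]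
    exact h2

/-- **the class dichotomy**: a similarity of the minus-type form preserves the two classes of
maximal totally singular subspaces (over a quadratic extension), or does so after multiplication
by a reflection -/
theorem pscm_dichotomy (hm : m ≠ 1) (a b : F)
    (hab : ∀ z₁ z₂ : F, z₁ ^ 2 + a * z₁ * z₂ + b * z₂ ^ 2 = 0 → z₁ = 0 ∧ z₂ = 0)
    (t : GL (MI m) F) (ht : t ∈ Geo.quadSimilarityGroup (F := F) (quadFormMinus m F a b))
    (w : MI m → F) (hw : quadFormMinus m F a b w ≠ 0) (R : GL (MI m) F)
    (hRw : (R : Matrix (MI m) (MI m) F) = reflectionMatrix (quadFormMinus m F a b) w) :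
    PreservesSingularClassesMinus m a b ((t : GL (MI m) F) : Matrix (MI m) (MI m) F) ∨
    PreservesSingularClassesMinus m a b ((t * R : GL (MI m) F) : Matrix (MI m) (MI m) F) := by
  classical
  obtain ⟨K, instK, instA, θ, hfin, hθ⟩ := exists_quad_ext_root a b hab
  haveI hMF : Module.Finite F K := Module.finite_of_finrank_pos (by rw [hfin]; norm_num)
  haveI hKfin : Finite K := Module.finite_of_finite F
  haveI : Fintype K := Fintype.ofFinite K
  obtain ⟨f, hf⟩ : ∃ f : F →+* K, f = algebraMap F K := ⟨_, rfl⟩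
  rw [← hf] at hθ
  have hD : (f a) ^ 2 - 4 * (f b) ≠ 0 := by
    have h1 := Helper43.OrthEven.disc_ne_zero a b hab
    have h3 : (f a) ^ 2 - 4 * (f b) = f (a ^ 2 - 4 * b) := by
      rw [map_sub, map_mul, map_pow, map_ofNat]
    rw [h3]
    exact (map_ne_zero f).mpr h1
  have hQK : (QuadraticMap.polarBilin (Helper43.minusQF m K (f a) (f b))).Nondegenerate :=
    minusQF_nondeg_disc m (f a) (f b) hD
  have hR : Helper45.reflGroup (Helper43.minusQF m K (f a) (f b)) = ⊤ :=
    Helper44.reflGroup_eq_top_of _ hQK (Or.inr (by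
      rw [Fintype.card_sum, Fintype.card_sum, Fintype.card_fin, Fintype.card_fin]
      omega))
  have hE : ∀ x ∈ Helper45.ID.Eminus m θ, Helper43.minusQF m K (f a) (f b) x = 0 :=
    fun x hx => Helper45.ID.Eminus_ts (f a) (f b) θ hθ x hx
  have hdim := Helper45.ID.finrank_Eminus (m := m) θ
  obtain ⟨c, hc⟩ := ht
  have hsq : IsSquare (f (c : F)) := by
    by_cases h2 : ringChar F = 2
    · have h2F : (2 : F) = 0 := by
        have h3 : ((2 : ℕ) : F) = 0 := (ringChar.spec F 2).2 (by rw [h2])
        exact_mod_cast h3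
      have hcharK : ringChar K = 2 := by
        apply CharP.ringChar_of_prime_eq_zero Nat.prime_two
        have h3 : (2 : K) = f 2 := (map_ofNat f 2).symm
        rw [Nat.cast_ofNat, h3, h2F, map_zero]
      exact FiniteField.isSquare_of_char_two hcharK _
    · have hodd : Odd (Fintype.card F) := by
        rw [Nat.odd_iff]
        exact FiniteField.odd_card_of_char_ne_two h2
      rw [hf]
      exact Helper45.ID.isSquare_algebraMap hodd K hfin c
  obtain ⟨s, hs⟩ := hsq
  have hfc0 : f (c : F) ≠ 0 := (map_ne_zero f).mpr c.ne_zero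
  have hs0 : s ≠ 0 := by
    rintro rfl
    rw [mul_zero] at hs
    exact hfc0 hs
  obtain ⟨T₀g, hT₀g⟩ : ∃ T₀g : GL (MI m) K,
      T₀g = scGL s⁻¹ (inv_ne_zero hs0) * Matrix.GeneralLinearGroup.map f t := ⟨_, rfl⟩
  have hT₀c : (T₀g : Matrix (MI m) (MI m) K)
      = s⁻¹ • ((t : Matrix (MI m) (MI m) F).map f) := by
    rw [hT₀g, scGL_mul_coe]
    rfl
  have hT₀mem : T₀g ∈ isometryGroup K ⇑(Helper43.minusQF m K (f a) (f b)) := by
    rw [Helper45.mem_iso_iff]
    intro v
    rw [hT₀c, Matrix.smul_mulVec, QuadraticMap.map_smul]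
    have h2 := minus_sim_map f a b (t : Matrix (MI m) (MI m) F) c hc v
    have h3 : Helper43.minusQF m K (f a) (f b) ((t : Matrix (MI m) (MI m) F).map f *ᵥ v)
        = f (c : F) * Helper43.minusQF m K (f a) (f b) v := h2
    rw [h3, hs, smul_eq_mul]
    field_simp
  obtain ⟨T₀, hT₀⟩ : ∃ T₀ : ↥(isometryGroup K ⇑(Helper43.minusQF m K (f a) (f b))),
      T₀ = ⟨T₀g, hT₀mem⟩ := ⟨_, rfl⟩
  have hT₀v : ((T₀ : GL (MI m) K) : Matrix (MI m) (MI m) K)
      = s⁻¹ • ((t : Matrix (MI m) (MI m) F).map f) := by
    rw [hT₀]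
    exact hT₀c
  have htmap : (t : Matrix (MI m) (MI m) F).map f
      = s • ((T₀ : GL (MI m) K) : Matrix (MI m) (MI m) K) := by
    rw [hT₀v, smul_smul, mul_inv_cancel₀ hs0, one_smul]
  have hwK : Helper43.minusQF m K (f a) (f b) (fun i => f (w i)) ≠ 0 := by
    have h1 : Helper43.minusQF m K (f a) (f b) (fun i => f (w i))
        = f (quadFormMinus m F a b w) := qminus_map f a b w
    rw [h1]
    exact (map_ne_zero f).mpr hw
  have hRK : (R : Matrix (MI m) (MI m) F).map f
      = ((Helper45.reflO (Helper43.minusQF m K (f a) (f b)) (fun i => f (w i)) hwK :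
          ↥(isometryGroup K ⇑(Helper43.minusQF m K (f a) (f b)))) : GL (MI m) K) := by
    rw [hRw, minus_refl_map]
    rfl
  have hprod : ((t * R : GL (MI m) F) : Matrix (MI m) (MI m) F).map f
      = s • (((T₀ * Helper45.reflO (Helper43.minusQF m K (f a) (f b)) (fun i => f (w i)) hwK :
          ↥(isometryGroup K ⇑(Helper43.minusQF m K (f a) (f b)))) : GL (MI m) K) :
          Matrix (MI m) (MI m) K) := by
    rw [Units.val_mul, Matrix.map_mul, htmap, hRK, Matrix.smul_mul]
    rfl
  have hmem : ∀ x : ↥(isometryGroup K ⇑(Helper43.minusQF m K (f a) (f b))),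
      x ∈ Helper45.reflGroup (Helper43.minusQF m K (f a) (f b)) := fun x => by
    rw [hR]; trivial
  rcases Helper45.ID.zmod2_cases (Helper45.dick (Helper43.minusQF m K (f a) (f b)) T₀) with hd | hd
  · left
    refine ⟨K, instK, instA, hfin, ?_⟩
    rw [← hf, htmap]
    exact (pres_smul _ s hs0 _).mpr
      ((pres_iff_dick (Helper43.minusQF m K (f a) (f b)) hQK hR (Helper45.ID.Eminus m θ) hE hdim
        T₀).mpr hd)
  · right
    refine ⟨K, instK, instA, hfin, ?_⟩
    rw [← hf, hprod]
    apply (pres_smul _ s hs0 _).mpr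
    apply (pres_iff_dick (Helper43.minusQF m K (f a) (f b)) hQK hR (Helper45.ID.Eminus m θ) hE hdim
        _).mpr
    rw [Helper45.dick_mul_of_mem _ hQK T₀ (hmem _), hd, Helper45.dick_refl _ hQK]
    rfl

end ext

end Cfsg.Agent.Helper44.POm
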