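import Mathlib
import Cfsg.Agent.Helper44.OmK
import Cfsg.Agent.Helper45.OutH

/-!
# Minus-type orthogonal groups (helper44), part L: rational structures and Hilbert 90 for
semisimilarities of the minus-type form
-/

set_option autoImplicit false
set_option linter.unusedSimpArgs false
set_option linter.unusedSectionVars false
set_option linter.unusedVariables false

namespace Cfsg.Agent.Helper44.POm

open Matrix Cfsg
open Cfsg.Agent.Helper45.OO (semiAut semiMap glMap polarGram)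

universe u

section gen

variable {F : Type u} [Field F] {ι : Type} [Fintype ι] [DecidableEq ι]

/-- the multiplier of the twisted powers of a semisimilarity -/
theorem semi_twR (Q : (ι → F) → F) (σ : RingAut F) (g : Matrix ι ι F) (c : F)
    (hc : ∀ v, Q (g *ᵥ fvec σ v) = c * σ (Q v)) (k : ℕ) (v : ι → F) :
    Q (PSLn.twR (RingHom.mapMatrix (σ : F →+* F)) g k *ᵥ fvec (σ ^ k) v)
      = PSLn.twR (σ : F →+* F) c k * (σ ^ k) (Q v) := by
  induction k generalizing v with
  | zero =>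
    rw [PSLn.twR_zero, PSLn.twR_zero, Matrix.one_mulVec, one_mul, pow_zero]
    rfl
  | succ k ih =>
    rw [PSLn.twR_succ, PSLn.twR_succ, ← Matrix.mulVec_mulVec, RingHom.mapMatrix_apply]
    have h1 : (PSLn.twR (RingHom.mapMatrix (σ : F →+* F)) g k).map (σ : F →+* F)
          *ᵥ fvec (σ ^ (k + 1)) v
        = fvec σ (PSLn.twR (RingHom.mapMatrix (σ : F →+* F)) g k *ᵥ fvec (σ ^ k) v) := by
      rw [fvec_mulVec, fvec_fvec, pow_succ']
      rfl
    rw [h1, hc, ih, map_mul, pow_succ', mul_assoc]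
    rfl

/-- a monic quadratic without roots over a finite field -/
theorem exists_aniso_fin (K : Type*) [Field K] [Finite K] : ∃ ζ : K, ∀ t : K, t ^ 2 + t + ζ ≠ 0 := by
  by_contra hcon
  push_neg at hcon
  have hsurj : Function.Surjective (fun t : K => t ^ 2 + t) := by
    intro y
    obtain ⟨t, ht⟩ := hcon (-y)
    exact ⟨t, by show t ^ 2 + t = y; linear_combination ht⟩
  have hinj := Finite.injective_iff_surjective.2 hsurj
  have h1 : (fun t : K => t ^ 2 + t) 0 = (fun t : K => t ^ 2 + t) (-1) := by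
    show (0 : K) ^ 2 + 0 = (-1) ^ 2 + (-1)
    ring
  have h2 := hinj h1
  have h3 : (1 : K) = 0 := by linear_combination h2
  exact one_ne_zero h3

end gen

section minus

variable {F : Type u} [Field F] {m : ℕ}

theorem card_MI : Fintype.card (MI m) = 2 * m + 2 := by
  rw [Fintype.card_sum, Fintype.card_sum, Fintype.card_fin, Fintype.card_fin]
  ring

/-- the minus-type form with fixed coefficients commutes with the field automorphism -/
theorem qminus_fvec (σ : RingAut F) (a b : F) (ha : σ a = a) (hb : σ b = b) (v : MI m → F) :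
    quadFormMinus m F a b (fvec σ v) = σ (quadFormMinus m F a b v) := by
  unfold quadFormMinus fvec
  simp only [map_add, map_sum, map_mul, map_pow, ha, hb]

theorem qminus_single (a b : F) :
    quadFormMinus m F a b (Pi.single (Sum.inr 0) 1) = 1 := by
  unfold quadFormMinus
  simp

/-- a rational structure on the minus-type quadratic space is similar to a standard one -/
theorem rat_minus [Finite F] (a b : F)
    (hab : ∀ z₁ z₂ : F, z₁ ^ 2 + a * z₁ * z₂ + b * z₂ ^ 2 = 0 → z₁ = 0 ∧ z₂ = 0)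
    (K₀ : Subfield F) (a₀ b₀ : K₀)
    (hab₀ : ∀ z₁ z₂ : K₀, z₁ ^ 2 + a₀ * z₁ * z₂ + b₀ * z₂ ^ 2 = 0 → z₁ = 0 ∧ z₂ = 0)
    (bm : Matrix (MI m) (MI m) F) (hbU : IsUnit bm) (lam : F) (hlam : lam ≠ 0)
    (hrat : ∀ v : MI m → K₀, lam * quadFormMinus m F a b (bm *ᵥ fun i => (v i : F)) ∈ K₀) :
    ∃ A : Matrix (MI m) (MI m) K₀, IsUnit A ∧
      ∀ x : MI m → F, quadFormMinus m F a b ((bm * A.map K₀.subtype) *ᵥ x)
        = lam⁻¹ * quadFormMinus m F (a₀ : F) (b₀ : F) x := by
  classical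
  let toF : (MI m → K₀) → (MI m → F) := fun v i => (v i : F)
  have toF_add : ∀ x y : MI m → K₀, toF (x + y) = toF x + toF y := fun x y => rfl
  have toF_smul : ∀ (a : K₀) (x : MI m → K₀), toF (a • x) = (a : F) • toF x := fun a x => rfl
  let f : (MI m → K₀) → K₀ := fun v =>
    ⟨lam * Cfsg.Agent.Helper43.minusQF m F a b (bm *ᵥ toF v), hrat v⟩
  have hf : ∀ v, ((f v : K₀) : F) = lam * Cfsg.Agent.Helper43.minusQF m F a b (bm *ᵥ toF v) :=
    fun v => rfl
  have hpol : ∀ x y : MI m → K₀, ((QuadraticMap.polar f x y : K₀) : F)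
      = lam * QuadraticMap.polar (Cfsg.Agent.Helper43.minusQF m F a b) (bm *ᵥ toF x)
        (bm *ᵥ toF y) := by
    intro x y
    unfold QuadraticMap.polar
    rw [Subfield.coe_sub, Subfield.coe_sub, hf, hf, hf, toF_add, Matrix.mulVec_add]
    ring
  let P₀ : QuadraticForm K₀ (MI m → K₀) := QuadraticMap.ofPolar f
    (by
      intro a x
      apply Subtype.ext
      rw [smul_eq_mul, Subfield.coe_mul, Subfield.coe_mul, hf, hf, toF_smul, Matrix.mulVec_smul,
        QuadraticMap.map_smul, smul_eq_mul]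
      ring)
    (by
      intro x x' y
      apply Subtype.ext
      rw [Subfield.coe_add, hpol, hpol, hpol, toF_add, Matrix.mulVec_add,
        QuadraticMap.polar_add_left, mul_add])
    (by
      intro a x y
      apply Subtype.ext
      rw [smul_eq_mul, Subfield.coe_mul, hpol, hpol, toF_smul, Matrix.mulVec_smul,
        QuadraticMap.polar_smul_left, smul_eq_mul]
      ring)
  have hP₀ : ∀ v, P₀ v = f v := fun v => rfl
  obtain ⟨bi, hbi1, hbi2⟩ : ∃ bi : Matrix (MI m) (MI m) F, bi * bm = 1 ∧ bm * bi = 1 := by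
    obtain ⟨u, hu⟩ := hbU
    exact ⟨((u⁻¹ : (Matrix (MI m) (MI m) F)ˣ) : Matrix (MI m) (MI m) F),
      by rw [← hu, Units.inv_mul], by rw [← hu, Units.mul_inv]⟩
  have hV : Module.finrank K₀ (MI m → K₀) = 2 * (m + 1) := by
    rw [Module.finrank_fintype_fun_eq_card, card_MI]
    ring
  have toF_single : ∀ j : MI m, toF (Pi.single j 1) = Pi.single j 1 := by
    intro j
    funext i
    show (((Pi.single j 1 : MI m → K₀) i : K₀) : F) = _
    by_cases hij : i = j
    · subst hij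
      rw [Pi.single_eq_same, Pi.single_eq_same]
      rfl
    · rw [Pi.single_eq_of_ne hij, Pi.single_eq_of_ne hij]
      rfl
  have hQF := Helper43.OrthEven.minusQF_nondeg (F := F) m a b hab
  have hnd : Cfsg.Agent.Helper43.PolarNondeg P₀ := by
    intro v hv
    have h1 : ∀ w : MI m → K₀, QuadraticMap.polar (Cfsg.Agent.Helper43.minusQF m F a b)
        (bm *ᵥ toF v) (bm *ᵥ toF w) = 0 := by
      intro w
      have h3 : ((QuadraticMap.polar f v w : K₀) : F) = 0 := by
        have h4 : QuadraticMap.polar f v w = 0 := hv w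
        rw [h4]
        rfl
      rw [hpol] at h3
      rcases mul_eq_zero.1 h3 with h5 | h5
      · exact absurd h5 hlam
      · exact h5
    have hz2 : (QuadraticMap.polarBilin (Cfsg.Agent.Helper43.minusQF m F a b) (bm *ᵥ toF v)) ∘ₗ
        (Matrix.mulVecLin bm) = 0 := by
      apply (Pi.basisFun F (MI m)).ext
      intro j
      rw [Pi.basisFun_apply, LinearMap.comp_apply, Matrix.mulVecLin_apply, ← toF_single]
      exact h1 (Pi.single j 1)
    have h3 : bm *ᵥ toF v = 0 := by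
      apply Cfsg.Agent.Helper43.polarNondeg_of_nondegenerate _ hQF
      intro z
      have h4 := LinearMap.congr_fun hz2 (bi *ᵥ z)
      rw [LinearMap.comp_apply, Matrix.mulVecLin_apply, Matrix.mulVec_mulVec, hbi2,
        Matrix.one_mulVec] at h4
      exact h4
    have h4 : toF v = 0 := by
      have h5 := congrArg (fun y => bi *ᵥ y) h3
      simp only [Matrix.mulVec_mulVec, hbi1, Matrix.one_mulVec, Matrix.mulVec_zero] at h5
      exact h5
    funext i
    apply Subtype.ext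
    exact congrFun h4 i
  by_cases hTS : Helper43.OrthEven.HasTS P₀ (m + 1)
  · -- the plus type is impossible
    exfalso
    obtain ⟨Ψ, hΨ⟩ := Helper43.OrthEven.exists_plus_of_hasTS (m := m + 1) (by omega) hV P₀ hnd hTS
    obtain ⟨B, hB⟩ : ∃ B : Matrix (MI m) (Fin (m + 1) ⊕ Fin (m + 1)) K₀,
        B = LinearMap.toMatrix' (Ψ : (Fin (m + 1) ⊕ Fin (m + 1) → K₀) →ₗ[K₀] (MI m → K₀)) :=
      ⟨_, rfl⟩
    obtain ⟨B', hB'⟩ : ∃ B' : Matrix (Fin (m + 1) ⊕ Fin (m + 1)) (MI m) K₀,
        B' = LinearMap.toMatrix' (Ψ.symm : (MI m → K₀) →ₗ[K₀] (Fin (m + 1) ⊕ Fin (m + 1) → K₀)) :=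
      ⟨_, rfl⟩
    have hBv : ∀ x, B *ᵥ x = Ψ x := by
      intro x
      rw [hB, LinearMap.toMatrix'_mulVec]
      rfl
    have hB'B : B' * B = 1 := by
      rw [hB, hB', ← LinearMap.toMatrix'_comp]
      have h1 : (Ψ.symm : (MI m → K₀) →ₗ[K₀] (Fin (m + 1) ⊕ Fin (m + 1) → K₀)) ∘ₗ
          (Ψ : (Fin (m + 1) ⊕ Fin (m + 1) → K₀) →ₗ[K₀] (MI m → K₀)) = LinearMap.id := by
        ext x : 1
        simp
      rw [h1, LinearMap.toMatrix'_id]
    have hB'Bm : B'.map K₀.subtype * B.map K₀.subtype = 1 := by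
      rw [← Matrix.map_mul, hB'B]
      ext i j
      rw [Matrix.map_apply, Matrix.one_apply, Matrix.one_apply]
      by_cases hij : i = j
      · rw [if_pos hij, if_pos hij, map_one]
      · rw [if_neg hij, if_neg hij, map_zero]
    have hkey : ∀ x₀ : Fin (m + 1) ⊕ Fin (m + 1) → K₀,
        quadFormMinus m F a b ((bm * B.map K₀.subtype) *ᵥ fun i => K₀.subtype (x₀ i))
          = lam⁻¹ * quadFormPlus (m + 1) F (fun i => K₀.subtype (x₀ i)) := by
      intro x₀
      have h1 := hΨ x₀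
      rw [← hBv, hP₀] at h1
      have h3 : ((f (B *ᵥ x₀) : K₀) : F)
          = quadFormPlus (m + 1) F (fun i => K₀.subtype (x₀ i)) := by
        rw [h1]
        show K₀.subtype (quadFormPlus (m + 1) K₀ x₀) = _
        unfold quadFormPlus
        simp only [map_sum, map_mul]
      rw [hf] at h3
      have h4 : toF (B *ᵥ x₀) = B.map K₀.subtype *ᵥ fun i => K₀.subtype (x₀ i) := by
        funext i
        exact RingHom.map_mulVec K₀.subtype B x₀ i
      rw [h4, Matrix.mulVec_mulVec] at h3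
      have h5 : Cfsg.Agent.Helper43.minusQF m F a b
          ((bm * B.map K₀.subtype) *ᵥ fun i => K₀.subtype (x₀ i))
          = quadFormMinus m F a b ((bm * B.map K₀.subtype) *ᵥ fun i => K₀.subtype (x₀ i)) := rfl
      rw [h5] at h3
      rw [← h3, ← mul_assoc, inv_mul_cancel₀ hlam, one_mul]
    have hall : ∀ x : Fin (m + 1) ⊕ Fin (m + 1) → F,
        quadFormMinus m F a b ((bm * B.map K₀.subtype) *ᵥ x)
          = lam⁻¹ * quadFormPlus (m + 1) F x := by
      intro x
      exact quad_transfer K₀.subtype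
        ((Helper43.minusQF m F a b).comp (Matrix.mulVecLin (bm * B.map K₀.subtype)))
        (lam⁻¹ • Helper43.plusQF (m + 1) F) hkey x
    obtain ⟨U, hU, hU0⟩ := Helper43.OrthEven.hasTS_plus (F := F) (m + 1)
    have hinj : Function.Injective
        ((Matrix.mulVecLin (bm * B.map K₀.subtype)) ∘ₗ U.subtype) := by
      intro x y hxy
      apply Subtype.ext
      have h1 : (bm * B.map K₀.subtype) *ᵥ (x : Fin (m + 1) ⊕ Fin (m + 1) → F)
          = (bm * B.map K₀.subtype) *ᵥ (y : Fin (m + 1) ⊕ Fin (m + 1) → F) := hxy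
      have h3 := congrArg (fun z => (B'.map K₀.subtype * bi) *ᵥ z) h1
      simp only [Matrix.mulVec_mulVec] at h3
      have h4 : B'.map K₀.subtype * bi * (bm * B.map K₀.subtype) = 1 := by
        rw [Matrix.mul_assoc, ← Matrix.mul_assoc bi, hbi1, Matrix.one_mul, hB'Bm]
      rw [h4, Matrix.one_mulVec, Matrix.one_mulVec] at h3
      exact h3
    have hts := Helper43.OrthEven.hasTS_of_map (Helper43.minusQF m F a b)
      ((Matrix.mulVecLin (bm * B.map K₀.subtype)) ∘ₗ U.subtype) hinj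
      (by
        intro w
        show quadFormMinus m F a b ((bm * B.map K₀.subtype) *ᵥ (w : Fin (m + 1) ⊕ Fin (m + 1) → F))
          = 0
        rw [hall]
        have h1 : quadFormPlus (m + 1) F (w : Fin (m + 1) ⊕ Fin (m + 1) → F) = 0 := hU0 _ w.2
        rw [h1, mul_zero])
    exact Helper43.OrthEven.not_hasTS_minus (m := m + 1) (by omega) a b hab
      (Helper43.OrthEven.hasTS_mono hts hU)
  · obtain ⟨Ψ, hΨ⟩ : ∃ Ψ : (MI m → K₀) ≃ₗ[K₀] (MI m → K₀),
        ∀ z, P₀ (Ψ z) = quadFormMinus m K₀ a₀ b₀ z :=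
      Helper43.OrthEven.exists_minus_of_not_hasTS' (m := m + 1) (by omega) hV P₀ hnd hTS a₀ b₀ hab₀
    obtain ⟨A₀, hA₀def⟩ : ∃ A₀ : Matrix (MI m) (MI m) K₀,
        A₀ = LinearMap.toMatrix' (Ψ : (MI m → K₀) →ₗ[K₀] (MI m → K₀)) := ⟨_, rfl⟩
    have hA₀ : ∀ x : MI m → K₀, A₀ *ᵥ x = Ψ x := by
      intro x
      rw [hA₀def, LinearMap.toMatrix'_mulVec]
      rfl
    have hA₀U : IsUnit A₀ := by
      rw [Matrix.isUnit_iff_isUnit_det]
      apply Matrix.isUnit_det_of_right_inverse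
        (B := LinearMap.toMatrix' (Ψ.symm : (MI m → K₀) →ₗ[K₀] (MI m → K₀)))
      rw [hA₀def, ← LinearMap.toMatrix'_comp]
      have h1 : (Ψ : (MI m → K₀) →ₗ[K₀] (MI m → K₀)) ∘ₗ
          (Ψ.symm : (MI m → K₀) →ₗ[K₀] (MI m → K₀)) = LinearMap.id := by
        ext x : 1
        simp
      rw [h1, LinearMap.toMatrix'_id]
    have hkey : ∀ x₀ : MI m → K₀,
        quadFormMinus m F a b ((bm * A₀.map K₀.subtype) *ᵥ fun i => K₀.subtype (x₀ i))
          = lam⁻¹ * quadFormMinus m F (K₀.subtype a₀) (K₀.subtype b₀)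
            (fun i => K₀.subtype (x₀ i)) := by
      intro x₀
      have h1 := hΨ x₀
      rw [← hA₀, hP₀] at h1
      have h3 : ((f (A₀ *ᵥ x₀) : K₀) : F)
          = quadFormMinus m F (K₀.subtype a₀) (K₀.subtype b₀) (fun i => K₀.subtype (x₀ i)) := by
        rw [h1, qminus_map]
        rfl
      rw [hf] at h3
      have h4 : toF (A₀ *ᵥ x₀) = A₀.map K₀.subtype *ᵥ fun i => K₀.subtype (x₀ i) := by
        funext i
        exact RingHom.map_mulVec K₀.subtype A₀ x₀ i
      rw [h4, Matrix.mulVec_mulVec] at h3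
      have h5 : Cfsg.Agent.Helper43.minusQF m F a b
          ((bm * A₀.map K₀.subtype) *ᵥ fun i => K₀.subtype (x₀ i))
          = quadFormMinus m F a b ((bm * A₀.map K₀.subtype) *ᵥ fun i => K₀.subtype (x₀ i)) := rfl
      rw [h5] at h3
      rw [← h3, ← mul_assoc, inv_mul_cancel₀ hlam, one_mul]
    refine ⟨A₀, hA₀U, ?_⟩
    intro x
    exact quad_transfer K₀.subtype
      ((Helper43.minusQF m F a b).comp (Matrix.mulVecLin (bm * A₀.map K₀.subtype)))
      (lam⁻¹ • Helper43.minusQF m F (K₀.subtype a₀) (K₀.subtype b₀)) hkey x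

/-- **Hilbert 90 for semisimilarities of the minus-type form** -/
theorem minus_h90 [Finite F] (a b : F)
    (hab : ∀ z₁ z₂ : F, z₁ ^ 2 + a * z₁ * z₂ + b * z₂ ^ 2 = 0 → z₁ = 0 ∧ z₂ = 0)
    (σ : RingAut F) (r : ℕ) (hr : orderOf σ = r) (hr0 : 0 < r)
    (a₀ b₀ : ↥(PSpn.fixF σ))
    (hab₀ : ∀ z₁ z₂ : ↥(PSpn.fixF σ), z₁ ^ 2 + a₀ * z₁ * z₂ + b₀ * z₂ ^ 2 = 0 → z₁ = 0 ∧ z₂ = 0)
    (g : Matrix (MI m) (MI m) F) (c : F) (hc0 : c ≠ 0)
    (hc : ∀ v, quadFormMinus m F a b (g *ᵥ fvec σ v) = c * σ (quadFormMinus m F a b v))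
    (hN : PSLn.twR (RingHom.mapMatrix (σ : F →+* F)) g r = 1) :
    ∃ (k : Matrix (MI m) (MI m) F) (lam : F), IsUnit k ∧ lam ≠ 0 ∧
      (∀ v, quadFormMinus m F a b (k *ᵥ v) = lam * quadFormMinus m F (a₀ : F) (b₀ : F) v) ∧
      g * k.map σ = k := by
  classical
  have hσr : σ ^ r = 1 := by
    rw [← hr]
    exact pow_orderOf_eq_one σ
  have hcN : PSLn.twR (σ : F →+* F) c r = 1 := by
    have h1 := semi_twR (quadFormMinus m F a b) σ g c hc r (Pi.single (Sum.inr 0) 1)
    rw [hN, Matrix.one_mulVec, hσr, fvec_one, qminus_single] at h1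
    have h2 : ((1 : RingAut F)) (1 : F) = 1 := rfl
    rw [h2, mul_one] at h1
    exact h1.symm
  obtain ⟨β, hβ0, hβ⟩ := PSLn.lang_h90_scalar σ r hr hr0 c hcN
  obtain ⟨bm, hbU, hb⟩ := h90_matrix σ r hr hr0 g hN
  have hrat : ∀ v : MI m → PSpn.fixF σ,
      β⁻¹ * quadFormMinus m F a b (bm *ᵥ fun i => (v i : F)) ∈ PSpn.fixF σ := by
    intro v
    have hv : fvec σ (fun i => (v i : F)) = fun i => (v i : F) := by
      funext i
      exact (v i).2
    have h1 : quadFormMinus m F a b (bm *ᵥ fun i => (v i : F))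
        = c * σ (quadFormMinus m F a b (bm *ᵥ fun i => (v i : F))) := by
      conv_lhs => rw [← hb, ← Matrix.mulVec_mulVec, ← hv, ← fvec_mulVec, hc]
    have hσβ : σ β = β * c⁻¹ := by
      rw [eq_mul_inv_iff_mul_eq₀ hc0, mul_comm]
      exact hβ
    show σ (β⁻¹ * quadFormMinus m F a b (bm *ᵥ fun i => (v i : F)))
      = β⁻¹ * quadFormMinus m F a b (bm *ᵥ fun i => (v i : F))
    rw [map_mul, map_inv₀, hσβ]
    conv_rhs => rw [h1]
    field_simp
  obtain ⟨A, hAU, hA⟩ := rat_minus a b hab (PSpn.fixF σ) a₀ b₀ hab₀ bm hbU β⁻¹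
    (inv_ne_zero hβ0) hrat
  have hAσ : (A.map (PSpn.fixF σ).subtype).map σ = A.map (PSpn.fixF σ).subtype := by
    ext i j
    exact (A i j).2
  have hkU : IsUnit (bm * A.map (PSpn.fixF σ).subtype) := by
    apply IsUnit.mul hbU
    rw [Matrix.isUnit_iff_isUnit_det] at hAU ⊢
    have h1 : (A.map (PSpn.fixF σ).subtype).det = (PSpn.fixF σ).subtype A.det :=
      (RingHom.map_det (PSpn.fixF σ).subtype A).symm
    rw [h1]
    exact hAU.map (PSpn.fixF σ).subtype
  refine ⟨bm * A.map (PSpn.fixF σ).subtype, β⁻¹⁻¹, hkU, inv_ne_zero (inv_ne_zero hβ0), hA, ?_⟩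
  rw [Matrix.map_mul, hAσ, ← Matrix.mul_assoc, hb]

/-- **the field-automorphism homomorphism of `PΩ⁻_{2m+2}(q)`** -/
theorem minus_theta [Fintype F] (hm : 3 ≤ m) (a b : F)
    (hab : ∀ z₁ z₂ : F, z₁ ^ 2 + a * z₁ * z₂ + b * z₂ ^ 2 = 0 → z₁ = 0 ∧ z₂ = 0) :
    ∃ Θ : MulAut (POmega F (quadFormMinus m F a b)) →* RingAut F,
      (∀ (g : GL (MI m) F) (σ : F ≃+* F)
        (hg : IsSemisimilarityPair (quadFormMinus m F a b) g σ),
        Θ (semiAut (quadFormMinus m F a b) g σ hg) = σ) ∧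
      (∀ α : MulAut (POmega F (quadFormMinus m F a b)),
        ∃ (g : GL (MI m) F) (hg : IsSemisimilarityPair (quadFormMinus m F a b) g (Θ α)),
          α = semiAut (quadFormMinus m F a b) g (Θ α) hg) := by
  have hQ := Helper45.minusQF_nondeg' (F := F) m a b hab
  have hcard : Fintype.card (MI m) = 2 * m + 2 := card_MI
  have hn7 : 7 ≤ Fintype.card (MI m) := by omega
  have hcase : 9 ≤ Fintype.card (MI m) ∨ Helper45.AO.TS4free (Helper43.minusQF m F a b) := by
    by_cases h4 : 4 ≤ m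
    · left
      omega
    · right
      have hm3 : m = 3 := by omega
      subst hm3
      intro W hW
      by_contra hcon
      obtain ⟨v, hvW, hv⟩ := Helper45.minus_exists_nonsingular 3 a b hab W (by omega)
      exact hv (hW v hvW)
  exact Helper45.OO.exists_theta (Helper43.minusQF m F a b) hQ hn7 hcase

end minus

end Cfsg.Agent.Helper44.POm
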