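import Mathlib
import Cfsg.Agent.Helper44.OmL

/-!
# Minus-type orthogonal groups (helper44), part M: transport between two forms and the
field-automorphism classes
-/

set_option autoImplicit false
set_option linter.unusedSimpArgs false
set_option linter.unusedSectionVars false
set_option linter.unusedVariables false

namespace Cfsg.Agent.Helper44.POm

open Matrix Cfsg
open Cfsg.Agent.Helper45.OO (semiAut semiMap glMap polarGram)

universe u

section grp

theorem map_commutator_equiv {G G' : Type*} [Group G] [Group G'] (e : G ≃* G') :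
    (commutator G).map e.toMonoidHom = commutator G' := by
  rw [_root_.commutator_def, _root_.commutator_def, Subgroup.map_commutator,
    Subgroup.map_top_of_surjective _ e.surjective]

theorem map_center_equiv {G G' : Type*} [Group G] [Group G'] (e : G ≃* G') :
    (Subgroup.center G).map e.toMonoidHom = Subgroup.center G' := by
  ext y
  rw [Subgroup.mem_map, Subgroup.mem_center_iff]
  constructor
  · rintro ⟨x, hx, rfl⟩ g
    rw [Subgroup.mem_center_iff] at hx
    obtain ⟨g₀, rfl⟩ := e.surjective g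
    show e g₀ * e x = e x * e g₀
    rw [← map_mul, ← map_mul, hx g₀]
  · intro hy
    refine ⟨e.symm y, ?_, e.apply_symm_apply y⟩
    rw [Subgroup.mem_center_iff]
    intro g
    apply e.injective
    rw [map_mul, map_mul, e.apply_symm_apply]
    exact hy (e g)

end grp

section transport

variable {ι : Type} [Fintype ι] [DecidableEq ι] {F : Type u} [Field F] (Q Q' : (ι → F) → F)

theorem conj_inv_hyp (j : GL ι F) (hj : ∀ v, Q v = Q' ((j : Matrix ι ι F) *ᵥ v)) :
    ∀ u, Q' u = Q (((j⁻¹ : GL ι F) : Matrix ι ι F) *ᵥ u) := by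
  intro u
  rw [hj, Matrix.mulVec_mulVec, ← Units.val_mul, mul_inv_cancel, Units.val_one, Matrix.one_mulVec]

theorem conj_mem_iso2 (j : GL ι F) (hj : ∀ v, Q v = Q' ((j : Matrix ι ι F) *ᵥ v)) {h : GL ι F}
    (hh : h ∈ isometryGroup F Q) : j * h * j⁻¹ ∈ isometryGroup F Q' := by
  rw [Helper45.mem_iso_iff] at hh ⊢
  intro v
  have h1 := conj_inv_hyp Q Q' j hj
  rw [Units.val_mul, Units.val_mul, ← Matrix.mulVec_mulVec, ← Matrix.mulVec_mulVec, ← hj, hh, ← h1]

/-- conjugation by an isometry between two forms, on the isometry groups -/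
def conjO2 (j : GL ι F) (hj : ∀ v, Q v = Q' ((j : Matrix ι ι F) *ᵥ v)) :
    ↥(isometryGroup F Q) ≃* ↥(isometryGroup F Q') where
  toFun h := ⟨j * h * j⁻¹, conj_mem_iso2 Q Q' j hj h.2⟩
  invFun h := ⟨j⁻¹ * h * j, by
    have := conj_mem_iso2 Q' Q j⁻¹ (conj_inv_hyp Q Q' j hj) h.2
    simpa using this⟩
  left_inv h := by
    apply Subtype.ext
    simp [mul_assoc]
  right_inv h := by
    apply Subtype.ext
    simp [mul_assoc]
  map_mul' a b := by
    apply Subtype.ext
    simp [mul_assoc]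

/-- conjugation by an isometry between two forms, on `Ω` -/
noncomputable def conjΩ2 (j : GL ι F) (hj : ∀ v, Q v = Q' ((j : Matrix ι ι F) *ᵥ v)) :
    ↥(Omega F Q) ≃* ↥(Omega F Q') :=
  ((conjO2 Q Q' j hj).subgroupMap (Omega F Q)).trans
    (MulEquiv.subgroupCongr (map_commutator_equiv (conjO2 Q Q' j hj)))

theorem conjΩ2_coe (j : GL ι F) (hj : ∀ v, Q v = Q' ((j : Matrix ι ι F) *ᵥ v))
    (s : ↥(Omega F Q)) :
    (((conjΩ2 Q Q' j hj s : ↥(Omega F Q')) : ↥(isometryGroup F Q')) : GL ι F)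
      = j * ((s : ↥(isometryGroup F Q)) : GL ι F) * j⁻¹ := rfl

/-- conjugation by an isometry between two forms, on `PΩ` -/
noncomputable def conjP2 (j : GL ι F) (hj : ∀ v, Q v = Q' ((j : Matrix ι ι F) *ᵥ v)) :
    POmega F Q ≃* POmega F Q' :=
  QuotientGroup.congr (Subgroup.center ↥(Omega F Q)) (Subgroup.center ↥(Omega F Q'))
    (conjΩ2 Q Q' j hj) (map_center_equiv (conjΩ2 Q Q' j hj))

theorem conjP2_mk (j : GL ι F) (hj : ∀ v, Q v = Q' ((j : Matrix ι ι F) *ᵥ v))
    (s : ↥(Omega F Q)) :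
    conjP2 Q Q' j hj (QuotientGroup.mk s) = QuotientGroup.mk (conjΩ2 Q Q' j hj s) := rfl

/-- the standard field automorphism of a form with fixed coefficients, transported to an isometric
form, is induced by a semisimilarity with the same field automorphism -/
theorem field_transport (σ : RingAut F) (hσQ' : ∀ v, Q' (fvec σ v) = σ (Q' v))
    (j : GL ι F) (hj : ∀ v, Q v = Q' ((j : Matrix ι ι F) *ᵥ v))
    (φ' : MulAut (POmega F Q')) (hφ' : IsFieldAutPOmegaOf Q' σ φ') :
    ∃ (g : GL ι F) (hg : IsSemisimilarityPair Q g σ),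
      (((conjP2 Q Q' j hj).trans φ').trans (conjP2 Q Q' j hj).symm : POmega F Q ≃* POmega F Q)
        = semiAut Q g σ hg := by
  have hg : IsSemisimilarityPair Q (j⁻¹ * glMap σ j) σ := by
    refine ⟨1, fun v => ?_⟩
    rw [Units.val_one, one_mul, hj, Matrix.mulVec_mulVec, ← Units.val_mul, ← mul_assoc,
      mul_inv_cancel, one_mul, Helper45.OO.glMap_coe]
    have h1 : (j : Matrix ι ι F).map σ *ᵥ (fun i => σ (v i))
        = fvec σ ((j : Matrix ι ι F) *ᵥ v) := (fvec_mulVec σ _ v).symm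
    rw [h1, hσQ', ← hj]
  refine ⟨j⁻¹ * glMap σ j, hg, ?_⟩
  apply (Helper45.OO.semi_ind_iff Q _ σ hg _).mp
  intro s s' hss'
  show (conjP2 Q Q' j hj).symm (φ' (conjP2 Q Q' j hj (QuotientGroup.mk s))) = QuotientGroup.mk s'
  rw [conjP2_mk, hφ' (conjΩ2 Q Q' j hj s) (conjΩ2 Q Q' j hj s'), ← conjP2_mk,
    MulEquiv.symm_apply_apply]
  rw [conjΩ2_coe, conjΩ2_coe, Units.val_mul, Units.val_mul, Units.val_mul, Units.val_mul, hss',
    Matrix.map_mul, Matrix.map_mul]
  have h1 : ((j⁻¹ * glMap σ j : GL ι F)⁻¹ : GL ι F) = (glMap σ j)⁻¹ * j := by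
    rw [_root_.mul_inv_rev, inv_inv]
  have h2 : (((glMap σ j : GL ι F)⁻¹ : GL ι F) : Matrix ι ι F)
      = ((j⁻¹ : GL ι F) : Matrix ι ι F).map σ := by
    rw [← map_inv]
    rfl
  have h3 : (j : Matrix ι ι F) * ((j⁻¹ : GL ι F) : Matrix ι ι F) = 1 := by
    rw [← Units.val_mul, mul_inv_cancel, Units.val_one]
  rw [h1, Units.val_mul, Units.val_mul, h2, Helper45.OO.glMap_coe]
  simp only [Matrix.mul_assoc]
  rw [h3, Matrix.mul_one, ← Matrix.mul_assoc (j : Matrix ι ι F), h3, Matrix.one_mul]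

end transport

section gensemi

variable {ι : Type} [Fintype ι] [DecidableEq ι] {F : Type u} [Field F]

theorem gfvec_single (σ : RingAut F) (a : ι) :
    fvec σ (Pi.single a 1 : ι → F) = Pi.single a 1 := by
  funext i
  rw [fvec_apply]
  by_cases hia : i = a
  · subst hia
    rw [Pi.single_eq_same, map_one]
  · rw [Pi.single_eq_of_ne hia, map_zero]

theorem gfvec_smul (σ : RingAut F) (c : F) (x : ι → F) : fvec σ (c • x) = σ c • fvec σ x := by
  funext i
  exact map_mul σ _ _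

theorem gfvec_add (σ : RingAut F) (x y : ι → F) : fvec σ (x + y) = fvec σ x + fvec σ y := by
  funext i
  exact map_add σ _ _

theorem gfvec_sub (σ : RingAut F) (x y : ι → F) : fvec σ (x - y) = fvec σ x - fvec σ y := by
  funext i
  exact map_sub σ _ _

/-- a similarity intertwining two semisimilarities up to a scalar conjugates the induced
automorphisms -/
theorem semi_conj_eq (Q : QuadraticForm F (ι → F)) (σ : RingAut F) (t h g : GL ι F)
    (ht : IsSemisimilarityPair ⇑Q t (RingEquiv.refl F)) (hh : IsSemisimilarityPair ⇑Q h σ)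
    (hg : IsSemisimilarityPair ⇑Q g σ) (e : F) (he : e ≠ 0)
    (heq : (t : Matrix ι ι F) * (h : Matrix ι ι F)
      = e • ((g : Matrix ι ι F) * (t : Matrix ι ι F).map σ)) :
    semiAut ⇑Q g σ hg = semiAut ⇑Q t (RingEquiv.refl F) ht * semiAut ⇑Q h σ hh
      * (semiAut ⇑Q t (RingEquiv.refl F) ht)⁻¹ := by
  rw [eq_mul_inv_iff_mul_eq, Helper45.OO.semiAut_mul, Helper45.OO.semiAut_mul]
  have hg₁ : IsSemisimilarityPair ⇑Q (g * glMap σ t) σ := Helper45.OO.semi_mul ⇑Q hg ht
  have hg₂ : IsSemisimilarityPair ⇑Q (scGL e he * (g * glMap σ t)) σ := by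
    have h := Helper45.OO.semi_mul ⇑Q (scGL_semi Q e he) hg₁
    rw [Helper45.OO.glMap_refl] at h
    exact h
  have e1 := semiAut_scGL_mul Q e he (g * glMap σ t) σ hg₁ hg₂
  refine (Helper45.OO.semiAut_congr ⇑Q _ hg₁ rfl (mul_one σ)).trans ?_
  rw [← e1]
  refine Helper45.OO.semiAut_congr ⇑Q _ _ ?_ (one_mul σ).symm
  apply Units.ext
  rw [scGL_mul_coe, Units.val_mul, Units.val_mul, Helper45.OO.glMap_refl, Helper45.OO.glMap_coe]
  exact heq.symm

/-- the polar form under a semisimilarity -/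
theorem semi_polar (Q : QuadraticForm F (ι → F)) (σ : RingAut F) (h : Matrix ι ι F) (c : F)
    (hc : ∀ v, Q (h *ᵥ fvec σ v) = c * σ (Q v)) (u v : ι → F) :
    QuadraticMap.polar ⇑Q (h *ᵥ fvec σ u) (h *ᵥ fvec σ v) = c * σ (QuadraticMap.polar ⇑Q u v) := by
  unfold QuadraticMap.polar
  rw [← Matrix.mulVec_add, ← gfvec_add, hc, hc, hc, map_sub, map_sub]
  ring

/-- the reflection in a vector fixed up to a scalar by a semisimilarity commutes with it -/
theorem refl_comm_semi (Q : QuadraticForm F (ι → F)) (σ : RingAut F) (h : Matrix ι ι F) (c : F)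
    (hc0 : c ≠ 0) (hc : ∀ v, Q (h *ᵥ fvec σ v) = c * σ (Q v)) (w : ι → F) (hw : Q w ≠ 0)
    (e : F) (he : e ≠ 0) (hew : h *ᵥ fvec σ w = e • w) :
    (((Helper45.reflO Q w hw : ↥(isometryGroup F ⇑Q)) : GL ι F) : Matrix ι ι F) * h
      = h * (((Helper45.reflO Q w hw : ↥(isometryGroup F ⇑Q)) : GL ι F) : Matrix ι ι F).map σ := by
  apply Helper13.mulVec_ext
  intro x
  obtain ⟨v, hv⟩ : ∃ v : ι → F, fvec σ v = x := ⟨fvec σ⁻¹ x, fvec_inv σ x⟩
  rw [← hv, ← Matrix.mulVec_mulVec, ← Matrix.mulVec_mulVec, ← fvec_mulVec]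
  have hR : ∀ y : ι → F,
      (((Helper45.reflO Q w hw : ↥(isometryGroup F ⇑Q)) : GL ι F) : Matrix ι ι F) *ᵥ y
        = y - ((Q w)⁻¹ * QuadraticMap.polar ⇑Q w y) • w := fun y => Helper45.mv_reflO Q w hw y
  rw [hR, hR, gfvec_sub, gfvec_smul, Matrix.mulVec_sub, Matrix.mulVec_smul, hew, smul_smul]
  congr 2
  -- the scalar identity
  have r1 : e * QuadraticMap.polar ⇑Q w (h *ᵥ fvec σ v) = c * σ (QuadraticMap.polar ⇑Q w v) := by
    have h1 := semi_polar Q σ h c hc w v
    rw [hew, QuadraticMap.polar_smul_left, smul_eq_mul] at h1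
    exact h1
  have r2 : c * σ (Q w) = e * e * Q w := by
    have h1 := hc w
    rw [hew, QuadraticMap.map_smul, smul_eq_mul] at h1
    exact h1.symm
  have hσw : σ (Q w) ≠ 0 := (map_ne_zero σ).mpr hw
  rw [map_mul, map_inv₀]
  field_simp
  apply mul_left_cancel₀ he
  linear_combination (σ (QuadraticMap.polar ⇑Q w v)) * r2 + σ (Q w) * r1

end gensemi

end Cfsg.Agent.Helper44.POm
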