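import Mathlib
import Cfsg.Agent.Helper44.OmM

/-!
# Minus-type orthogonal groups (helper44), part N: the coset statement for field automorphisms of
`PΩ⁻_{2m+2}(q)`
-/

set_option autoImplicit false
set_option linter.unusedSimpArgs false
set_option linter.unusedSectionVars false
set_option linter.unusedVariables false

namespace Cfsg.Agent.Helper44.POm

open Matrix Cfsg
open Cfsg.Agent.Helper45.OO (semiAut semiMap glMap polarGram)

universe u

section minusmain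

variable {F : Type u} [Field F] [Fintype F] {m : ℕ}

/-- two minus-type forms over a finite field are isometric -/
theorem minus_iso_forms (a b : F)
    (hab : ∀ z₁ z₂ : F, z₁ ^ 2 + a * z₁ * z₂ + b * z₂ ^ 2 = 0 → z₁ = 0 ∧ z₂ = 0) (a' b' : F)
    (hab' : ∀ z₁ z₂ : F, z₁ ^ 2 + a' * z₁ * z₂ + b' * z₂ ^ 2 = 0 → z₁ = 0 ∧ z₂ = 0) :
    ∃ j : GL (MI m) F, ∀ v, quadFormMinus m F a b v
      = quadFormMinus m F a' b' ((j : Matrix (MI m) (MI m) F) *ᵥ v) := by
  have hV : Module.finrank F (MI m → F) = 2 * (m + 1) := by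
    rw [Module.finrank_fintype_fun_eq_card, card_MI]
    ring
  have hnd := Helper43.polarNondeg_of_nondegenerate _
    (Helper43.OrthEven.minusQF_nondeg (F := F) m a' b' hab')
  have hTS : ¬ Helper43.OrthEven.HasTS (Helper43.minusQF m F a' b') (m + 1) :=
    Helper43.OrthEven.not_hasTS_minus (m := m + 1) (by omega) a' b' hab'
  obtain ⟨Ψ, hΨ⟩ : ∃ Ψ : (MI m → F) ≃ₗ[F] (MI m → F),
      ∀ z, Helper43.minusQF m F a' b' (Ψ z) = quadFormMinus m F a b z :=
    Helper43.OrthEven.exists_minus_of_not_hasTS' (m := m + 1) (by omega) hV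
      (Helper43.minusQF m F a' b') hnd hTS a b hab
  have hU : IsUnit (LinearMap.toMatrix' (Ψ : (MI m → F) →ₗ[F] (MI m → F))) := by
    rw [Matrix.isUnit_iff_isUnit_det]
    apply Matrix.isUnit_det_of_right_inverse
      (B := LinearMap.toMatrix' (Ψ.symm : (MI m → F) →ₗ[F] (MI m → F)))
    rw [← LinearMap.toMatrix'_comp]
    have h1 : (Ψ : (MI m → F) →ₗ[F] (MI m → F)) ∘ₗ
        (Ψ.symm : (MI m → F) →ₗ[F] (MI m → F)) = LinearMap.id := by
      ext x : 1
      simp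
    rw [h1, LinearMap.toMatrix'_id]
  obtain ⟨j, hj⟩ := hU
  refine ⟨j, fun v => ?_⟩
  rw [hj, LinearMap.toMatrix'_mulVec]
  exact (hΨ v).symm

/-- a field automorphism of `PΩ⁻` has a nontrivial field part -/
theorem minus_theta_ne_one (a b : F)
    (hab : ∀ z₁ z₂ : F, z₁ ^ 2 + a * z₁ * z₂ + b * z₂ ^ 2 = 0 → z₁ = 0 ∧ z₂ = 0)
    (Θ : MulAut (POmega F (quadFormMinus m F a b)) →* RingAut F)
    (hΘ1 : ∀ (g : GL (MI m) F) (σ : F ≃+* F)
      (hg : IsSemisimilarityPair (quadFormMinus m F a b) g σ),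
      Θ (semiAut (quadFormMinus m F a b) g σ hg) = σ)
    (x : MulAut (POmega F (quadFormMinus m F a b))) (hx : IsFieldAutClassPOmegaMinus m x) :
    Θ x ≠ 1 := by
  obtain ⟨a', b', ψ, σ, hab', hσ, ha', hb', hφ⟩ := hx
  obtain ⟨j, hj⟩ := minus_iso_forms (m := m) a b hab a' b' hab'
  obtain ⟨g, hg, e⟩ := field_transport (quadFormMinus m F a b) (quadFormMinus m F a' b') σ
    (qminus_fvec σ a' b' ha' hb') j hj _ hφ
  obtain ⟨α, hα⟩ : ∃ α : MulAut (POmega F (quadFormMinus m F a b)),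
      α = ψ.trans (conjP2 (quadFormMinus m F a b) (quadFormMinus m F a' b') j hj).symm := ⟨_, rfl⟩
  have hx' : x = α⁻¹ * semiAut (quadFormMinus m F a b) g σ hg * α := by
    rw [← e, hα]
    ext k
    show x k = ψ.symm ((conjP2 (quadFormMinus m F a b) (quadFormMinus m F a' b') j hj)
      ((conjP2 (quadFormMinus m F a b) (quadFormMinus m F a' b') j hj).symm
        (ψ (x (ψ.symm ((conjP2 (quadFormMinus m F a b) (quadFormMinus m F a' b') j hj)
          ((conjP2 (quadFormMinus m F a b) (quadFormMinus m F a' b') j hj).symm (ψ k))))))))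
    rw [MulEquiv.apply_symm_apply, MulEquiv.apply_symm_apply, MulEquiv.symm_apply_apply,
      MulEquiv.symm_apply_apply]
  intro h1
  have h2 : Θ x = (Θ α)⁻¹ * σ * Θ α := by
    rw [hx', map_mul, map_mul, map_inv, hΘ1]
  rw [h1] at h2
  apply hσ
  show (σ : RingAut F) = 1
  have h3 : (σ : RingAut F) = Θ α * 1 * (Θ α)⁻¹ := by
    rw [h2]
    group
  rw [h3]
  group

/-- **Lang–Steinberg for semisimilarities of the minus-type form**: a semisimilarity inducing an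
automorphism of order dividing the order of its field automorphism is, up to a scalar, conjugate to
the pure field map of a rational structure of minus type -/
theorem minus_lang (hm : 3 ≤ m) (a b : F)
    (hab : ∀ z₁ z₂ : F, z₁ ^ 2 + a * z₁ * z₂ + b * z₂ ^ 2 = 0 → z₁ = 0 ∧ z₂ = 0)
    (σ : RingAut F) (r : ℕ) (hr : orderOf σ = r) (hr0 : 0 < r)
    (a₀ b₀ : ↥(PSpn.fixF σ))
    (hab₀ : ∀ z₁ z₂ : ↥(PSpn.fixF σ), z₁ ^ 2 + a₀ * z₁ * z₂ + b₀ * z₂ ^ 2 = 0 → z₁ = 0 ∧ z₂ = 0)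
    (g : GL (MI m) F) (hg : IsSemisimilarityPair (quadFormMinus m F a b) g σ)
    (hy : (semiAut (quadFormMinus m F a b) g σ hg) ^ r = 1) :
    ∃ (k : GL (MI m) F) (lam e : F), lam ≠ 0 ∧ e ≠ 0 ∧
      (∀ v, quadFormMinus m F a b ((k : Matrix (MI m) (MI m) F) *ᵥ v)
        = lam * quadFormMinus m F (a₀ : F) (b₀ : F) v) ∧
      (g : Matrix (MI m) (MI m) F) * (k : Matrix (MI m) (MI m) F).map σ
        = e • (k : Matrix (MI m) (MI m) F) := by
  have hQ := Helper45.minusQF_nondeg' (F := F) m a b hab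
  have hcard : Fintype.card (MI m) = 2 * m + 2 := card_MI
  have hn5 : 5 ≤ Fintype.card (MI m) := by omega
  obtain ⟨g', τ, hτ, hg', hpow, hiter⟩ :=
    Helper45.OO.semiAut_pow (quadFormMinus m F a b) g σ hg r
  have hσr : (σ : RingAut F) ^ r = 1 := by
    rw [← hr]
    exact pow_orderOf_eq_one σ
  rw [hσr] at hτ
  subst hτ
  rw [hy] at hpow
  obtain ⟨c, hc⟩ := Helper45.OO.scalar_of_ind (Helper43.minusQF m F a b) hQ hn5 g' hg'
    ((Helper45.OO.semi_ind_iff _ g' (RingEquiv.refl F) hg' 1).mpr hpow)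
  have hT : PSLn.twR (RingHom.mapMatrix (σ : F →+* F)) (g : Matrix (MI m) (MI m) F) r
      = c • (1 : Matrix (MI m) (MI m) F) := by
    apply Helper13.mulVec_ext
    intro x
    have h3 := hiter x
    rw [semiMap_iter, hσr, fvec_one, semiMap_eq, fvec_one, hc] at h3
    exact h3.symm
  have hc0 : c ≠ 0 := by
    rintro rfl
    have h0 : (g' : Matrix (MI m) (MI m) F) = 0 := by rw [hc, zero_smul]
    have h1 : (g' : Matrix (MI m) (MI m) F) * ((g'⁻¹ : GL (MI m) F) : Matrix (MI m) (MI m) F) = 1 :=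
      Units.mul_inv g'
    rw [h0, zero_mul] at h1
    have h4 := congrFun (congrFun h1 (Sum.inr 0)) (Sum.inr 0)
    simp at h4
  have hσc : σ c = c := by
    have h1 : PSLn.twR (RingHom.mapMatrix (σ : F →+* F)) (g : Matrix (MI m) (MI m) F) (r + 1)
        = (g : Matrix (MI m) (MI m) F)
          * (PSLn.twR (RingHom.mapMatrix (σ : F →+* F)) (g : Matrix (MI m) (MI m) F) r).map σ :=
      rfl
    have h2' := PSLn.twR_succ' (RingHom.mapMatrix (σ : F →+* F)) (g : Matrix (MI m) (MI m) F) r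
    rw [h1, hT, gmat_iter_mapMatrix, hσr, gmat_map_map_one, gmat_map_smul, gmat_map_one,
      Matrix.mul_smul, mul_one, Matrix.smul_mul, one_mul] at h2'
    have h3 := congrArg (fun M => M * ((g⁻¹ : GL (MI m) F) : Matrix (MI m) (MI m) F)) h2'
    have h4 : (g : Matrix (MI m) (MI m) F) * ((g⁻¹ : GL (MI m) F) : Matrix (MI m) (MI m) F) = 1 :=
      Units.mul_inv g
    simp only [Matrix.smul_mul, h4] at h3
    exact gmat_smul_one_inj _ _ h3
  obtain ⟨μ, hμ0, hμ⟩ := PSLn.lang_norm_surj σ r hr hr0 c⁻¹ (inv_ne_zero hc0)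
    (by rw [map_inv₀, hσc])
  obtain ⟨cg, hcg⟩ := hg
  have hsm : ∀ v, quadFormMinus m F a b ((μ • (g : Matrix (MI m) (MI m) F)) *ᵥ fvec σ v)
      = (μ * μ * (cg : F)) * σ (quadFormMinus m F a b v) := by
    intro v
    rw [Matrix.smul_mulVec]
    have h1 := QuadraticMap.map_smul (Helper43.minusQF m F a b) μ
      ((g : Matrix (MI m) (MI m) F) *ᵥ fvec σ v)
    have h2 : Helper43.minusQF m F a b (μ • ((g : Matrix (MI m) (MI m) F) *ᵥ fvec σ v))
        = quadFormMinus m F a b (μ • ((g : Matrix (MI m) (MI m) F) *ᵥ fvec σ v)) := rfl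
    rw [← h2, h1, smul_eq_mul]
    have h3 : Helper43.minusQF m F a b ((g : Matrix (MI m) (MI m) F) *ᵥ fvec σ v)
        = (cg : F) * σ (quadFormMinus m F a b v) := hcg v
    rw [h3]
    ring
  have hT' : PSLn.twR (RingHom.mapMatrix (σ : F →+* F)) (μ • (g : Matrix (MI m) (MI m) F)) r
      = 1 := by
    rw [gmat_twR_smul, hμ, hT, smul_smul, inv_mul_cancel₀ hc0, one_smul]
  obtain ⟨k, lam, hkU, hlam, hQk, hkeq⟩ := minus_h90 a b hab σ r hr hr0 a₀ b₀ hab₀
    (μ • (g : Matrix (MI m) (MI m) F)) (μ * μ * (cg : F))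
    (mul_ne_zero (mul_ne_zero hμ0 hμ0) cg.ne_zero) hsm hT'
  obtain ⟨k', hk'⟩ := hkU
  refine ⟨k', lam, μ⁻¹, hlam, inv_ne_zero hμ0, ?_, ?_⟩
  · rw [hk']
    exact hQk
  · rw [hk']
    have h1 : μ⁻¹ • (μ • (g : Matrix (MI m) (MI m) F) * k.map σ) = μ⁻¹ • k := by rw [hkeq]
    rw [Matrix.smul_mul, smul_smul, inv_mul_cancel₀ hμ0, one_smul] at h1
    exact h1

/-- two semisimilarities with the same field automorphism of order `r`, both inducing
automorphisms of order dividing `r`, are conjugate under `Inndiag` -/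
theorem minus_conj (hm : 3 ≤ m) (a b : F)
    (hab : ∀ z₁ z₂ : F, z₁ ^ 2 + a * z₁ * z₂ + b * z₂ ^ 2 = 0 → z₁ = 0 ∧ z₂ = 0)
    (σ : RingAut F) (r : ℕ) (hr : orderOf σ = r) (hr0 : 0 < r)
    (h g : GL (MI m) F) (hh : IsSemisimilarityPair (quadFormMinus m F a b) h σ)
    (hg : IsSemisimilarityPair (quadFormMinus m F a b) g σ)
    (hx : (semiAut (quadFormMinus m F a b) h σ hh) ^ r = 1)
    (hy : (semiAut (quadFormMinus m F a b) g σ hg) ^ r = 1) :
    ∃ κ : MulAut (POmega F (quadFormMinus m F a b)), κ ∈ inndiagPOmegaMinus m F a b ∧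
      semiAut (quadFormMinus m F a b) g σ hg
        = κ * semiAut (quadFormMinus m F a b) h σ hh * κ⁻¹ := by
  classical
  obtain ⟨ζ, hζ⟩ := exists_aniso_fin ↥(PSpn.fixF σ)
  have hab₀ : ∀ z₁ z₂ : ↥(PSpn.fixF σ), z₁ ^ 2 + 1 * z₁ * z₂ + ζ * z₂ ^ 2 = 0 → z₁ = 0 ∧ z₂ = 0 :=
    fun z₁ z₂ hz => Cfsg.Agent.S2617.aniso ζ hζ z₁ z₂ hz
  obtain ⟨k₁, lam₁, e₁, hlam₁, he₁, hQ₁, hk₁⟩ :=
    minus_lang hm a b hab σ r hr hr0 1 ζ hab₀ h hh hx
  obtain ⟨k₂, lam₂, e₂, hlam₂, he₂, hQ₂, hk₂⟩ :=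
    minus_lang hm a b hab σ r hr hr0 1 ζ hab₀ g hg hy
  have hK1 : (k₁ : Matrix (MI m) (MI m) F) * ((k₁⁻¹ : GL (MI m) F) : Matrix (MI m) (MI m) F) = 1 :=
    Units.mul_inv k₁
  have hK1' : ((k₁⁻¹ : GL (MI m) F) : Matrix (MI m) (MI m) F) * (k₁ : Matrix (MI m) (MI m) F) = 1 :=
    Units.inv_mul k₁
  have hK1σ : (k₁ : Matrix (MI m) (MI m) F).map σ
      * ((k₁⁻¹ : GL (MI m) F) : Matrix (MI m) (MI m) F).map σ = 1 := by
    rw [← gmat_map_mul, hK1, gmat_map_one]
  -- the similarity `t = k₂ k₁⁻¹`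
  have ht : k₂ * k₁⁻¹ ∈ Geo.quadSimilarityGroup (F := F) (quadFormMinus m F a b) := by
    refine ⟨Units.mk0 (lam₂ * lam₁⁻¹) (mul_ne_zero hlam₂ (inv_ne_zero hlam₁)), fun v => ?_⟩
    rw [Units.val_mul, ← Matrix.mulVec_mulVec, hQ₂, Units.val_mk0]
    have h1 := hQ₁ (((k₁⁻¹ : GL (MI m) F) : Matrix (MI m) (MI m) F) *ᵥ v)
    rw [Matrix.mulVec_mulVec, hK1, Matrix.one_mulVec] at h1
    rw [h1]
    field_simp
  have ht' : IsSemisimilarityPair (quadFormMinus m F a b) (k₂ * k₁⁻¹) (RingEquiv.refl F) := ht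
  have h1 : ((k₁⁻¹ : GL (MI m) F) : Matrix (MI m) (MI m) F) * (h : Matrix (MI m) (MI m) F)
      = e₁ • ((k₁⁻¹ : GL (MI m) F) : Matrix (MI m) (MI m) F).map σ := by
    calc ((k₁⁻¹ : GL (MI m) F) : Matrix (MI m) (MI m) F) * (h : Matrix (MI m) (MI m) F)
        = ((k₁⁻¹ : GL (MI m) F) : Matrix (MI m) (MI m) F)
            * ((h : Matrix (MI m) (MI m) F) * (k₁ : Matrix (MI m) (MI m) F).map σ)
            * ((k₁⁻¹ : GL (MI m) F) : Matrix (MI m) (MI m) F).map σ := by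
          rw [Matrix.mul_assoc, Matrix.mul_assoc, hK1σ, Matrix.mul_one]
      _ = e₁ • ((k₁⁻¹ : GL (MI m) F) : Matrix (MI m) (MI m) F).map σ := by
          rw [hk₁, Matrix.mul_smul, hK1', Matrix.smul_mul, Matrix.one_mul]
  have heq : ((k₂ * k₁⁻¹ : GL (MI m) F) : Matrix (MI m) (MI m) F) * (h : Matrix (MI m) (MI m) F)
      = (e₁ * e₂⁻¹) • ((g : Matrix (MI m) (MI m) F)
        * ((k₂ * k₁⁻¹ : GL (MI m) F) : Matrix (MI m) (MI m) F).map σ) := by
    rw [Units.val_mul, gmat_map_mul, ← Matrix.mul_assoc (g : Matrix (MI m) (MI m) F), hk₂,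
      Matrix.smul_mul, smul_smul, mul_assoc e₁ e₂⁻¹ e₂, inv_mul_cancel₀ he₂, mul_one,
      Matrix.mul_assoc, h1, Matrix.mul_smul]
  have hconj : semiAut (quadFormMinus m F a b) g σ hg
      = semiAut (quadFormMinus m F a b) (k₂ * k₁⁻¹) (RingEquiv.refl F) ht'
        * semiAut (quadFormMinus m F a b) h σ hh
        * (semiAut (quadFormMinus m F a b) (k₂ * k₁⁻¹) (RingEquiv.refl F) ht')⁻¹ :=
    semi_conj_eq (Helper43.minusQF m F a b) σ (k₂ * k₁⁻¹) h g ht' hh hg (e₁ * e₂⁻¹)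
      (mul_ne_zero he₁ (inv_ne_zero he₂)) heq
  -- the reflection in a vector fixed up to a scalar
  obtain ⟨w, hwdef⟩ : ∃ w : MI m → F,
      w = (k₁ : Matrix (MI m) (MI m) F) *ᵥ Pi.single (Sum.inr 0) 1 := ⟨_, rfl⟩
  have hw : Helper43.minusQF m F a b w ≠ 0 := by
    have h2 : Helper43.minusQF m F a b w
        = lam₁ * quadFormMinus m F ((1 : ↥(PSpn.fixF σ)) : F) (ζ : F)
          (Pi.single (Sum.inr 0) 1) := by
      rw [hwdef]
      exact hQ₁ _
    rw [h2, qminus_single, mul_one]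
    exact hlam₁
  obtain ⟨ch, hch⟩ := id hh
  have hew : (h : Matrix (MI m) (MI m) F) *ᵥ fvec σ w = e₁ • w := by
    rw [hwdef, fvec_mulVec, gfvec_single, Matrix.mulVec_mulVec, hk₁, Matrix.smul_mulVec]
  have hcomm := refl_comm_semi (Helper43.minusQF m F a b) σ (h : Matrix (MI m) (MI m) F) (ch : F)
    ch.ne_zero hch w hw e₁ he₁ hew
  obtain ⟨R, hRdef⟩ : ∃ R : GL (MI m) F,
      R = ((Helper45.reflO (Helper43.minusQF m F a b) w hw :
        ↥(isometryGroup F ⇑(Helper43.minusQF m F a b))) : GL (MI m) F) := ⟨_, rfl⟩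
  have hRmem : R ∈ Geo.quadSimilarityGroup (F := F) (quadFormMinus m F a b) := by
    rw [hRdef]
    exact Helper45.iso_le_sim _ (Helper45.reflO (Helper43.minusQF m F a b) w hw).2
  have hR' : IsSemisimilarityPair (quadFormMinus m F a b) R (RingEquiv.refl F) := hRmem
  have hRw : (R : Matrix (MI m) (MI m) F) = reflectionMatrix (quadFormMinus m F a b) w := by
    rw [hRdef]
    rfl
  have hconjR : semiAut (quadFormMinus m F a b) h σ hh
      = semiAut (quadFormMinus m F a b) R (RingEquiv.refl F) hR'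
        * semiAut (quadFormMinus m F a b) h σ hh
        * (semiAut (quadFormMinus m F a b) R (RingEquiv.refl F) hR')⁻¹ :=
    semi_conj_eq (Helper43.minusQF m F a b) σ R h h hR' hh hh 1 one_ne_zero
      (by rw [one_smul, hRdef]; exact hcomm)
  rcases pscm_dichotomy (by omega) a b hab (k₂ * k₁⁻¹) ht w hw R hRw with hP | hP
  · refine ⟨semiAut (quadFormMinus m F a b) (k₂ * k₁⁻¹) (RingEquiv.refl F) ht', ?_, hconj⟩
    apply Subgroup.subset_closure
    exact ⟨k₂ * k₁⁻¹, ht, hP, (Helper45.OO.semi_ind_iff _ _ _ ht' _).mpr rfl⟩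
  · have htR : k₂ * k₁⁻¹ * R ∈ Geo.quadSimilarityGroup (F := F) (quadFormMinus m F a b) :=
      mul_mem ht hRmem
    have htR' : IsSemisimilarityPair (quadFormMinus m F a b) (k₂ * k₁⁻¹ * R) (RingEquiv.refl F) :=
      htR
    have hprod : semiAut (quadFormMinus m F a b) (k₂ * k₁⁻¹ * R) (RingEquiv.refl F) htR'
        = semiAut (quadFormMinus m F a b) (k₂ * k₁⁻¹) (RingEquiv.refl F) ht'
          * semiAut (quadFormMinus m F a b) R (RingEquiv.refl F) hR' := by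
      rw [Helper45.OO.semiAut_mul]
      exact Helper45.OO.semiAut_congr _ _ _ (by rw [Helper45.OO.glMap_refl]) rfl
    refine ⟨semiAut (quadFormMinus m F a b) (k₂ * k₁⁻¹ * R) (RingEquiv.refl F) htR', ?_, ?_⟩
    · apply Subgroup.subset_closure
      exact ⟨k₂ * k₁⁻¹ * R, htR, hP, (Helper45.OO.semi_ind_iff _ _ _ htR' _).mpr rfl⟩
    · rw [hprod, hconj]
      conv_lhs => rw [hconjR]
      group

/-- **the coset statement for field automorphisms of `PΩ⁻_{2m+2}(q)`** -/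
theorem minus_coset_conj (hm : 3 ≤ m) (a b : F)
    (hab : ∀ z₁ z₂ : F, z₁ ^ 2 + a * z₁ * z₂ + b * z₂ ^ 2 = 0 → z₁ = 0 ∧ z₂ = 0)
    (x δ : MulAut (POmega F (quadFormMinus m F a b))) (hx : IsFieldAutClassPOmegaMinus m x)
    (r : ℕ) (hr : r.Prime) (hxr : orderOf x = r) (hδ : δ ∈ inndiagPOmegaMinus m F a b) :
    orderOf (δ * x) = r ↔ IsConjUnder (inndiagPOmegaMinus m F a b) x (δ * x) := by
  obtain ⟨Θ, hΘ1, hΘ2⟩ := minus_theta hm a b hab
  constructor
  · intro ho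
    have hne := minus_theta_ne_one a b hab Θ hΘ1 x hx
    have hxr' : x ^ r = 1 := by
      rw [← hxr]
      exact pow_orderOf_eq_one x
    have hσr : orderOf (Θ x) = r := by
      have h1 : (Θ x) ^ r = 1 := by rw [← map_pow, hxr', map_one]
      have h4 := orderOf_dvd_of_pow_eq_one h1
      rcases (Nat.dvd_prime hr).1 h4 with h5 | h5
      · exact absurd (orderOf_eq_one_iff.1 h5) hne
      · exact h5
    have hle : inndiagPOmegaMinus m F a b ≤ Θ.ker := by
      unfold inndiagPOmegaMinus autSubgroupOf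
      rw [Subgroup.closure_le]
      rintro β ⟨g, hg, -, hind⟩
      have e := (Helper45.OO.semi_ind_iff _ g (RingEquiv.refl F) hg β).mp hind
      show Θ β = 1
      rw [e]
      exact hΘ1 g (RingEquiv.refl F) hg
    have hδ1 : Θ δ = 1 := hle hδ
    have hΘy : Θ (δ * x) = Θ x := by rw [map_mul, hδ1, one_mul]
    obtain ⟨σ, h, hh, ex⟩ : ∃ (σ : RingAut F) (h : GL (MI m) F)
        (hh : IsSemisimilarityPair (quadFormMinus m F a b) h σ),
        x = semiAut (quadFormMinus m F a b) h σ hh := by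
      obtain ⟨h, hh, e⟩ := hΘ2 x
      exact ⟨Θ x, h, hh, e⟩
    have hΘx : Θ x = σ := by
      rw [ex]
      exact hΘ1 h σ hh
    obtain ⟨σ', g, hg, ey⟩ : ∃ (σ' : RingAut F) (g : GL (MI m) F)
        (hg : IsSemisimilarityPair (quadFormMinus m F a b) g σ'),
        δ * x = semiAut (quadFormMinus m F a b) g σ' hg := by
      obtain ⟨g, hg, e⟩ := hΘ2 (δ * x)
      exact ⟨Θ (δ * x), g, hg, e⟩
    have hσ' : σ' = σ := by
      rw [← hΘx, ← hΘy, ey]
      exact (hΘ1 g σ' hg).symm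
    subst hσ'
    rw [hΘx] at hσr
    have hx1 : semiAut (quadFormMinus m F a b) h σ' hh ^ r = 1 := by
      rw [← ex]
      exact hxr'
    have hy1 : semiAut (quadFormMinus m F a b) g σ' hg ^ r = 1 := by
      rw [← ey, ← ho]
      exact pow_orderOf_eq_one _
    obtain ⟨κ, hκ, hκeq⟩ := minus_conj hm a b hab σ' r hσr hr.pos h g hh hg hx1 hy1
    refine ⟨κ, hκ, ?_⟩
    rw [ey, hκeq, ← ex]
  · rintro ⟨h, -, heq⟩
    rw [heq, PSLn.lang_orderOf_conj, hxr]

end minusmain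

end Cfsg.Agent.Helper44.POm
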