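import Mathlib
import Cfsg.Agent.Helper44.OmN

/-!
# Plus-type orthogonal groups (helper44), part P: the class character of the similarity group of
the hyperbolic form, in any characteristic

A similarity `t` of the hyperbolic form is written `t = diag(c, 1) * g` with `g` an isometry; its
class is the Dickson invariant of `g`.  The class is multiplicative, invariant under field
automorphisms, and vanishes exactly when `t` preserves the two classes of maximal totally singular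
subspaces.
-/

set_option autoImplicit false
set_option linter.unusedSimpArgs false
set_option linter.unusedSectionVars false
set_option linter.unusedVariables false

namespace Cfsg.Agent.Helper44.POm

open Matrix Cfsg
open Cfsg.Agent.Helper45.OO (semiAut semiMap glMap polarGram)

universe u

section rank

variable {F : Type u} [Field F] {ι : Type} [Fintype ι] [DecidableEq ι]

theorem fvec_inv' (σ : RingAut F) (x : ι → F) : fvec σ⁻¹ (fvec σ x) = x := by
  funext i
  show σ⁻¹ (σ (x i)) = x i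
  exact RingEquiv.symm_apply_apply σ (x i)

/-- the rank of a matrix is invariant under field automorphisms -/
theorem rank_map_aut (σ : RingAut F) (A : Matrix ι ι F) : (A.map σ).rank = A.rank := by
  have hto : ∀ x : ι → F, x ∈ LinearMap.range A.mulVecLin →
      fvec σ x ∈ LinearMap.range (A.map σ).mulVecLin := by
    rintro x ⟨v, rfl⟩
    refine ⟨fvec σ v, ?_⟩
    rw [Matrix.mulVecLin_apply, Matrix.mulVecLin_apply, fvec_mulVec]
  have hfrom : ∀ y : ι → F, y ∈ LinearMap.range (A.map σ).mulVecLin →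
      fvec σ⁻¹ y ∈ LinearMap.range A.mulVecLin := by
    rintro y ⟨w, rfl⟩
    refine ⟨fvec σ⁻¹ w, ?_⟩
    rw [Matrix.mulVecLin_apply, Matrix.mulVecLin_apply]
    have h1 : w = fvec σ (fvec σ⁻¹ w) := (fvec_inv σ w).symm
    conv_rhs => rw [h1, ← fvec_mulVec, fvec_inv']
  let j : ↥(LinearMap.range A.mulVecLin) ≃+ ↥(LinearMap.range (A.map σ).mulVecLin) :=
    { toFun := fun x => ⟨fvec σ x.1, hto x.1 x.2⟩
      invFun := fun y => ⟨fvec σ⁻¹ y.1, hfrom y.1 y.2⟩
      left_inv := fun x => Subtype.ext (fvec_inv' σ x.1)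
      right_inv := fun y => Subtype.ext (fvec_inv σ y.1)
      map_add' := fun x y => Subtype.ext (gfvec_add σ x.1 y.1) }
  have h := rank_eq_of_equiv_equiv (σ : F → F) j σ.bijective
    (fun r x => Subtype.ext (gfvec_smul σ r x.1))
  unfold Matrix.rank Module.finrank
  rw [h]

variable (Q : QuadraticForm F (ι → F))

/-- the Dickson invariant only depends on the rank of `g - 1` -/
theorem dick_eq_of_rank (g g' : ↥(isometryGroup F ⇑Q))
    (h : (((g : GL ι F) : Matrix ι ι F) - 1).rank = (((g' : GL ι F) : Matrix ι ι F) - 1).rank) :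
    Helper45.dick Q g = Helper45.dick Q g' := by
  have h1 := Helper45.finrank_fixSub_add_rank Q g
  have h2 := Helper45.finrank_fixSub_add_rank Q g'
  have h3 : Module.finrank F (Helper45.fixSub Q g) = Module.finrank F (Helper45.fixSub Q g') := by
    omega
  unfold Helper45.dick
  rw [h3]

/-- conjugation by a similarity preserves the Dickson invariant -/
theorem dick_conj (t : GL ι F) (ht : t ∈ Geo.quadSimilarityGroup (F := F) ⇑Q)
    (g : ↥(isometryGroup F ⇑Q)) :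
    Helper45.dick Q (Helper45.conjO ⇑Q t ht g) = Helper45.dick Q g := by
  apply dick_eq_of_rank
  have h2 : (t : Matrix ι ι F) * ((t⁻¹ : GL ι F) : Matrix ι ι F) = 1 := by
    rw [← Units.val_mul, mul_inv_cancel, Units.val_one]
  have h1 : (((Helper45.conjO ⇑Q t ht g : ↥(isometryGroup F ⇑Q)) : GL ι F) : Matrix ι ι F) - 1
      = (t : Matrix ι ι F) * (((g : GL ι F) : Matrix ι ι F) - 1)
        * ((t⁻¹ : GL ι F) : Matrix ι ι F) := by
    rw [Helper45.conjO_coe, Units.val_mul, Units.val_mul, Matrix.mul_sub, Matrix.sub_mul,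
      Matrix.mul_one, h2]
  rw [h1]
  have hu1 : IsUnit (t : Matrix ι ι F).det := (Matrix.isUnit_iff_isUnit_det _).mp t.isUnit
  have hu2 : IsUnit ((t⁻¹ : GL ι F) : Matrix ι ι F).det :=
    (Matrix.isUnit_iff_isUnit_det _).mp (t⁻¹).isUnit
  rw [Matrix.rank_mul_eq_left_of_isUnit_det _ _ hu2, Matrix.rank_mul_eq_right_of_isUnit_det _ _ hu1]

/-- the image of an isometry under a field automorphism preserving the form -/
theorem exists_mapO (σ : RingAut F) (hσQ : ∀ v, Q (fvec σ v) = σ (Q v))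
    (g : ↥(isometryGroup F ⇑Q)) :
    ∃ g' : ↥(isometryGroup F ⇑Q),
      (((g' : GL ι F) : Matrix ι ι F) = ((g : GL ι F) : Matrix ι ι F).map σ)
      ∧ Helper45.dick Q g' = Helper45.dick Q g := by
  have hmem : glMap σ (g : GL ι F) ∈ isometryGroup F ⇑Q := by
    rw [Helper45.mem_iso_iff]
    intro v
    obtain ⟨v', rfl⟩ : ∃ v', v = fvec σ v' := ⟨fvec σ⁻¹ v, (fvec_inv σ v).symm⟩
    rw [Helper45.OO.glMap_coe, ← fvec_mulVec, hσQ, hσQ]
    congr 1
    exact (Helper45.mem_iso_iff _ _).mp g.2 _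
  refine ⟨⟨glMap σ (g : GL ι F), hmem⟩, rfl, ?_⟩
  apply dick_eq_of_rank
  have h1 : (((g : GL ι F) : Matrix ι ι F) - 1).map σ
      = ((g : GL ι F) : Matrix ι ι F).map σ - 1 := by
    have h2 := gmat_map_one (ι := ι) σ
    ext i j
    have h3 := congrFun (congrFun h2 i) j
    rw [Matrix.map_apply] at h3
    rw [Matrix.map_apply, Matrix.sub_apply, Matrix.sub_apply, Matrix.map_apply, map_sub, h3]
  show (((g : GL ι F) : Matrix ι ι F).map σ - 1).rank = _
  rw [← h1, rank_map_aut]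

/-- the image of a subspace under a product of matrices -/
theorem map_toLin_mul (A B : Matrix ι ι F) (U : Submodule F (ι → F)) :
    U.map (Matrix.toLin' (A * B)) = (U.map (Matrix.toLin' B)).map (Matrix.toLin' A) := by
  rw [Matrix.toLin'_mul, Submodule.map_comp]

/-- the Dickson invariant of an inverse, when the reflections generate -/
theorem dick_inv_top (hQ : (QuadraticMap.polarBilin Q).Nondegenerate)
    (hR : Helper45.reflGroup Q = ⊤) (h : ↥(isometryGroup F ⇑Q)) :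
    Helper45.dick Q h⁻¹ = Helper45.dick Q h := by
  have h2 := Helper45.dick_mul_of_mem Q hQ h⁻¹ (by rw [hR]; trivial) h
  rw [inv_mul_cancel, Helper45.dick_one] at h2
  have h3 : ∀ a : ZMod 2, a + a = 0 := by decide
  linear_combination (-1 : ZMod 2) * h3 (Helper45.dick Q h) - h2

/-- applying a field automorphism to the image of a vector under a rectangular matrix -/
theorem rfvec_mulVec {ι₀ : Type} [Fintype ι₀] (σ : RingAut F) (M : Matrix ι ι₀ F) (x : ι₀ → F) :
    fvec σ (M *ᵥ x) = M.map σ *ᵥ fvec σ x := by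
  funext i
  show σ ((M *ᵥ x) i) = _
  simp only [Matrix.mulVec, dotProduct, map_sum, map_mul, Matrix.map_apply, fvec]

end rank

section plusform

variable {F : Type u} [Field F] {m : ℕ}

/-- the reference similarity `diag(c, 1)` of the hyperbolic form -/
def Dc (m : ℕ) (c : F) : Matrix (Fin m ⊕ Fin m) (Fin m ⊕ Fin m) F :=
  Matrix.diagonal (Sum.elim (fun _ => c) (fun _ => 1))

theorem Dc_mulVec_inl (c : F) (v : Fin m ⊕ Fin m → F) (i : Fin m) :
    (Dc m c *ᵥ v) (Sum.inl i) = c * v (Sum.inl i) := by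
  unfold Dc
  rw [Matrix.mulVec_diagonal]
  rfl

theorem Dc_mulVec_inr (c : F) (v : Fin m ⊕ Fin m → F) (i : Fin m) :
    (Dc m c *ᵥ v) (Sum.inr i) = v (Sum.inr i) := by
  unfold Dc
  rw [Matrix.mulVec_diagonal]
  exact one_mul _

theorem Dc_mul (c c' : F) : Dc m c * Dc m c' = Dc m (c * c') := by
  unfold Dc
  rw [Matrix.diagonal_mul_diagonal]
  congr 1
  funext i
  rcases i with i | i
  · rfl
  · exact mul_one 1

theorem Dc_one : Dc m (1 : F) = 1 := by
  unfold Dc
  rw [← Matrix.diagonal_one]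
  congr 1
  funext i
  rcases i with i | i <;> rfl

theorem Dc_map (σ : RingAut F) (c : F) : (Dc m c).map σ = Dc m (σ c) := by
  unfold Dc
  rw [Matrix.diagonal_map (map_zero σ)]
  congr 1
  funext i
  rcases i with i | i
  · rfl
  · exact map_one σ

theorem Dc_quad (c : F) (v : Fin m ⊕ Fin m → F) :
    quadFormPlus m F (Dc m c *ᵥ v) = c * quadFormPlus m F v := by
  unfold quadFormPlus
  rw [Finset.mul_sum]
  apply Finset.sum_congr rfl
  intro i _
  rw [Dc_mulVec_inl, Dc_mulVec_inr, mul_assoc]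

/-- `diag(c, 1)` as an invertible matrix -/
def DcGL (m : ℕ) (c : F) (hc : c ≠ 0) : GL (Fin m ⊕ Fin m) F :=
  ⟨Dc m c, Dc m c⁻¹, by rw [Dc_mul, mul_inv_cancel₀ hc, Dc_one],
    by rw [Dc_mul, inv_mul_cancel₀ hc, Dc_one]⟩

theorem DcGL_coe (c : F) (hc : c ≠ 0) :
    ((DcGL m c hc : GL (Fin m ⊕ Fin m) F) : Matrix (Fin m ⊕ Fin m) (Fin m ⊕ Fin m) F) = Dc m c :=
  rfl

theorem DcGL_inv_coe (c : F) (hc : c ≠ 0) :
    (((DcGL m c hc)⁻¹ : GL (Fin m ⊕ Fin m) F) : Matrix (Fin m ⊕ Fin m) (Fin m ⊕ Fin m) F)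
      = Dc m c⁻¹ := rfl

theorem DcGL_sim (c : F) (hc : c ≠ 0) :
    DcGL m c hc ∈ Geo.quadSimilarityGroup (F := F) (quadFormPlus m F) :=
  ⟨Units.mk0 c hc, fun v => Dc_quad c v⟩

theorem Dc_map_Eplus (c : F) (hc : c ≠ 0) :
    (Helper45.ID.Eplus m F).map (Matrix.toLin' (Dc m c)) = Helper45.ID.Eplus m F := by
  apply le_antisymm
  · rintro _ ⟨x, hx, rfl⟩
    rw [SetLike.mem_coe, Helper45.ID.mem_Eplus] at hx
    rw [Helper45.ID.mem_Eplus]
    intro i
    rw [Matrix.toLin'_apply, Dc_mulVec_inr]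
    exact hx i
  · intro x hx
    rw [Helper45.ID.mem_Eplus] at hx
    refine ⟨Dc m c⁻¹ *ᵥ x, ?_, ?_⟩
    · rw [SetLike.mem_coe, Helper45.ID.mem_Eplus]
      intro i
      rw [Dc_mulVec_inr]
      exact hx i
    · rw [Matrix.toLin'_apply, Matrix.mulVec_mulVec, Dc_mul, mul_inv_cancel₀ hc, Dc_one,
        Matrix.one_mulVec]

/-- the hyperbolic form commutes with field automorphisms -/
theorem qplus_fvec (σ : RingAut F) (v : Fin m ⊕ Fin m → F) :
    quadFormPlus m F (fvec σ v) = σ (quadFormPlus m F v) := by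
  unfold quadFormPlus fvec
  simp only [map_sum, map_mul]

/-- the class of a similarity of the hyperbolic form: the Dickson invariant of its isometry part -/
def IsCls (m : ℕ) (t : Matrix (Fin m ⊕ Fin m) (Fin m ⊕ Fin m) F) (v : ZMod 2) : Prop :=
  ∃ (c : F) (g : ↥(isometryGroup F ⇑(Helper43.plusQF m F))), c ≠ 0 ∧
    t = Dc m c * ((g : GL (Fin m ⊕ Fin m) F) : Matrix (Fin m ⊕ Fin m) (Fin m ⊕ Fin m) F) ∧
    Helper45.dick (Helper43.plusQF m F) g = v

theorem isCls_exists (t : GL (Fin m ⊕ Fin m) F)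
    (ht : t ∈ Geo.quadSimilarityGroup (F := F) (quadFormPlus m F)) :
    ∃ v, IsCls m (t : Matrix (Fin m ⊕ Fin m) (Fin m ⊕ Fin m) F) v := by
  obtain ⟨c, hc⟩ := ht
  have hmem : (DcGL m (c : F) c.ne_zero)⁻¹ * t ∈ isometryGroup F ⇑(Helper43.plusQF m F) := by
    rw [Helper45.mem_iso_iff]
    intro v
    rw [Units.val_mul, DcGL_inv_coe, ← Matrix.mulVec_mulVec]
    show quadFormPlus m F (Dc m (c : F)⁻¹ *ᵥ
      ((t : Matrix (Fin m ⊕ Fin m) (Fin m ⊕ Fin m) F) *ᵥ v)) = quadFormPlus m F v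
    rw [Dc_quad, hc, ← mul_assoc, inv_mul_cancel₀ c.ne_zero, one_mul]
  refine ⟨_, (c : F), ⟨_, hmem⟩, c.ne_zero, ?_, rfl⟩
  show (t : Matrix (Fin m ⊕ Fin m) (Fin m ⊕ Fin m) F) = Dc m (c : F)
    * (((DcGL m (c : F) c.ne_zero)⁻¹ * t : GL (Fin m ⊕ Fin m) F) :
      Matrix (Fin m ⊕ Fin m) (Fin m ⊕ Fin m) F)
  rw [Units.val_mul, DcGL_inv_coe, ← Matrix.mul_assoc, Dc_mul, mul_inv_cancel₀ c.ne_zero, Dc_one,
    Matrix.one_mul]

theorem isCls_mul (hR : Helper45.reflGroup (Helper43.plusQF m F) = ⊤)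
    (t t' : Matrix (Fin m ⊕ Fin m) (Fin m ⊕ Fin m) F) (v v' : ZMod 2)
    (h : IsCls m t v) (h' : IsCls m t' v') : IsCls m (t * t') (v + v') := by
  obtain ⟨c, g, hc, rfl, rfl⟩ := h
  obtain ⟨c', g', hc', rfl, rfl⟩ := h'
  have hQ := Helper45.plusQF_nondeg' (F := F) m
  have hsim : (DcGL m c' hc')⁻¹ ∈ Geo.quadSimilarityGroup (F := F) ⇑(Helper43.plusQF m F) :=
    inv_mem (DcGL_sim c' hc')
  refine ⟨c * c', Helper45.conjO ⇑(Helper43.plusQF m F) (DcGL m c' hc')⁻¹ hsim g * g',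
    mul_ne_zero hc hc', ?_, ?_⟩
  · show _ = Dc m (c * c') * ((((DcGL m c' hc')⁻¹ * (g : GL (Fin m ⊕ Fin m) F)
      * (DcGL m c' hc')⁻¹⁻¹) * (g' : GL (Fin m ⊕ Fin m) F) : GL (Fin m ⊕ Fin m) F) :
        Matrix (Fin m ⊕ Fin m) (Fin m ⊕ Fin m) F)
    rw [Units.val_mul, Units.val_mul, Units.val_mul, inv_inv, DcGL_inv_coe, DcGL_coe, ← Dc_mul]
    simp only [Matrix.mul_assoc]
    rw [← Matrix.mul_assoc (Dc m c') (Dc m c'⁻¹), Dc_mul, mul_inv_cancel₀ hc', Dc_one,
      Matrix.one_mul]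
  · rw [Helper45.dick_mul_of_mem _ hQ _ (by rw [hR]; trivial), dick_conj]

theorem isCls_iso (g : ↥(isometryGroup F ⇑(Helper43.plusQF m F))) :
    IsCls m ((g : GL (Fin m ⊕ Fin m) F) : Matrix (Fin m ⊕ Fin m) (Fin m ⊕ Fin m) F)
      (Helper45.dick (Helper43.plusQF m F) g) :=
  ⟨1, g, one_ne_zero, by rw [Dc_one, Matrix.one_mul], rfl⟩

theorem isCls_one : IsCls m (1 : Matrix (Fin m ⊕ Fin m) (Fin m ⊕ Fin m) F) 0 :=
  ⟨1, 1, one_ne_zero, by rw [Dc_one, Matrix.one_mul]; rfl, Helper45.dick_one _⟩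

theorem isCls_map (σ : RingAut F) (t : Matrix (Fin m ⊕ Fin m) (Fin m ⊕ Fin m) F) (v : ZMod 2)
    (h : IsCls m t v) : IsCls m (t.map σ) v := by
  obtain ⟨c, g, hc, rfl, rfl⟩ := h
  obtain ⟨g', hg', hd⟩ := exists_mapO (Helper43.plusQF m F) σ (qplus_fvec σ) g
  refine ⟨σ c, g', (map_ne_zero σ).mpr hc, ?_, hd⟩
  rw [gmat_map_mul, Dc_map, hg']

/-- the class vanishes exactly when the two classes of maximal totally singular subspaces are
preserved -/
theorem isCls_psc (hR : Helper45.reflGroup (Helper43.plusQF m F) = ⊤)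
    (t : Matrix (Fin m ⊕ Fin m) (Fin m ⊕ Fin m) F) (v : ZMod 2) (h : IsCls m t v) :
    PreservesSingularClasses (quadFormPlus m F) t ↔ v = 0 := by
  obtain ⟨c, g, hc, rfl, rfl⟩ := h
  have hQ := Helper45.plusQF_nondeg' (F := F) m
  have hE : ∀ w ∈ Helper45.ID.Eplus m F, Helper43.plusQF m F w = 0 :=
    fun w hw => Helper45.ID.Eplus_ts w hw
  have hdim := Helper45.ID.finrank_Eplus (F := F) (m := m)
  have hmem : ∀ x : ↥(isometryGroup F ⇑(Helper43.plusQF m F)),
      x ∈ Helper45.reflGroup (Helper43.plusQF m F) := fun x => by rw [hR]; trivial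
  have hinv : ∀ h : ↥(isometryGroup F ⇑(Helper43.plusQF m F)),
      Helper45.dick (Helper43.plusQF m F) h⁻¹ = Helper45.dick (Helper43.plusQF m F) h := by
    intro h
    have h2 := Helper45.dick_mul_of_mem _ hQ h⁻¹ (hmem _) h
    rw [inv_mul_cancel, Helper45.dick_one] at h2
    have h3 : ∀ a : ZMod 2, a + a = 0 := by decide
    linear_combination (-1 : ZMod 2) * h3 (Helper45.dick (Helper43.plusQF m F) h) - h2
  have key : ∀ U : Submodule F (Fin m ⊕ Fin m → F),
      IsMaxTotallySingular ⇑(Helper43.plusQF m F) U →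
      (SameParityClass U (imageSubmodule (Dc m c
          * ((g : GL (Fin m ⊕ Fin m) F) : Matrix (Fin m ⊕ Fin m) (Fin m ⊕ Fin m) F)) U) ↔
        Helper45.dick (Helper43.plusQF m F) g = 0) := by
    intro U hU
    obtain ⟨h, rfl⟩ := Helper45.ID.exists_iso_of_max _ hQ _ hE hdim U hU
    have hsim : DcGL m c hc ∈ Geo.quadSimilarityGroup (F := F) ⇑(Helper43.plusQF m F) :=
      DcGL_sim (m := m) c hc
    obtain ⟨k, hk⟩ : ∃ k : ↥(isometryGroup F ⇑(Helper43.plusQF m F)),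
        k = Helper45.conjO ⇑(Helper43.plusQF m F) (DcGL m c hc) hsim (g * h) := ⟨_, rfl⟩
    have hkc : ((k : GL (Fin m ⊕ Fin m) F) : Matrix (Fin m ⊕ Fin m) (Fin m ⊕ Fin m) F)
        = Dc m c * (((g : GL (Fin m ⊕ Fin m) F) : Matrix (Fin m ⊕ Fin m) (Fin m ⊕ Fin m) F)
          * ((h : GL (Fin m ⊕ Fin m) F) : Matrix (Fin m ⊕ Fin m) (Fin m ⊕ Fin m) F))
          * Dc m c⁻¹ := by
      rw [hk, Helper45.conjO_coe, Units.val_mul, Units.val_mul, DcGL_coe, DcGL_inv_coe]
      rfl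
    have himg : imageSubmodule (Dc m c
          * ((g : GL (Fin m ⊕ Fin m) F) : Matrix (Fin m ⊕ Fin m) (Fin m ⊕ Fin m) F))
          (Helper45.imgSub (Helper43.plusQF m F) h (Helper45.ID.Eplus m F))
        = Helper45.imgSub (Helper43.plusQF m F) k (Helper45.ID.Eplus m F) := by
      unfold imageSubmodule Helper45.imgSub
      have e1 : (Helper45.ID.Eplus m F).map (Matrix.toLin' (Dc m c
            * (((g : GL (Fin m ⊕ Fin m) F) : Matrix (Fin m ⊕ Fin m) (Fin m ⊕ Fin m) F)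
            * ((h : GL (Fin m ⊕ Fin m) F) : Matrix (Fin m ⊕ Fin m) (Fin m ⊕ Fin m) F))
            * Dc m c⁻¹))
          = (((Helper45.ID.Eplus m F).map (Matrix.toLin'
              ((h : GL (Fin m ⊕ Fin m) F) : Matrix (Fin m ⊕ Fin m) (Fin m ⊕ Fin m) F))).map
              (Matrix.toLin'
              ((g : GL (Fin m ⊕ Fin m) F) : Matrix (Fin m ⊕ Fin m) (Fin m ⊕ Fin m) F))).map
              (Matrix.toLin' (Dc m c)) := by
        rw [map_toLin_mul _ (Dc m c⁻¹), Dc_map_Eplus c⁻¹ (inv_ne_zero hc),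
          map_toLin_mul (Dc m c), map_toLin_mul]
      rw [hkc, e1, map_toLin_mul (Dc m c)]
    rw [himg, sameParity_iff_dick _ hQ hR _ hE hdim, Helper45.dick_mul_of_mem _ hQ h⁻¹ (hmem _),
      hinv, hk, dick_conj, Helper45.dick_mul_of_mem _ hQ g (hmem _)]
    have h3 : ∀ a b : ZMod 2, (a + (b + a) = 0 ↔ b = 0) := by decide
    exact h3 _ _
  constructor
  · intro hP
    exact (key _ (Helper45.ID.isMax_of_half _ hQ _ hE hdim)).mp
      (hP _ (Helper45.ID.isMax_of_half _ hQ _ hE hdim))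
  · intro hd U hU
    exact (key U hU).mpr hd

theorem isCls_unique (hR : Helper45.reflGroup (Helper43.plusQF m F) = ⊤)
    (t : Matrix (Fin m ⊕ Fin m) (Fin m ⊕ Fin m) F) (v v' : ZMod 2) (h : IsCls m t v)
    (h' : IsCls m t v') : v = v' := by
  have h3 : v = 0 ↔ v' = 0 := (isCls_psc hR t v h).symm.trans (isCls_psc hR t v' h')
  have h4 : ∀ a b : ZMod 2, (a = 0 ↔ b = 0) → a = b := by decide
  exact h4 _ _ h3

/-- a similarity preserves the classes, or does so after multiplication by a reflection -/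
theorem psc_dich (hR : Helper45.reflGroup (Helper43.plusQF m F) = ⊤)
    (t : GL (Fin m ⊕ Fin m) F) (ht : t ∈ Geo.quadSimilarityGroup (F := F) (quadFormPlus m F))
    (w : Fin m ⊕ Fin m → F) (hw : quadFormPlus m F w ≠ 0)
    (M : Matrix (Fin m ⊕ Fin m) (Fin m ⊕ Fin m) F)
    (hM : M = reflectionMatrix (quadFormPlus m F) w) :
    PreservesSingularClasses (quadFormPlus m F)
        (t : Matrix (Fin m ⊕ Fin m) (Fin m ⊕ Fin m) F) ∨
      PreservesSingularClasses (quadFormPlus m F)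
        ((t : Matrix (Fin m ⊕ Fin m) (Fin m ⊕ Fin m) F) * M) := by
  obtain ⟨v, hv⟩ := isCls_exists t ht
  have hQ := Helper45.plusQF_nondeg' (F := F) m
  have hw' : Helper43.plusQF m F w ≠ 0 := hw
  have h1 := isCls_iso (Helper45.reflO (Helper43.plusQF m F) w hw')
  rw [Helper45.dick_refl _ hQ] at h1
  have e : M = (((Helper45.reflO (Helper43.plusQF m F) w hw' :
      ↥(isometryGroup F ⇑(Helper43.plusQF m F))) : GL (Fin m ⊕ Fin m) F) :
        Matrix (Fin m ⊕ Fin m) (Fin m ⊕ Fin m) F) := by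
    rw [hM]
    rfl
  have h2 := isCls_mul hR _ _ _ _ hv h1
  rcases Helper45.ID.zmod2_cases v with h0 | h0
  · left
    exact (isCls_psc hR _ _ hv).mpr h0
  · right
    rw [e]
    apply (isCls_psc hR _ _ h2).mpr
    rw [h0]
    rfl

theorem psc_mul (hR : Helper45.reflGroup (Helper43.plusQF m F) = ⊤)
    (t t' : GL (Fin m ⊕ Fin m) F) (ht : t ∈ Geo.quadSimilarityGroup (F := F) (quadFormPlus m F))
    (ht' : t' ∈ Geo.quadSimilarityGroup (F := F) (quadFormPlus m F))
    (h : PreservesSingularClasses (quadFormPlus m F)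
      (t : Matrix (Fin m ⊕ Fin m) (Fin m ⊕ Fin m) F))
    (h' : PreservesSingularClasses (quadFormPlus m F)
      (t' : Matrix (Fin m ⊕ Fin m) (Fin m ⊕ Fin m) F)) :
    PreservesSingularClasses (quadFormPlus m F)
      ((t * t' : GL (Fin m ⊕ Fin m) F) : Matrix (Fin m ⊕ Fin m) (Fin m ⊕ Fin m) F) := by
  obtain ⟨v, hv⟩ := isCls_exists t ht
  obtain ⟨v', hv'⟩ := isCls_exists t' ht'
  have h0 := (isCls_psc hR _ _ hv).mp h
  have h0' := (isCls_psc hR _ _ hv').mp h'
  have h2 := isCls_mul hR _ _ _ _ hv hv'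
  rw [Units.val_mul]
  apply (isCls_psc hR _ _ h2).mpr
  rw [h0, h0']
  rfl

theorem psc_inv (hR : Helper45.reflGroup (Helper43.plusQF m F) = ⊤)
    (t : GL (Fin m ⊕ Fin m) F) (ht : t ∈ Geo.quadSimilarityGroup (F := F) (quadFormPlus m F))
    (h : PreservesSingularClasses (quadFormPlus m F)
      (t : Matrix (Fin m ⊕ Fin m) (Fin m ⊕ Fin m) F)) :
    PreservesSingularClasses (quadFormPlus m F)
      ((t⁻¹ : GL (Fin m ⊕ Fin m) F) : Matrix (Fin m ⊕ Fin m) (Fin m ⊕ Fin m) F) := by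
  obtain ⟨v, hv⟩ := isCls_exists t ht
  obtain ⟨v', hv'⟩ := isCls_exists t⁻¹ (inv_mem ht)
  have h0 := (isCls_psc hR _ _ hv).mp h
  have h2 := isCls_mul hR _ _ _ _ hv hv'
  have h3 : (t : Matrix (Fin m ⊕ Fin m) (Fin m ⊕ Fin m) F)
      * ((t⁻¹ : GL (Fin m ⊕ Fin m) F) : Matrix (Fin m ⊕ Fin m) (Fin m ⊕ Fin m) F) = 1 := by
    rw [← Units.val_mul, mul_inv_cancel, Units.val_one]
  rw [h3] at h2
  have h4 := isCls_unique hR _ _ _ h2 isCls_one
  apply (isCls_psc hR _ _ hv').mpr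
  rw [h0, zero_add] at h4
  exact h4

theorem psc_one' (hR : Helper45.reflGroup (Helper43.plusQF m F) = ⊤) :
    PreservesSingularClasses (quadFormPlus m F)
      ((1 : GL (Fin m ⊕ Fin m) F) : Matrix (Fin m ⊕ Fin m) (Fin m ⊕ Fin m) F) := by
  rw [Units.val_one]
  exact (isCls_psc hR _ _ isCls_one).mpr rfl

/-- a rational structure of plus type: the semisimilarity preserves the two classes -/
theorem plus_type_psc (hR : Helper45.reflGroup (Helper43.plusQF m F) = ⊤) (σ : RingAut F)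
    (g k : GL (Fin m ⊕ Fin m) F) (hg : g ∈ Geo.quadSimilarityGroup (F := F) (quadFormPlus m F))
    (hk : k ∈ Geo.quadSimilarityGroup (F := F) (quadFormPlus m F)) (e : F) (he : e ≠ 0)
    (hgk : (g : Matrix (Fin m ⊕ Fin m) (Fin m ⊕ Fin m) F)
      * (k : Matrix (Fin m ⊕ Fin m) (Fin m ⊕ Fin m) F).map σ
      = e • (k : Matrix (Fin m ⊕ Fin m) (Fin m ⊕ Fin m) F)) :
    PreservesSingularClasses (quadFormPlus m F)
      (g : Matrix (Fin m ⊕ Fin m) (Fin m ⊕ Fin m) F) := by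
  obtain ⟨u, hu⟩ := isCls_exists g hg
  obtain ⟨v, hv⟩ := isCls_exists k hk
  have h1 := isCls_mul hR _ _ _ _ hu (isCls_map σ _ _ hv)
  have h2 := isCls_psc hR _ _ h1
  rw [hgk, pres_smul _ e he, isCls_psc hR _ _ hv] at h2
  apply (isCls_psc hR _ _ hu).mpr
  have h4 : ∀ a b : ZMod 2, (b = 0 ↔ a + b = 0) → a = 0 := by decide
  exact h4 _ _ h2

/-- the elements of `Inndiag(PΩ⁺)` are induced by class-preserving similarities -/
theorem inndiag_plus_rep (hR : Helper45.reflGroup (Helper43.plusQF m F) = ⊤)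
    (δ : MulAut (POmega F (quadFormPlus m F))) (hδ : δ ∈ inndiagPOmegaPlus m F) :
    ∃ d : GL (Fin m ⊕ Fin m) F, d ∈ Geo.quadSimilarityGroup (F := F) (quadFormPlus m F) ∧
      PreservesSingularClasses (quadFormPlus m F)
        (d : Matrix (Fin m ⊕ Fin m) (Fin m ⊕ Fin m) F) ∧
      IsInducedBySemilinearPOmega (quadFormPlus m F) d (RingEquiv.refl F) δ := by
  unfold inndiagPOmegaPlus autSubgroupOf at hδ
  induction hδ using Subgroup.closure_induction with
  | mem x hx => exact hx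
  | one => exact ⟨1, one_mem _, psc_one' hR, Helper45.ind_one _⟩
  | mul x y _ _ hx hy =>
    obtain ⟨g, hg, hgP, hg'⟩ := hx
    obtain ⟨h, hh, hhP, hh'⟩ := hy
    exact ⟨g * h, mul_mem hg hh, psc_mul hR g h hg hh hgP hhP, Helper45.ind_mul _ hh hg' hh'⟩
  | inv x _ hx =>
    obtain ⟨g, hg, hgP, hg'⟩ := hx
    exact ⟨g⁻¹, inv_mem hg, psc_inv hR g hg hgP, Helper45.ind_inv _ hg hg'⟩

end plusform

end Cfsg.Agent.Helper44.POm
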