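import Mathlib
import Cfsg.Agent.Helper44.OmP

/-!
# Plus-type orthogonal groups (helper44), part Q: Lang–Steinberg for semisimilarities of a general
quadratic form, and the two possible rational structures of the hyperbolic form
-/

set_option autoImplicit false
set_option linter.unusedSimpArgs false
set_option linter.unusedSectionVars false
set_option linter.unusedVariables false

namespace Cfsg.Agent.Helper44.POm

open Matrix Cfsg
open Cfsg.Agent.Helper45.OO (semiAut semiMap glMap polarGram)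

universe u

section genlang

variable {F : Type u} [Field F] {ι : Type} [Fintype ι] [DecidableEq ι]

/-- a rational structure on a quadratic space: the form restricted to the rational vectors -/
theorem rat_form_gen (Q : QuadraticForm F (ι → F))
    (hQF : (QuadraticMap.polarBilin Q).Nondegenerate)
    (K₀ : Subfield F) (bm bi : Matrix ι ι F) (hbi1 : bi * bm = 1) (hbi2 : bm * bi = 1)
    (lam : F) (hlam : lam ≠ 0)
    (hrat : ∀ v : ι → K₀, lam * Q (bm *ᵥ fun i => (v i : F)) ∈ K₀) :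
    ∃ P₀ : QuadraticForm K₀ (ι → K₀), Helper43.PolarNondeg P₀ ∧
      ∀ v : ι → K₀, ((P₀ v : K₀) : F) = lam * Q (bm *ᵥ fun i => (v i : F)) := by
  classical
  let toF : (ι → K₀) → (ι → F) := fun v i => (v i : F)
  have toF_add : ∀ x y : ι → K₀, toF (x + y) = toF x + toF y := fun x y => rfl
  have toF_smul : ∀ (a : K₀) (x : ι → K₀), toF (a • x) = (a : F) • toF x := fun a x => rfl
  let f : (ι → K₀) → K₀ := fun v => ⟨lam * Q (bm *ᵥ toF v), hrat v⟩
  have hf : ∀ v, ((f v : K₀) : F) = lam * Q (bm *ᵥ toF v) := fun v => rfl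
  have hpol : ∀ x y : ι → K₀, ((QuadraticMap.polar f x y : K₀) : F)
      = lam * QuadraticMap.polar (⇑Q) (bm *ᵥ toF x) (bm *ᵥ toF y) := by
    intro x y
    unfold QuadraticMap.polar
    rw [Subfield.coe_sub, Subfield.coe_sub, hf, hf, hf, toF_add, Matrix.mulVec_add]
    ring
  let P₀ : QuadraticForm K₀ (ι → K₀) := QuadraticMap.ofPolar f
    (by
      intro a x
      apply Subtype.ext
      rw [smul_eq_mul, Subfield.coe_mul, Subfield.coe_mul, hf, hf, toF_smul, Matrix.mulVec_smul,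
        QuadraticMap.map_smul, smul_eq_mul]
      ring)
    (by
      intro x x' y
      apply Subtype.ext
      rw [Subfield.coe_add, hpol, hpol, hpol, toF_add, Matrix.mulVec_add,
        QuadraticMap.polar_add_left, mul_add])
    (by
      intro a x y
      apply Subtype.ext
      rw [smul_eq_mul, Subfield.coe_mul, hpol, hpol, toF_smul, Matrix.mulVec_smul,
        QuadraticMap.polar_smul_left, smul_eq_mul]
      ring)
  have hP₀ : ∀ v, P₀ v = f v := fun v => rfl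
  have toF_single : ∀ j : ι, toF (Pi.single j 1) = Pi.single j 1 := by
    intro j
    funext i
    show (((Pi.single j 1 : ι → K₀) i : K₀) : F) = _
    by_cases hij : i = j
    · subst hij
      rw [Pi.single_eq_same, Pi.single_eq_same]
      rfl
    · rw [Pi.single_eq_of_ne hij, Pi.single_eq_of_ne hij]
      rfl
  have hnd : Cfsg.Agent.Helper43.PolarNondeg P₀ := by
    intro v hv
    have h1 : ∀ w : ι → K₀, QuadraticMap.polar (⇑Q) (bm *ᵥ toF v) (bm *ᵥ toF w) = 0 := by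
      intro w
      have h3 : ((QuadraticMap.polar f v w : K₀) : F) = 0 := by
        have h4 : QuadraticMap.polar f v w = 0 := hv w
        rw [h4]
        rfl
      rw [hpol] at h3
      rcases mul_eq_zero.1 h3 with h5 | h5
      · exact absurd h5 hlam
      · exact h5
    have hz2 : (QuadraticMap.polarBilin Q (bm *ᵥ toF v)) ∘ₗ (Matrix.mulVecLin bm) = 0 := by
      apply (Pi.basisFun F ι).ext
      intro j
      rw [Pi.basisFun_apply, LinearMap.comp_apply, Matrix.mulVecLin_apply, ← toF_single]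
      exact h1 (Pi.single j 1)
    have h3 : bm *ᵥ toF v = 0 := by
      apply Cfsg.Agent.Helper43.polarNondeg_of_nondegenerate _ hQF
      intro z
      have h4 := LinearMap.congr_fun hz2 (bi *ᵥ z)
      rw [LinearMap.comp_apply, Matrix.mulVecLin_apply, Matrix.mulVec_mulVec, hbi2,
        Matrix.one_mulVec] at h4
      exact h4
    have h4 : toF v = 0 := by
      have h5 := congrArg (fun y => bi *ᵥ y) h3
      simp only [Matrix.mulVec_mulVec, hbi1, Matrix.one_mulVec, Matrix.mulVec_zero] at h5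
      exact h5
    funext i
    apply Subtype.ext
    exact congrFun h4 i
  exact ⟨P₀, hnd, fun v => rfl⟩

/-- from an isometry of the rational form with a standard model to a matrix conjugating the
semisimilarity to the pure field map -/
theorem lang_model {ι₀ : Type} [Fintype ι₀] [DecidableEq ι₀] (Q : QuadraticForm F (ι → F))
    (Q₀ : QuadraticForm F (ι₀ → F)) (σ : RingAut F)
    (P₀ : QuadraticForm ↥(PSpn.fixF σ) (ι → ↥(PSpn.fixF σ)))
    (q₀ : (ι₀ → ↥(PSpn.fixF σ)) → ↥(PSpn.fixF σ))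
    (hq₀ : ∀ x₀ : ι₀ → ↥(PSpn.fixF σ), Q₀ (fun i => (PSpn.fixF σ).subtype (x₀ i))
      = (PSpn.fixF σ).subtype (q₀ x₀))
    (g bm bi : Matrix ι ι F) (lam e : F) (hlam : lam ≠ 0) (hb1 : bm * bi = 1) (hb2 : bi * bm = 1)
    (hgb : g * bm.map σ = e • bm)
    (hP : ∀ v : ι → ↥(PSpn.fixF σ),
      ((P₀ v : ↥(PSpn.fixF σ)) : F) = lam * Q (bm *ᵥ fun i => (v i : F)))
    (Ψ : (ι₀ → ↥(PSpn.fixF σ)) ≃ₗ[↥(PSpn.fixF σ)] (ι → ↥(PSpn.fixF σ)))
    (hΨ : ∀ z, P₀ (Ψ z) = q₀ z) :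
    ∃ (k : Matrix ι ι₀ F) (k' : Matrix ι₀ ι F), k * k' = 1 ∧ k' * k = 1 ∧
      (∀ x : ι₀ → F, Q (k *ᵥ x) = lam⁻¹ * Q₀ x) ∧ g * k.map σ = e • k := by
  classical
  obtain ⟨A, hAdef⟩ : ∃ A : Matrix ι ι₀ ↥(PSpn.fixF σ),
      A = LinearMap.toMatrix' (Ψ : (ι₀ → ↥(PSpn.fixF σ)) →ₗ[↥(PSpn.fixF σ)]
        (ι → ↥(PSpn.fixF σ))) := ⟨_, rfl⟩
  obtain ⟨A', hA'def⟩ : ∃ A' : Matrix ι₀ ι ↥(PSpn.fixF σ),
      A' = LinearMap.toMatrix' (Ψ.symm : (ι → ↥(PSpn.fixF σ)) →ₗ[↥(PSpn.fixF σ)]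
        (ι₀ → ↥(PSpn.fixF σ))) := ⟨_, rfl⟩
  have hAv : ∀ x, A *ᵥ x = Ψ x := by
    intro x
    rw [hAdef, LinearMap.toMatrix'_mulVec]
    rfl
  have h1 : A * A' = 1 := by
    rw [hAdef, hA'def, ← LinearMap.toMatrix'_comp]
    have h : (Ψ : (ι₀ → ↥(PSpn.fixF σ)) →ₗ[↥(PSpn.fixF σ)] (ι → ↥(PSpn.fixF σ))) ∘ₗ
        (Ψ.symm : (ι → ↥(PSpn.fixF σ)) →ₗ[↥(PSpn.fixF σ)] (ι₀ → ↥(PSpn.fixF σ)))
        = LinearMap.id := by
      ext x : 1
      simp
    rw [h, LinearMap.toMatrix'_id]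
  have h2 : A' * A = 1 := by
    rw [hAdef, hA'def, ← LinearMap.toMatrix'_comp]
    have h : (Ψ.symm : (ι → ↥(PSpn.fixF σ)) →ₗ[↥(PSpn.fixF σ)] (ι₀ → ↥(PSpn.fixF σ))) ∘ₗ
        (Ψ : (ι₀ → ↥(PSpn.fixF σ)) →ₗ[↥(PSpn.fixF σ)] (ι → ↥(PSpn.fixF σ)))
        = LinearMap.id := by
      ext x : 1
      simp
    rw [h, LinearMap.toMatrix'_id]
  have hone : ∀ (κ : Type) [Fintype κ] [DecidableEq κ],
      (1 : Matrix κ κ ↥(PSpn.fixF σ)).map (PSpn.fixF σ).subtype = 1 := by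
    intro κ _ _
    ext i j
    rw [Matrix.map_apply, Matrix.one_apply, Matrix.one_apply]
    by_cases hij : i = j
    · rw [if_pos hij, if_pos hij, map_one]
    · rw [if_neg hij, if_neg hij, map_zero]
  have hAσ : (A.map (PSpn.fixF σ).subtype).map σ = A.map (PSpn.fixF σ).subtype := by
    ext i j
    exact (A i j).2
  have hkey : ∀ x₀ : ι₀ → ↥(PSpn.fixF σ),
      Q ((bm * A.map (PSpn.fixF σ).subtype) *ᵥ fun i => (PSpn.fixF σ).subtype (x₀ i))
        = lam⁻¹ * Q₀ (fun i => (PSpn.fixF σ).subtype (x₀ i)) := by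
    intro x₀
    have e1 := hΨ x₀
    rw [← hAv] at e1
    have e2 := hP (A *ᵥ x₀)
    rw [e1] at e2
    have e4 : (fun i => (((A *ᵥ x₀) i : ↥(PSpn.fixF σ)) : F))
        = A.map (PSpn.fixF σ).subtype *ᵥ fun i => (PSpn.fixF σ).subtype (x₀ i) := by
      funext i
      exact RingHom.map_mulVec (PSpn.fixF σ).subtype A x₀ i
    rw [e4, Matrix.mulVec_mulVec] at e2
    have e5 : (PSpn.fixF σ).subtype (q₀ x₀)
        = lam * Q ((bm * A.map (PSpn.fixF σ).subtype) *ᵥ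
          fun i => (PSpn.fixF σ).subtype (x₀ i)) := e2
    rw [hq₀, e5, ← mul_assoc, inv_mul_cancel₀ hlam, one_mul]
  refine ⟨bm * A.map (PSpn.fixF σ).subtype, A'.map (PSpn.fixF σ).subtype * bi, ?_, ?_, ?_, ?_⟩
  · rw [Matrix.mul_assoc, ← Matrix.mul_assoc (A.map (PSpn.fixF σ).subtype), ← Matrix.map_mul, h1,
      hone, Matrix.one_mul, hb1]
  · rw [Matrix.mul_assoc, ← Matrix.mul_assoc bi, hb2, Matrix.one_mul, ← Matrix.map_mul, h2, hone]
  · intro x
    exact quad_transfer (PSpn.fixF σ).subtype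
      (Q.comp (Matrix.mulVecLin (bm * A.map (PSpn.fixF σ).subtype)))
      (lam⁻¹ • Q₀) hkey x
  · rw [Matrix.map_mul, hAσ, ← Matrix.mul_assoc, hgb, Matrix.smul_mul]

/-- **Lang–Steinberg for semisimilarities of a quadratic form**: a semisimilarity inducing an
automorphism of `PΩ` of order dividing the order of its field automorphism fixes, up to a scalar,
a rational structure on which the form is (up to a scalar) rational and non-degenerate -/
theorem lang_rat [Fintype F] (Q : QuadraticForm F (ι → F))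
    (hQ : (QuadraticMap.polarBilin Q).Nondegenerate) (hn5 : 5 ≤ Fintype.card ι)
    (u₀ : ι → F) (hu₀ : Q u₀ ≠ 0)
    (σ : RingAut F) (r : ℕ) (hr : orderOf σ = r) (hr0 : 0 < r)
    (g : GL ι F) (hg : IsSemisimilarityPair ⇑Q g σ)
    (hy : (semiAut ⇑Q g σ hg) ^ r = 1) :
    ∃ (bm bi : Matrix ι ι F) (lam e : F)
      (P₀ : QuadraticForm ↥(PSpn.fixF σ) (ι → ↥(PSpn.fixF σ))),
      bm * bi = 1 ∧ bi * bm = 1 ∧ lam ≠ 0 ∧ e ≠ 0 ∧
      (g : Matrix ι ι F) * bm.map σ = e • bm ∧ Helper43.PolarNondeg P₀ ∧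
      ∀ v : ι → ↥(PSpn.fixF σ),
        ((P₀ v : ↥(PSpn.fixF σ)) : F) = lam * Q (bm *ᵥ fun i => (v i : F)) := by
  classical
  haveI : Nonempty ι := by
    rw [← Fintype.card_pos_iff]
    omega
  obtain ⟨g', τ, hτ, hg', hpow, hiter⟩ := Helper45.OO.semiAut_pow ⇑Q g σ hg r
  have hσr : (σ : RingAut F) ^ r = 1 := by
    rw [← hr]
    exact pow_orderOf_eq_one σ
  rw [hσr] at hτ
  subst hτ
  rw [hy] at hpow
  obtain ⟨c, hc⟩ := Helper45.OO.scalar_of_ind Q hQ hn5 g' hg'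
    ((Helper45.OO.semi_ind_iff _ g' (RingEquiv.refl F) hg' 1).mpr hpow)
  have hT : PSLn.twR (RingHom.mapMatrix (σ : F →+* F)) (g : Matrix ι ι F) r
      = c • (1 : Matrix ι ι F) := by
    apply Helper13.mulVec_ext
    intro x
    have h3 := hiter x
    rw [semiMap_iter, hσr, fvec_one, semiMap_eq, fvec_one, hc] at h3
    exact h3.symm
  have hc0 : c ≠ 0 := by
    rintro rfl
    have h0 : (g' : Matrix ι ι F) = 0 := by rw [hc, zero_smul]
    have h1 : (g' : Matrix ι ι F) * ((g'⁻¹ : GL ι F) : Matrix ι ι F) = 1 := Units.mul_inv g'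
    rw [h0, zero_mul] at h1
    obtain ⟨i⟩ := ‹Nonempty ι›
    have h4 := congrFun (congrFun h1 i) i
    simp at h4
  have hσc : σ c = c := by
    have h1 : PSLn.twR (RingHom.mapMatrix (σ : F →+* F)) (g : Matrix ι ι F) (r + 1)
        = (g : Matrix ι ι F)
          * (PSLn.twR (RingHom.mapMatrix (σ : F →+* F)) (g : Matrix ι ι F) r).map σ :=
      rfl
    have h2' := PSLn.twR_succ' (RingHom.mapMatrix (σ : F →+* F)) (g : Matrix ι ι F) r
    rw [h1, hT, gmat_iter_mapMatrix, hσr, gmat_map_map_one, gmat_map_smul, gmat_map_one,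
      Matrix.mul_smul, mul_one, Matrix.smul_mul, one_mul] at h2'
    have h3 := congrArg (fun M => M * ((g⁻¹ : GL ι F) : Matrix ι ι F)) h2'
    have h4 : (g : Matrix ι ι F) * ((g⁻¹ : GL ι F) : Matrix ι ι F) = 1 := Units.mul_inv g
    simp only [Matrix.smul_mul, h4] at h3
    exact gmat_smul_one_inj _ _ h3
  obtain ⟨μ, hμ0, hμ⟩ := PSLn.lang_norm_surj σ r hr hr0 c⁻¹ (inv_ne_zero hc0)
    (by rw [map_inv₀, hσc])
  obtain ⟨cg, hcg⟩ := hg
  have hsm : ∀ v, Q ((μ • (g : Matrix ι ι F)) *ᵥ fvec σ v)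
      = (μ * μ * (cg : F)) * σ (Q v) := by
    intro v
    rw [Matrix.smul_mulVec, QuadraticMap.map_smul, smul_eq_mul]
    have h3 : Q ((g : Matrix ι ι F) *ᵥ fvec σ v) = (cg : F) * σ (Q v) := hcg v
    rw [h3]
    ring
  have hT' : PSLn.twR (RingHom.mapMatrix (σ : F →+* F)) (μ • (g : Matrix ι ι F)) r
      = 1 := by
    rw [gmat_twR_smul, hμ, hT, smul_smul, inv_mul_cancel₀ hc0, one_smul]
  have hc0' : μ * μ * (cg : F) ≠ 0 := mul_ne_zero (mul_ne_zero hμ0 hμ0) cg.ne_zero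
  have hcN : PSLn.twR (σ : F →+* F) (μ * μ * (cg : F)) r = 1 := by
    have h1 := semi_twR ⇑Q σ (μ • (g : Matrix ι ι F)) (μ * μ * (cg : F)) hsm r u₀
    rw [hT', Matrix.one_mulVec, hσr, fvec_one] at h1
    have h2 : ((1 : RingAut F)) (Q u₀) = Q u₀ := rfl
    rw [h2] at h1
    have h3 : (PSLn.twR (σ : F →+* F) (μ * μ * (cg : F)) r - 1) * Q u₀ = 0 := by
      linear_combination -h1
    rcases mul_eq_zero.1 h3 with h4 | h4
    · exact sub_eq_zero.1 h4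
    · exact absurd h4 hu₀
  obtain ⟨β, hβ0, hβ⟩ := PSLn.lang_h90_scalar σ r hr hr0 (μ * μ * (cg : F)) hcN
  obtain ⟨bm, hbU, hb⟩ := h90_matrix σ r hr hr0 (μ • (g : Matrix ι ι F)) hT'
  obtain ⟨bi, hbi1, hbi2⟩ : ∃ bi : Matrix ι ι F, bi * bm = 1 ∧ bm * bi = 1 := by
    obtain ⟨u, hu⟩ := hbU
    exact ⟨((u⁻¹ : (Matrix ι ι F)ˣ) : Matrix ι ι F),
      by rw [← hu, Units.inv_mul], by rw [← hu, Units.mul_inv]⟩
  have hrat : ∀ v : ι → PSpn.fixF σ,
      β⁻¹ * Q (bm *ᵥ fun i => (v i : F)) ∈ PSpn.fixF σ := by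
    intro v
    have hv : fvec σ (fun i => (v i : F)) = fun i => (v i : F) := by
      funext i
      exact (v i).2
    have h1 : Q (bm *ᵥ fun i => (v i : F))
        = (μ * μ * (cg : F)) * σ (Q (bm *ᵥ fun i => (v i : F))) := by
      conv_lhs => rw [← hb, ← Matrix.mulVec_mulVec, ← hv, ← fvec_mulVec, hsm]
    have hσβ : σ β = β * (μ * μ * (cg : F))⁻¹ := by
      rw [eq_mul_inv_iff_mul_eq₀ hc0', mul_comm]
      exact hβ
    show σ (β⁻¹ * Q (bm *ᵥ fun i => (v i : F)))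
      = β⁻¹ * Q (bm *ᵥ fun i => (v i : F))
    rw [map_mul, map_inv₀, hσβ]
    conv_rhs => rw [h1]
    field_simp
  obtain ⟨P₀, hnd, hP⟩ := rat_form_gen Q hQ (PSpn.fixF σ) bm bi hbi1 hbi2 β⁻¹
    (inv_ne_zero hβ0) hrat
  refine ⟨bm, bi, β⁻¹, μ⁻¹, P₀, hbi2, hbi1, inv_ne_zero hβ0, inv_ne_zero hμ0, ?_, hnd, hP⟩
  have h1 : μ⁻¹ • (μ • (g : Matrix ι ι F) * bm.map σ) = μ⁻¹ • bm := by rw [hb]
  rw [Matrix.smul_mul, smul_smul, inv_mul_cancel₀ hμ0, one_smul] at h1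
  exact h1

end genlang

section pluslang

variable {F : Type u} [Field F] [Fintype F]

omit [Fintype F] in
theorem qplus_u0 (n : ℕ) :
    quadFormPlus (n + 1) F (Pi.single (Sum.inl 0) 1 + Pi.single (Sum.inr 0) 1) = 1 := by
  unfold quadFormPlus
  rw [Finset.sum_eq_single (0 : Fin (n + 1))]
  · simp
  · intro i _ hi
    simp [Pi.single_apply, hi]
  · intro h
    exact absurd (Finset.mem_univ _) h

/-- **the two rational structures of the hyperbolic form** fixed by a semisimilarity of order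
dividing that of its field automorphism -/
theorem plus_lang (n : ℕ) (hn : 2 ≤ n) (σ : RingAut F) (r : ℕ) (hr : orderOf σ = r)
    (hr0 : 0 < r) (ζ : ↥(PSpn.fixF σ)) (hζ : ∀ t : ↥(PSpn.fixF σ), t ^ 2 + t + ζ ≠ 0)
    (g : GL (Fin (n + 1) ⊕ Fin (n + 1)) F)
    (hg : IsSemisimilarityPair (quadFormPlus (n + 1) F) g σ)
    (hy : (semiAut (quadFormPlus (n + 1) F) g σ hg) ^ r = 1) :
    (∃ (k k' : Matrix (Fin (n + 1) ⊕ Fin (n + 1)) (Fin (n + 1) ⊕ Fin (n + 1)) F) (lam e : F),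
      k * k' = 1 ∧ k' * k = 1 ∧ lam ≠ 0 ∧ e ≠ 0 ∧
      (∀ v, quadFormPlus (n + 1) F (k *ᵥ v) = lam * quadFormPlus (n + 1) F v) ∧
      (g : Matrix (Fin (n + 1) ⊕ Fin (n + 1)) (Fin (n + 1) ⊕ Fin (n + 1)) F) * k.map σ
        = e • k) ∨
    (∃ (k : Matrix (Fin (n + 1) ⊕ Fin (n + 1)) (MI n) F)
      (k' : Matrix (MI n) (Fin (n + 1) ⊕ Fin (n + 1)) F) (lam e : F),
      k * k' = 1 ∧ k' * k = 1 ∧ lam ≠ 0 ∧ e ≠ 0 ∧
      (∀ v, quadFormPlus (n + 1) F (k *ᵥ v)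
        = lam * quadFormMinus n F ((1 : ↥(PSpn.fixF σ)) : F) (ζ : F) v) ∧
      (g : Matrix (Fin (n + 1) ⊕ Fin (n + 1)) (Fin (n + 1) ⊕ Fin (n + 1)) F) * k.map σ
        = e • k) := by
  classical
  have hQ := Helper45.plusQF_nondeg' (F := F) (n + 1)
  have hcard : Fintype.card (Fin (n + 1) ⊕ Fin (n + 1)) = 2 * (n + 1) := by
    rw [Fintype.card_sum, Fintype.card_fin]
    ring
  have hu₀ : Helper43.plusQF (n + 1) F (Pi.single (Sum.inl 0) 1 + Pi.single (Sum.inr 0) 1) ≠ 0 := by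
    have h1 : Helper43.plusQF (n + 1) F (Pi.single (Sum.inl 0) 1 + Pi.single (Sum.inr 0) 1)
        = 1 := qplus_u0 n
    rw [h1]
    exact one_ne_zero
  obtain ⟨bm, bi, lam, e, P₀, hb1, hb2, hlam, he, hgb, hnd, hP⟩ :=
    lang_rat (Helper43.plusQF (n + 1) F) hQ (by omega) _ hu₀ σ r hr hr0 g hg hy
  have hV : Module.finrank ↥(PSpn.fixF σ) (Fin (n + 1) ⊕ Fin (n + 1) → ↥(PSpn.fixF σ))
      = 2 * (n + 1) := by
    rw [Module.finrank_fintype_fun_eq_card, hcard]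
  by_cases hTS : Helper43.OrthEven.HasTS P₀ (n + 1)
  · left
    obtain ⟨Ψ, hΨ⟩ := Helper43.OrthEven.exists_plus_of_hasTS (m := n + 1) (by omega) hV P₀ hnd hTS
    obtain ⟨k, k', h1, h2, hk, hgk⟩ := lang_model (Helper43.plusQF (n + 1) F)
      (Helper43.plusQF (n + 1) F) σ P₀ (quadFormPlus (n + 1) ↥(PSpn.fixF σ))
      (by
        intro x₀
        show quadFormPlus (n + 1) F (fun i => (PSpn.fixF σ).subtype (x₀ i))
          = (PSpn.fixF σ).subtype (quadFormPlus (n + 1) ↥(PSpn.fixF σ) x₀)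
        unfold quadFormPlus
        simp only [map_sum, map_mul])
      (g : Matrix (Fin (n + 1) ⊕ Fin (n + 1)) (Fin (n + 1) ⊕ Fin (n + 1)) F) bm bi lam e hlam
      hb1 hb2 hgb hP Ψ hΨ
    exact ⟨k, k', lam⁻¹, e, h1, h2, inv_ne_zero hlam, he, hk, hgk⟩
  · right
    have hab₀ : ∀ z₁ z₂ : ↥(PSpn.fixF σ), z₁ ^ 2 + 1 * z₁ * z₂ + ζ * z₂ ^ 2 = 0 → z₁ = 0 ∧ z₂ = 0 :=
      fun z₁ z₂ hz => Cfsg.Agent.S2617.aniso ζ hζ z₁ z₂ hz
    obtain ⟨Ψ, hΨ⟩ : ∃ Ψ : (MI n → ↥(PSpn.fixF σ)) ≃ₗ[↥(PSpn.fixF σ)]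
        (Fin (n + 1) ⊕ Fin (n + 1) → ↥(PSpn.fixF σ)),
        ∀ z, P₀ (Ψ z) = quadFormMinus n ↥(PSpn.fixF σ) 1 ζ z :=
      Helper43.OrthEven.exists_minus_of_not_hasTS' (m := n + 1) (by omega) hV P₀ hnd hTS 1 ζ hab₀
    obtain ⟨k, k', h1, h2, hk, hgk⟩ := lang_model (Helper43.plusQF (n + 1) F)
      (Helper43.minusQF n F ((1 : ↥(PSpn.fixF σ)) : F) (ζ : F)) σ P₀
      (quadFormMinus n ↥(PSpn.fixF σ) 1 ζ)
      (fun x₀ => qminus_map (PSpn.fixF σ).subtype 1 ζ x₀)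
      (g : Matrix (Fin (n + 1) ⊕ Fin (n + 1)) (Fin (n + 1) ⊕ Fin (n + 1)) F) bm bi lam e hlam
      hb1 hb2 hgb hP Ψ hΨ
    exact ⟨k, k', lam⁻¹, e, h1, h2, inv_ne_zero hlam, he, hk, hgk⟩

end pluslang

end Cfsg.Agent.Helper44.POm
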