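import Mathlib
import Cfsg.Agent.Helper44.OmQ

/-!
# Plus-type orthogonal groups (helper44), part R: the coset statement for field and graph-field
automorphisms of `PΩ⁺_{2m}(q)`, `m ≥ 5`
-/

set_option autoImplicit false
set_option linter.unusedSimpArgs false
set_option linter.unusedSectionVars false
set_option linter.unusedVariables false

namespace Cfsg.Agent.Helper44.POm

open Matrix Cfsg
open Cfsg.Agent.Helper45.OO (semiAut semiMap glMap polarGram)

universe u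

section typeM

variable {F : Type u} [Field F]

/-- the two standard maximal totally singular subspaces attached to the two roots of the binary
part meet in codimension one -/
theorem finrank_Eminus_inf (n : ℕ) (θ θ' : F) (hθ : θ ≠ θ') :
    Module.finrank F ↥(Helper45.ID.Eminus n θ ⊓ Helper45.ID.Eminus n θ') = n := by
  obtain ⟨L, hL⟩ : ∃ L : (MI n → F) →ₗ[F] (Fin n → F) × (Fin 2 → F),
      L = LinearMap.prod (LinearMap.funLeft F F (fun i : Fin n => (Sum.inl (Sum.inr i) : MI n)))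
        (LinearMap.funLeft F F (fun i : Fin 2 => (Sum.inr i : MI n))) := ⟨_, rfl⟩
  have hker : Helper45.ID.Eminus n θ ⊓ Helper45.ID.Eminus n θ' = LinearMap.ker L := by
    ext x
    rw [Submodule.mem_inf, Helper45.ID.mem_Eminus, Helper45.ID.mem_Eminus, LinearMap.mem_ker]
    have hval : L x = ((fun i : Fin n => x (Sum.inl (Sum.inr i))),
        (fun i : Fin 2 => x (Sum.inr i))) := by
      rw [hL]
      rfl
    rw [hval, Prod.mk_eq_zero]
    constructor
    · rintro ⟨⟨h1, h2⟩, ⟨-, h3⟩⟩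
      have h4 : (θ - θ') * x (Sum.inr 1) = 0 := by linear_combination h3 - h2
      have h5 : x (Sum.inr 1) = 0 := (mul_eq_zero.1 h4).resolve_left (sub_ne_zero.2 hθ)
      have h6 : x (Sum.inr 0) = 0 := by rw [h2, h5, mul_zero]
      refine ⟨funext h1, ?_⟩
      funext i
      fin_cases i
      · exact h6
      · exact h5
    · rintro ⟨h1, h2⟩
      have h5 : x (Sum.inr 0) = 0 := congrFun h2 0
      have h6 : x (Sum.inr 1) = 0 := congrFun h2 1
      exact ⟨⟨fun i => congrFun h1 i, by rw [h5, h6, mul_zero]⟩,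
        ⟨fun i => congrFun h1 i, by rw [h5, h6, mul_zero]⟩⟩
  have hsurj : Function.Surjective L := by
    rintro ⟨y, z⟩
    refine ⟨Sum.elim (Sum.elim 0 y) z, ?_⟩
    rw [hL]
    rfl
  have h1 := LinearMap.finrank_range_add_finrank_ker L
  rw [LinearMap.range_eq_top.mpr hsurj, finrank_top, Module.finrank_prod,
    Module.finrank_fintype_fun_eq_card, Module.finrank_fintype_fun_eq_card,
    Module.finrank_fintype_fun_eq_card] at h1
  simp only [Fintype.card_sum, Fintype.card_fin] at h1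
  rw [hker]
  have h2 := h1.trans (show n + n + 2 = n + 2 + n by ring)
  exact Nat.add_left_cancel h2

variable [Fintype F]

/-- a rational structure of minus type: the semisimilarity interchanges the two classes -/
theorem minus_type_not_psc (n : ℕ) (hR : Helper45.reflGroup (Helper43.plusQF (n + 1) F) = ⊤)
    (σ : RingAut F) (a₀ b₀ : F) (ha₀ : σ a₀ = a₀) (hb₀ : σ b₀ = b₀)
    (hab₀ : ∀ z₁ z₂ : F, σ z₁ = z₁ → σ z₂ = z₂ →
      z₁ ^ 2 + a₀ * z₁ * z₂ + b₀ * z₂ ^ 2 = 0 → z₁ = 0 ∧ z₂ = 0)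
    (g : GL (Fin (n + 1) ⊕ Fin (n + 1)) F)
    (k : Matrix (Fin (n + 1) ⊕ Fin (n + 1)) (MI n) F)
    (k' : Matrix (MI n) (Fin (n + 1) ⊕ Fin (n + 1)) F)
    (lam e : F) (h1 : k * k' = 1) (h2 : k' * k = 1) (hlam : lam ≠ 0) (he : e ≠ 0)
    (hQk : ∀ v, quadFormPlus (n + 1) F (k *ᵥ v) = lam * quadFormMinus n F a₀ b₀ v)
    (hgk : (g : Matrix (Fin (n + 1) ⊕ Fin (n + 1)) (Fin (n + 1) ⊕ Fin (n + 1)) F) * k.map σ
      = e • k) :
    ¬ PreservesSingularClasses (quadFormPlus (n + 1) F)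
      (g : Matrix (Fin (n + 1) ⊕ Fin (n + 1)) (Fin (n + 1) ⊕ Fin (n + 1)) F) := by
  classical
  intro hP
  have hQ := Helper45.plusQF_nondeg' (F := F) (n + 1)
  have hE : ∀ w ∈ Helper45.ID.Eplus (n + 1) F, Helper43.plusQF (n + 1) F w = 0 :=
    fun w hw => Helper45.ID.Eplus_ts w hw
  have hdim := Helper45.ID.finrank_Eplus (F := F) (m := n + 1)
  have hcard : Fintype.card (Fin (n + 1) ⊕ Fin (n + 1)) = 2 * n + 2 := by
    rw [Fintype.card_sum, Fintype.card_fin]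
    ring
  have hmem : ∀ x : ↥(isometryGroup F ⇑(Helper43.plusQF (n + 1) F)),
      x ∈ Helper45.reflGroup (Helper43.plusQF (n + 1) F) := fun x => by rw [hR]; trivial
  have hkinj : Function.Injective (Matrix.mulVecLin k) := by
    intro x y hxy
    have h3 := congrArg (fun z => k' *ᵥ z) hxy
    simp only [Matrix.mulVecLin_apply, Matrix.mulVec_mulVec, h2, Matrix.one_mulVec] at h3
    exact h3
  -- a root of the binary form
  obtain ⟨θ, hθ⟩ : ∃ θ : F, θ ^ 2 + a₀ * θ + b₀ = 0 := by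
    by_contra hno
    push_neg at hno
    have hab : ∀ z₁ z₂ : F, z₁ ^ 2 + a₀ * z₁ * z₂ + b₀ * z₂ ^ 2 = 0 → z₁ = 0 ∧ z₂ = 0 := by
      intro z₁ z₂ hz
      by_cases hz2 : z₂ = 0
      · subst hz2
        have h3 : z₁ ^ 2 = 0 := by linear_combination hz
        exact ⟨(pow_eq_zero_iff (n := 2) (by norm_num)).1 h3, rfl⟩
      · exfalso
        apply hno (z₁ / z₂)
        field_simp
        linear_combination hz
    obtain ⟨U, hU, hU0⟩ := Helper43.OrthEven.hasTS_plus (F := F) (n + 1)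
    have hts := Helper43.OrthEven.hasTS_of_map (Helper43.minusQF n F a₀ b₀)
      ((Matrix.mulVecLin k') ∘ₗ U.subtype)
      (by
        intro x y hxy
        apply Subtype.ext
        have h3 := congrArg (fun z => k *ᵥ z) hxy
        simp only [LinearMap.comp_apply, Submodule.subtype_apply, Matrix.mulVecLin_apply,
          Matrix.mulVec_mulVec, h1, Matrix.one_mulVec] at h3
        exact h3)
      (by
        intro w
        show quadFormMinus n F a₀ b₀ (k' *ᵥ (w : Fin (n + 1) ⊕ Fin (n + 1) → F)) = 0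
        have h3 := hQk (k' *ᵥ (w : Fin (n + 1) ⊕ Fin (n + 1) → F))
        rw [Matrix.mulVec_mulVec, h1, Matrix.one_mulVec] at h3
        have h4 : quadFormPlus (n + 1) F (w : Fin (n + 1) ⊕ Fin (n + 1) → F) = 0 := hU0 _ w.2
        rw [h4] at h3
        exact (mul_eq_zero.1 h3.symm).resolve_left hlam)
    exact Helper43.OrthEven.not_hasTS_minus (m := n + 1) (by omega) a₀ b₀ hab
      (Helper43.OrthEven.hasTS_mono hts hU)
  have hσθ : σ θ ≠ θ := by
    intro h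
    have h3 := hab₀ θ 1 h (map_one σ) (by linear_combination hθ)
    exact one_ne_zero h3.2
  have hθ' : (σ θ) ^ 2 + a₀ * σ θ + b₀ = 0 := by
    have h3 := congrArg σ hθ
    rw [map_add, map_add, map_pow, map_mul, ha₀, hb₀, map_zero] at h3
    exact h3
  obtain ⟨W₁, hW₁⟩ : ∃ W₁ : Submodule F (Fin (n + 1) ⊕ Fin (n + 1) → F),
      W₁ = (Helper45.ID.Eminus n θ).map (Matrix.mulVecLin k) := ⟨_, rfl⟩
  obtain ⟨W₂, hW₂⟩ : ∃ W₂ : Submodule F (Fin (n + 1) ⊕ Fin (n + 1) → F),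
      W₂ = (Helper45.ID.Eminus n (σ θ)).map (Matrix.mulVecLin k) := ⟨_, rfl⟩
  have hfr : ∀ E' : Submodule F (MI n → F),
      Module.finrank F ↥(E'.map (Matrix.mulVecLin k)) = Module.finrank F ↥E' :=
    fun E' => (Submodule.equivMapOfInjective _ hkinj E').finrank_eq.symm
  have hE1 := Helper45.ID.finrank_Eminus (K := F) (m := n) θ
  have hE2 := Helper45.ID.finrank_Eminus (K := F) (m := n) (σ θ)
  rw [card_MI] at hE1 hE2
  have hW₁ts : ∀ w ∈ W₁, Helper43.plusQF (n + 1) F w = 0 := by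
    rw [hW₁]
    rintro _ ⟨z, hz, rfl⟩
    show quadFormPlus (n + 1) F (k *ᵥ z) = 0
    rw [hQk, Helper45.ID.Eminus_ts a₀ b₀ θ hθ z hz, mul_zero]
  have hW₂ts : ∀ w ∈ W₂, Helper43.plusQF (n + 1) F w = 0 := by
    rw [hW₂]
    rintro _ ⟨z, hz, rfl⟩
    show quadFormPlus (n + 1) F (k *ᵥ z) = 0
    rw [hQk, Helper45.ID.Eminus_ts a₀ b₀ (σ θ) hθ' z hz, mul_zero]
  have hW₁dim : 2 * Module.finrank F W₁ = Fintype.card (Fin (n + 1) ⊕ Fin (n + 1)) := by
    rw [hW₁, hfr, hcard]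
    exact hE1
  have hW₂dim : 2 * Module.finrank F W₂ = Fintype.card (Fin (n + 1) ⊕ Fin (n + 1)) := by
    rw [hW₂, hfr, hcard]
    exact hE2
  obtain ⟨g₁, hg₁⟩ := Helper45.ID.exists_iso_of_max _ hQ _ hE hdim W₁
    (Helper45.ID.isMax_of_half _ hQ W₁ hW₁ts hW₁dim)
  obtain ⟨g₂, hg₂⟩ := Helper45.ID.exists_iso_of_max _ hQ _ hE hdim W₂
    (Helper45.ID.isMax_of_half _ hQ W₂ hW₂ts hW₂dim)
  have hnot : ¬ SameParityClass W₁ W₂ := by
    unfold SameParityClass
    have hinf : W₁ ⊓ W₂ = (Helper45.ID.Eminus n θ ⊓ Helper45.ID.Eminus n (σ θ)).map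
        (Matrix.mulVecLin k) := by
      rw [hW₁, hW₂, Submodule.map_inf _ hkinj]
    rw [hinf, hfr, finrank_Eminus_inf n θ (σ θ) (Ne.symm hσθ), hW₁, hfr]
    have h3 : Module.finrank F ↥(Helper45.ID.Eminus n θ) = n + 1 := by omega
    rw [h3, Nat.add_sub_cancel_left]
    exact Nat.not_even_one
  rw [← hg₁, ← hg₂, sameParity_iff_dick _ hQ hR _ hE hdim] at hnot
  obtain ⟨g₁σ, hg₁σ, hdσ⟩ := exists_mapO (Helper43.plusQF (n + 1) F) σ (qplus_fvec σ) g₁
  have hUmax : IsMaxTotallySingular ⇑(Helper43.plusQF (n + 1) F)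
      (Helper45.imgSub (Helper43.plusQF (n + 1) F) g₁σ (Helper45.ID.Eplus (n + 1) F)) :=
    Helper45.ID.isMax_of_half _ hQ _ (Helper45.ts_imgSub _ g₁σ _ hE)
      (by rw [Helper45.finrank_imgSub]; exact hdim)
  have hPU := hP _ hUmax
  have hginj : Function.Injective (Matrix.toLin'
      (g : Matrix (Fin (n + 1) ⊕ Fin (n + 1)) (Fin (n + 1) ⊕ Fin (n + 1)) F)) := by
    intro x y hxy
    rw [Matrix.toLin'_apply, Matrix.toLin'_apply] at hxy
    have h3 := congrArg (fun z => ((g⁻¹ : GL (Fin (n + 1) ⊕ Fin (n + 1)) F) :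
      Matrix (Fin (n + 1) ⊕ Fin (n + 1)) (Fin (n + 1) ⊕ Fin (n + 1)) F) *ᵥ z) hxy
    simp only [Matrix.mulVec_mulVec] at h3
    rw [← Units.val_mul, inv_mul_cancel, Units.val_one, Matrix.one_mulVec, Matrix.one_mulVec] at h3
    exact h3
  have himg : imageSubmodule
        (g : Matrix (Fin (n + 1) ⊕ Fin (n + 1)) (Fin (n + 1) ⊕ Fin (n + 1)) F)
        (Helper45.imgSub (Helper43.plusQF (n + 1) F) g₁σ (Helper45.ID.Eplus (n + 1) F))
      = Helper45.imgSub (Helper43.plusQF (n + 1) F) g₂ (Helper45.ID.Eplus (n + 1) F) := by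
    rw [hg₂]
    apply Submodule.eq_of_le_of_finrank_le
    · rintro _ ⟨u, hu, rfl⟩
      have hu' : u ∈ (Helper45.ID.Eplus (n + 1) F).map (Matrix.toLin'
          ((g₁σ : GL (Fin (n + 1) ⊕ Fin (n + 1)) F) :
            Matrix (Fin (n + 1) ⊕ Fin (n + 1)) (Fin (n + 1) ⊕ Fin (n + 1)) F)) := hu
      obtain ⟨y, hy, rfl⟩ := hu'
      obtain ⟨y', rfl⟩ : ∃ y', y = fvec σ y' := ⟨fvec σ⁻¹ y, (fvec_inv σ y).symm⟩
      have hy' : y' ∈ Helper45.ID.Eplus (n + 1) F := by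
        rw [SetLike.mem_coe, Helper45.ID.mem_Eplus] at hy
        rw [Helper45.ID.mem_Eplus]
        intro i
        have h3 : σ (y' (Sum.inr i)) = 0 := hy i
        exact (RingEquiv.map_eq_zero_iff σ).1 h3
      have hw1 : ((g₁ : GL (Fin (n + 1) ⊕ Fin (n + 1)) F) :
          Matrix (Fin (n + 1) ⊕ Fin (n + 1)) (Fin (n + 1) ⊕ Fin (n + 1)) F) *ᵥ y' ∈ W₁ := by
        rw [← hg₁]
        exact ⟨y', hy', rfl⟩
      rw [hW₁] at hw1
      obtain ⟨z, hz, hzeq⟩ := hw1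
      rw [Matrix.mulVecLin_apply] at hzeq
      rw [Matrix.toLin'_apply, Matrix.toLin'_apply, hg₁σ, ← fvec_mulVec, ← hzeq, rfvec_mulVec,
        Matrix.mulVec_mulVec, hgk, Matrix.smul_mulVec, ← Matrix.mulVec_smul, hW₂]
      refine ⟨e • fvec σ z, ?_, rfl⟩
      show e • fvec σ z ∈ Helper45.ID.Eminus n (σ θ)
      apply Submodule.smul_mem
      rw [SetLike.mem_coe, Helper45.ID.mem_Eminus] at hz
      rw [Helper45.ID.mem_Eminus]
      refine ⟨fun i => ?_, ?_⟩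
      · show σ (z (Sum.inl (Sum.inr i))) = 0
        rw [hz.1 i, map_zero]
      · show σ (z (Sum.inr 0)) = σ θ * σ (z (Sum.inr 1))
        rw [hz.2, map_mul]
    · have e1 : Module.finrank F ↥(imageSubmodule
          (g : Matrix (Fin (n + 1) ⊕ Fin (n + 1)) (Fin (n + 1) ⊕ Fin (n + 1)) F)
          (Helper45.imgSub (Helper43.plusQF (n + 1) F) g₁σ (Helper45.ID.Eplus (n + 1) F)))
          = Module.finrank F ↥(Helper45.imgSub (Helper43.plusQF (n + 1) F) g₁σ
            (Helper45.ID.Eplus (n + 1) F)) :=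
        (Submodule.equivMapOfInjective _ hginj _).finrank_eq.symm
      rw [e1, Helper45.finrank_imgSub]
      omega
  rw [himg, sameParity_iff_dick _ hQ hR _ hE hdim, Helper45.dick_mul_of_mem _ hQ _ (hmem _),
    dick_inv_top _ hQ hR, hdσ] at hPU
  apply hnot
  rw [Helper45.dick_mul_of_mem _ hQ _ (hmem _), dick_inv_top _ hQ hR]
  exact hPU

end typeM

section conj

variable {F : Type u} [Field F]

/-- two rational structures with the same standard model give a similarity intertwining the two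
semisimilarities, and a non-singular vector fixed up to a scalar -/
theorem models_conj {ι ι₀ : Type} [Fintype ι] [DecidableEq ι] [Fintype ι₀] [DecidableEq ι₀]
    (Q : QuadraticForm F (ι → F)) (σ : RingAut F) (h g : GL ι F)
    (q₀ : (ι₀ → F) → F) (u₀ : ι₀ → F) (hu₀ : q₀ u₀ ≠ 0) (hσu : fvec σ u₀ = u₀)
    (k₁ : Matrix ι ι₀ F) (k₁' : Matrix ι₀ ι F) (lam₁ e₁ : F) (h11 : k₁ * k₁' = 1)
    (h12 : k₁' * k₁ = 1) (hlam₁ : lam₁ ≠ 0) (he₁ : e₁ ≠ 0)
    (hQ₁ : ∀ v, Q (k₁ *ᵥ v) = lam₁ * q₀ v)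
    (hk₁ : (h : Matrix ι ι F) * k₁.map σ = e₁ • k₁)
    (k₂ : Matrix ι ι₀ F) (k₂' : Matrix ι₀ ι F) (lam₂ e₂ : F) (h21 : k₂ * k₂' = 1)
    (h22 : k₂' * k₂ = 1) (hlam₂ : lam₂ ≠ 0) (he₂ : e₂ ≠ 0)
    (hQ₂ : ∀ v, Q (k₂ *ᵥ v) = lam₂ * q₀ v)
    (hk₂ : (g : Matrix ι ι F) * k₂.map σ = e₂ • k₂) :
    ∃ (t : GL ι F) (w : ι → F), t ∈ Geo.quadSimilarityGroup (F := F) ⇑Q ∧ Q w ≠ 0 ∧
      (t : Matrix ι ι F) * (h : Matrix ι ι F)
        = (e₁ * e₂⁻¹) • ((g : Matrix ι ι F) * (t : Matrix ι ι F).map σ) ∧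
      (h : Matrix ι ι F) *ᵥ fvec σ w = e₁ • w := by
  have hone : ((1 : Matrix ι ι F)).map σ = 1 := gmat_map_one σ
  have hmm : ∀ (A : Matrix ι ι₀ F) (B : Matrix ι₀ ι F), (A * B).map σ = A.map σ * B.map σ :=
    fun A B => Matrix.map_mul (f := (σ : F →+* F))
  obtain ⟨t, ht⟩ : ∃ t : GL ι F, (t : Matrix ι ι F) = k₂ * k₁' :=
    ⟨⟨k₂ * k₁', k₁ * k₂',
      by rw [Matrix.mul_assoc, ← Matrix.mul_assoc k₁', h12, Matrix.one_mul, h21],
      by rw [Matrix.mul_assoc, ← Matrix.mul_assoc k₂', h22, Matrix.one_mul, h11]⟩, rfl⟩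
  refine ⟨t, k₁ *ᵥ u₀, ?_, ?_, ?_, ?_⟩
  · refine ⟨Units.mk0 (lam₂ * lam₁⁻¹) (mul_ne_zero hlam₂ (inv_ne_zero hlam₁)), fun v => ?_⟩
    rw [ht, ← Matrix.mulVec_mulVec, hQ₂, Units.val_mk0]
    have e := hQ₁ (k₁' *ᵥ v)
    rw [Matrix.mulVec_mulVec, h11, Matrix.one_mulVec] at e
    rw [e]
    field_simp
  · rw [hQ₁]
    exact mul_ne_zero hlam₁ hu₀
  · have hK1σ : k₁.map σ * k₁'.map σ = 1 := by rw [← hmm, h11, hone]
    have e1 : k₁' * (h : Matrix ι ι F) = e₁ • k₁'.map σ := by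
      calc k₁' * (h : Matrix ι ι F)
          = k₁' * ((h : Matrix ι ι F) * k₁.map σ) * k₁'.map σ := by
            rw [Matrix.mul_assoc, Matrix.mul_assoc, hK1σ, Matrix.mul_one]
        _ = e₁ • k₁'.map σ := by
            rw [hk₁, Matrix.mul_smul, h12, Matrix.smul_mul, Matrix.one_mul]
    rw [ht, hmm, ← Matrix.mul_assoc (g : Matrix ι ι F), hk₂, Matrix.smul_mul, smul_smul,
      mul_assoc e₁ e₂⁻¹ e₂, inv_mul_cancel₀ he₂, mul_one, Matrix.mul_assoc, e1, Matrix.mul_smul]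
  · rw [rfvec_mulVec, hσu, Matrix.mulVec_mulVec, hk₁, Matrix.smul_mulVec]

variable [Fintype F] {m : ℕ}

/-- from an intertwining similarity and a commuting reflection to conjugacy under `Inndiag` -/
theorem plus_conj_final (hR : Helper45.reflGroup (Helper43.plusQF m F) = ⊤) (σ : RingAut F)
    (h g : GL (Fin m ⊕ Fin m) F) (hh : IsSemisimilarityPair (quadFormPlus m F) h σ)
    (hg : IsSemisimilarityPair (quadFormPlus m F) g σ)
    (t : GL (Fin m ⊕ Fin m) F) (w : Fin m ⊕ Fin m → F)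
    (ht : t ∈ Geo.quadSimilarityGroup (F := F) (quadFormPlus m F))
    (hw : quadFormPlus m F w ≠ 0) (e e' : F) (he : e ≠ 0) (he' : e' ≠ 0)
    (heq : (t : Matrix (Fin m ⊕ Fin m) (Fin m ⊕ Fin m) F)
        * (h : Matrix (Fin m ⊕ Fin m) (Fin m ⊕ Fin m) F)
      = e • ((g : Matrix (Fin m ⊕ Fin m) (Fin m ⊕ Fin m) F)
        * (t : Matrix (Fin m ⊕ Fin m) (Fin m ⊕ Fin m) F).map σ))
    (hew : (h : Matrix (Fin m ⊕ Fin m) (Fin m ⊕ Fin m) F) *ᵥ fvec σ w = e' • w) :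
    ∃ κ : MulAut (POmega F (quadFormPlus m F)), κ ∈ inndiagPOmegaPlus m F ∧
      semiAut (quadFormPlus m F) g σ hg = κ * semiAut (quadFormPlus m F) h σ hh * κ⁻¹ := by
  have ht' : IsSemisimilarityPair (quadFormPlus m F) t (RingEquiv.refl F) := ht
  have hconj : semiAut (quadFormPlus m F) g σ hg
      = semiAut (quadFormPlus m F) t (RingEquiv.refl F) ht'
        * semiAut (quadFormPlus m F) h σ hh
        * (semiAut (quadFormPlus m F) t (RingEquiv.refl F) ht')⁻¹ :=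
    semi_conj_eq (Helper43.plusQF m F) σ t h g ht' hh hg e he heq
  obtain ⟨ch, hch⟩ := id hh
  have hw' : Helper43.plusQF m F w ≠ 0 := hw
  have hcomm := refl_comm_semi (Helper43.plusQF m F) σ
    (h : Matrix (Fin m ⊕ Fin m) (Fin m ⊕ Fin m) F) (ch : F) ch.ne_zero hch w hw' e' he' hew
  obtain ⟨R, hRdef⟩ : ∃ R : GL (Fin m ⊕ Fin m) F,
      R = ((Helper45.reflO (Helper43.plusQF m F) w hw' :
        ↥(isometryGroup F ⇑(Helper43.plusQF m F))) : GL (Fin m ⊕ Fin m) F) := ⟨_, rfl⟩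
  have hRmem : R ∈ Geo.quadSimilarityGroup (F := F) (quadFormPlus m F) := by
    rw [hRdef]
    exact Helper45.iso_le_sim _ (Helper45.reflO (Helper43.plusQF m F) w hw').2
  have hR' : IsSemisimilarityPair (quadFormPlus m F) R (RingEquiv.refl F) := hRmem
  have hRw : (R : Matrix (Fin m ⊕ Fin m) (Fin m ⊕ Fin m) F)
      = reflectionMatrix (quadFormPlus m F) w := by
    rw [hRdef]
    rfl
  have hconjR : semiAut (quadFormPlus m F) h σ hh
      = semiAut (quadFormPlus m F) R (RingEquiv.refl F) hR'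
        * semiAut (quadFormPlus m F) h σ hh
        * (semiAut (quadFormPlus m F) R (RingEquiv.refl F) hR')⁻¹ :=
    semi_conj_eq (Helper43.plusQF m F) σ R h h hR' hh hh 1 one_ne_zero
      (by rw [one_smul, hRdef]; exact hcomm)
  rcases psc_dich hR t ht w hw (R : Matrix (Fin m ⊕ Fin m) (Fin m ⊕ Fin m) F) hRw with hP | hP
  · refine ⟨semiAut (quadFormPlus m F) t (RingEquiv.refl F) ht', ?_, hconj⟩
    apply Subgroup.subset_closure
    exact ⟨t, ht, hP, (Helper45.OO.semi_ind_iff _ _ _ ht' _).mpr rfl⟩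
  · have htR : t * R ∈ Geo.quadSimilarityGroup (F := F) (quadFormPlus m F) :=
      mul_mem ht hRmem
    have htR' : IsSemisimilarityPair (quadFormPlus m F) (t * R) (RingEquiv.refl F) := htR
    have hprod : semiAut (quadFormPlus m F) (t * R) (RingEquiv.refl F) htR'
        = semiAut (quadFormPlus m F) t (RingEquiv.refl F) ht'
          * semiAut (quadFormPlus m F) R (RingEquiv.refl F) hR' := by
      rw [Helper45.OO.semiAut_mul]
      exact Helper45.OO.semiAut_congr _ _ _ (by rw [Helper45.OO.glMap_refl]) rfl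
    refine ⟨semiAut (quadFormPlus m F) (t * R) (RingEquiv.refl F) htR', ?_, ?_⟩
    · apply Subgroup.subset_closure
      exact ⟨t * R, htR, (by rw [Units.val_mul]; exact hP),
        (Helper45.OO.semi_ind_iff _ _ _ htR' _).mpr rfl⟩
    · rw [hprod, hconj]
      conv_lhs => rw [hconjR]
      group

/-- two semisimilarities of the hyperbolic form with the same field automorphism of order `r`,
both inducing automorphisms of order dividing `r` and acting in the same way on the two classes,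
are conjugate under `Inndiag` -/
theorem plus_conj (n : ℕ) (hn : 2 ≤ n) (σ : RingAut F) (r : ℕ) (hr : orderOf σ = r)
    (hr0 : 0 < r) (h g : GL (Fin (n + 1) ⊕ Fin (n + 1)) F)
    (hh : IsSemisimilarityPair (quadFormPlus (n + 1) F) h σ)
    (hg : IsSemisimilarityPair (quadFormPlus (n + 1) F) g σ)
    (hx : (semiAut (quadFormPlus (n + 1) F) h σ hh) ^ r = 1)
    (hy : (semiAut (quadFormPlus (n + 1) F) g σ hg) ^ r = 1)
    (hcl : PreservesSingularClasses (quadFormPlus (n + 1) F)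
        (h : Matrix (Fin (n + 1) ⊕ Fin (n + 1)) (Fin (n + 1) ⊕ Fin (n + 1)) F) ↔
      PreservesSingularClasses (quadFormPlus (n + 1) F)
        (g : Matrix (Fin (n + 1) ⊕ Fin (n + 1)) (Fin (n + 1) ⊕ Fin (n + 1)) F)) :
    ∃ κ : MulAut (POmega F (quadFormPlus (n + 1) F)), κ ∈ inndiagPOmegaPlus (n + 1) F ∧
      semiAut (quadFormPlus (n + 1) F) g σ hg
        = κ * semiAut (quadFormPlus (n + 1) F) h σ hh * κ⁻¹ := by
  classical
  have hR : Helper45.reflGroup (Helper43.plusQF (n + 1) F) = ⊤ :=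
    Helper44.reflGroup_eq_top_of _ (Helper45.plusQF_nondeg' (F := F) (n + 1)) (Or.inr (by
      rw [Fintype.card_sum, Fintype.card_fin]
      omega))
  obtain ⟨ζ, hζ⟩ := exists_aniso_fin ↥(PSpn.fixF σ)
  have hsim : ∀ (k : GL (Fin (n + 1) ⊕ Fin (n + 1)) F),
      IsSemisimilarityPair (quadFormPlus (n + 1) F) k σ →
      k ∈ Geo.quadSimilarityGroup (F := F) (quadFormPlus (n + 1) F) := by
    rintro k ⟨c, hc⟩
    refine ⟨c, fun v => ?_⟩
    obtain ⟨v', rfl⟩ : ∃ v', v = fvec σ v' := ⟨fvec σ⁻¹ v, (fvec_inv σ v).symm⟩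
    rw [qplus_fvec]
    exact hc v'
  have hab₀ : ∀ z₁ z₂ : F, σ z₁ = z₁ → σ z₂ = z₂ →
      z₁ ^ 2 + ((1 : ↥(PSpn.fixF σ)) : F) * z₁ * z₂ + (ζ : F) * z₂ ^ 2 = 0 →
      z₁ = 0 ∧ z₂ = 0 := by
    intro z₁ z₂ hz1 hz2 hz
    have h3 := Cfsg.Agent.S2617.aniso ζ hζ (⟨z₁, hz1⟩ : ↥(PSpn.fixF σ)) ⟨z₂, hz2⟩ (by
      apply Subtype.ext
      exact hz)
    exact ⟨congrArg Subtype.val h3.1, congrArg Subtype.val h3.2⟩
  have hu1 : fvec σ (Pi.single (Sum.inl 0) 1 + Pi.single (Sum.inr 0) 1 :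
      Fin (n + 1) ⊕ Fin (n + 1) → F) = Pi.single (Sum.inl 0) 1 + Pi.single (Sum.inr 0) 1 := by
    rw [gfvec_add, gfvec_single, gfvec_single]
  rcases plus_lang n hn σ r hr hr0 ζ hζ h hh hx with
    ⟨k₁, k₁', lam₁, e₁, h11, h12, hlam₁, he₁, hQ₁, hk₁⟩ |
    ⟨k₁, k₁', lam₁, e₁, h11, h12, hlam₁, he₁, hQ₁, hk₁⟩
  · rcases plus_lang n hn σ r hr hr0 ζ hζ g hg hy with
      ⟨k₂, k₂', lam₂, e₂, h21, h22, hlam₂, he₂, hQ₂, hk₂⟩ |
      ⟨k₂, k₂', lam₂, e₂, h21, h22, hlam₂, he₂, hQ₂, hk₂⟩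
    · -- plus / plus
      obtain ⟨t, w, ht, hw, heq, hew⟩ := models_conj (Helper43.plusQF (n + 1) F) σ h g
        (quadFormPlus (n + 1) F) (Pi.single (Sum.inl 0) 1 + Pi.single (Sum.inr 0) 1)
        (by rw [qplus_u0]; exact one_ne_zero) hu1
        k₁ k₁' lam₁ e₁ h11 h12 hlam₁ he₁ hQ₁ hk₁ k₂ k₂' lam₂ e₂ h21 h22 hlam₂ he₂ hQ₂ hk₂
      exact plus_conj_final hR σ h g hh hg t w ht hw (e₁ * e₂⁻¹) e₁
        (mul_ne_zero he₁ (inv_ne_zero he₂)) he₁ heq hew
    · -- plus / minus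
      exfalso
      obtain ⟨kk, hkk⟩ : ∃ kk : GL (Fin (n + 1) ⊕ Fin (n + 1)) F,
          (kk : Matrix (Fin (n + 1) ⊕ Fin (n + 1)) (Fin (n + 1) ⊕ Fin (n + 1)) F) = k₁ :=
        ⟨⟨k₁, k₁', h11, h12⟩, rfl⟩
      have hkks : kk ∈ Geo.quadSimilarityGroup (F := F) (quadFormPlus (n + 1) F) :=
        ⟨Units.mk0 lam₁ hlam₁, fun v => by rw [hkk]; exact hQ₁ v⟩
      have hPh := plus_type_psc hR σ h kk (hsim h hh) hkks e₁ he₁ (by rw [hkk]; exact hk₁)
      exact minus_type_not_psc n hR σ _ _ (1 : ↥(PSpn.fixF σ)).2 ζ.2 hab₀ g k₂ k₂' lam₂ e₂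
        h21 h22 hlam₂ he₂ hQ₂ hk₂ (hcl.mp hPh)
  · rcases plus_lang n hn σ r hr hr0 ζ hζ g hg hy with
      ⟨k₂, k₂', lam₂, e₂, h21, h22, hlam₂, he₂, hQ₂, hk₂⟩ |
      ⟨k₂, k₂', lam₂, e₂, h21, h22, hlam₂, he₂, hQ₂, hk₂⟩
    · -- minus / plus
      exfalso
      obtain ⟨kk, hkk⟩ : ∃ kk : GL (Fin (n + 1) ⊕ Fin (n + 1)) F,
          (kk : Matrix (Fin (n + 1) ⊕ Fin (n + 1)) (Fin (n + 1) ⊕ Fin (n + 1)) F) = k₂ :=
        ⟨⟨k₂, k₂', h21, h22⟩, rfl⟩
      have hkks : kk ∈ Geo.quadSimilarityGroup (F := F) (quadFormPlus (n + 1) F) :=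
        ⟨Units.mk0 lam₂ hlam₂, fun v => by rw [hkk]; exact hQ₂ v⟩
      have hPg := plus_type_psc hR σ g kk (hsim g hg) hkks e₂ he₂ (by rw [hkk]; exact hk₂)
      exact minus_type_not_psc n hR σ _ _ (1 : ↥(PSpn.fixF σ)).2 ζ.2 hab₀ h k₁ k₁' lam₁ e₁
        h11 h12 hlam₁ he₁ hQ₁ hk₁ (hcl.mpr hPg)
    · -- minus / minus
      obtain ⟨t, w, ht, hw, heq, hew⟩ := models_conj (Helper43.plusQF (n + 1) F) σ h g
        (quadFormMinus n F ((1 : ↥(PSpn.fixF σ)) : F) (ζ : F)) (Pi.single (Sum.inr 0) 1)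
        (by rw [qminus_single]; exact one_ne_zero) (gfvec_single σ _)
        k₁ k₁' lam₁ e₁ h11 h12 hlam₁ he₁ hQ₁ hk₁ k₂ k₂' lam₂ e₂ h21 h22 hlam₂ he₂ hQ₂ hk₂
      exact plus_conj_final hR σ h g hh hg t w ht hw (e₁ * e₂⁻¹) e₁
        (mul_ne_zero he₁ (inv_ne_zero he₂)) he₁ heq hew

/-- **the field-automorphism homomorphism of `PΩ⁺_{2m}(q)`**, `m ≥ 5` -/
theorem plus_theta (m : ℕ) (hm : 5 ≤ m) :
    ∃ Θ : MulAut (POmega F (quadFormPlus m F)) →* RingAut F,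
      (∀ (g : GL (Fin m ⊕ Fin m) F) (σ : F ≃+* F)
        (hg : IsSemisimilarityPair (quadFormPlus m F) g σ),
        Θ (semiAut (quadFormPlus m F) g σ hg) = σ) ∧
      (∀ α : MulAut (POmega F (quadFormPlus m F)),
        ∃ (g : GL (Fin m ⊕ Fin m) F) (hg : IsSemisimilarityPair (quadFormPlus m F) g (Θ α)),
          α = semiAut (quadFormPlus m F) g (Θ α) hg) := by
  have hQ := Helper45.plusQF_nondeg' (F := F) m
  have hcard : Fintype.card (Fin m ⊕ Fin m) = 2 * m := by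
    rw [Fintype.card_sum, Fintype.card_fin]
    ring
  exact Helper45.OO.exists_theta (Helper43.plusQF m F) hQ (by omega) (Or.inl (by omega))

/-- field and graph-field automorphisms of `PΩ⁺` have a nontrivial field part -/
theorem plus_theta_ne_one (Θ : MulAut (POmega F (quadFormPlus m F)) →* RingAut F)
    (hΘ1 : ∀ (g : GL (Fin m ⊕ Fin m) F) (σ : F ≃+* F)
      (hg : IsSemisimilarityPair (quadFormPlus m F) g σ),
      Θ (semiAut (quadFormPlus m F) g σ hg) = σ)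
    (x : MulAut (POmega F (quadFormPlus m F)))
    (hx : IsFieldAutClassPOmega (quadFormPlus m F) x ∨ IsGraphFieldAutClassPOmegaPlus m x) :
    Θ x ≠ 1 := by
  have hstd : ∀ (σ : F ≃+* F) (φ : MulAut (POmega F (quadFormPlus m F))),
      IsFieldAutPOmegaOf (quadFormPlus m F) σ φ → Θ φ = σ := by
    intro σ φ hφ
    have h1 : IsSemisimilarityPair (quadFormPlus m F) (1 : GL (Fin m ⊕ Fin m) F) σ := by
      refine ⟨1, fun v => ?_⟩
      rw [Units.val_one, Matrix.one_mulVec, Units.val_one, one_mul]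
      exact qplus_fvec σ v
    have h2 : φ = semiAut (quadFormPlus m F) 1 σ h1 := by
      apply (Helper45.OO.semi_ind_iff _ _ σ h1 _).mp
      intro s s' hss'
      apply hφ s s'
      rw [hss', Units.val_one, Matrix.one_mul, inv_one, Units.val_one, Matrix.mul_one]
    rw [h2]
    exact hΘ1 1 σ h1
  rcases hx with ⟨α, φ, σ, hσ, hφ, e⟩ | ⟨α, γ, φ, σ, v, rr, hσ, hv, hσv, hrr, hγ, hφ, e⟩
  · intro h1
    have h2 : Θ (α * x * α⁻¹) = σ := by
      rw [e]
      exact hstd σ φ hφ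
    rw [map_mul, map_mul, map_inv, h1, mul_one, mul_inv_cancel] at h2
    exact hσ h2.symm
  · intro h1
    have hrs : IsSemisimilarityPair (quadFormPlus m F) rr (RingEquiv.refl F) := by
      refine ⟨1, fun w => ?_⟩
      rw [hrr, Units.val_one, one_mul]
      exact Helper13.reflection_preserves (Helper43.plusQF m F) v hv w
    have hγ' : γ = semiAut (quadFormPlus m F) rr (RingEquiv.refl F) hrs :=
      (Helper45.OO.semi_ind_iff _ _ _ hrs _).mp hγ
    have h2 : Θ (α * x * α⁻¹) = σ := by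
      rw [e, map_mul, hγ', hΘ1, hstd σ φ hφ]
      rfl
    rw [map_mul, map_mul, map_inv, h1, mul_one, mul_inv_cancel] at h2
    exact hσ h2.symm

/-- **the coset statement for field and graph-field automorphisms of `PΩ⁺_{2m}(q)`**, `m ≥ 5` -/
theorem plus_coset_conj (m : ℕ) (hm : 5 ≤ m)
    (x δ : MulAut (POmega F (quadFormPlus m F)))
    (hx : IsFieldAutClassPOmega (quadFormPlus m F) x ∨ IsGraphFieldAutClassPOmegaPlus m x)
    (r : ℕ) (hr : r.Prime) (hxr : orderOf x = r) (hδ : δ ∈ inndiagPOmegaPlus m F) :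
    orderOf (δ * x) = r ↔ IsConjUnder (inndiagPOmegaPlus m F) x (δ * x) := by
  obtain ⟨n, rfl⟩ : ∃ n, m = n + 1 := ⟨m - 1, by omega⟩
  have hR : Helper45.reflGroup (Helper43.plusQF (n + 1) F) = ⊤ :=
    Helper44.reflGroup_eq_top_of _ (Helper45.plusQF_nondeg' (F := F) (n + 1)) (Or.inr (by
      rw [Fintype.card_sum, Fintype.card_fin]
      omega))
  obtain ⟨Θ, hΘ1, hΘ2⟩ := plus_theta (F := F) (n + 1) hm
  constructor
  · intro ho
    have hne := plus_theta_ne_one Θ hΘ1 x hx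
    have hxr' : x ^ r = 1 := by
      rw [← hxr]
      exact pow_orderOf_eq_one x
    have hσr : orderOf (Θ x) = r := by
      have h1 : (Θ x) ^ r = 1 := by rw [← map_pow, hxr', map_one]
      have h4 := orderOf_dvd_of_pow_eq_one h1
      rcases (Nat.dvd_prime hr).1 h4 with h5 | h5
      · exact absurd (orderOf_eq_one_iff.1 h5) hne
      · exact h5
    obtain ⟨d, hd, hdP, hdind⟩ := inndiag_plus_rep hR δ hδ
    have hd' : IsSemisimilarityPair (quadFormPlus (n + 1) F) d (RingEquiv.refl F) := hd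
    have eδ : δ = semiAut (quadFormPlus (n + 1) F) d (RingEquiv.refl F) hd' :=
      (Helper45.OO.semi_ind_iff _ d (RingEquiv.refl F) hd' δ).mp hdind
    obtain ⟨σ, h, hh, ex⟩ : ∃ (σ : RingAut F) (h : GL (Fin (n + 1) ⊕ Fin (n + 1)) F)
        (hh : IsSemisimilarityPair (quadFormPlus (n + 1) F) h σ),
        x = semiAut (quadFormPlus (n + 1) F) h σ hh := by
      obtain ⟨h, hh, e⟩ := hΘ2 x
      exact ⟨Θ x, h, hh, e⟩
    have hΘx : Θ x = σ := by
      rw [ex]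
      exact hΘ1 h σ hh
    rw [hΘx] at hσr
    have hsimh : h ∈ Geo.quadSimilarityGroup (F := F) (quadFormPlus (n + 1) F) := by
      obtain ⟨c, hc⟩ := id hh
      refine ⟨c, fun v => ?_⟩
      obtain ⟨v', rfl⟩ : ∃ v', v = fvec σ v' := ⟨fvec σ⁻¹ v, (fvec_inv σ v).symm⟩
      rw [qplus_fvec]
      exact hc v'
    have hg : IsSemisimilarityPair (quadFormPlus (n + 1) F) (d * h) σ := by
      obtain ⟨c₁, hc₁⟩ := id hd
      obtain ⟨c₂, hc₂⟩ := id hh
      refine ⟨c₁ * c₂, fun v => ?_⟩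
      rw [Units.val_mul, ← Matrix.mulVec_mulVec, hc₁, hc₂, Units.val_mul, mul_assoc]
    have ey : δ * x = semiAut (quadFormPlus (n + 1) F) (d * h) σ hg := by
      rw [eδ, ex, Helper45.OO.semiAut_mul]
      exact Helper45.OO.semiAut_congr _ _ _ (by rw [Helper45.OO.glMap_refl]) (one_mul σ)
    have hx1 : semiAut (quadFormPlus (n + 1) F) h σ hh ^ r = 1 := by
      rw [← ex]
      exact hxr'
    have hy1 : semiAut (quadFormPlus (n + 1) F) (d * h) σ hg ^ r = 1 := by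
      rw [← ey, ← ho]
      exact pow_orderOf_eq_one _
    have hcl : PreservesSingularClasses (quadFormPlus (n + 1) F)
          (h : Matrix (Fin (n + 1) ⊕ Fin (n + 1)) (Fin (n + 1) ⊕ Fin (n + 1)) F) ↔
        PreservesSingularClasses (quadFormPlus (n + 1) F)
          ((d * h : GL (Fin (n + 1) ⊕ Fin (n + 1)) F) :
            Matrix (Fin (n + 1) ⊕ Fin (n + 1)) (Fin (n + 1) ⊕ Fin (n + 1)) F) := by
      constructor
      · intro hP
        exact psc_mul hR d h hd hsimh hdP hP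
      · intro hP
        have h3 := psc_mul hR d⁻¹ (d * h) (inv_mem hd) (mul_mem hd hsimh)
          (psc_inv hR d hd hdP) hP
        rw [inv_mul_cancel_left] at h3
        exact h3
    obtain ⟨κ, hκ, hκeq⟩ := plus_conj n (by omega) σ r hσr hr.pos h (d * h) hh hg hx1 hy1 hcl
    refine ⟨κ, hκ, ?_⟩
    rw [ey, hκeq, ← ex]
  · rintro ⟨h, -, heq⟩
    rw [heq, PSLn.lang_orderOf_conj, hxr]

end conj

end Cfsg.Agent.Helper44.POm
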