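import Mathlib
import Cfsg.Agent.Helper44.OmR

/-!
# Class-preserving similarities of the minus-type form

* `rank_map_hom` : the rank of a matrix is invariant under extension of scalars;
* `exists_root_quad_ext` : the anisotropic binary part has a root in every quadratic extension;
* `pscm_iso_iff_dick` : an isometry of the minus-type form preserves the two classes of maximal
  totally singular subspaces over a quadratic extension exactly when its Dickson invariant
  vanishes;
* `pscm_mul`, `pscm_inv`, `pscm_one`, `inndiag_minus_rep`.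
-/

set_option autoImplicit false

namespace Cfsg.Agent.Helper44.POm

open Matrix Cfsg
open Cfsg.Agent.Helper45.OO (semiAut semiMap glMap polarGram)

universe u v

section rankmap

variable {F : Type u} [Field F] {K : Type v} [Field K] {ι : Type} [Fintype ι] [DecidableEq ι]

/-- the rank of a matrix is invariant under extension of scalars -/
theorem rank_map_hom (f : F →+* K) (M : Matrix ι ι F) : (M.map f).rank = M.rank := by
  classical
  obtain ⟨L, L', D, h⟩ := Matrix.Pivot.exists_list_transvec_mul_mul_list_transvec_eq_diagonal M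
  obtain ⟨U, hU⟩ : ∃ U : Matrix ι ι F, U = (L.map Matrix.TransvectionStruct.toMatrix).prod :=
    ⟨_, rfl⟩
  obtain ⟨V, hV⟩ : ∃ V : Matrix ι ι F, V = (L'.map Matrix.TransvectionStruct.toMatrix).prod :=
    ⟨_, rfl⟩
  rw [← hU, ← hV] at h
  have hUd : U.det = 1 := by rw [hU, Matrix.TransvectionStruct.det_toMatrix_prod]
  have hVd : V.det = 1 := by rw [hV, Matrix.TransvectionStruct.det_toMatrix_prod]
  have hUu : IsUnit U.det := by rw [hUd]; exact isUnit_one
  have hVu : IsUnit V.det := by rw [hVd]; exact isUnit_one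
  have hUK : IsUnit (U.map f).det := by
    have : (U.map f).det = f U.det := (RingHom.map_det f U).symm
    rw [this, hUd, map_one]; exact isUnit_one
  have hVK : IsUnit (V.map f).det := by
    have : (V.map f).det = f V.det := (RingHom.map_det f V).symm
    rw [this, hVd, map_one]; exact isUnit_one
  have h1 : M.rank = (Matrix.diagonal D).rank := by
    rw [← h, Matrix.rank_mul_eq_left_of_isUnit_det _ _ hVu,
      Matrix.rank_mul_eq_right_of_isUnit_det _ _ hUu]
  have hK : U.map f * M.map f * V.map f = Matrix.diagonal (fun i => f (D i)) := by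
    rw [← Matrix.map_mul, ← Matrix.map_mul, h]
    ext i j
    rw [Matrix.map_apply, Matrix.diagonal_apply, Matrix.diagonal_apply]
    by_cases hij : i = j
    · rw [if_pos hij, if_pos hij]
    · rw [if_neg hij, if_neg hij, map_zero]
  have h2 : (M.map f).rank = (Matrix.diagonal (fun i => f (D i))).rank := by
    rw [← hK, Matrix.rank_mul_eq_left_of_isUnit_det _ _ hVK,
      Matrix.rank_mul_eq_right_of_isUnit_det _ _ hUK]
  rw [h1, h2, Matrix.rank_diagonal, Matrix.rank_diagonal]
  apply Fintype.card_congr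
  exact Equiv.subtypeEquivRight (fun i => map_ne_zero f)

end rankmap

section rootext

variable {F : Type u} [Field F] [Fintype F]

/-- the anisotropic binary part has a root in every quadratic extension -/
theorem exists_root_quad_ext (a b : F)
    (hab : ∀ z₁ z₂ : F, z₁ ^ 2 + a * z₁ * z₂ + b * z₂ ^ 2 = 0 → z₁ = 0 ∧ z₂ = 0)
    (K : Type u) [Field K] [Algebra F K] (hfin : Module.finrank F K = 2) :
    ∃ θ : K, θ ^ 2 + algebraMap F K a * θ + algebraMap F K b = 0 := by
  classical
  obtain ⟨K₂, instK₂, instA₂, θ₂, hfin₂, hθ₂⟩ := exists_quad_ext_root a b hab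
  haveI hMF : Module.Finite F K := Module.finite_of_finrank_pos (by rw [hfin]; norm_num)
  haveI hKfin : Finite K := Module.finite_of_finite F
  haveI : Fintype K := Fintype.ofFinite K
  haveI hMF₂ : Module.Finite F K₂ := Module.finite_of_finrank_pos (by rw [hfin₂]; norm_num)
  haveI hKfin₂ : Finite K₂ := Module.finite_of_finite F
  haveI : Fintype K₂ := Fintype.ofFinite K₂
  have hc1 : Fintype.card K = Fintype.card F ^ 2 := by
    rw [Module.card_eq_pow_finrank (K := F) (V := K), hfin]
  have hc2 : Fintype.card K₂ = Fintype.card F ^ 2 := by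
    rw [Module.card_eq_pow_finrank (K := F) (V := K₂), hfin₂]
  haveI i1 : Polynomial.IsSplittingField F K
      (Polynomial.X ^ (Fintype.card F ^ 2) - Polynomial.X) := by
    rw [← hc1]
    exact FiniteField.isSplittingField_sub K F
  haveI i2 : Polynomial.IsSplittingField F K₂
      (Polynomial.X ^ (Fintype.card F ^ 2) - Polynomial.X) := by
    rw [← hc2]
    exact FiniteField.isSplittingField_sub K₂ F
  let e : K₂ ≃ₐ[F] K :=
    (Polynomial.IsSplittingField.algEquiv K₂
      (Polynomial.X ^ (Fintype.card F ^ 2) - Polynomial.X : Polynomial F)).trans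
    (Polynomial.IsSplittingField.algEquiv K
      (Polynomial.X ^ (Fintype.card F ^ 2) - Polynomial.X : Polynomial F)).symm
  refine ⟨e θ₂, ?_⟩
  have h1 := congrArg e hθ₂
  rw [map_add, map_add, map_mul, map_pow, AlgEquiv.commutes, AlgEquiv.commutes, map_zero] at h1
  exact h1

end rootext

section pscm

variable {F : Type u} [Field F] [Fintype F] {m : ℕ}

/-- the Dickson criterion over a fixed quadratic extension -/
theorem pscm_ext_iff_dick (hm : m ≠ 1) (a b : F)
    (hab : ∀ z₁ z₂ : F, z₁ ^ 2 + a * z₁ * z₂ + b * z₂ ^ 2 = 0 → z₁ = 0 ∧ z₂ = 0)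
    (g : ↥(isometryGroup F ⇑(Helper43.minusQF m F a b)))
    (K : Type u) [Field K] [Algebra F K] (hfin : Module.finrank F K = 2) :
    PreservesSingularClasses (quadFormMinus m K (algebraMap F K a) (algebraMap F K b))
      (((g : GL (MI m) F) : Matrix (MI m) (MI m) F).map (algebraMap F K)) ↔
    Helper45.dick (Helper43.minusQF m F a b) g = 0 := by
  classical
  haveI hMF : Module.Finite F K := Module.finite_of_finrank_pos (by rw [hfin]; norm_num)
  haveI hKfin : Finite K := Module.finite_of_finite F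
  haveI : Fintype K := Fintype.ofFinite K
  obtain ⟨θ, hθ⟩ := exists_root_quad_ext a b hab K hfin
  obtain ⟨f, hf⟩ : ∃ f : F →+* K, f = algebraMap F K := ⟨_, rfl⟩
  rw [← hf] at hθ ⊢
  have hD : (f a) ^ 2 - 4 * (f b) ≠ 0 := by
    have h1 := Helper43.OrthEven.disc_ne_zero a b hab
    have h3 : (f a) ^ 2 - 4 * (f b) = f (a ^ 2 - 4 * b) := by
      rw [map_sub, map_mul, map_pow, map_ofNat]
    rw [h3]
    exact (map_ne_zero f).mpr h1
  have hQK : (QuadraticMap.polarBilin (Helper43.minusQF m K (f a) (f b))).Nondegenerate :=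
    minusQF_nondeg_disc m (f a) (f b) hD
  have hR : Helper45.reflGroup (Helper43.minusQF m K (f a) (f b)) = ⊤ :=
    Helper44.reflGroup_eq_top_of _ hQK (Or.inr (by
      rw [Fintype.card_sum, Fintype.card_sum, Fintype.card_fin, Fintype.card_fin]
      omega))
  have hE : ∀ x ∈ Helper45.ID.Eminus m θ, Helper43.minusQF m K (f a) (f b) x = 0 :=
    fun x hx => Helper45.ID.Eminus_ts (f a) (f b) θ hθ x hx
  have hdim := Helper45.ID.finrank_Eminus (m := m) θ
  have hT₀mem : Matrix.GeneralLinearGroup.map f (g : GL (MI m) F)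
      ∈ isometryGroup K ⇑(Helper43.minusQF m K (f a) (f b)) := by
    rw [Helper45.mem_iso_iff]
    intro v
    have h2 := minus_sim_map f a b ((g : GL (MI m) F) : Matrix (MI m) (MI m) F) 1 (fun w => by
      rw [one_mul]; exact (Helper45.mem_iso_iff _ _).mp g.2 w) v
    rw [map_one, one_mul] at h2
    exact h2
  obtain ⟨T₀, hT₀⟩ : ∃ T₀ : ↥(isometryGroup K ⇑(Helper43.minusQF m K (f a) (f b))),
      T₀ = ⟨Matrix.GeneralLinearGroup.map f (g : GL (MI m) F), hT₀mem⟩ := ⟨_, rfl⟩
  have hT₀v : ((T₀ : GL (MI m) K) : Matrix (MI m) (MI m) K)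
      = ((g : GL (MI m) F) : Matrix (MI m) (MI m) F).map f := by
    rw [hT₀]
    rfl
  have h1 := pres_iff_dick (Helper43.minusQF m K (f a) (f b)) hQK hR (Helper45.ID.Eminus m θ)
    hE hdim T₀
  have h1' : PreservesSingularClasses (quadFormMinus m K (f a) (f b))
      (((g : GL (MI m) F) : Matrix (MI m) (MI m) F).map f) ↔
      Helper45.dick (Helper43.minusQF m K (f a) (f b)) T₀ = 0 := by
    rw [← hT₀v]
    exact h1
  refine h1'.trans ?_
  rw [Helper45.dick_eq_zero_iff_even_rank, Helper45.dick_eq_zero_iff_even_rank, hT₀v]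
  have h2 : ((g : GL (MI m) F) : Matrix (MI m) (MI m) F).map f - 1
      = (((g : GL (MI m) F) : Matrix (MI m) (MI m) F) - 1).map f := by
    ext i j
    rw [Matrix.sub_apply, Matrix.map_apply, Matrix.map_apply, Matrix.sub_apply, map_sub,
      Matrix.one_apply, Matrix.one_apply]
    by_cases hij : i = j
    · rw [if_pos hij, if_pos hij, map_one]
    · rw [if_neg hij, if_neg hij, map_zero]
  rw [h2, rank_map_hom]

/-- an isometry of the minus-type form preserves the two classes exactly when its Dickson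
invariant vanishes -/
theorem pscm_iso_iff_dick (hm : m ≠ 1) (a b : F)
    (hab : ∀ z₁ z₂ : F, z₁ ^ 2 + a * z₁ * z₂ + b * z₂ ^ 2 = 0 → z₁ = 0 ∧ z₂ = 0)
    (g : ↥(isometryGroup F ⇑(Helper43.minusQF m F a b))) :
    PreservesSingularClassesMinus m a b ((g : GL (MI m) F) : Matrix (MI m) (MI m) F) ↔
      Helper45.dick (Helper43.minusQF m F a b) g = 0 := by
  constructor
  · rintro ⟨K, instK, instA, hfin, hP⟩
    exact (pscm_ext_iff_dick hm a b hab g K hfin).mp hP
  · intro h
    obtain ⟨K, instK, instA, θ, hfin, -⟩ := exists_quad_ext_root a b hab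
    exact ⟨K, instK, instA, hfin, (pscm_ext_iff_dick hm a b hab g K hfin).mpr h⟩

omit [Fintype F] in
/-- scalar multiples have the same class behaviour -/
theorem pscm_smul (a b : F) (s : F) (hs : s ≠ 0) (M : Matrix (MI m) (MI m) F) :
    PreservesSingularClassesMinus m a b (s • M) ↔ PreservesSingularClassesMinus m a b M := by
  unfold PreservesSingularClassesMinus
  have key : ∀ (K : Type u) (_ : Field K) (_ : Algebra F K),
      PreservesSingularClasses (quadFormMinus m K (algebraMap F K a) (algebraMap F K b))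
        ((s • M).map (algebraMap F K)) ↔
      PreservesSingularClasses (quadFormMinus m K (algebraMap F K a) (algebraMap F K b))
        (M.map (algebraMap F K)) := by
    intro K _ _
    rw [Matrix.map_smul' (algebraMap F K) s M (fun x y => map_mul _ x y)]
    exact pres_smul _ _ ((map_ne_zero _).mpr hs) _
  constructor
  · rintro ⟨K, iK, iA, hfin, hP⟩
    exact ⟨K, iK, iA, hfin, (key K iK iA).mp hP⟩
  · rintro ⟨K, iK, iA, hfin, hP⟩
    exact ⟨K, iK, iA, hfin, (key K iK iA).mpr hP⟩

/-- in characteristic two a similarity is a scalar multiple of an isometry -/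
theorem sim_char2_decomp (h2 : ringChar F = 2) (a b : F) (g : GL (MI m) F)
    (hg : g ∈ Geo.quadSimilarityGroup (F := F) (quadFormMinus m F a b)) :
    ∃ (s : F) (g' : ↥(isometryGroup F ⇑(Helper43.minusQF m F a b))), s ≠ 0 ∧
      (g : Matrix (MI m) (MI m) F) = s • ((g' : GL (MI m) F) : Matrix (MI m) (MI m) F) := by
  obtain ⟨c, hc⟩ := hg
  obtain ⟨s, hs⟩ := FiniteField.isSquare_of_char_two h2 (c : F)
  have hs0 : s ≠ 0 := by
    rintro rfl
    rw [mul_zero] at hs
    exact c.ne_zero hs
  have hmem : scGL s⁻¹ (inv_ne_zero hs0) * g ∈ isometryGroup F ⇑(Helper43.minusQF m F a b) := by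
    rw [Helper45.mem_iso_iff]
    intro v
    rw [scGL_mul_coe, Matrix.smul_mulVec, QuadraticMap.map_smul]
    have h3 : Helper43.minusQF m F a b ((g : Matrix (MI m) (MI m) F) *ᵥ v)
        = (c : F) * Helper43.minusQF m F a b v := hc v
    rw [h3, hs, smul_eq_mul]
    field_simp
  refine ⟨s, ⟨_, hmem⟩, hs0, ?_⟩
  show (g : Matrix (MI m) (MI m) F)
    = s • ((scGL s⁻¹ (inv_ne_zero hs0) * g : GL (MI m) F) : Matrix (MI m) (MI m) F)
  rw [scGL_mul_coe, smul_smul, mul_inv_cancel₀ hs0, one_smul]

/-- the class criterion for a scalar multiple of an isometry -/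
theorem pscm_char2_iff (hm : m ≠ 1) (a b : F)
    (hab : ∀ z₁ z₂ : F, z₁ ^ 2 + a * z₁ * z₂ + b * z₂ ^ 2 = 0 → z₁ = 0 ∧ z₂ = 0)
    (s : F) (hs : s ≠ 0) (g' : ↥(isometryGroup F ⇑(Helper43.minusQF m F a b))) :
    PreservesSingularClassesMinus m a b
      (s • ((g' : GL (MI m) F) : Matrix (MI m) (MI m) F)) ↔
      Helper45.dick (Helper43.minusQF m F a b) g' = 0 :=
  (pscm_smul a b s hs _).trans (pscm_iso_iff_dick hm a b hab g')

/-- the identity preserves the classes -/
theorem pscm_one (a b : F)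
    (hab : ∀ z₁ z₂ : F, z₁ ^ 2 + a * z₁ * z₂ + b * z₂ ^ 2 = 0 → z₁ = 0 ∧ z₂ = 0) :
    PreservesSingularClassesMinus m a b (1 : Matrix (MI m) (MI m) F) := by
  obtain ⟨K, instK, instA, θ, hfin, -⟩ := exists_quad_ext_root a b hab
  refine ⟨K, instK, instA, hfin, ?_⟩
  intro U hU
  have h1 : imageSubmodule ((1 : Matrix (MI m) (MI m) F).map (algebraMap F K)) U = U := by
    rw [Matrix.map_one _ (map_zero _) (map_one _)]
    unfold imageSubmodule
    rw [Matrix.toLin'_one, Submodule.map_id]
  unfold SameParityClass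
  rw [h1, inf_idem, Nat.sub_self]
  exact ⟨0, rfl⟩

/-- class-preserving similarities are closed under products -/
theorem pscm_mul (hm : m ≠ 1) (a b : F)
    (hab : ∀ z₁ z₂ : F, z₁ ^ 2 + a * z₁ * z₂ + b * z₂ ^ 2 = 0 → z₁ = 0 ∧ z₂ = 0)
    (g h : GL (MI m) F)
    (hg : g ∈ Geo.quadSimilarityGroup (F := F) (quadFormMinus m F a b))
    (hh : h ∈ Geo.quadSimilarityGroup (F := F) (quadFormMinus m F a b))
    (Pg : PreservesSingularClassesMinus m a b (g : Matrix (MI m) (MI m) F))
    (Ph : PreservesSingularClassesMinus m a b (h : Matrix (MI m) (MI m) F)) :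
    PreservesSingularClassesMinus m a b ((g * h : GL (MI m) F) : Matrix (MI m) (MI m) F) := by
  by_cases h2 : ringChar F = 2
  · obtain ⟨s, g', hs, eg⟩ := sim_char2_decomp h2 a b g hg
    obtain ⟨s', h', hs', eh⟩ := sim_char2_decomp h2 a b h hh
    have hQ := Helper45.minusQF_nondeg' (F := F) m a b hab
    have hR : Helper45.reflGroup (Helper43.minusQF m F a b) = ⊤ :=
      Helper44.reflGroup_eq_top_of _ hQ (Or.inr (by rw [card_MI]; omega))
    rw [eg] at Pg
    rw [eh] at Ph
    have d1 := (pscm_char2_iff hm a b hab s hs g').mp Pg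
    have d2 := (pscm_char2_iff hm a b hab s' hs' h').mp Ph
    have e : ((g * h : GL (MI m) F) : Matrix (MI m) (MI m) F)
        = (s * s') • (((g' * h' : ↥(isometryGroup F ⇑(Helper43.minusQF m F a b))) : GL (MI m) F) :
          Matrix (MI m) (MI m) F) := by
      rw [Units.val_mul, eg, eh, Matrix.smul_mul, Matrix.mul_smul, smul_smul]
      rfl
    rw [e]
    apply (pscm_char2_iff hm a b hab (s * s') (mul_ne_zero hs hs') (g' * h')).mpr
    rw [Helper45.dick_mul_of_mem _ hQ g' (by rw [hR]; trivial), d1, d2, add_zero]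
  · have hodd : Odd (Fintype.card F) := by
      rw [Nat.odd_iff]
      exact FiniteField.odd_card_of_char_ne_two h2
    obtain ⟨c, hc⟩ := hg
    obtain ⟨c', hc'⟩ := hh
    have d1 := (Helper45.ID.pres_minus_iff hodd a b hab g c c.ne_zero hc).mp Pg
    have d2 := (Helper45.ID.pres_minus_iff hodd a b hab h c' c'.ne_zero hc').mp Ph
    apply (Helper45.ID.pres_minus_iff hodd a b hab (g * h) ((c : F) * (c' : F))
      (mul_ne_zero c.ne_zero c'.ne_zero) ?_).mpr
    · rw [Units.val_mul, Matrix.det_mul, d1, d2, mul_pow]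
    · intro v
      rw [Units.val_mul, ← Matrix.mulVec_mulVec, hc, hc', mul_assoc]

/-- class-preserving similarities are closed under inverses -/
theorem pscm_inv (hm : m ≠ 1) (a b : F)
    (hab : ∀ z₁ z₂ : F, z₁ ^ 2 + a * z₁ * z₂ + b * z₂ ^ 2 = 0 → z₁ = 0 ∧ z₂ = 0)
    (g : GL (MI m) F)
    (hg : g ∈ Geo.quadSimilarityGroup (F := F) (quadFormMinus m F a b))
    (Pg : PreservesSingularClassesMinus m a b (g : Matrix (MI m) (MI m) F)) :
    PreservesSingularClassesMinus m a b ((g⁻¹ : GL (MI m) F) : Matrix (MI m) (MI m) F) := by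
  by_cases h2 : ringChar F = 2
  · obtain ⟨s, g', hs, eg⟩ := sim_char2_decomp h2 a b g hg
    have hQ := Helper45.minusQF_nondeg' (F := F) m a b hab
    have hR : Helper45.reflGroup (Helper43.minusQF m F a b) = ⊤ :=
      Helper44.reflGroup_eq_top_of _ hQ (Or.inr (by rw [card_MI]; omega))
    rw [eg] at Pg
    have d1 := (pscm_char2_iff hm a b hab s hs g').mp Pg
    have e : ((g⁻¹ : GL (MI m) F) : Matrix (MI m) (MI m) F)
        = s⁻¹ • (((g'⁻¹ : ↥(isometryGroup F ⇑(Helper43.minusQF m F a b))) : GL (MI m) F) :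
          Matrix (MI m) (MI m) F) := by
      have h3 : (s⁻¹ • (((g'⁻¹ : ↥(isometryGroup F ⇑(Helper43.minusQF m F a b))) : GL (MI m) F) :
          Matrix (MI m) (MI m) F)) * (g : Matrix (MI m) (MI m) F) = 1 := by
        rw [eg, Matrix.smul_mul, Matrix.mul_smul, smul_smul, inv_mul_cancel₀ hs, one_smul]
        have h4 : (g'⁻¹ : ↥(isometryGroup F ⇑(Helper43.minusQF m F a b))) * g' = 1 :=
          inv_mul_cancel g'
        have h5 := congrArg (fun x : ↥(isometryGroup F ⇑(Helper43.minusQF m F a b)) =>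
          ((x : GL (MI m) F) : Matrix (MI m) (MI m) F)) h4
        exact h5
      rw [Matrix.coe_units_inv]
      exact Matrix.inv_eq_left_inv h3
    rw [e]
    apply (pscm_char2_iff hm a b hab s⁻¹ (inv_ne_zero hs) g'⁻¹).mpr
    rw [dick_inv_top _ hQ hR, d1]
  · have hodd : Odd (Fintype.card F) := by
      rw [Nat.odd_iff]
      exact FiniteField.odd_card_of_char_ne_two h2
    obtain ⟨c, hc⟩ := hg
    have d1 := (Helper45.ID.pres_minus_iff hodd a b hab g c c.ne_zero hc).mp Pg
    apply (Helper45.ID.pres_minus_iff hodd a b hab g⁻¹ (c : F)⁻¹ (inv_ne_zero c.ne_zero) ?_).mpr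
    · have h3 : ((g⁻¹ : GL (MI m) F) : Matrix (MI m) (MI m) F).det
          * (g : Matrix (MI m) (MI m) F).det = 1 := by
        rw [← Matrix.det_mul, Units.inv_mul, Matrix.det_one]
      rw [d1] at h3
      rw [inv_pow]
      exact eq_inv_of_mul_eq_one_left h3
    · intro v
      have h := hc (((g⁻¹ : GL (MI m) F) : Matrix (MI m) (MI m) F) *ᵥ v)
      rw [Matrix.mulVec_mulVec, Units.mul_inv, Matrix.one_mulVec] at h
      rw [h, ← mul_assoc, inv_mul_cancel₀ c.ne_zero, one_mul]

/-- the elements of `Inndiag(PΩ⁻)` are induced by class-preserving similarities -/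
theorem inndiag_minus_rep (hm : m ≠ 1) (a b : F)
    (hab : ∀ z₁ z₂ : F, z₁ ^ 2 + a * z₁ * z₂ + b * z₂ ^ 2 = 0 → z₁ = 0 ∧ z₂ = 0)
    (δ : MulAut (POmega F (quadFormMinus m F a b))) (hδ : δ ∈ inndiagPOmegaMinus m F a b) :
    ∃ d : GL (MI m) F, d ∈ Geo.quadSimilarityGroup (F := F) (quadFormMinus m F a b) ∧
      PreservesSingularClassesMinus m a b (d : Matrix (MI m) (MI m) F) ∧
      IsInducedBySemilinearPOmega (quadFormMinus m F a b) d (RingEquiv.refl F) δ := by
  unfold inndiagPOmegaMinus autSubgroupOf at hδ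
  induction hδ using Subgroup.closure_induction with
  | mem x hx => exact hx
  | one => exact ⟨1, one_mem _, by rw [Units.val_one]; exact pscm_one a b hab, Helper45.ind_one _⟩
  | mul x y _ _ hx hy =>
    obtain ⟨g, hg, hgP, hg'⟩ := hx
    obtain ⟨h, hh, hhP, hh'⟩ := hy
    exact ⟨g * h, mul_mem hg hh, pscm_mul hm a b hab g h hg hh hgP hhP,
      Helper45.ind_mul _ hh hg' hh'⟩
  | inv x _ hx =>
    obtain ⟨g, hg, hgP, hg'⟩ := hx
    exact ⟨g⁻¹, inv_mem hg, pscm_inv hm a b hab g hg hgP, Helper45.ind_inv _ hg hg'⟩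

end pscm

end Cfsg.Agent.Helper44.POm
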