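import Mathlib
import Cfsg.Agent.Helper44.OmS

/-!
# Descent of class-preserving similarities of the minus-type form to a subfield

* `pscm_descent` : conjugating the scalar extension of a similarity of the minus-type form over
  a subfield by a model isomorphism gives a similarity of the big form, class-preserving exactly
  when the small one is;
* `pscmGrp` : the group of class-preserving similarities; `pscmD` : its action on `PΩ⁻`, with
  range `Inndiag`.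
-/

set_option autoImplicit false

namespace Cfsg.Agent.Helper44.POm

open Matrix Cfsg
open Cfsg.Agent.Helper45.OO (semiAut semiMap glMap polarGram)

universe u v

section descent

variable {F : Type u} [Field F] [Fintype F] {F₀ : Type v} [Field F₀] [Fintype F₀] {m : ℕ}

theorem pscm_descent (hm : m ≠ 1) (a b : F)
    (hab : ∀ z₁ z₂ : F, z₁ ^ 2 + a * z₁ * z₂ + b * z₂ ^ 2 = 0 → z₁ = 0 ∧ z₂ = 0)
    (ι : F₀ →+* F) (a₀ b₀ : F₀)
    (hab₀ : ∀ z₁ z₂ : F₀, z₁ ^ 2 + a₀ * z₁ * z₂ + b₀ * z₂ ^ 2 = 0 → z₁ = 0 ∧ z₂ = 0)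
    (k : GL (MI m) F) (lam : F)
    (hk : ∀ v, quadFormMinus m F a b ((k : Matrix (MI m) (MI m) F) *ᵥ v)
      = lam * quadFormMinus m F (ι a₀) (ι b₀) v)
    (g₀ : GL (MI m) F₀)
    (hg₀ : g₀ ∈ Geo.quadSimilarityGroup (F := F₀) (quadFormMinus m F₀ a₀ b₀))
    (d : GL (MI m) F)
    (hd : (d : Matrix (MI m) (MI m) F) = (k : Matrix (MI m) (MI m) F)
      * (g₀ : Matrix (MI m) (MI m) F₀).map ι * ((k⁻¹ : GL (MI m) F) : Matrix (MI m) (MI m) F)) :
    d ∈ Geo.quadSimilarityGroup (F := F) (quadFormMinus m F a b) ∧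
    (PreservesSingularClassesMinus m a b (d : Matrix (MI m) (MI m) F) ↔
      PreservesSingularClassesMinus m a₀ b₀ (g₀ : Matrix (MI m) (MI m) F₀)) := by
  classical
  have hK1 : (k : Matrix (MI m) (MI m) F) * ((k⁻¹ : GL (MI m) F) : Matrix (MI m) (MI m) F) = 1 :=
    Units.mul_inv k
  have hK1' : ((k⁻¹ : GL (MI m) F) : Matrix (MI m) (MI m) F) * (k : Matrix (MI m) (MI m) F) = 1 :=
    Units.inv_mul k
  -- conjugates of scalar extensions of similarities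
  have conj_sim : ∀ (M₀ : Matrix (MI m) (MI m) F₀) (c₀ : F₀),
      (∀ v, quadFormMinus m F₀ a₀ b₀ (M₀ *ᵥ v) = c₀ * quadFormMinus m F₀ a₀ b₀ v) →
      ∀ v, quadFormMinus m F a b (((k : Matrix (MI m) (MI m) F) * M₀.map ι
        * ((k⁻¹ : GL (MI m) F) : Matrix (MI m) (MI m) F)) *ᵥ v)
        = ι c₀ * quadFormMinus m F a b v := by
    intro M₀ c₀ hM₀ v
    rw [← Matrix.mulVec_mulVec, ← Matrix.mulVec_mulVec, hk,
      minus_sim_map ι a₀ b₀ M₀ c₀ hM₀, ← mul_assoc, mul_comm lam, mul_assoc, ← hk,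
      Matrix.mulVec_mulVec, hK1, Matrix.one_mulVec]
  obtain ⟨c₀, hc₀⟩ := hg₀
  have hsim : ∀ v, quadFormMinus m F a b ((d : Matrix (MI m) (MI m) F) *ᵥ v)
      = ι (c₀ : F₀) * quadFormMinus m F a b v := by
    intro v
    rw [hd]
    exact conj_sim _ _ hc₀ v
  have hιc : ι (c₀ : F₀) ≠ 0 := (map_ne_zero ι).mpr c₀.ne_zero
  refine ⟨⟨Units.mk0 _ hιc, hsim⟩, ?_⟩
  by_cases h2 : ringChar F = 2
  · have h2F : (2 : F) = 0 := by
      have h3 : ((2 : ℕ) : F) = 0 := (ringChar.spec F 2).2 (by rw [h2])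
      exact_mod_cast h3
    have h2₀ : ringChar F₀ = 2 := by
      apply CharP.ringChar_of_prime_eq_zero Nat.prime_two
      apply ι.injective
      rw [map_zero, Nat.cast_ofNat, map_ofNat]
      exact h2F
    obtain ⟨s₀, g₀', hs₀, eg₀⟩ := sim_char2_decomp h2₀ a₀ b₀ g₀ ⟨c₀, hc₀⟩
    have hmem : k * Matrix.GeneralLinearGroup.map ι (g₀' : GL (MI m) F₀) * k⁻¹
        ∈ isometryGroup F ⇑(Helper43.minusQF m F a b) := by
      rw [Helper45.mem_iso_iff]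
      intro v
      have h3 := conj_sim ((g₀' : GL (MI m) F₀) : Matrix (MI m) (MI m) F₀) 1 (fun w => by
        rw [one_mul]; exact (Helper45.mem_iso_iff _ _).mp g₀'.2 w) v
      rw [map_one, one_mul] at h3
      exact h3
    obtain ⟨g', hg'⟩ : ∃ g' : ↥(isometryGroup F ⇑(Helper43.minusQF m F a b)),
        g' = ⟨k * Matrix.GeneralLinearGroup.map ι (g₀' : GL (MI m) F₀) * k⁻¹, hmem⟩ := ⟨_, rfl⟩
    have hg'v : ((g' : GL (MI m) F) : Matrix (MI m) (MI m) F)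
        = (k : Matrix (MI m) (MI m) F)
          * ((g₀' : GL (MI m) F₀) : Matrix (MI m) (MI m) F₀).map ι
          * ((k⁻¹ : GL (MI m) F) : Matrix (MI m) (MI m) F) := by
      rw [hg']
      rfl
    have hιs : ι s₀ ≠ 0 := (map_ne_zero ι).mpr hs₀
    have hdv : (d : Matrix (MI m) (MI m) F)
        = ι s₀ • ((g' : GL (MI m) F) : Matrix (MI m) (MI m) F) := by
      rw [hd, eg₀, hg'v, Matrix.map_smul' ι s₀ _ (fun x y => map_mul ι x y), Matrix.mul_smul,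
        Matrix.smul_mul]
    rw [hdv, eg₀, pscm_char2_iff hm a b hab (ι s₀) hιs g',
      pscm_char2_iff hm a₀ b₀ hab₀ s₀ hs₀ g₀', Helper45.dick_eq_zero_iff_even_rank,
      Helper45.dick_eq_zero_iff_even_rank]
    have h4 : ((g' : GL (MI m) F) : Matrix (MI m) (MI m) F) - 1
        = (k : Matrix (MI m) (MI m) F)
          * (((g₀' : GL (MI m) F₀) : Matrix (MI m) (MI m) F₀) - 1).map ι
          * ((k⁻¹ : GL (MI m) F) : Matrix (MI m) (MI m) F) := by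
      have h5 : (((g₀' : GL (MI m) F₀) : Matrix (MI m) (MI m) F₀) - 1).map ι
          = ((g₀' : GL (MI m) F₀) : Matrix (MI m) (MI m) F₀).map ι - 1 := by
        ext i j
        rw [Matrix.sub_apply, Matrix.map_apply, Matrix.map_apply, Matrix.sub_apply, map_sub,
          Matrix.one_apply, Matrix.one_apply]
        by_cases hij : i = j
        · rw [if_pos hij, if_pos hij, map_one]
        · rw [if_neg hij, if_neg hij, map_zero]
      rw [h5, Matrix.mul_sub, Matrix.sub_mul, Matrix.mul_one, hK1, hg'v]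
    have hu1 : IsUnit (k : Matrix (MI m) (MI m) F).det :=
      (Matrix.isUnit_iff_isUnit_det _).mp k.isUnit
    have hu2 : IsUnit ((k⁻¹ : GL (MI m) F) : Matrix (MI m) (MI m) F).det :=
      (Matrix.isUnit_iff_isUnit_det _).mp (k⁻¹).isUnit
    rw [h4, Matrix.rank_mul_eq_left_of_isUnit_det _ _ hu2,
      Matrix.rank_mul_eq_right_of_isUnit_det _ _ hu1, rank_map_hom]
  · have hodd : Odd (Fintype.card F) := by
      rw [Nat.odd_iff]
      exact FiniteField.odd_card_of_char_ne_two h2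
    have h2F : (2 : F) ≠ 0 := Helper45.two_ne_zero_of_odd_card hodd
    have h2F₀ : (2 : F₀) ≠ 0 := two_ne_zero_sub h2F ι
    have hodd₀ : Odd (Fintype.card F₀) := by
      rw [Nat.odd_iff]
      exact FiniteField.odd_card_of_char_ne_two (Helper45.ringChar_ne_two h2F₀)
    rw [Helper45.ID.pres_minus_iff hodd a b hab d (ι (c₀ : F₀)) hιc hsim,
      Helper45.ID.pres_minus_iff hodd₀ a₀ b₀ hab₀ g₀ (c₀ : F₀) c₀.ne_zero hc₀]
    have hdet : (d : Matrix (MI m) (MI m) F).det = ι (g₀ : Matrix (MI m) (MI m) F₀).det := by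
      have h3 : (k : Matrix (MI m) (MI m) F).det
          * ((k⁻¹ : GL (MI m) F) : Matrix (MI m) (MI m) F).det = 1 := by
        rw [← Matrix.det_mul, hK1, Matrix.det_one]
      have h4 : ((g₀ : Matrix (MI m) (MI m) F₀).map ι).det
          = ι (g₀ : Matrix (MI m) (MI m) F₀).det := (RingHom.map_det ι _).symm
      rw [hd, Matrix.det_mul, Matrix.det_mul, h4, mul_comm (k : Matrix (MI m) (MI m) F).det,
        mul_assoc, h3, mul_one]
    rw [hdet, ← map_pow]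
    exact ι.injective.eq_iff

end descent

section grp

variable {F : Type u} [Field F] [Fintype F] {m : ℕ}

/-- the group of class-preserving similarities of the minus-type form -/
def pscmGrp (hm : m ≠ 1) (a b : F)
    (hab : ∀ z₁ z₂ : F, z₁ ^ 2 + a * z₁ * z₂ + b * z₂ ^ 2 = 0 → z₁ = 0 ∧ z₂ = 0) :
    Subgroup (GL (MI m) F) where
  carrier := {g | g ∈ Geo.quadSimilarityGroup (F := F) (quadFormMinus m F a b) ∧
    PreservesSingularClassesMinus m a b (g : Matrix (MI m) (MI m) F)}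
  mul_mem' {g h} hg hh := ⟨mul_mem hg.1 hh.1, pscm_mul hm a b hab g h hg.1 hh.1 hg.2 hh.2⟩
  one_mem' := ⟨one_mem _, by rw [Units.val_one]; exact pscm_one a b hab⟩
  inv_mem' {g} hg := ⟨inv_mem hg.1, pscm_inv hm a b hab g hg.1 hg.2⟩

theorem mem_pscmGrp (hm : m ≠ 1) (a b : F)
    (hab : ∀ z₁ z₂ : F, z₁ ^ 2 + a * z₁ * z₂ + b * z₂ ^ 2 = 0 → z₁ = 0 ∧ z₂ = 0)
    (g : GL (MI m) F) :
    g ∈ pscmGrp hm a b hab ↔ g ∈ Geo.quadSimilarityGroup (F := F) (quadFormMinus m F a b) ∧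
      PreservesSingularClassesMinus m a b (g : Matrix (MI m) (MI m) F) := Iff.rfl

theorem pscmGrp_le (hm : m ≠ 1) (a b : F)
    (hab : ∀ z₁ z₂ : F, z₁ ^ 2 + a * z₁ * z₂ + b * z₂ ^ 2 = 0 → z₁ = 0 ∧ z₂ = 0) :
    pscmGrp hm a b hab ≤ Geo.quadSimilarityGroup (F := F) (quadFormMinus m F a b) :=
  fun _ hg => hg.1

/-- the action of the class-preserving similarities on `PΩ⁻` -/
noncomputable def pscmD (hm : m ≠ 1) (a b : F)
    (hab : ∀ z₁ z₂ : F, z₁ ^ 2 + a * z₁ * z₂ + b * z₂ ^ 2 = 0 → z₁ = 0 ∧ z₂ = 0) :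
    ↥(pscmGrp hm a b hab) →* MulAut (POmega F (quadFormMinus m F a b)) :=
  (simHom (quadFormMinus m F a b)).comp (Subgroup.inclusion (pscmGrp_le hm a b hab))

theorem pscmD_apply (hm : m ≠ 1) (a b : F)
    (hab : ∀ z₁ z₂ : F, z₁ ^ 2 + a * z₁ * z₂ + b * z₂ ^ 2 = 0 → z₁ = 0 ∧ z₂ = 0)
    (g : ↥(pscmGrp hm a b hab)) :
    pscmD hm a b hab g = semiAut (quadFormMinus m F a b) g.1 (RingEquiv.refl F)
      (semi_of_mem _ g.1 g.2.1) := rfl

theorem pscmD_range (hm : m ≠ 1) (a b : F)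
    (hab : ∀ z₁ z₂ : F, z₁ ^ 2 + a * z₁ * z₂ + b * z₂ ^ 2 = 0 → z₁ = 0 ∧ z₂ = 0) :
    (pscmD hm a b hab).range = inndiagPOmegaMinus m F a b := by
  ext β
  rw [MonoidHom.mem_range]
  constructor
  · rintro ⟨g, rfl⟩
    apply Subgroup.subset_closure
    exact ⟨g.1, g.2.1, g.2.2,
      (Helper45.OO.semi_ind_iff _ _ _ (semi_of_mem _ g.1 g.2.1) _).mpr rfl⟩
  · intro hβ
    obtain ⟨d, hd, hP, hind⟩ := inndiag_minus_rep hm a b hab β hβ
    exact ⟨⟨d, hd, hP⟩,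
      ((Helper45.OO.semi_ind_iff _ d (RingEquiv.refl F) (semi_of_mem _ d hd) β).mp hind).symm⟩

theorem pscmD_eq_one_iff (hm : 3 ≤ m) (hm1 : m ≠ 1) (a b : F)
    (hab : ∀ z₁ z₂ : F, z₁ ^ 2 + a * z₁ * z₂ + b * z₂ ^ 2 = 0 → z₁ = 0 ∧ z₂ = 0)
    (g : ↥(pscmGrp hm1 a b hab)) :
    pscmD hm1 a b hab g = 1 ↔
      ∃ c : F, ((g : GL (MI m) F) : Matrix (MI m) (MI m) F) = c • (1 : Matrix (MI m) (MI m) F) := by
  have hQ := Helper45.minusQF_nondeg' (F := F) m a b hab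
  have hcard : Fintype.card (MI m) = 2 * m + 2 := card_MI
  have hn5 : 5 ≤ Fintype.card (MI m) := by omega
  exact simHom_eq_one_iff (Helper43.minusQF m F a b) hQ hn5
    (Subgroup.inclusion (pscmGrp_le hm1 a b hab) g)

end grp

section theta

variable {F : Type u} [Field F] [Fintype F] {F₀ : Type v} [Field F₀] [Fintype F₀] {m : ℕ}

/-- the embedding of the class-preserving similarities over a subfield, through a model -/
noncomputable def pscmTh (hm : m ≠ 1) (a b : F)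
    (hab : ∀ z₁ z₂ : F, z₁ ^ 2 + a * z₁ * z₂ + b * z₂ ^ 2 = 0 → z₁ = 0 ∧ z₂ = 0)
    (ι : F₀ →+* F) (a₀ b₀ : F₀)
    (hab₀ : ∀ z₁ z₂ : F₀, z₁ ^ 2 + a₀ * z₁ * z₂ + b₀ * z₂ ^ 2 = 0 → z₁ = 0 ∧ z₂ = 0)
    (k : GL (MI m) F) (lam : F)
    (hk : ∀ v, quadFormMinus m F a b ((k : Matrix (MI m) (MI m) F) *ᵥ v)
      = lam * quadFormMinus m F (ι a₀) (ι b₀) v) :
    ↥(pscmGrp hm a₀ b₀ hab₀) →* ↥(pscmGrp hm a b hab) :=
  (((MulAut.conj k).toMonoidHom.comp (Matrix.GeneralLinearGroup.map ι)).comp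
    (Subgroup.subtype _)).codRestrict _ (fun g₀ => by
      have h := pscm_descent hm a b hab ι a₀ b₀ hab₀ k lam hk g₀.1 g₀.2.1
        (k * Matrix.GeneralLinearGroup.map ι g₀.1 * k⁻¹) rfl
      exact ⟨h.1, h.2.mpr g₀.2.2⟩)

theorem pscmTh_coe (hm : m ≠ 1) (a b : F)
    (hab : ∀ z₁ z₂ : F, z₁ ^ 2 + a * z₁ * z₂ + b * z₂ ^ 2 = 0 → z₁ = 0 ∧ z₂ = 0)
    (ι : F₀ →+* F) (a₀ b₀ : F₀)
    (hab₀ : ∀ z₁ z₂ : F₀, z₁ ^ 2 + a₀ * z₁ * z₂ + b₀ * z₂ ^ 2 = 0 → z₁ = 0 ∧ z₂ = 0)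
    (k : GL (MI m) F) (lam : F)
    (hk : ∀ v, quadFormMinus m F a b ((k : Matrix (MI m) (MI m) F) *ᵥ v)
      = lam * quadFormMinus m F (ι a₀) (ι b₀) v)
    (g₀ : ↥(pscmGrp hm a₀ b₀ hab₀)) :
    (((pscmTh hm a b hab ι a₀ b₀ hab₀ k lam hk g₀ : ↥(pscmGrp hm a b hab)) : GL (MI m) F) :
      Matrix (MI m) (MI m) F)
    = (k : Matrix (MI m) (MI m) F) * ((g₀ : GL (MI m) F₀) : Matrix (MI m) (MI m) F₀).map ι
      * ((k⁻¹ : GL (MI m) F) : Matrix (MI m) (MI m) F) := rfl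

/-- descending a similarity with entries in the subfield -/
theorem minus_sim_descend (ι : F₀ →+* F) (a₀ b₀ : F₀) (M₀ : Matrix (MI m) (MI m) F₀) (c : F)
    (hM : ∀ v, quadFormMinus m F (ι a₀) (ι b₀) (M₀.map ι *ᵥ v)
      = c * quadFormMinus m F (ι a₀) (ι b₀) v) :
    ∃ c₀ : F₀, ι c₀ = c ∧
      ∀ v, quadFormMinus m F₀ a₀ b₀ (M₀ *ᵥ v) = c₀ * quadFormMinus m F₀ a₀ b₀ v := by
  have hmv : ∀ v : MI m → F₀, M₀.map ι *ᵥ (fun i => ι (v i)) = fun i => ι ((M₀ *ᵥ v) i) := by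
    intro v
    funext i
    exact (RingHom.map_mulVec ι M₀ v i).symm
  have key : ∀ v : MI m → F₀, ι (quadFormMinus m F₀ a₀ b₀ (M₀ *ᵥ v))
      = c * ι (quadFormMinus m F₀ a₀ b₀ v) := by
    intro v
    rw [← qminus_map ι a₀ b₀ (M₀ *ᵥ v), ← hmv, hM, qminus_map]
  refine ⟨quadFormMinus m F₀ a₀ b₀ (M₀ *ᵥ Pi.single (Sum.inr 0) 1), ?_, fun v => ?_⟩
  · rw [key, qminus_single, map_one, mul_one]
  · apply ι.injective
    rw [key, map_mul, key, qminus_single, map_one, mul_one]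

end theta

end Cfsg.Agent.Helper44.POm
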