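import Mathlib
import Cfsg.Agent.Helper44.OmT

/-!
# The centraliser of a field automorphism in `Inndiag(PΩ⁻_{2m+2}(q))`

`minus_centralizer_iso` : for a semisimilarity `v ↦ h σ(v)` of the minus-type form which, in a
model `k` of a minus-type rational structure over the fixed field `F₀` of `σ`, is the pure field
map up to a scalar, the centraliser of the induced automorphism in `Inndiag(PΩ⁻_{2m+2}(F))` is
`Inndiag(PΩ⁻_{2m+2}(F₀))`.
-/

set_option autoImplicit false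

namespace Cfsg.Agent.Helper44.POm

open Matrix Cfsg
open Cfsg.Agent.Helper45.OO (semiAut semiMap glMap polarGram)

universe u v

section cent

variable {F : Type u} [Field F] [Fintype F] {F₀ : Type v} [Field F₀] [Fintype F₀] {m : ℕ}

omit [Fintype F] [Fintype F₀] in
/-- a conjugate of a rational matrix by the model commutes with the semisimilarity -/
theorem minus_fixed_comm (a b : F) (σ : RingAut F) (h : GL (MI m) F)
    (hh : IsSemisimilarityPair (quadFormMinus m F a b) h σ)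
    (ι : F₀ →+* F) (hι : ∀ x, σ x = x ↔ x ∈ Set.range ι)
    (k : GL (MI m) F) (e : F) (he : e ≠ 0)
    (hhk : (h : Matrix (MI m) (MI m) F) * (k : Matrix (MI m) (MI m) F).map σ
      = e • (k : Matrix (MI m) (MI m) F))
    (M₀ : Matrix (MI m) (MI m) F₀) (d : GL (MI m) F)
    (hd : (d : Matrix (MI m) (MI m) F) = (k : Matrix (MI m) (MI m) F) * M₀.map ι
      * ((k⁻¹ : GL (MI m) F) : Matrix (MI m) (MI m) F))
    (hdS : IsSemisimilarityPair (quadFormMinus m F a b) d (RingEquiv.refl F)) :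
    semiAut (quadFormMinus m F a b) d (RingEquiv.refl F) hdS
        * semiAut (quadFormMinus m F a b) h σ hh
      = semiAut (quadFormMinus m F a b) h σ hh
        * semiAut (quadFormMinus m F a b) d (RingEquiv.refl F) hdS := by
  have hK1 : (k : Matrix (MI m) (MI m) F) * ((k⁻¹ : GL (MI m) F) : Matrix (MI m) (MI m) F) = 1 :=
    Units.mul_inv k
  have hK1' : ((k⁻¹ : GL (MI m) F) : Matrix (MI m) (MI m) F) * (k : Matrix (MI m) (MI m) F) = 1 :=
    Units.inv_mul k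
  have hK1σ : (k : Matrix (MI m) (MI m) F).map σ
      * ((k⁻¹ : GL (MI m) F) : Matrix (MI m) (MI m) F).map σ = 1 := by
    rw [← gmat_map_mul, hK1, gmat_map_one]
  have h1 : ((k⁻¹ : GL (MI m) F) : Matrix (MI m) (MI m) F) * (h : Matrix (MI m) (MI m) F)
      = e • ((k⁻¹ : GL (MI m) F) : Matrix (MI m) (MI m) F).map σ := by
    calc ((k⁻¹ : GL (MI m) F) : Matrix (MI m) (MI m) F) * (h : Matrix (MI m) (MI m) F)
        = ((k⁻¹ : GL (MI m) F) : Matrix (MI m) (MI m) F)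
            * ((h : Matrix (MI m) (MI m) F) * (k : Matrix (MI m) (MI m) F).map σ)
            * ((k⁻¹ : GL (MI m) F) : Matrix (MI m) (MI m) F).map σ := by
          rw [Matrix.mul_assoc, Matrix.mul_assoc, hK1σ, Matrix.mul_one]
      _ = e • ((k⁻¹ : GL (MI m) F) : Matrix (MI m) (MI m) F).map σ := by
          rw [hhk, Matrix.mul_smul, hK1', Matrix.smul_mul, Matrix.one_mul]
  have hfix : (M₀.map ι).map σ = M₀.map ι := by
    ext i j
    exact (hι _).mpr ⟨_, rfl⟩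
  have heq : (d : Matrix (MI m) (MI m) F) * (h : Matrix (MI m) (MI m) F)
      = (1 : F) • ((h : Matrix (MI m) (MI m) F) * (d : Matrix (MI m) (MI m) F).map σ) := by
    rw [one_smul, hd, gmat_map_mul, gmat_map_mul, hfix, ← Matrix.mul_assoc, ← Matrix.mul_assoc,
      hhk, Matrix.mul_assoc ((k : Matrix (MI m) (MI m) F) * M₀.map ι), h1]
    simp only [Matrix.smul_mul, Matrix.mul_smul, Matrix.mul_assoc]
  have hc := semi_conj_eq (Helper43.minusQF m F a b) σ d h h hdS hh hh 1 one_ne_zero heq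
  rw [eq_mul_inv_iff_mul_eq] at hc
  exact hc.symm

/-- an element of `Inndiag` commuting with the semisimilarity comes from a class-preserving
similarity over the fixed field -/
theorem minus_comm_descend (hm : 3 ≤ m) (hm1 : m ≠ 1) (a b : F)
    (hab : ∀ z₁ z₂ : F, z₁ ^ 2 + a * z₁ * z₂ + b * z₂ ^ 2 = 0 → z₁ = 0 ∧ z₂ = 0)
    (σ : RingAut F) (r : ℕ) (hr : orderOf σ = r) (hr0 : 0 < r)
    (h : GL (MI m) F) (hh : IsSemisimilarityPair (quadFormMinus m F a b) h σ)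
    (ι : F₀ →+* F) (hι : ∀ x, σ x = x ↔ x ∈ Set.range ι) (a₀ b₀ : F₀)
    (hab₀ : ∀ z₁ z₂ : F₀, z₁ ^ 2 + a₀ * z₁ * z₂ + b₀ * z₂ ^ 2 = 0 → z₁ = 0 ∧ z₂ = 0)
    (k : GL (MI m) F) (lam e : F) (hlam : lam ≠ 0) (he : e ≠ 0)
    (hk : ∀ v, quadFormMinus m F a b ((k : Matrix (MI m) (MI m) F) *ᵥ v)
      = lam * quadFormMinus m F (ι a₀) (ι b₀) v)
    (hhk : (h : Matrix (MI m) (MI m) F) * (k : Matrix (MI m) (MI m) F).map σ
      = e • (k : Matrix (MI m) (MI m) F))
    (g : ↥(pscmGrp hm1 a b hab))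
    (hcomm : pscmD hm1 a b hab g * semiAut (quadFormMinus m F a b) h σ hh
      = semiAut (quadFormMinus m F a b) h σ hh * pscmD hm1 a b hab g) :
    ∃ γ : ↥(pscmGrp hm1 a₀ b₀ hab₀),
      pscmD hm1 a b hab g = pscmD hm1 a b hab (pscmTh hm1 a b hab ι a₀ b₀ hab₀ k lam hk γ) := by
  classical
  haveI : Nonempty (MI m) := ⟨Sum.inr 0⟩
  have hQ := Helper45.minusQF_nondeg' (F := F) m a b hab
  have hcard : Fintype.card (MI m) = 2 * m + 2 := card_MI
  have hn5 : 5 ≤ Fintype.card (MI m) := by omega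
  obtain ⟨G, hG⟩ : ∃ G : Matrix (MI m) (MI m) F,
      G = ((g : GL (MI m) F) : Matrix (MI m) (MI m) F) := ⟨_, rfl⟩
  have hgS : IsSemisimilarityPair (quadFormMinus m F a b) g.1 (RingEquiv.refl F) :=
    semi_of_mem _ g.1 g.2.1
  have hq : ∀ (t : F) (w : MI m → F),
      quadFormMinus m F a b (t • w) = t * t * quadFormMinus m F a b w :=
    fun t w => QuadraticMap.map_smul (Helper43.minusQF m F a b) t w
  have hK1 : (k : Matrix (MI m) (MI m) F) * ((k⁻¹ : GL (MI m) F) : Matrix (MI m) (MI m) F) = 1 :=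
    Units.mul_inv k
  have hK1' : ((k⁻¹ : GL (MI m) F) : Matrix (MI m) (MI m) F) * (k : Matrix (MI m) (MI m) F) = 1 :=
    Units.inv_mul k
  have hK1σ : (k : Matrix (MI m) (MI m) F).map σ
      * ((k⁻¹ : GL (MI m) F) : Matrix (MI m) (MI m) F).map σ = 1 := by
    rw [← gmat_map_mul, hK1, gmat_map_one]
  -- the commutation relation on matrices
  have e1 := Helper45.OO.semiAut_mul (quadFormMinus m F a b) g.1 h (RingEquiv.refl F) σ hgS hh
  have e2 := Helper45.OO.semiAut_mul (quadFormMinus m F a b) h g.1 σ (RingEquiv.refl F) hh hgS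
  rw [pscmD_apply] at hcomm
  have e3 := e1.symm.trans (hcomm.trans e2)
  obtain ⟨-, l, hl⟩ := Helper45.OO.semi_unique (Helper43.minusQF m F a b) hQ hn5 _ _ _ _ _ _ e3
  have hlam' : (h : Matrix (MI m) (MI m) F) * G.map σ
      = l • (G * (h : Matrix (MI m) (MI m) F)) := by
    apply Helper13.mulVec_ext
    intro y
    have h3 := hl (fvec σ⁻¹ y)
    rw [semiMap_eq, semiMap_eq] at h3
    have h4 : fvec (σ * RingEquiv.refl F : RingAut F) (fvec σ⁻¹ y) = y := fvec_inv σ y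
    have h5 : fvec (RingEquiv.refl F * σ : RingAut F) (fvec σ⁻¹ y) = y := fvec_inv σ y
    rw [h4, h5, Units.val_mul, Units.val_mul, Helper45.OO.glMap_coe, Helper45.OO.glMap_refl] at h3
    rw [hG, h3, Matrix.smul_mulVec]
  -- the matrix in the model
  obtain ⟨n, hn⟩ : ∃ n : GL (MI m) F, n = k⁻¹ * g.1 * k := ⟨_, rfl⟩
  have hnv : (n : Matrix (MI m) (MI m) F)
      = ((k⁻¹ : GL (MI m) F) : Matrix (MI m) (MI m) F) * G * (k : Matrix (MI m) (MI m) F) := by
    rw [hn, hG]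
    rfl
  have hNσ : (n : Matrix (MI m) (MI m) F).map σ = l • (n : Matrix (MI m) (MI m) F) := by
    have hh' : (h : Matrix (MI m) (MI m) F) = e • ((k : Matrix (MI m) (MI m) F)
        * ((k⁻¹ : GL (MI m) F) : Matrix (MI m) (MI m) F).map σ) := by
      calc (h : Matrix (MI m) (MI m) F)
          = (h : Matrix (MI m) (MI m) F) * ((k : Matrix (MI m) (MI m) F).map σ
            * ((k⁻¹ : GL (MI m) F) : Matrix (MI m) (MI m) F).map σ) := by
            rw [hK1σ, Matrix.mul_one]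
        _ = e • ((k : Matrix (MI m) (MI m) F)
            * ((k⁻¹ : GL (MI m) F) : Matrix (MI m) (MI m) F).map σ) := by
            rw [← Matrix.mul_assoc, hhk, Matrix.smul_mul]
    have h6 : (k : Matrix (MI m) (MI m) F) * (n : Matrix (MI m) (MI m) F).map σ
        = l • (G * (k : Matrix (MI m) (MI m) F)) := by
      have h7 : (h : Matrix (MI m) (MI m) F) * G.map σ * (k : Matrix (MI m) (MI m) F).map σ
          = (l * e) • (G * (k : Matrix (MI m) (MI m) F)) := by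
        rw [hlam', Matrix.smul_mul, Matrix.mul_assoc, hhk, Matrix.mul_smul, smul_smul]
      have h8 : (h : Matrix (MI m) (MI m) F) * G.map σ * (k : Matrix (MI m) (MI m) F).map σ
          = e • ((k : Matrix (MI m) (MI m) F) * (n : Matrix (MI m) (MI m) F).map σ) := by
        rw [hnv, gmat_map_mul, gmat_map_mul]
        conv_lhs => rw [hh']
        simp only [Matrix.smul_mul, Matrix.mul_assoc]
      have h9 : e • ((k : Matrix (MI m) (MI m) F) * (n : Matrix (MI m) (MI m) F).map σ)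
          = e • (l • (G * (k : Matrix (MI m) (MI m) F))) := by
        rw [← h8, h7, smul_smul, mul_comm]
      exact smul_right_injective _ he h9
    calc (n : Matrix (MI m) (MI m) F).map σ
        = ((k⁻¹ : GL (MI m) F) : Matrix (MI m) (MI m) F)
          * ((k : Matrix (MI m) (MI m) F) * (n : Matrix (MI m) (MI m) F).map σ) := by
          rw [← Matrix.mul_assoc, hK1', Matrix.one_mul]
      _ = l • (n : Matrix (MI m) (MI m) F) := by
          rw [h6, Matrix.mul_smul, hnv, Matrix.mul_assoc]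
  have hσr : σ ^ r = 1 := by rw [← hr, pow_orderOf_eq_one]
  have h4 := gmat_map_pow_smul σ l _ hNσ r
  rw [hσr, gmat_map_map_one] at h4
  have h5 : PSLn.twR (σ : F →+* F) l r = 1 := by
    have h6 := congrArg (fun M => M * ((n⁻¹ : GL (MI m) F) : Matrix (MI m) (MI m) F)) h4
    have h7 : (n : Matrix (MI m) (MI m) F)
        * ((n⁻¹ : GL (MI m) F) : Matrix (MI m) (MI m) F) = 1 := Units.mul_inv _
    simp only [Matrix.smul_mul, h7] at h6
    have h8 : (1 : F) • (1 : Matrix (MI m) (MI m) F)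
        = PSLn.twR (σ : F →+* F) l r • (1 : Matrix (MI m) (MI m) F) := by
      rw [one_smul]
      exact h6
    exact (gmat_smul_one_inj _ _ h8).symm
  obtain ⟨b₁, hb₁0, hb₁⟩ := PSLn.lang_h90_scalar σ r hr hr0 l h5
  have hMfix : (b₁ • (n : Matrix (MI m) (MI m) F)).map σ = b₁ • (n : Matrix (MI m) (MI m) F) := by
    rw [gmat_map_smul, hNσ, smul_smul, mul_comm, hb₁]
  have hex : ∀ i j, ∃ x : F₀, ι x = (b₁ • (n : Matrix (MI m) (MI m) F)) i j :=
    fun i j => (hι _).mp (congrFun (congrFun hMfix i) j)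
  choose M₀f hM₀f using hex
  obtain ⟨M₀, hM₀⟩ : ∃ M₀ : Matrix (MI m) (MI m) F₀,
      M₀.map ι = b₁ • (n : Matrix (MI m) (MI m) F) :=
    ⟨Matrix.of M₀f, by ext i j; exact hM₀f i j⟩
  have hdet : M₀.det ≠ 0 := by
    intro h0
    have h1 := RingHom.map_det ι M₀
    rw [h0, map_zero] at h1
    have h3 : ((scGL b₁ hb₁0 * n : GL (MI m) F) : Matrix (MI m) (MI m) F).det = 0 := by
      rw [scGL_mul_coe, ← hM₀]
      exact h1.symm
    apply (Matrix.GeneralLinearGroup.det (scGL b₁ hb₁0 * n)).ne_zero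
    rw [Matrix.GeneralLinearGroup.val_det_apply]
    exact h3
  obtain ⟨c, hc⟩ := id g.2.1
  have hMsim : ∀ v, quadFormMinus m F (ι a₀) (ι b₀) (M₀.map ι *ᵥ v)
      = (b₁ * b₁ * (c : F)) * quadFormMinus m F (ι a₀) (ι b₀) v := by
    intro v
    have h1 := hk (M₀.map ι *ᵥ v)
    have h2 : (k : Matrix (MI m) (MI m) F) *ᵥ (M₀.map ι *ᵥ v)
        = b₁ • (G *ᵥ ((k : Matrix (MI m) (MI m) F) *ᵥ v)) := by
      rw [hM₀, hnv, Matrix.mulVec_mulVec, Matrix.mul_smul, Matrix.smul_mulVec,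
        ← Matrix.mul_assoc, ← Matrix.mul_assoc, hK1, Matrix.one_mul, ← Matrix.mulVec_mulVec]
    apply mul_left_cancel₀ hlam
    rw [← h1, h2, hq, hG, hc, hk]
    ring
  obtain ⟨c₀, hc₀, hM₀sim⟩ := minus_sim_descend ι a₀ b₀ M₀ _ hMsim
  have hc₀0 : c₀ ≠ 0 := by
    rintro rfl
    rw [map_zero] at hc₀
    exact (mul_ne_zero (mul_ne_zero hb₁0 hb₁0) c.ne_zero) hc₀.symm
  obtain ⟨γ, hγ⟩ : ∃ γ : GL (MI m) F₀, γ = Matrix.GeneralLinearGroup.mkOfDetNeZero M₀ hdet :=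
    ⟨_, rfl⟩
  have hγc : (γ : Matrix (MI m) (MI m) F₀) = M₀ := by
    rw [hγ]
    rfl
  have hγsim : γ ∈ Geo.quadSimilarityGroup (F := F₀) (quadFormMinus m F₀ a₀ b₀) :=
    ⟨Units.mk0 c₀ hc₀0, fun v => by rw [hγc]; exact hM₀sim v⟩
  have hd' : ((scGL b₁ hb₁0 * g.1 : GL (MI m) F) : Matrix (MI m) (MI m) F)
      = (k : Matrix (MI m) (MI m) F) * (γ : Matrix (MI m) (MI m) F₀).map ι
        * ((k⁻¹ : GL (MI m) F) : Matrix (MI m) (MI m) F) := by
    rw [scGL_mul_coe, hγc, hM₀, hnv, Matrix.mul_smul, Matrix.smul_mul, ← Matrix.mul_assoc,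
      ← Matrix.mul_assoc, hK1, Matrix.one_mul, Matrix.mul_assoc, hK1, Matrix.mul_one, hG]
  have hdesc := pscm_descent hm1 a b hab ι a₀ b₀ hab₀ k lam hk γ hγsim (scGL b₁ hb₁0 * g.1) hd'
  have hP₀ : PreservesSingularClassesMinus m a₀ b₀ (γ : Matrix (MI m) (MI m) F₀) :=
    hdesc.2.mp (by rw [scGL_mul_coe]; exact (pscm_smul a b b₁ hb₁0 _).mpr g.2.2)
  refine ⟨⟨γ, hγsim, hP₀⟩, ?_⟩
  rw [pscmD_apply, pscmD_apply]
  have h3 : semiAut (quadFormMinus m F a b) (scGL b₁ hb₁0 * g.1) (RingEquiv.refl F)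
        (semi_of_mem _ _ hdesc.1)
      = semiAut (quadFormMinus m F a b) g.1 (RingEquiv.refl F) hgS :=
    semiAut_scGL_mul (Helper43.minusQF m F a b) b₁ hb₁0 g.1 (RingEquiv.refl F) hgS
      (semi_of_mem _ _ hdesc.1)
  refine h3.symm.trans (Helper45.OO.semiAut_congr (quadFormMinus m F a b) _ _ ?_ rfl)
  apply Units.ext
  rw [hd', pscmTh_coe]

/-- the kernel of the action over the subfield is the kernel of the action over the big field -/
theorem pscmTh_ker (hm : 3 ≤ m) (hm1 : m ≠ 1) (a b : F)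
    (hab : ∀ z₁ z₂ : F, z₁ ^ 2 + a * z₁ * z₂ + b * z₂ ^ 2 = 0 → z₁ = 0 ∧ z₂ = 0)
    (ι : F₀ →+* F) (a₀ b₀ : F₀)
    (hab₀ : ∀ z₁ z₂ : F₀, z₁ ^ 2 + a₀ * z₁ * z₂ + b₀ * z₂ ^ 2 = 0 → z₁ = 0 ∧ z₂ = 0)
    (k : GL (MI m) F) (lam : F)
    (hk : ∀ v, quadFormMinus m F a b ((k : Matrix (MI m) (MI m) F) *ᵥ v)
      = lam * quadFormMinus m F (ι a₀) (ι b₀) v)
    (γ : ↥(pscmGrp hm1 a₀ b₀ hab₀)) :
    γ ∈ (pscmD hm1 a₀ b₀ hab₀).ker
      ↔ pscmD hm1 a b hab (pscmTh hm1 a b hab ι a₀ b₀ hab₀ k lam hk γ) = 1 := by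
  rw [MonoidHom.mem_ker, pscmD_eq_one_iff hm hm1 a₀ b₀ hab₀, pscmD_eq_one_iff hm hm1 a b hab,
    pscmTh_coe]
  have hK1 : (k : Matrix (MI m) (MI m) F) * ((k⁻¹ : GL (MI m) F) : Matrix (MI m) (MI m) F) = 1 :=
    Units.mul_inv k
  have hK1' : ((k⁻¹ : GL (MI m) F) : Matrix (MI m) (MI m) F) * (k : Matrix (MI m) (MI m) F) = 1 :=
    Units.inv_mul k
  have hιinj : Function.Injective ι := ι.injective
  constructor
  · rintro ⟨c₀, hc₀⟩
    refine ⟨ι c₀, ?_⟩
    rw [hc₀]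
    have h1 : (c₀ • (1 : Matrix (MI m) (MI m) F₀)).map ι
        = ι c₀ • (1 : Matrix (MI m) (MI m) F) := by
      rw [Matrix.map_smul' ι c₀ _ (fun x y => map_mul ι x y),
        Matrix.map_one _ (map_zero _) (map_one _)]
    rw [h1, Matrix.mul_smul, Matrix.smul_mul, Matrix.mul_one, hK1]
  · rintro ⟨c, hc⟩
    have h1 : ((γ : GL (MI m) F₀) : Matrix (MI m) (MI m) F₀).map ι
        = c • (1 : Matrix (MI m) (MI m) F) := by
      calc ((γ : GL (MI m) F₀) : Matrix (MI m) (MI m) F₀).map ι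
          = ((k⁻¹ : GL (MI m) F) : Matrix (MI m) (MI m) F)
            * ((k : Matrix (MI m) (MI m) F)
              * ((γ : GL (MI m) F₀) : Matrix (MI m) (MI m) F₀).map ι
              * ((k⁻¹ : GL (MI m) F) : Matrix (MI m) (MI m) F))
            * (k : Matrix (MI m) (MI m) F) := by
            simp only [Matrix.mul_assoc]
            rw [hK1', Matrix.mul_one, ← Matrix.mul_assoc, hK1', Matrix.one_mul]
        _ = c • (1 : Matrix (MI m) (MI m) F) := by
            rw [hc, Matrix.mul_smul, Matrix.smul_mul, Matrix.mul_one, hK1']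
    refine ⟨((γ : GL (MI m) F₀) : Matrix (MI m) (MI m) F₀) (Sum.inr 0) (Sum.inr 0), ?_⟩
    ext i j
    have h2 := congrFun (congrFun h1 i) j
    have h3 := congrFun (congrFun h1 (Sum.inr 0)) (Sum.inr 0)
    rw [Matrix.map_apply, Matrix.smul_apply, Matrix.one_apply, smul_eq_mul] at h2 h3
    rw [if_pos rfl, mul_one] at h3
    rw [Matrix.smul_apply, Matrix.one_apply, smul_eq_mul]
    by_cases hij : i = j
    · rw [if_pos hij, mul_one] at h2
      rw [if_pos hij, mul_one]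
      exact hιinj (h2.trans h3.symm)
    · rw [if_neg hij, mul_zero] at h2
      rw [if_neg hij, mul_zero]
      exact hιinj (h2.trans (map_zero ι).symm)

/-- **the centraliser of a field automorphism in `Inndiag(PΩ⁻_{2m+2}(q))`** -/
theorem minus_centralizer_iso (hm : 3 ≤ m) (a b : F)
    (hab : ∀ z₁ z₂ : F, z₁ ^ 2 + a * z₁ * z₂ + b * z₂ ^ 2 = 0 → z₁ = 0 ∧ z₂ = 0)
    (σ : RingAut F) (r : ℕ) (hr : orderOf σ = r) (hr0 : 0 < r)
    (h : GL (MI m) F) (hh : IsSemisimilarityPair (quadFormMinus m F a b) h σ)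
    (ι : F₀ →+* F) (hι : ∀ x, σ x = x ↔ x ∈ Set.range ι) (a₀ b₀ : F₀)
    (hab₀ : ∀ z₁ z₂ : F₀, z₁ ^ 2 + a₀ * z₁ * z₂ + b₀ * z₂ ^ 2 = 0 → z₁ = 0 ∧ z₂ = 0)
    (k : GL (MI m) F) (lam e : F) (hlam : lam ≠ 0) (he : e ≠ 0)
    (hk : ∀ v, quadFormMinus m F a b ((k : Matrix (MI m) (MI m) F) *ᵥ v)
      = lam * quadFormMinus m F (ι a₀) (ι b₀) v)
    (hhk : (h : Matrix (MI m) (MI m) F) * (k : Matrix (MI m) (MI m) F).map σ
      = e • (k : Matrix (MI m) (MI m) F)) :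
    Nonempty (↥(inndiagPOmegaMinus m F a b
        ⊓ Subgroup.centralizer {semiAut (quadFormMinus m F a b) h σ hh})
      ≃* ↥(inndiagPOmegaMinus m F₀ a₀ b₀)) := by
  have hm1 : m ≠ 1 := by omega
  obtain ⟨e1⟩ := centralizer_iso_gen (pscmD hm1 a b hab) (inndiagPOmegaMinus m F a b)
    (pscmD_range hm1 a b hab) (pscmTh hm1 a b hab ι a₀ b₀ hab₀ k lam hk)
    (semiAut (quadFormMinus m F a b) h σ hh)
    (fun γ => minus_fixed_comm a b σ h hh ι hι k e he hhk
      ((γ : GL (MI m) F₀) : Matrix (MI m) (MI m) F₀) _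
      (pscmTh_coe hm1 a b hab ι a₀ b₀ hab₀ k lam hk γ) _)
    (fun g hg => minus_comm_descend hm hm1 a b hab σ r hr hr0 h hh ι hι a₀ b₀ hab₀ k lam e
      hlam he hk hhk g hg)
    (pscmD hm1 a₀ b₀ hab₀).ker (fun γ => pscmTh_ker hm hm1 a b hab ι a₀ b₀ hab₀ k lam hk γ)
  have e2 : (↥(pscmGrp hm1 a₀ b₀ hab₀) ⧸ (pscmD hm1 a₀ b₀ hab₀).ker)
      ≃* ↥(inndiagPOmegaMinus m F₀ a₀ b₀) :=
    (QuotientGroup.quotientKerEquivRange (pscmD hm1 a₀ b₀ hab₀)).trans
      (MulEquiv.subgroupCongr (pscmD_range hm1 a₀ b₀ hab₀))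
  exact ⟨e1.trans e2⟩

end cent

end Cfsg.Agent.Helper44.POm
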