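import Mathlib
import Cfsg.Agent.Helper44.OmU

/-!
# Field automorphisms of prime order of `PΩ⁻_{2m+2}(q)`

`minus_field_class` : a field automorphism `x` of prime order `r` of `PΩ⁻_{2m+2}(q)`, `q = p ^ f`:
`r` is odd and divides `f`, the centraliser of `x` in `Inndiag` is `Inndiag(PΩ⁻_{2m+2}(q₀))` with
`q₀ = p ^ (f / r)`, and the `Inndiag`-class of `x` is a single `Inn`-class.
-/

set_option autoImplicit false

namespace Cfsg.Agent.Helper44.POm

open Matrix Cfsg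
open Cfsg.Agent.Helper45.OO (semiAut semiMap glMap polarGram)

universe u v

section split

variable {X : Type*} [Group X]

/-- if every `H`-conjugate of `x` is a `K`-conjugate, the `H`-class of `x` is one `K`-class -/
theorem splitCount_one_of_forall (H K : Subgroup X) (x : X)
    (h : ∀ δ ∈ H, ∃ t ∈ K, δ * x * δ⁻¹ = t * x * t⁻¹) : splitClassCount H K x = 1 := by
  unfold splitClassCount
  rw [Nat.card_eq_one_iff_unique]
  obtain ⟨x₀, hx₀⟩ : ∃ x₀ : {y : X // IsConjUnder H x y}, x₀.1 = x :=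
    ⟨⟨x, 1, one_mem H, by simp⟩, rfl⟩
  have key : ∀ q : Quot (fun y z : {y : X // IsConjUnder H x y} => IsConjUnder K y.1 z.1),
      q = Quot.mk _ x₀ := by
    intro q
    induction q using Quot.ind with
    | _ y =>
      symm
      apply Quot.sound
      obtain ⟨y, g, hg, rfl⟩ := y
      show IsConjUnder K x₀.1 (g * x * g⁻¹)
      rw [hx₀]
      obtain ⟨t, ht, e⟩ := h g hg
      exact ⟨t, ht, e⟩
  constructor
  · constructor
    intro a b
    rw [key a, key b]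
  · exact ⟨Quot.mk _ x₀⟩

/-- a subgroup with cyclic 2-power quotient: an element which is not a square modulo the kernel
generates the quotient -/
theorem cyclic_quot_gen (H K : Subgroup X) {C : Type*} [Group C]
    (φ : ↥H →* C) (hφs : Function.Surjective φ) (hφk : φ.ker = K.subgroupOf H)
    (hC : ∀ z : C, (∀ y : C, z ≠ y * y) → ∀ w : C, ∃ j : ℕ, w = z ^ j)
    (c : X) (hc : c ∈ H) (hns : ∀ δ ∈ H, c * (δ * δ)⁻¹ ∉ K) :
    ∀ δ ∈ H, ∃ j : ℕ, δ * (c ^ j)⁻¹ ∈ K := by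
  intro δ hδ
  have hz : ∀ y : C, φ ⟨c, hc⟩ ≠ y * y := by
    intro y hy
    obtain ⟨δ', rfl⟩ := hφs y
    apply hns δ'.1 δ'.2
    have h1 : (⟨c, hc⟩ : ↥H) * (δ' * δ')⁻¹ ∈ φ.ker := by
      rw [MonoidHom.mem_ker, map_mul, map_inv, map_mul, hy, mul_inv_cancel]
    rw [hφk, Subgroup.mem_subgroupOf] at h1
    exact h1
  obtain ⟨j, hj⟩ := hC _ hz (φ ⟨δ, hδ⟩)
  refine ⟨j, ?_⟩
  have h1 : (⟨δ, hδ⟩ : ↥H) * ((⟨c, hc⟩ : ↥H) ^ j)⁻¹ ∈ φ.ker := by
    rw [MonoidHom.mem_ker, map_mul, map_inv, map_pow, hj, mul_inv_cancel]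
  rw [hφk, Subgroup.mem_subgroupOf] at h1
  exact h1

theorem zmod4_gen (z : Multiplicative (ZMod 4)) (hz : ∀ y : Multiplicative (ZMod 4), z ≠ y * y)
    (w : Multiplicative (ZMod 4)) : ∃ j : ℕ, w = z ^ j := by
  have aux : ∀ z : Multiplicative (ZMod 4), (∀ y : Multiplicative (ZMod 4), z ≠ y * y) →
      ∀ w : Multiplicative (ZMod 4), ∃ j : Fin 4, w = z ^ (j : ℕ) := by decide
  obtain ⟨j, hj⟩ := aux z hz w
  exact ⟨j, hj⟩

theorem zmod2_gen (z : Multiplicative (ZMod 2)) (hz : ∀ y : Multiplicative (ZMod 2), z ≠ y * y)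
    (w : Multiplicative (ZMod 2)) : ∃ j : ℕ, w = z ^ j := by
  have aux : ∀ z : Multiplicative (ZMod 2), (∀ y : Multiplicative (ZMod 2), z ≠ y * y) →
      ∀ w : Multiplicative (ZMod 2), ∃ j : Fin 2, w = z ^ (j : ℕ) := by decide
  obtain ⟨j, hj⟩ := aux z hz w
  exact ⟨j, hj⟩

end split

section oddr

variable {F : Type u} [Field F] [Fintype F] {m : ℕ}

/-- the field part of an automorphism of prime order of `PΩ⁻` with nontrivial field part has odd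
order -/
theorem minus_field_odd (hm : 3 ≤ m) (a b : F)
    (hab : ∀ z₁ z₂ : F, z₁ ^ 2 + a * z₁ * z₂ + b * z₂ ^ 2 = 0 → z₁ = 0 ∧ z₂ = 0)
    (σ : RingAut F) (r : ℕ) (hr : r.Prime) (hσ : orderOf σ = r)
    (h : GL (MI m) F) (hh : IsSemisimilarityPair (quadFormMinus m F a b) h σ)
    (hx1 : (semiAut (quadFormMinus m F a b) h σ hh) ^ r = 1) : Odd r := by
  rcases hr.eq_two_or_odd' with h2 | hodd
  · exfalso
    subst h2
    have hσne : σ ≠ 1 := by
      intro h1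
      rw [h1, orderOf_one] at hσ
      exact absurd hσ (by norm_num)
    obtain ⟨u, hu⟩ : ∃ u : F, σ u ≠ u := by
      by_contra hno
      push_neg at hno
      exact hσne (RingEquiv.ext hno)
    have hσ2 : ∀ y : F, σ (σ y) = y := by
      intro y
      have h1 : σ ^ 2 = 1 := by
        rw [← hσ]
        exact pow_orderOf_eq_one σ
      have h2 := congrArg (fun τ : RingAut F => τ y) h1
      rw [pow_two] at h2
      exact h2
    obtain ⟨a₁, ha₁⟩ : ∃ a₁ : F, a₁ = -(u + σ u) := ⟨_, rfl⟩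
    obtain ⟨b₁, hb₁⟩ : ∃ b₁ : F, b₁ = u * σ u := ⟨_, rfl⟩
    have ha₁σ : σ a₁ = a₁ := by
      rw [ha₁, map_neg, map_add, hσ2]
      ring
    have hb₁σ : σ b₁ = b₁ := by
      rw [hb₁, map_mul, hσ2]
      ring
    have hab₁ : ∀ z₁ z₂ : ↥(PSpn.fixF σ), z₁ ^ 2 + (⟨a₁, ha₁σ⟩ : ↥(PSpn.fixF σ)) * z₁ * z₂
        + (⟨b₁, hb₁σ⟩ : ↥(PSpn.fixF σ)) * z₂ ^ 2 = 0 → z₁ = 0 ∧ z₂ = 0 := by
      intro z₁ z₂ hz
      have hz' : (z₁ : F) ^ 2 + a₁ * (z₁ : F) * (z₂ : F) + b₁ * (z₂ : F) ^ 2 = 0 := by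
        have h3 := congrArg (Subtype.val) hz
        exact h3
      have e1 : σ (z₁ : F) = z₁ := z₁.2
      have e2 : σ (z₂ : F) = z₂ := z₂.2
      have hfac : ((z₁ : F) - u * (z₂ : F)) * ((z₁ : F) - σ u * (z₂ : F)) = 0 := by
        rw [← hz', ha₁, hb₁]
        ring
      have hz2 : (z₂ : F) = 0 := by
        by_contra hne
        rcases mul_eq_zero.mp hfac with h3 | h3
        · have hu' : u = (z₁ : F) / (z₂ : F) := by
            field_simp
            linear_combination -h3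
          apply hu
          rw [hu', map_div₀, e1, e2]
        · have hu' : σ u = (z₁ : F) / (z₂ : F) := by
            field_simp
            linear_combination -h3
          apply hu
          have e3 : σ (σ u) = σ u := by
            rw [hu', map_div₀, e1, e2]
          rw [hσ2] at e3
          exact e3.symm
      have hz1 : (z₁ : F) = 0 := by
        rw [hz2, mul_zero, sub_zero, mul_zero, sub_zero] at hfac
        exact mul_self_eq_zero.mp hfac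
      exact ⟨Subtype.ext hz1, Subtype.ext hz2⟩
    obtain ⟨k, lam, e, hlam, he, hQk, -⟩ := minus_lang hm a b hab σ 2 hσ (by norm_num)
      ⟨a₁, ha₁σ⟩ ⟨b₁, hb₁σ⟩ hab₁ h hh hx1
    have hθ : u ^ 2 + a₁ * u + b₁ = 0 := by
      rw [ha₁, hb₁]
      ring
    have hdim := Helper45.ID.finrank_Eminus (m := m) u
    rw [card_MI] at hdim
    have hfr : Module.finrank F ↥(Helper45.ID.Eminus m u) = m + 1 := by omega
    have hTS : Helper43.OrthEven.HasTS (Helper43.minusQF m F a b) (m + 1) := by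
      rw [← hfr]
      apply Helper43.OrthEven.hasTS_of_map (Helper43.minusQF m F a b)
        ((Matrix.mulVecLin (k : Matrix (MI m) (MI m) F)).comp (Helper45.ID.Eminus m u).subtype)
      · intro x y hxy
        apply Subtype.ext
        have h3 := congrArg (fun z => ((k⁻¹ : GL (MI m) F) : Matrix (MI m) (MI m) F) *ᵥ z) hxy
        simp only [LinearMap.comp_apply, Submodule.subtype_apply, Matrix.mulVecLin_apply,
          Matrix.mulVec_mulVec, Units.inv_mul, Matrix.one_mulVec] at h3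
        exact h3
      · intro w
        have h4 := Helper45.ID.Eminus_ts a₁ b₁ u hθ w.1 w.2
        have h5 := hQk (w : MI m → F)
        have h6 : quadFormMinus m F a b ((k : Matrix (MI m) (MI m) F) *ᵥ (w : MI m → F))
            = lam * quadFormMinus m F a₁ b₁ (w : MI m → F) := h5
        rw [h4, mul_zero] at h6
        exact h6
    exact Helper43.OrthEven.not_hasTS_minus (m := m + 1) (by omega) a b hab hTS
  · exact hodd

/-- in characteristic two every inner-diagonal automorphism of `PΩ⁻` is inner -/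
theorem inndiag_le_inn_char2 (hm : 3 ≤ m) (h2 : ringChar F = 2) (a b : F)
    (hab : ∀ z₁ z₂ : F, z₁ ^ 2 + a * z₁ * z₂ + b * z₂ ^ 2 = 0 → z₁ = 0 ∧ z₂ = 0) :
    inndiagPOmegaMinus m F a b ≤ Inn (POmega F (quadFormMinus m F a b)) := by
  intro δ hδ
  have hm1 : m ≠ 1 := by omega
  have hQ := Helper45.minusQF_nondeg' (F := F) m a b hab
  obtain ⟨d, hd, hP, hind⟩ := inndiag_minus_rep hm1 a b hab δ hδ
  obtain ⟨s, g', hs, eg⟩ := sim_char2_decomp h2 a b d hd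
  rw [eg] at hP
  have d1 := (pscm_char2_iff hm1 a b hab s hs g').mp hP
  haveI : CharP F 2 := ringChar.of_eq h2
  have hg'Ω : g' ∈ Omega F ⇑(Helper43.minusQF m F a b) :=
    (Helper45.mem_omega_iff_dick _ hQ (Or.inr (by rw [card_MI]; omega)) g').mpr d1
  apply Helper45.mem_inn_of_ind_omega (Helper43.minusQF m F a b) g' hg'Ω δ
  have e0 := (Helper45.OO.semi_ind_iff _ d (RingEquiv.refl F) (semi_of_mem _ d hd) δ).mp hind
  have hdeq : d = scGL s hs * (g' : GL (MI m) F) :=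
    Units.ext (by rw [scGL_mul_coe]; exact eg)
  have hg'S : IsSemisimilarityPair (quadFormMinus m F a b) (g' : GL (MI m) F)
      (RingEquiv.refl F) := semi_of_mem _ _ (Helper45.iso_le_sim _ g'.2)
  apply (Helper45.OO.semi_ind_iff _ _ (RingEquiv.refl F) hg'S δ).mpr
  rw [e0]
  subst hdeq
  exact semiAut_scGL_mul (Helper43.minusQF m F a b) s hs g' (RingEquiv.refl F) hg'S _

end oddr

section main

variable {F : Type u} [Field F] [Fintype F] {F₀ : Type v} [Field F₀] [Fintype F₀] {m : ℕ}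

set_option maxHeartbeats 1000000 in
/-- odd characteristic: every `Inndiag`-conjugate of the field automorphism is an
`Inn`-conjugate -/
theorem minus_cent_gen_odd (hm : 3 ≤ m) (hodd : Odd (Fintype.card F)) (a b : F)
    (hab : ∀ z₁ z₂ : F, z₁ ^ 2 + a * z₁ * z₂ + b * z₂ ^ 2 = 0 → z₁ = 0 ∧ z₂ = 0)
    (σ : RingAut F) (r : ℕ) (hr : orderOf σ = r) (hrodd : Odd r)
    (h : GL (MI m) F) (hh : IsSemisimilarityPair (quadFormMinus m F a b) h σ)
    (ι : F₀ →+* F) (hι : ∀ x, σ x = x ↔ x ∈ Set.range ι) (a₀ b₀ : F₀)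
    (hab₀ : ∀ z₁ z₂ : F₀, z₁ ^ 2 + a₀ * z₁ * z₂ + b₀ * z₂ ^ 2 = 0 → z₁ = 0 ∧ z₂ = 0)
    (k : GL (MI m) F) (lam e : F) (he : e ≠ 0)
    (hk : ∀ v, quadFormMinus m F a b ((k : Matrix (MI m) (MI m) F) *ᵥ v)
      = lam * quadFormMinus m F (ι a₀) (ι b₀) v)
    (hhk : (h : Matrix (MI m) (MI m) F) * (k : Matrix (MI m) (MI m) F).map σ
      = e • (k : Matrix (MI m) (MI m) F))
    (δ : MulAut (POmega F (quadFormMinus m F a b))) (hδ : δ ∈ inndiagPOmegaMinus m F a b) :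
    ∃ t ∈ Inn (POmega F (quadFormMinus m F a b)),
      δ * semiAut (quadFormMinus m F a b) h σ hh * δ⁻¹
        = t * semiAut (quadFormMinus m F a b) h σ hh * t⁻¹ := by
  classical
  have hm1 : m ≠ 1 := by omega
  have hQ := Helper45.minusQF_nondeg' (F := F) m a b hab
  have hcard : Fintype.card (MI m) = 2 * m + 2 := card_MI
  have hn5 : 5 ≤ Fintype.card (MI m) := by omega
  have h2F := Helper45.two_ne_zero_of_odd_card hodd
  have h2F₀ : (2 : F₀) ≠ 0 := two_ne_zero_sub h2F ι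
  have hchar₀ : ringChar F₀ ≠ 2 := Helper45.ringChar_ne_two h2F₀
  have hodd₀ : Odd (Fintype.card F₀) := by
    rw [Nat.odd_iff]
    exact FiniteField.odd_card_of_char_ne_two hchar₀
  have hR₀ : Fintype.card F₀ % 2 = 1 := Nat.odd_iff.mp hodd₀
  obtain ⟨c₀, hc₀⟩ := FiniteField.exists_nonsquare hchar₀
  have hc₀0 : c₀ ≠ 0 := by
    rintro rfl
    exact hc₀ ⟨0, by simp⟩
  obtain ⟨z₁, z₂, hz⟩ := Cfsg.Agent.S2726.exists_norm a₀ b₀ hR₀ h2F₀
    (Cfsg.Agent.S2726.disc_ne a₀ b₀ h2F₀ hab₀) c₀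
  obtain ⟨g₁, hg₁, hdet₁⟩ := Cfsg.Agent.S2726.exists_g1M (m := m) a₀ b₀ h2F₀ c₀ hc₀0 z₁ z₂ hz
  have hg₁P := (Helper45.ID.pres_minus_iff hodd₀ a₀ b₀ hab₀ g₁ c₀ hc₀0 hg₁).mpr hdet₁
  have hg₁S : g₁ ∈ Geo.quadSimilarityGroup (F := F₀) (quadFormMinus m F₀ a₀ b₀) :=
    ⟨Units.mk0 c₀ hc₀0, hg₁⟩
  obtain ⟨γ₁, hγ₁⟩ : ∃ γ₁ : ↥(pscmGrp hm1 a₀ b₀ hab₀), γ₁ = ⟨g₁, hg₁S, hg₁P⟩ := ⟨_, rfl⟩
  obtain ⟨d₁, hd₁⟩ : ∃ d₁ : ↥(pscmGrp hm1 a b hab),
      d₁ = pscmTh hm1 a b hab ι a₀ b₀ hab₀ k lam hk γ₁ := ⟨_, rfl⟩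
  have hd₁v : ((d₁ : GL (MI m) F) : Matrix (MI m) (MI m) F)
      = (k : Matrix (MI m) (MI m) F) * (g₁ : Matrix (MI m) (MI m) F₀).map ι
        * ((k⁻¹ : GL (MI m) F) : Matrix (MI m) (MI m) F) := by
    rw [hd₁, pscmTh_coe, hγ₁]
  have hd₁m : ∀ v, quadFormMinus m F a b (((d₁ : GL (MI m) F) : Matrix (MI m) (MI m) F) *ᵥ v)
      = ι c₀ * quadFormMinus m F a b v := by
    intro v
    rw [hd₁v, ← Matrix.mulVec_mulVec, ← Matrix.mulVec_mulVec, hk,
      minus_sim_map ι a₀ b₀ _ c₀ hg₁, ← mul_assoc, mul_comm lam, mul_assoc, ← hk,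
      Matrix.mulVec_mulVec, Units.mul_inv, Matrix.one_mulVec]
  have hιc : ¬ IsSquare (ι c₀) := not_isSquare_iota_of_odd σ r hr hrodd ι hι c₀ hc₀
  have hcX : pscmD hm1 a b hab d₁ * semiAut (quadFormMinus m F a b) h σ hh
      = semiAut (quadFormMinus m F a b) h σ hh * pscmD hm1 a b hab d₁ := by
    rw [hd₁]
    exact minus_fixed_comm a b σ h hh ι hι k e he hhk
      ((γ₁ : GL (MI m) F₀) : Matrix (MI m) (MI m) F₀) _
      (pscmTh_coe hm1 a b hab ι a₀ b₀ hab₀ k lam hk γ₁) _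
  have hcI : pscmD hm1 a b hab d₁ ∈ inndiagPOmegaMinus m F a b := by
    rw [← pscmD_range hm1 a b hab]
    exact ⟨d₁, rfl⟩
  have hns : ∀ δ' ∈ inndiagPOmegaMinus m F a b,
      pscmD hm1 a b hab d₁ * (δ' * δ')⁻¹ ∉ Inn (POmega F (quadFormMinus m F a b)) := by
    intro δ' hδ' hinn
    rw [← pscmD_range hm1 a b hab] at hδ'
    obtain ⟨gδ, rfl⟩ := hδ'
    rw [← map_mul, ← map_inv, ← map_mul] at hinn
    obtain ⟨w, hw⟩ : ∃ w : ↥(pscmGrp hm1 a b hab), w = d₁ * (gδ * gδ)⁻¹ := ⟨_, rfl⟩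
    rw [← hw] at hinn
    obtain ⟨cw, hcw⟩ := id w.2.1
    obtain ⟨cδ, hcδ⟩ := id gδ.2.1
    have hind : Helper45.Ind (quadFormMinus m F a b) (w : GL (MI m) F)
        (pscmD hm1 a b hab w) :=
      (Helper45.OO.semi_ind_iff _ _ _ (semi_of_mem _ w.1 w.2.1) _).mpr rfl
    obtain ⟨e', he', -⟩ := Helper45.OO.inn_mult (Helper43.minusQF m F a b)
      (fun g hg h1 => Helper45.OO.scalar_of_ind (Helper43.minusQF m F a b) hQ hn5 g hg h1)
      ⟨Pi.single (Sum.inr 0) 1, by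
        rw [show (Helper43.minusQF m F a b) (Pi.single (Sum.inr 0) 1) = 1 from qminus_single a b]
        exact one_ne_zero⟩
      (w : GL (MI m) F) (cw : F) hcw cw.ne_zero _ hind hinn
    have hd₁w : (d₁ : GL (MI m) F)
        = (w : GL (MI m) F) * ((gδ : GL (MI m) F) * (gδ : GL (MI m) F)) := by
      rw [hw]
      show (d₁ : GL (MI m) F) = ((d₁ : GL (MI m) F)
        * ((gδ : GL (MI m) F) * (gδ : GL (MI m) F))⁻¹)
        * ((gδ : GL (MI m) F) * (gδ : GL (MI m) F))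
      rw [inv_mul_cancel_right]
    have h5 := hd₁m (Pi.single (Sum.inr 0) 1)
    rw [hd₁w, Units.val_mul, Units.val_mul, ← Matrix.mulVec_mulVec, ← Matrix.mulVec_mulVec, hcw,
      hcδ, hcδ, qminus_single, mul_one, mul_one] at h5
    apply hιc
    refine ⟨e' * (cδ : F), ?_⟩
    rw [← h5, he']
    ring
  obtain ⟨h4, h2'⟩ := Helper45.ID.inndiag_minus_mod_inn hodd hm a b hab
  have key : ∃ j : ℕ, δ * (pscmD hm1 a b hab d₁ ^ j)⁻¹
      ∈ Inn (POmega F (quadFormMinus m F a b)) := by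
    by_cases hcase : Even m ∧ Fintype.card F % 4 = 3
    · obtain ⟨φ, hφs, hφk⟩ := h4 hcase
      exact cyclic_quot_gen _ _ φ hφs hφk zmod4_gen _ hcI hns δ hδ
    · obtain ⟨φ, hφs, hφk⟩ := h2' hcase
      exact cyclic_quot_gen _ _ φ hφs hφk zmod2_gen _ hcI hns δ hδ
  obtain ⟨j, hj⟩ := key
  refine ⟨_, hj, ?_⟩
  have hcj : pscmD hm1 a b hab d₁ ^ j * semiAut (quadFormMinus m F a b) h σ hh
      = semiAut (quadFormMinus m F a b) h σ hh * pscmD hm1 a b hab d₁ ^ j :=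
    (Commute.pow_left (show Commute (pscmD hm1 a b hab d₁)
      (semiAut (quadFormMinus m F a b) h σ hh) from hcX) j)
  have e1 : (pscmD hm1 a b hab d₁ ^ j)⁻¹ * semiAut (quadFormMinus m F a b) h σ hh
      * pscmD hm1 a b hab d₁ ^ j = semiAut (quadFormMinus m F a b) h σ hh := by
    rw [mul_assoc, ← hcj, inv_mul_cancel_left]
  calc δ * semiAut (quadFormMinus m F a b) h σ hh * δ⁻¹
      = δ * ((pscmD hm1 a b hab d₁ ^ j)⁻¹ * semiAut (quadFormMinus m F a b) h σ hh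
        * pscmD hm1 a b hab d₁ ^ j) * δ⁻¹ := by rw [e1]
    _ = (δ * (pscmD hm1 a b hab d₁ ^ j)⁻¹) * semiAut (quadFormMinus m F a b) h σ hh
        * (δ * (pscmD hm1 a b hab d₁ ^ j)⁻¹)⁻¹ := by group

/-- **field automorphisms of prime order of `PΩ⁻_{2m+2}(q)`** -/
theorem minus_field_class (p f : ℕ) [Fact p.Prime] (hF : Fintype.card F = p ^ f)
    (hm : 3 ≤ m) (a b : F)
    (hab : ∀ z₁ z₂ : F, z₁ ^ 2 + a * z₁ * z₂ + b * z₂ ^ 2 = 0 → z₁ = 0 ∧ z₂ = 0)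
    (x : MulAut (POmega F (quadFormMinus m F a b))) (hx : IsFieldAutClassPOmegaMinus m x)
    (r : ℕ) (hr : r.Prime) (hxr : orderOf x = r) (hF₀ : Fintype.card F₀ = p ^ (f / r)) :
    Odd r ∧ r ∣ f ∧
      (∃ a₀ b₀ : F₀, (∀ z₁ z₂ : F₀, z₁ ^ 2 + a₀ * z₁ * z₂ + b₀ * z₂ ^ 2 = 0 → z₁ = 0 ∧ z₂ = 0) ∧
        Nonempty (↥(inndiagPOmegaMinus m F a b ⊓ Subgroup.centralizer {x})
          ≃* ↥(inndiagPOmegaMinus m F₀ a₀ b₀))) ∧
      splitClassCount (inndiagPOmegaMinus m F a b) (Inn (POmega F (quadFormMinus m F a b))) x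
        = 1 := by
  classical
  obtain ⟨Θ, hΘ1, hΘ2⟩ := minus_theta hm a b hab
  have hne := minus_theta_ne_one a b hab Θ hΘ1 x hx
  have hxr' : x ^ r = 1 := by
    rw [← hxr]
    exact pow_orderOf_eq_one x
  have hσr : orderOf (Θ x) = r := by
    have h1 : (Θ x) ^ r = 1 := by rw [← map_pow, hxr', map_one]
    have h4 := orderOf_dvd_of_pow_eq_one h1
    rcases (Nat.dvd_prime hr).1 h4 with h5 | h5
    · exact absurd (orderOf_eq_one_iff.1 h5) hne
    · exact h5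
  obtain ⟨σ, h, hh, ex⟩ : ∃ (σ : RingAut F) (h : GL (MI m) F)
      (hh : IsSemisimilarityPair (quadFormMinus m F a b) h σ),
      x = semiAut (quadFormMinus m F a b) h σ hh := by
    obtain ⟨h, hh, e⟩ := hΘ2 x
    exact ⟨Θ x, h, hh, e⟩
  have hΘx : Θ x = σ := by
    rw [ex]
    exact hΘ1 h σ hh
  rw [hΘx] at hσr
  have hx1 : semiAut (quadFormMinus m F a b) h σ hh ^ r = 1 := by
    rw [← ex]
    exact hxr'
  have hrodd : Odd r := minus_field_odd hm a b hab σ r hr hσr h hh hx1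
  obtain ⟨hrf, -⟩ := PSLn.lang_card_fix p f hF σ r hσr hr.pos
  obtain ⟨ι, hι⟩ := PSLn.lang_exists_embedding p f hF σ r hσr hr.pos F₀ hF₀
  obtain ⟨ζ₀, hζ₀⟩ := exists_aniso_fin F₀
  have hab₀ : ∀ z₁ z₂ : F₀, z₁ ^ 2 + 1 * z₁ * z₂ + ζ₀ * z₂ ^ 2 = 0 → z₁ = 0 ∧ z₂ = 0 :=
    fun z₁ z₂ hz => Cfsg.Agent.S2617.aniso ζ₀ hζ₀ z₁ z₂ hz
  have hζσ : σ (ι ζ₀) = ι ζ₀ := (hι _).mpr ⟨ζ₀, rfl⟩
  have habK : ∀ z₁ z₂ : ↥(PSpn.fixF σ), z₁ ^ 2 + (1 : ↥(PSpn.fixF σ)) * z₁ * z₂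
      + (⟨ι ζ₀, hζσ⟩ : ↥(PSpn.fixF σ)) * z₂ ^ 2 = 0 → z₁ = 0 ∧ z₂ = 0 := by
    intro z₁ z₂ hz
    obtain ⟨w₁, hw₁⟩ := (hι _).mp z₁.2
    obtain ⟨w₂, hw₂⟩ := (hι _).mp z₂.2
    have hz' : (z₁ : F) ^ 2 + 1 * (z₁ : F) * (z₂ : F) + ι ζ₀ * (z₂ : F) ^ 2 = 0 := by
      have h3 := congrArg Subtype.val hz
      exact h3
    rw [← hw₁, ← hw₂] at hz'
    have h3 : ι (w₁ ^ 2 + 1 * w₁ * w₂ + ζ₀ * w₂ ^ 2) = 0 := by
      rw [map_add, map_add, map_mul, map_mul, map_mul, map_pow, map_pow, map_one]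
      exact hz'
    have h4 := hab₀ w₁ w₂ (ι.injective (h3.trans (map_zero ι).symm))
    refine ⟨Subtype.ext ?_, Subtype.ext ?_⟩
    · rw [← hw₁, h4.1, map_zero]
      rfl
    · rw [← hw₂, h4.2, map_zero]
      rfl
  obtain ⟨k, lam, e, hlam, he, hQk, hhk⟩ := minus_lang hm a b hab σ r hσr hr.pos
    1 ⟨ι ζ₀, hζσ⟩ habK h hh hx1
  have hk : ∀ v, quadFormMinus m F a b ((k : Matrix (MI m) (MI m) F) *ᵥ v)
      = lam * quadFormMinus m F (ι 1) (ι ζ₀) v := by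
    intro v
    rw [map_one]
    exact hQk v
  subst ex
  refine ⟨hrodd, hrf, ⟨1, ζ₀, hab₀, ?_⟩, ?_⟩
  · exact minus_centralizer_iso hm a b hab σ r hσr hr.pos h hh ι hι 1 ζ₀ hab₀ k lam e hlam he
      hk hhk
  · apply splitCount_one_of_forall
    intro δ hδ
    by_cases h2 : ringChar F = 2
    · exact ⟨δ, inndiag_le_inn_char2 hm h2 a b hab hδ, rfl⟩
    · have hodd : Odd (Fintype.card F) := by
        rw [Nat.odd_iff]
        exact FiniteField.odd_card_of_char_ne_two h2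
      exact minus_cent_gen_odd hm hodd a b hab σ r hσr hrodd h hh ι hι 1 ζ₀ hab₀ k lam e he
        hk hhk δ hδ

end main

end Cfsg.Agent.Helper44.POm
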