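import Mathlib
import Cfsg.Agent.Helper44.OmV

/-!
# An explicit similarity of the minus-type form as a product of reflections

* `prod_refl_orth_formula` : the product of the reflections in pairwise orthogonal vectors;
* `G1` : the similarity `diag(c, 1) ⊕ (multiplication by z)` of the minus-type form;
* `G1_eq_smul_prod` : when `c = s²`, `s⁻¹ G1` is a product of `2n + 2` explicit reflections;
* `refl_list_rect` : transport of products of reflections along a (rectangular) model.
-/

set_option autoImplicit false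
set_option linter.unusedSimpArgs false
set_option linter.unusedSectionVars false
set_option linter.unusedVariables false

namespace Cfsg.Agent.Helper44.POm

open Matrix Cfsg

universe u

section orthlist

variable {ι : Type} [Fintype ι] [DecidableEq ι] {F : Type u} [Field F]
  (Q : QuadraticForm F (ι → F))

theorem polar_list_sum_zero (v : ι → F) (c : (ι → F) → F) (L : List (ι → F))
    (h : ∀ w ∈ L, QuadraticMap.polar ⇑Q v w = 0) :
    QuadraticMap.polar ⇑Q v (L.map (fun w => c w • w)).sum = 0 := by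
  induction L with
  | nil =>
    rw [List.map_nil, List.sum_nil]
    simp
  | cons w L ih =>
    rw [List.map_cons, List.sum_cons, QuadraticMap.polar_add_right, QuadraticMap.polar_smul_right,
      h w (by simp), smul_zero, zero_add]
    exact ih (fun w' hw' => h w' (by simp [hw']))

/-- the product of the reflections in pairwise orthogonal vectors -/
theorem prod_refl_orth_formula (L : List (ι → F))
    (hp : L.Pairwise (fun u v => QuadraticMap.polar ⇑Q u v = 0)) (x : ι → F) :
    (L.map (fun v => reflectionMatrix ⇑Q v)).prod *ᵥ x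
      = x - (L.map (fun v => ((Q v)⁻¹ * QuadraticMap.polar ⇑Q v x) • v)).sum := by
  induction L with
  | nil => simp
  | cons v L ih =>
    rw [List.pairwise_cons] at hp
    obtain ⟨hv, hp'⟩ := hp
    have h0 := polar_list_sum_zero Q v (fun w => (Q w)⁻¹ * QuadraticMap.polar ⇑Q w x) L hv
    rw [List.map_cons, List.prod_cons, ← Matrix.mulVec_mulVec, ih hp',
      Helper13.reflectionMatrix_mulVec, List.map_cons, List.sum_cons,
      QuadraticMap.polar_sub_right, h0, sub_zero]
    abel

end orthlist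

section rect

variable {ι ι₀ : Type} [Fintype ι] [DecidableEq ι] [Fintype ι₀] [DecidableEq ι₀]
  {F : Type u} [Field F]

/-- a reflection transported along a model -/
theorem refl_rect (Q : QuadraticForm F (ι → F)) (Q₀ : QuadraticForm F (ι₀ → F))
    (k : Matrix ι ι₀ F) (k' : Matrix ι₀ ι F) (h1 : k * k' = 1) (h2 : k' * k = 1) (lam : F)
    (hlam : lam ≠ 0) (hk : ∀ v, Q (k *ᵥ v) = lam * Q₀ v) (w : ι₀ → F) :
    k * reflectionMatrix ⇑Q₀ w * k' = reflectionMatrix ⇑Q (k *ᵥ w) := by
  apply Helper13.mulVec_ext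
  intro x
  have hpol : QuadraticMap.polar ⇑Q (k *ᵥ w) x
      = lam * QuadraticMap.polar ⇑Q₀ w (k' *ᵥ x) := by
    have hx : x = k *ᵥ (k' *ᵥ x) := by rw [Matrix.mulVec_mulVec, h1, Matrix.one_mulVec]
    conv_lhs => rw [hx]
    unfold QuadraticMap.polar
    rw [← Matrix.mulVec_add, hk, hk, hk]
    ring
  rw [← Matrix.mulVec_mulVec, ← Matrix.mulVec_mulVec, Helper13.reflectionMatrix_mulVec,
    Helper13.reflectionMatrix_mulVec, Matrix.mulVec_sub, Matrix.mulVec_smul, Matrix.mulVec_mulVec,
    h1, Matrix.one_mulVec, hk, hpol, mul_inv, mul_mul_mul_comm, inv_mul_cancel₀ hlam, one_mul]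

/-- a product of reflections transported along a model -/
theorem refl_list_rect (Q : QuadraticForm F (ι → F)) (Q₀ : QuadraticForm F (ι₀ → F))
    (k : Matrix ι ι₀ F) (k' : Matrix ι₀ ι F) (h1 : k * k' = 1) (h2 : k' * k = 1) (lam : F)
    (hlam : lam ≠ 0) (hk : ∀ v, Q (k *ᵥ v) = lam * Q₀ v) (L : List (ι₀ → F)) :
    k * (L.map (fun w => reflectionMatrix ⇑Q₀ w)).prod * k'
      = ((L.map (fun w => k *ᵥ w)).map (fun v => reflectionMatrix ⇑Q v)).prod := by
  induction L with
  | nil =>
    rw [List.map_nil, List.prod_nil, List.map_nil, List.map_nil, List.prod_nil, Matrix.mul_one, h1]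
  | cons w L ih =>
    rw [List.map_cons, List.prod_cons, List.map_cons, List.map_cons, List.prod_cons, ← ih,
      ← refl_rect Q Q₀ k k' h1 h2 lam hlam hk w]
    simp only [Matrix.mul_assoc]
    rw [← Matrix.mul_assoc k' k, h2, Matrix.one_mul]

/-- the norms along a model -/
theorem norm_list_rect (Q : QuadraticForm F (ι → F)) (Q₀ : QuadraticForm F (ι₀ → F))
    (k : Matrix ι ι₀ F) (lam : F) (hk : ∀ v, Q (k *ᵥ v) = lam * Q₀ v) (L : List (ι₀ → F)) :
    ((L.map (fun w => k *ᵥ w)).map (fun v => Q v)).prod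
      = lam ^ L.length * (L.map (fun v => Q₀ v)).prod := by
  induction L with
  | nil => simp
  | cons w L ih =>
    rw [List.map_cons, List.map_cons, List.prod_cons, ih, hk, List.map_cons, List.prod_cons,
      List.length_cons, pow_succ]
    ring

end rect

section explicit

variable {F : Type u} [Field F] {n : ℕ}

theorem qminus_polar (a b : F) (u v : MI n → F) :
    QuadraticMap.polar (quadFormMinus n F a b) u v
      = (∑ i : Fin n, (u (Sum.inl (Sum.inl i)) * v (Sum.inl (Sum.inr i))
          + u (Sum.inl (Sum.inr i)) * v (Sum.inl (Sum.inl i))))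
        + (2 * u (Sum.inr 0) * v (Sum.inr 0) + a * (u (Sum.inr 0) * v (Sum.inr 1)
          + u (Sum.inr 1) * v (Sum.inr 0)) + 2 * b * u (Sum.inr 1) * v (Sum.inr 1)) := by
  unfold QuadraticMap.polar quadFormMinus
  simp only [Pi.add_apply]
  have hs : (∑ i : Fin n, (u (Sum.inl (Sum.inl i)) + v (Sum.inl (Sum.inl i)))
        * (u (Sum.inl (Sum.inr i)) + v (Sum.inl (Sum.inr i))))
      = (∑ i : Fin n, u (Sum.inl (Sum.inl i)) * u (Sum.inl (Sum.inr i)))
        + (∑ i : Fin n, v (Sum.inl (Sum.inl i)) * v (Sum.inl (Sum.inr i)))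
        + ∑ i : Fin n, (u (Sum.inl (Sum.inl i)) * v (Sum.inl (Sum.inr i))
          + u (Sum.inl (Sum.inr i)) * v (Sum.inl (Sum.inl i))) := by
    rw [← Finset.sum_add_distrib, ← Finset.sum_add_distrib]
    exact Finset.sum_congr rfl (fun i _ => by ring)
  rw [hs]
  ring

/-- the vector `t e_i - f_i` -/
def wv (n : ℕ) (t : F) (i : Fin n) : MI n → F :=
  Sum.elim (Sum.elim (Pi.single i t) (Pi.single i (-1))) 0

/-- a vector of the binary part -/
def bv (n : ℕ) (y : Fin 2 → F) : MI n → F := Sum.elim 0 y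

theorem qminus_wv (a b t : F) (i : Fin n) : quadFormMinus n F a b (wv n t i) = -t := by
  unfold quadFormMinus wv
  simp only [Sum.elim_inl, Sum.elim_inr, Pi.zero_apply]
  rw [Finset.sum_eq_single i]
  · simp
  · intro j _ hj
    rw [Pi.single_eq_of_ne hj, zero_mul]
  · intro h
    exact absurd (Finset.mem_univ _) h

theorem polar_wv (a b t : F) (i : Fin n) (x : MI n → F) :
    QuadraticMap.polar (quadFormMinus n F a b) (wv n t i) x
      = t * x (Sum.inl (Sum.inr i)) - x (Sum.inl (Sum.inl i)) := by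
  rw [qminus_polar]
  unfold wv
  simp only [Sum.elim_inl, Sum.elim_inr, Pi.zero_apply]
  rw [Finset.sum_eq_single i]
  · simp
    ring
  · intro j _ hj
    rw [Pi.single_eq_of_ne hj, Pi.single_eq_of_ne hj]
    ring
  · intro h
    exact absurd (Finset.mem_univ _) h

theorem polar_wv_wv (a b t t' : F) (i j : Fin n) (hij : i ≠ j) :
    QuadraticMap.polar (quadFormMinus n F a b) (wv n t i) (wv n t' j) = 0 := by
  rw [polar_wv]
  unfold wv
  simp only [Sum.elim_inl, Sum.elim_inr]
  rw [Pi.single_eq_of_ne hij, Pi.single_eq_of_ne hij]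
  ring

theorem qminus_bv (a b : F) (y : Fin 2 → F) :
    quadFormMinus n F a b (bv n y) = y 0 ^ 2 + a * y 0 * y 1 + b * y 1 ^ 2 := by
  unfold quadFormMinus bv
  simp

theorem polar_bv (a b : F) (y : Fin 2 → F) (x : MI n → F) :
    QuadraticMap.polar (quadFormMinus n F a b) (bv n y) x
      = 2 * y 0 * x (Sum.inr 0) + a * (y 0 * x (Sum.inr 1) + y 1 * x (Sum.inr 0))
        + 2 * b * y 1 * x (Sum.inr 1) := by
  rw [qminus_polar]
  unfold bv
  simp

theorem refl_minus_mulVec (a b : F) (v x : MI n → F) :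
    reflectionMatrix (quadFormMinus n F a b) v *ᵥ x
      = x - ((quadFormMinus n F a b v)⁻¹
        * QuadraticMap.polar (quadFormMinus n F a b) v x) • v :=
  Helper13.reflectionMatrix_mulVec (Helper43.minusQF n F a b) v x

theorem prod_refl_minus (a b : F) (L : List (MI n → F))
    (hp : L.Pairwise (fun u v => QuadraticMap.polar (quadFormMinus n F a b) u v = 0))
    (x : MI n → F) :
    (L.map (fun v => reflectionMatrix (quadFormMinus n F a b) v)).prod *ᵥ x
      = x - (L.map (fun v => ((quadFormMinus n F a b v)⁻¹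
        * QuadraticMap.polar (quadFormMinus n F a b) v x) • v)).sum :=
  prod_refl_orth_formula (Helper43.minusQF n F a b) L hp x

/-- the product of the reflections in the vectors `t e_i - f_i` -/
theorem Pn_mulVec (a b t : F) (ht : t ≠ 0) (x : MI n → F) :
    ((List.ofFn (wv n t)).map (fun v => reflectionMatrix (quadFormMinus n F a b) v)).prod *ᵥ x
      = Sum.elim (Sum.elim (fun j => t * x (Sum.inl (Sum.inr j)))
          (fun j => t⁻¹ * x (Sum.inl (Sum.inl j)))) (fun j => x (Sum.inr j)) := by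
  have hp : (List.ofFn (wv n t)).Pairwise
      (fun u v => QuadraticMap.polar (quadFormMinus n F a b) u v = 0) := by
    rw [List.pairwise_ofFn]
    intro i j hij
    exact polar_wv_wv a b t t i j (ne_of_lt hij)
  rw [prod_refl_minus a b _ hp x, List.map_ofFn, List.sum_ofFn]
  funext k
  rcases k with (j | j) | j
  · rw [Pi.sub_apply, Finset.sum_apply, Sum.elim_inl, Sum.elim_inl, Finset.sum_eq_single j]
    · simp only [Function.comp_apply, Pi.smul_apply, smul_eq_mul, qminus_wv, polar_wv]
      unfold wv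
      simp only [Sum.elim_inl, Pi.single_eq_same]
      field_simp
      ring
    · intro i _ hi
      simp only [Function.comp_apply, Pi.smul_apply, smul_eq_mul]
      unfold wv
      simp only [Sum.elim_inl]
      rw [Pi.single_eq_of_ne (Ne.symm hi), mul_zero]
    · intro h
      exact absurd (Finset.mem_univ _) h
  · rw [Pi.sub_apply, Finset.sum_apply, Sum.elim_inl, Sum.elim_inr, Finset.sum_eq_single j]
    · simp only [Function.comp_apply, Pi.smul_apply, smul_eq_mul, qminus_wv, polar_wv]
      unfold wv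
      simp only [Sum.elim_inl, Sum.elim_inr, Pi.single_eq_same]
      field_simp
      ring
    · intro i _ hi
      simp only [Function.comp_apply, Pi.smul_apply, smul_eq_mul]
      unfold wv
      simp only [Sum.elim_inl, Sum.elim_inr]
      rw [Pi.single_eq_of_ne (Ne.symm hi), mul_zero]
    · intro h
      exact absurd (Finset.mem_univ _) h
  · rw [Pi.sub_apply, Finset.sum_apply, Sum.elim_inr]
    simp [wv]

/-- the similarity `diag(c, 1) ⊕ (multiplication by z₁ + z₂ θ)` of the minus-type form -/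
def G1 (n : ℕ) (a b c z₁ z₂ : F) : Matrix (MI n) (MI n) F :=
  Matrix.fromBlocks (Matrix.fromBlocks (c • (1 : Matrix (Fin n) (Fin n) F)) 0 0 1) 0 0
    !![z₁, -(b * z₂); z₂, z₁ + a * z₂]

theorem G1_mulVec (a b c z₁ z₂ : F) (x : MI n → F) :
    G1 n a b c z₁ z₂ *ᵥ x
      = Sum.elim (Sum.elim (fun j => c * x (Sum.inl (Sum.inl j)))
          (fun j => x (Sum.inl (Sum.inr j))))
        ![z₁ * x (Sum.inr 0) - b * z₂ * x (Sum.inr 1),
          z₂ * x (Sum.inr 0) + (z₁ + a * z₂) * x (Sum.inr 1)] := by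
  unfold G1
  funext k
  rcases k with (j | j) | j
  · simp [Matrix.fromBlocks_mulVec, Matrix.smul_mulVec]
  · simp [Matrix.fromBlocks_mulVec, Matrix.smul_mulVec]
  · fin_cases j
    · simp [Matrix.fromBlocks_mulVec, Matrix.mulVec, dotProduct, Fin.sum_univ_two]
      ring
    · simp [Matrix.fromBlocks_mulVec, Matrix.mulVec, dotProduct, Fin.sum_univ_two]

theorem G1_det (a b c z₁ z₂ : F) :
    (G1 n a b c z₁ z₂).det = c ^ n * (z₁ ^ 2 + a * z₁ * z₂ + b * z₂ ^ 2) := by
  unfold G1
  rw [Matrix.det_fromBlocks_zero₂₁, Matrix.det_fromBlocks_zero₂₁, Matrix.det_smul, Matrix.det_one,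
    Fintype.card_fin, Matrix.det_fin_two_of]
  ring

theorem G1_sim (a b c z₁ z₂ : F) (hz : z₁ ^ 2 + a * z₁ * z₂ + b * z₂ ^ 2 = c) (v : MI n → F) :
    quadFormMinus n F a b (G1 n a b c z₁ z₂ *ᵥ v) = c * quadFormMinus n F a b v := by
  rw [G1_mulVec]
  unfold quadFormMinus
  simp only [Sum.elim_inl, Sum.elim_inr, Matrix.cons_val_zero, Matrix.cons_val_one]
  have hsum : (∑ i : Fin n, c * v (Sum.inl (Sum.inl i)) * v (Sum.inl (Sum.inr i)))
      = c * ∑ i : Fin n, v (Sum.inl (Sum.inl i)) * v (Sum.inl (Sum.inr i)) := by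
    rw [Finset.mul_sum]
    exact Finset.sum_congr rfl (fun i _ => by ring)
  rw [hsum]
  subst hz
  ring

theorem G1_map {K : Type*} [Field K] (f : F →+* K) (a b c z₁ z₂ : F) :
    (G1 n a b c z₁ z₂).map f = G1 n (f a) (f b) (f c) (f z₁) (f z₂) := by
  ext i j
  rcases i with (i | i) | i <;> rcases j with (j | j) | j
  all_goals simp [G1, Matrix.one_apply, apply_ite f]
  fin_cases i <;> fin_cases j <;> simp

/-- the list of vectors whose reflections multiply to `s⁻¹ G1` -/
def LV (n : ℕ) (s z₁ z₂ : F) : List (MI n → F) :=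
  List.ofFn (wv n s) ++ (List.ofFn (wv n (1 : F)) ++ [bv n ![s + z₁, z₂], bv n ![1, 0]])

theorem LV_length (s z₁ z₂ : F) : (LV n s z₁ z₂).length = 2 * n + 2 := by
  unfold LV
  simp
  ring

theorem LV_norm (a b s z₁ z₂ : F) (hz : z₁ ^ 2 + a * z₁ * z₂ + b * z₂ ^ 2 = s * s) :
    ((LV n s z₁ z₂).map (fun v => quadFormMinus n F a b v)).prod
      = s ^ n * (s * (2 * s + 2 * z₁ + a * z₂)) := by
  unfold LV
  rw [List.map_append, List.prod_append, List.map_append, List.prod_append, List.map_ofFn,
    List.map_ofFn, List.prod_ofFn, List.prod_ofFn]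
  simp only [Function.comp_apply, qminus_wv, Finset.prod_const, Finset.card_univ, Fintype.card_fin,
    List.map_cons, List.map_nil, List.prod_cons, List.prod_nil, qminus_bv, Matrix.cons_val_zero,
    Matrix.cons_val_one]
  have h1 : (-s) ^ n * (-1 : F) ^ n = s ^ n := by
    rw [← mul_pow]
    congr 1
    ring
  rw [← mul_assoc, h1]
  congr 1
  linear_combination hz

theorem LV_ne (a b s z₁ z₂ : F) (hs : s ≠ 0)
    (hz : z₁ ^ 2 + a * z₁ * z₂ + b * z₂ ^ 2 = s * s) (hT : 2 * s + 2 * z₁ + a * z₂ ≠ 0) :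
    ∀ v ∈ LV n s z₁ z₂, quadFormMinus n F a b v ≠ 0 := by
  intro v hv
  unfold LV at hv
  rw [List.mem_append, List.mem_append] at hv
  rcases hv with hv | hv | hv
  · rw [List.mem_ofFn] at hv
    obtain ⟨i, rfl⟩ := hv
    rw [qminus_wv]
    exact neg_ne_zero.mpr hs
  · rw [List.mem_ofFn] at hv
    obtain ⟨i, rfl⟩ := hv
    rw [qminus_wv]
    exact neg_ne_zero.mpr one_ne_zero
  · simp only [List.mem_cons, List.mem_nil_iff, or_false] at hv
    rcases hv with rfl | rfl
    · rw [qminus_bv]
      simp only [Matrix.cons_val_zero, Matrix.cons_val_one]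
      have h3 : (s + z₁) ^ 2 + a * (s + z₁) * z₂ + b * z₂ ^ 2 = s * (2 * s + 2 * z₁ + a * z₂) := by
        linear_combination hz
      rw [h3]
      exact mul_ne_zero hs hT
    · rw [qminus_bv]
      simp

/-- **the explicit similarity is `s` times a product of reflections** -/
theorem G1_eq_smul_prod (a b s z₁ z₂ : F) (hs : s ≠ 0)
    (hz : z₁ ^ 2 + a * z₁ * z₂ + b * z₂ ^ 2 = s * s) (hT : 2 * s + 2 * z₁ + a * z₂ ≠ 0) :
    G1 n a b (s * s) z₁ z₂
      = s • ((LV n s z₁ z₂).map (fun v => reflectionMatrix (quadFormMinus n F a b) v)).prod := by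
  apply Helper13.mulVec_ext
  intro x
  have hN : (s + z₁) ^ 2 + a * (s + z₁) * z₂ + b * z₂ ^ 2 = s * (2 * s + 2 * z₁ + a * z₂) := by
    linear_combination hz
  obtain ⟨T, hTdef⟩ : ∃ T, T = 2 * s + 2 * z₁ + a * z₂ := ⟨_, rfl⟩
  rw [← hTdef] at hN hT
  unfold LV
  rw [List.map_append, List.prod_append, List.map_append, List.prod_append, Matrix.smul_mulVec,
    ← Matrix.mulVec_mulVec, ← Matrix.mulVec_mulVec, Pn_mulVec a b s hs,
    Pn_mulVec a b 1 one_ne_zero, G1_mulVec]
  simp only [List.map_cons, List.map_nil, List.prod_cons, List.prod_nil, Matrix.mul_one]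
  rw [← Matrix.mulVec_mulVec, refl_minus_mulVec, refl_minus_mulVec, qminus_bv, qminus_bv,
    polar_bv, polar_bv]
  simp only [Matrix.cons_val_zero, Matrix.cons_val_one]
  rw [hN]
  funext k
  rcases k with (j | j) | j
  · simp [bv]
    field_simp
  · simp [bv]
    field_simp
  · fin_cases j
    · simp [bv]
      field_simp
      rw [hTdef]
      linear_combination (-a * x (Sum.inr 1)) * hz
    · simp [bv]
      field_simp
      rw [hTdef]
      linear_combination (2 * x (Sum.inr 1)) * hz

end explicit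

end Cfsg.Agent.Helper44.POm
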