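import Mathlib
import Cfsg.Agent.Helper44.OmW

/-!
# The centraliser of a graph-field automorphism in `Inndiag(PΩ⁺_{2n+2}(q))`

A semisimilarity of the hyperbolic form which, in a model `k` of a minus-type rational structure
over the fixed field `F₀` of its field automorphism, is the pure field map up to a scalar: the
centraliser of the induced automorphism in `Inndiag(PΩ⁺_{2n+2}(F))` is `Inndiag(PΩ⁻_{2n+2}(F₀))`.
-/

set_option autoImplicit false
set_option linter.unusedSimpArgs false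
set_option linter.unusedSectionVars false
set_option linter.unusedVariables false

namespace Cfsg.Agent.Helper44.POm

open Matrix Cfsg
open Cfsg.Agent.Helper45.OO (semiAut semiMap glMap polarGram)

universe u v

/-- the index type of the hyperbolic form in dimension `2n + 2` -/
abbrev PI (n : ℕ) : Type := Fin (n + 1) ⊕ Fin (n + 1)

section recthom

variable {ι ι₀ : Type} [Fintype ι] [DecidableEq ι] [Fintype ι₀] [DecidableEq ι₀]
  {F : Type u} [Field F]

theorem rmat_map_mul {α β γ : Type} [Fintype β] (σ : RingAut F) (A : Matrix α β F)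
    (B : Matrix β γ F) : (A * B).map σ = A.map σ * B.map σ :=
  Matrix.map_mul (f := (σ : F →+* F))

/-- conjugation by a rectangular invertible matrix, on matrices -/
def rectMon (k : Matrix ι ι₀ F) (k' : Matrix ι₀ ι F) (h1 : k * k' = 1) (h2 : k' * k = 1) :
    Matrix ι₀ ι₀ F →* Matrix ι ι F where
  toFun M := k * M * k'
  map_one' := by rw [Matrix.mul_one, h1]
  map_mul' A B := by
    simp only [Matrix.mul_assoc]
    rw [← Matrix.mul_assoc k' k, h2, Matrix.one_mul]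

/-- conjugation by a rectangular invertible matrix, on invertible matrices -/
def rectGL (k : Matrix ι ι₀ F) (k' : Matrix ι₀ ι F) (h1 : k * k' = 1) (h2 : k' * k = 1) :
    GL ι₀ F →* GL ι F := Units.map (rectMon k k' h1 h2)

theorem rectGL_coe (k : Matrix ι ι₀ F) (k' : Matrix ι₀ ι F) (h1 : k * k' = 1) (h2 : k' * k = 1)
    (g : GL ι₀ F) :
    ((rectGL k k' h1 h2 g : GL ι F) : Matrix ι ι F) = k * (g : Matrix ι₀ ι₀ F) * k' := rfl

theorem rank_rect (k : Matrix ι ι₀ F) (k' : Matrix ι₀ ι F) (h1 : k * k' = 1) (h2 : k' * k = 1)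
    (N : Matrix ι₀ ι₀ F) : (k * N * k').rank = N.rank := by
  apply le_antisymm
  · exact (Matrix.rank_mul_le_left _ _).trans (Matrix.rank_mul_le_right _ _)
  · have e : N = k' * (k * N * k') * k := by
      simp only [Matrix.mul_assoc]
      rw [h2, Matrix.mul_one, ← Matrix.mul_assoc, h2, Matrix.one_mul]
    conv_lhs => rw [e]
    exact (Matrix.rank_mul_le_left _ _).trans (Matrix.rank_mul_le_right _ _)

end recthom

section descent

variable {F : Type u} [Field F] [Fintype F] {F₀ : Type v} [Field F₀] [Fintype F₀] {n : ℕ}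

theorem pscp_descent (hn : n ≠ 1) (hR : Helper45.reflGroup (Helper43.plusQF (n + 1) F) = ⊤)
    (ι : F₀ →+* F) (a₀ b₀ : F₀)
    (hab₀ : ∀ z₁ z₂ : F₀, z₁ ^ 2 + a₀ * z₁ * z₂ + b₀ * z₂ ^ 2 = 0 → z₁ = 0 ∧ z₂ = 0)
    (k : Matrix (PI n) (MI n) F) (k' : Matrix (MI n) (PI n) F) (h1 : k * k' = 1)
    (h2 : k' * k = 1) (lam : F)
    (hk : ∀ v, quadFormPlus (n + 1) F (k *ᵥ v) = lam * quadFormMinus n F (ι a₀) (ι b₀) v)
    (g₀ : GL (MI n) F₀)
    (hg₀ : g₀ ∈ Geo.quadSimilarityGroup (F := F₀) (quadFormMinus n F₀ a₀ b₀))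
    (d : GL (PI n) F)
    (hd : (d : Matrix (PI n) (PI n) F) = k * (g₀ : Matrix (MI n) (MI n) F₀).map ι * k') :
    d ∈ Geo.quadSimilarityGroup (F := F) (quadFormPlus (n + 1) F) ∧
    (PreservesSingularClasses (quadFormPlus (n + 1) F) (d : Matrix (PI n) (PI n) F) ↔
      PreservesSingularClassesMinus n a₀ b₀ (g₀ : Matrix (MI n) (MI n) F₀)) := by
  classical
  have conj_sim : ∀ (M₀ : Matrix (MI n) (MI n) F₀) (c₀ : F₀),
      (∀ v, quadFormMinus n F₀ a₀ b₀ (M₀ *ᵥ v) = c₀ * quadFormMinus n F₀ a₀ b₀ v) →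
      ∀ v, quadFormPlus (n + 1) F ((k * M₀.map ι * k') *ᵥ v)
        = ι c₀ * quadFormPlus (n + 1) F v := by
    intro M₀ c₀ hM₀ v
    rw [← Matrix.mulVec_mulVec, ← Matrix.mulVec_mulVec, hk,
      minus_sim_map ι a₀ b₀ M₀ c₀ hM₀, ← mul_assoc, mul_comm lam, mul_assoc, ← hk,
      Matrix.mulVec_mulVec, h1, Matrix.one_mulVec]
  obtain ⟨c₀, hc₀⟩ := hg₀
  have hsim : ∀ v, quadFormPlus (n + 1) F ((d : Matrix (PI n) (PI n) F) *ᵥ v)
      = ι (c₀ : F₀) * quadFormPlus (n + 1) F v := by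
    intro v
    rw [hd]
    exact conj_sim _ _ hc₀ v
  have hιc : ι (c₀ : F₀) ≠ 0 := (map_ne_zero ι).mpr c₀.ne_zero
  refine ⟨⟨Units.mk0 _ hιc, hsim⟩, ?_⟩
  by_cases h2c : ringChar F = 2
  · have h2F : (2 : F) = 0 := by
      have h3 : ((2 : ℕ) : F) = 0 := (ringChar.spec F 2).2 (by rw [h2c])
      exact_mod_cast h3
    have h2₀ : ringChar F₀ = 2 := by
      apply CharP.ringChar_of_prime_eq_zero Nat.prime_two
      apply ι.injective
      rw [map_zero, Nat.cast_ofNat, map_ofNat]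
      exact h2F
    obtain ⟨s₀, g₀', hs₀, eg₀⟩ := sim_char2_decomp h2₀ a₀ b₀ g₀ ⟨c₀, hc₀⟩
    have hmem : rectGL k k' h1 h2 (Matrix.GeneralLinearGroup.map ι (g₀' : GL (MI n) F₀))
        ∈ isometryGroup F ⇑(Helper43.plusQF (n + 1) F) := by
      rw [Helper45.mem_iso_iff]
      intro v
      have h3 := conj_sim ((g₀' : GL (MI n) F₀) : Matrix (MI n) (MI n) F₀) 1 (fun w => by
        rw [one_mul]; exact (Helper45.mem_iso_iff _ _).mp g₀'.2 w) v
      rw [map_one, one_mul] at h3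
      exact h3
    obtain ⟨g', hg'⟩ : ∃ g' : ↥(isometryGroup F ⇑(Helper43.plusQF (n + 1) F)),
        g' = ⟨rectGL k k' h1 h2 (Matrix.GeneralLinearGroup.map ι (g₀' : GL (MI n) F₀)), hmem⟩ :=
      ⟨_, rfl⟩
    have hg'v : ((g' : GL (PI n) F) : Matrix (PI n) (PI n) F)
        = k * ((g₀' : GL (MI n) F₀) : Matrix (MI n) (MI n) F₀).map ι * k' := by
      rw [hg']
      rfl
    have hιs : ι s₀ ≠ 0 := (map_ne_zero ι).mpr hs₀
    have hdv : (d : Matrix (PI n) (PI n) F)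
        = ι s₀ • ((g' : GL (PI n) F) : Matrix (PI n) (PI n) F) := by
      rw [hd, eg₀, hg'v, Matrix.map_smul' ι s₀ _ (fun x y => map_mul ι x y), Matrix.mul_smul,
        Matrix.smul_mul]
    rw [hdv, eg₀, pres_smul _ (ι s₀) hιs, isCls_psc hR _ _ (isCls_iso g'),
      pscm_char2_iff hn a₀ b₀ hab₀ s₀ hs₀ g₀', Helper45.dick_eq_zero_iff_even_rank,
      Helper45.dick_eq_zero_iff_even_rank]
    have h4 : ((g' : GL (PI n) F) : Matrix (PI n) (PI n) F) - 1
        = k * (((g₀' : GL (MI n) F₀) : Matrix (MI n) (MI n) F₀) - 1).map ι * k' := by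
      have h5 : (((g₀' : GL (MI n) F₀) : Matrix (MI n) (MI n) F₀) - 1).map ι
          = ((g₀' : GL (MI n) F₀) : Matrix (MI n) (MI n) F₀).map ι - 1 := by
        ext i j
        rw [Matrix.sub_apply, Matrix.map_apply, Matrix.map_apply, Matrix.sub_apply, map_sub,
          Matrix.one_apply, Matrix.one_apply]
        by_cases hij : i = j
        · rw [if_pos hij, if_pos hij, map_one]
        · rw [if_neg hij, if_neg hij, map_zero]
      rw [h5, Matrix.mul_sub, Matrix.sub_mul, Matrix.mul_one, h1, hg'v]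
    rw [h4, rank_rect k k' h1 h2, rank_map_hom]
  · have hodd : Odd (Fintype.card F) := by
      rw [Nat.odd_iff]
      exact FiniteField.odd_card_of_char_ne_two h2c
    have h2F : (2 : F) ≠ 0 := Helper45.two_ne_zero_of_odd_card hodd
    have h2F₀ : (2 : F₀) ≠ 0 := two_ne_zero_sub h2F ι
    have hodd₀ : Odd (Fintype.card F₀) := by
      rw [Nat.odd_iff]
      exact FiniteField.odd_card_of_char_ne_two (Helper45.ringChar_ne_two h2F₀)
    rw [Helper45.ID.pres_plus_iff h2F d (ι (c₀ : F₀)) hιc hsim,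
      Helper45.ID.pres_minus_iff hodd₀ a₀ b₀ hab₀ g₀ (c₀ : F₀) c₀.ne_zero hc₀]
    have hdet : (d : Matrix (PI n) (PI n) F).det = ι (g₀ : Matrix (MI n) (MI n) F₀).det := by
      rw [hd, Matrix.det_conj_of_mul_eq_one h1 h2]
      exact (RingHom.map_det ι _).symm
    rw [hdet, ← map_pow]
    exact ι.injective.eq_iff

end descent

section grp

variable {F : Type u} [Field F] [Fintype F] {m : ℕ}

/-- the group of class-preserving similarities of the hyperbolic form -/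
def pscpGrp (hR : Helper45.reflGroup (Helper43.plusQF m F) = ⊤) :
    Subgroup (GL (Fin m ⊕ Fin m) F) where
  carrier := {g | g ∈ Geo.quadSimilarityGroup (F := F) (quadFormPlus m F) ∧
    PreservesSingularClasses (quadFormPlus m F) (g : Matrix (Fin m ⊕ Fin m) (Fin m ⊕ Fin m) F)}
  mul_mem' {g h} hg hh := ⟨mul_mem hg.1 hh.1, psc_mul hR g h hg.1 hh.1 hg.2 hh.2⟩
  one_mem' := ⟨one_mem _, psc_one' hR⟩
  inv_mem' {g} hg := ⟨inv_mem hg.1, psc_inv hR g hg.1 hg.2⟩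

theorem pscpGrp_le (hR : Helper45.reflGroup (Helper43.plusQF m F) = ⊤) :
    pscpGrp hR ≤ Geo.quadSimilarityGroup (F := F) (quadFormPlus m F) :=
  fun _ hg => hg.1

/-- the action of the class-preserving similarities on `PΩ⁺` -/
noncomputable def pscpD (hR : Helper45.reflGroup (Helper43.plusQF m F) = ⊤) :
    ↥(pscpGrp hR) →* MulAut (POmega F (quadFormPlus m F)) :=
  (simHom (quadFormPlus m F)).comp (Subgroup.inclusion (pscpGrp_le hR))

theorem pscpD_apply (hR : Helper45.reflGroup (Helper43.plusQF m F) = ⊤) (g : ↥(pscpGrp hR)) :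
    pscpD hR g = semiAut (quadFormPlus m F) g.1 (RingEquiv.refl F)
      (semi_of_mem _ g.1 g.2.1) := rfl

theorem pscpD_range (hR : Helper45.reflGroup (Helper43.plusQF m F) = ⊤) :
    (pscpD hR).range = inndiagPOmegaPlus m F := by
  ext β
  rw [MonoidHom.mem_range]
  constructor
  · rintro ⟨g, rfl⟩
    apply Subgroup.subset_closure
    exact ⟨g.1, g.2.1, g.2.2,
      (Helper45.OO.semi_ind_iff _ _ _ (semi_of_mem _ g.1 g.2.1) _).mpr rfl⟩
  · intro hβ
    obtain ⟨d, hd, hP, hind⟩ := inndiag_plus_rep hR β hβ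
    exact ⟨⟨d, hd, hP⟩,
      ((Helper45.OO.semi_ind_iff _ d (RingEquiv.refl F) (semi_of_mem _ d hd) β).mp hind).symm⟩

theorem pscpD_eq_one_iff (hm : 3 ≤ m) (hR : Helper45.reflGroup (Helper43.plusQF m F) = ⊤)
    (g : ↥(pscpGrp hR)) :
    pscpD hR g = 1 ↔
      ∃ c : F, ((g : GL (Fin m ⊕ Fin m) F) : Matrix (Fin m ⊕ Fin m) (Fin m ⊕ Fin m) F)
        = c • (1 : Matrix (Fin m ⊕ Fin m) (Fin m ⊕ Fin m) F) := by
  have hQ := Helper45.plusQF_nondeg' (F := F) m
  have hn5 : 5 ≤ Fintype.card (Fin m ⊕ Fin m) := by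
    rw [Fintype.card_sum, Fintype.card_fin]
    omega
  exact simHom_eq_one_iff (Helper43.plusQF m F) hQ hn5
    (Subgroup.inclusion (pscpGrp_le hR) g)

end grp

section theta

variable {F : Type u} [Field F] [Fintype F] {F₀ : Type v} [Field F₀] [Fintype F₀] {n : ℕ}

/-- the embedding of the class-preserving similarities of the minus-type form over a subfield,
through a model -/
noncomputable def pscpTh (hn : n ≠ 1) (hR : Helper45.reflGroup (Helper43.plusQF (n + 1) F) = ⊤)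
    (ι : F₀ →+* F) (a₀ b₀ : F₀)
    (hab₀ : ∀ z₁ z₂ : F₀, z₁ ^ 2 + a₀ * z₁ * z₂ + b₀ * z₂ ^ 2 = 0 → z₁ = 0 ∧ z₂ = 0)
    (k : Matrix (PI n) (MI n) F) (k' : Matrix (MI n) (PI n) F) (h1 : k * k' = 1)
    (h2 : k' * k = 1) (lam : F)
    (hk : ∀ v, quadFormPlus (n + 1) F (k *ᵥ v) = lam * quadFormMinus n F (ι a₀) (ι b₀) v) :
    ↥(pscmGrp hn a₀ b₀ hab₀) →* ↥(pscpGrp hR) :=
  (((rectGL k k' h1 h2).comp (Matrix.GeneralLinearGroup.map ι)).comp
    (Subgroup.subtype _)).codRestrict _ (fun g₀ => by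
      have h := pscp_descent hn hR ι a₀ b₀ hab₀ k k' h1 h2 lam hk g₀.1 g₀.2.1
        (rectGL k k' h1 h2 (Matrix.GeneralLinearGroup.map ι g₀.1)) rfl
      exact ⟨h.1, h.2.mpr g₀.2.2⟩)

theorem pscpTh_coe (hn : n ≠ 1) (hR : Helper45.reflGroup (Helper43.plusQF (n + 1) F) = ⊤)
    (ι : F₀ →+* F) (a₀ b₀ : F₀)
    (hab₀ : ∀ z₁ z₂ : F₀, z₁ ^ 2 + a₀ * z₁ * z₂ + b₀ * z₂ ^ 2 = 0 → z₁ = 0 ∧ z₂ = 0)
    (k : Matrix (PI n) (MI n) F) (k' : Matrix (MI n) (PI n) F) (h1 : k * k' = 1)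
    (h2 : k' * k = 1) (lam : F)
    (hk : ∀ v, quadFormPlus (n + 1) F (k *ᵥ v) = lam * quadFormMinus n F (ι a₀) (ι b₀) v)
    (g₀ : ↥(pscmGrp hn a₀ b₀ hab₀)) :
    (((pscpTh hn hR ι a₀ b₀ hab₀ k k' h1 h2 lam hk g₀ : ↥(pscpGrp hR)) : GL (PI n) F) :
      Matrix (PI n) (PI n) F)
    = k * ((g₀ : GL (MI n) F₀) : Matrix (MI n) (MI n) F₀).map ι * k' := rfl

omit [Fintype F] [Fintype F₀] in
/-- a conjugate of a rational matrix by the model commutes with the semisimilarity -/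
theorem plus_fixed_comm (σ : RingAut F) (h : GL (PI n) F)
    (hh : IsSemisimilarityPair (quadFormPlus (n + 1) F) h σ)
    (ι : F₀ →+* F) (hι : ∀ x, σ x = x ↔ x ∈ Set.range ι)
    (k : Matrix (PI n) (MI n) F) (k' : Matrix (MI n) (PI n) F) (h1 : k * k' = 1)
    (h2 : k' * k = 1) (e : F) (he : e ≠ 0)
    (hhk : (h : Matrix (PI n) (PI n) F) * k.map σ = e • k)
    (M₀ : Matrix (MI n) (MI n) F₀) (d : GL (PI n) F)
    (hd : (d : Matrix (PI n) (PI n) F) = k * M₀.map ι * k')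
    (hdS : IsSemisimilarityPair (quadFormPlus (n + 1) F) d (RingEquiv.refl F)) :
    semiAut (quadFormPlus (n + 1) F) d (RingEquiv.refl F) hdS
        * semiAut (quadFormPlus (n + 1) F) h σ hh
      = semiAut (quadFormPlus (n + 1) F) h σ hh
        * semiAut (quadFormPlus (n + 1) F) d (RingEquiv.refl F) hdS := by
  have hK1σ : k.map σ * k'.map σ = 1 := by
    rw [← rmat_map_mul, h1, gmat_map_one]
  have e1 : k' * (h : Matrix (PI n) (PI n) F) = e • k'.map σ := by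
    calc k' * (h : Matrix (PI n) (PI n) F)
        = k' * ((h : Matrix (PI n) (PI n) F) * k.map σ) * k'.map σ := by
          rw [Matrix.mul_assoc, Matrix.mul_assoc, hK1σ, Matrix.mul_one]
      _ = e • k'.map σ := by
          rw [hhk, Matrix.mul_smul, h2, Matrix.smul_mul, Matrix.one_mul]
  have hfix : (M₀.map ι).map σ = M₀.map ι := by
    ext i j
    exact (hι _).mpr ⟨_, rfl⟩
  have heq : (d : Matrix (PI n) (PI n) F) * (h : Matrix (PI n) (PI n) F)
      = (1 : F) • ((h : Matrix (PI n) (PI n) F) * (d : Matrix (PI n) (PI n) F).map σ) := by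
    rw [one_smul, hd, rmat_map_mul, rmat_map_mul, hfix, ← Matrix.mul_assoc, ← Matrix.mul_assoc,
      hhk, Matrix.mul_assoc (k * M₀.map ι), e1]
    simp only [Matrix.smul_mul, Matrix.mul_smul, Matrix.mul_assoc]
  have hc := semi_conj_eq (Helper43.plusQF (n + 1) F) σ d h h hdS hh hh 1 one_ne_zero heq
  rw [eq_mul_inv_iff_mul_eq] at hc
  exact hc.symm

/-- an element of `Inndiag` commuting with the semisimilarity comes from a class-preserving
similarity of the minus-type form over the fixed field -/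
theorem plus_comm_descend (hn : 4 ≤ n) (hn1 : n ≠ 1)
    (hR : Helper45.reflGroup (Helper43.plusQF (n + 1) F) = ⊤)
    (σ : RingAut F) (r : ℕ) (hr : orderOf σ = r) (hr0 : 0 < r)
    (h : GL (PI n) F) (hh : IsSemisimilarityPair (quadFormPlus (n + 1) F) h σ)
    (ι : F₀ →+* F) (hι : ∀ x, σ x = x ↔ x ∈ Set.range ι) (a₀ b₀ : F₀)
    (hab₀ : ∀ z₁ z₂ : F₀, z₁ ^ 2 + a₀ * z₁ * z₂ + b₀ * z₂ ^ 2 = 0 → z₁ = 0 ∧ z₂ = 0)
    (k : Matrix (PI n) (MI n) F) (k' : Matrix (MI n) (PI n) F) (h1 : k * k' = 1)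
    (h2 : k' * k = 1) (lam e : F) (hlam : lam ≠ 0) (he : e ≠ 0)
    (hk : ∀ v, quadFormPlus (n + 1) F (k *ᵥ v) = lam * quadFormMinus n F (ι a₀) (ι b₀) v)
    (hhk : (h : Matrix (PI n) (PI n) F) * k.map σ = e • k)
    (g : ↥(pscpGrp hR))
    (hcomm : pscpD hR g * semiAut (quadFormPlus (n + 1) F) h σ hh
      = semiAut (quadFormPlus (n + 1) F) h σ hh * pscpD hR g) :
    ∃ γ : ↥(pscmGrp hn1 a₀ b₀ hab₀),
      pscpD hR g = pscpD hR (pscpTh hn1 hR ι a₀ b₀ hab₀ k k' h1 h2 lam hk γ) := by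
  classical
  haveI : Nonempty (MI n) := ⟨Sum.inr 0⟩
  have hQ := Helper45.plusQF_nondeg' (F := F) (n + 1)
  have hn5 : 5 ≤ Fintype.card (PI n) := by
    rw [Fintype.card_sum, Fintype.card_fin]
    omega
  obtain ⟨G, hG⟩ : ∃ G : Matrix (PI n) (PI n) F,
      G = ((g : GL (PI n) F) : Matrix (PI n) (PI n) F) := ⟨_, rfl⟩
  have hgS : IsSemisimilarityPair (quadFormPlus (n + 1) F) g.1 (RingEquiv.refl F) :=
    semi_of_mem _ g.1 g.2.1
  have hq : ∀ (t : F) (w : PI n → F),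
      quadFormPlus (n + 1) F (t • w) = t * t * quadFormPlus (n + 1) F w :=
    fun t w => QuadraticMap.map_smul (Helper43.plusQF (n + 1) F) t w
  have hK1σ : k.map σ * k'.map σ = 1 := by
    rw [← rmat_map_mul, h1, gmat_map_one]
  -- the commutation relation on matrices
  have e1 := Helper45.OO.semiAut_mul (quadFormPlus (n + 1) F) g.1 h (RingEquiv.refl F) σ hgS hh
  have e2 := Helper45.OO.semiAut_mul (quadFormPlus (n + 1) F) h g.1 σ (RingEquiv.refl F) hh hgS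
  rw [pscpD_apply] at hcomm
  have e3 := e1.symm.trans (hcomm.trans e2)
  obtain ⟨-, l, hl⟩ := Helper45.OO.semi_unique (Helper43.plusQF (n + 1) F) hQ hn5 _ _ _ _ _ _ e3
  have hlam' : (h : Matrix (PI n) (PI n) F) * G.map σ
      = l • (G * (h : Matrix (PI n) (PI n) F)) := by
    apply Helper13.mulVec_ext
    intro y
    have h3 := hl (fvec σ⁻¹ y)
    rw [semiMap_eq, semiMap_eq] at h3
    have h4 : fvec (σ * RingEquiv.refl F : RingAut F) (fvec σ⁻¹ y) = y := fvec_inv σ y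
    have h5 : fvec (RingEquiv.refl F * σ : RingAut F) (fvec σ⁻¹ y) = y := fvec_inv σ y
    rw [h4, h5, Units.val_mul, Units.val_mul, Helper45.OO.glMap_coe, Helper45.OO.glMap_refl] at h3
    rw [hG, h3, Matrix.smul_mulVec]
  -- the matrix in the model
  obtain ⟨N, hN⟩ : ∃ N : Matrix (MI n) (MI n) F, N = k' * G * k := ⟨_, rfl⟩
  obtain ⟨N', hN'⟩ : ∃ N' : Matrix (MI n) (MI n) F,
      N' = k' * ((g.1⁻¹ : GL (PI n) F) : Matrix (PI n) (PI n) F) * k := ⟨_, rfl⟩
  have hNN' : N * N' = 1 := by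
    rw [hN, hN', hG]
    simp only [Matrix.mul_assoc]
    rw [← Matrix.mul_assoc k k', h1, Matrix.one_mul,
      ← Matrix.mul_assoc ((g : GL (PI n) F) : Matrix (PI n) (PI n) F), Units.mul_inv,
      Matrix.one_mul, h2]
  have hNσ : N.map σ = l • N := by
    have hh' : (h : Matrix (PI n) (PI n) F) = e • (k * k'.map σ) := by
      calc (h : Matrix (PI n) (PI n) F)
          = (h : Matrix (PI n) (PI n) F) * (k.map σ * k'.map σ) := by
            rw [hK1σ, Matrix.mul_one]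
        _ = e • (k * k'.map σ) := by
            rw [← Matrix.mul_assoc, hhk, Matrix.smul_mul]
    have h6 : k * N.map σ = l • (G * k) := by
      have h7 : (h : Matrix (PI n) (PI n) F) * G.map σ * k.map σ = (l * e) • (G * k) := by
        rw [hlam', Matrix.smul_mul, Matrix.mul_assoc, hhk, Matrix.mul_smul, smul_smul]
      have h8 : (h : Matrix (PI n) (PI n) F) * G.map σ * k.map σ = e • (k * N.map σ) := by
        rw [hN, rmat_map_mul, rmat_map_mul]
        conv_lhs => rw [hh']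
        simp only [Matrix.smul_mul, Matrix.mul_assoc]
      have h9 : e • (k * N.map σ) = e • (l • (G * k)) := by
        rw [← h8, h7, smul_smul, mul_comm]
      exact smul_right_injective _ he h9
    calc N.map σ = k' * (k * N.map σ) := by
          rw [← Matrix.mul_assoc, h2, Matrix.one_mul]
      _ = l • N := by
          rw [h6, Matrix.mul_smul, hN, Matrix.mul_assoc]
  have hσr : σ ^ r = 1 := by rw [← hr, pow_orderOf_eq_one]
  have h4 := gmat_map_pow_smul σ l _ hNσ r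
  rw [hσr, gmat_map_map_one] at h4
  have h5 : PSLn.twR (σ : F →+* F) l r = 1 := by
    have h6 := congrArg (fun M => M * N') h4
    simp only [Matrix.smul_mul, hNN'] at h6
    have h8 : (1 : F) • (1 : Matrix (MI n) (MI n) F)
        = PSLn.twR (σ : F →+* F) l r • (1 : Matrix (MI n) (MI n) F) := by
      rw [one_smul]
      exact h6
    exact (gmat_smul_one_inj _ _ h8).symm
  obtain ⟨b₁, hb₁0, hb₁⟩ := PSLn.lang_h90_scalar σ r hr hr0 l h5
  have hMfix : (b₁ • N).map σ = b₁ • N := by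
    rw [gmat_map_smul, hNσ, smul_smul, mul_comm, hb₁]
  have hex : ∀ i j, ∃ x : F₀, ι x = (b₁ • N) i j :=
    fun i j => (hι _).mp (congrFun (congrFun hMfix i) j)
  choose M₀f hM₀f using hex
  obtain ⟨M₀, hM₀⟩ : ∃ M₀ : Matrix (MI n) (MI n) F₀, M₀.map ι = b₁ • N :=
    ⟨Matrix.of M₀f, by ext i j; exact hM₀f i j⟩
  have hdet : M₀.det ≠ 0 := by
    intro h0
    have h1' := RingHom.map_det ι M₀
    rw [h0, map_zero] at h1'
    have h3 : (M₀.map ι).det = 0 := h1'.symm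
    have h4' : (b₁ • N) * (b₁⁻¹ • N') = 1 := by
      rw [Matrix.smul_mul, Matrix.mul_smul, smul_smul, mul_inv_cancel₀ hb₁0, one_smul, hNN']
    have h5' := congrArg Matrix.det h4'
    rw [Matrix.det_mul, ← hM₀, h3, zero_mul, Matrix.det_one] at h5'
    exact zero_ne_one h5'
  obtain ⟨c, hc⟩ := id g.2.1
  have hMsim : ∀ v, quadFormMinus n F (ι a₀) (ι b₀) (M₀.map ι *ᵥ v)
      = (b₁ * b₁ * (c : F)) * quadFormMinus n F (ι a₀) (ι b₀) v := by
    intro v
    have h1' := hk (M₀.map ι *ᵥ v)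
    have h2' : k *ᵥ (M₀.map ι *ᵥ v) = b₁ • (G *ᵥ (k *ᵥ v)) := by
      rw [hM₀, hN, Matrix.mulVec_mulVec, Matrix.mul_smul, Matrix.smul_mulVec,
        ← Matrix.mul_assoc, ← Matrix.mul_assoc, h1, Matrix.one_mul, ← Matrix.mulVec_mulVec]
    apply mul_left_cancel₀ hlam
    rw [← h1', h2', hq, hG, hc, hk]
    ring
  obtain ⟨c₀, hc₀, hM₀sim⟩ := minus_sim_descend ι a₀ b₀ M₀ _ hMsim
  have hc₀0 : c₀ ≠ 0 := by
    rintro rfl
    rw [map_zero] at hc₀
    exact (mul_ne_zero (mul_ne_zero hb₁0 hb₁0) c.ne_zero) hc₀.symm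
  obtain ⟨γ, hγ⟩ : ∃ γ : GL (MI n) F₀, γ = Matrix.GeneralLinearGroup.mkOfDetNeZero M₀ hdet :=
    ⟨_, rfl⟩
  have hγc : (γ : Matrix (MI n) (MI n) F₀) = M₀ := by
    rw [hγ]
    rfl
  have hγsim : γ ∈ Geo.quadSimilarityGroup (F := F₀) (quadFormMinus n F₀ a₀ b₀) :=
    ⟨Units.mk0 c₀ hc₀0, fun v => by rw [hγc]; exact hM₀sim v⟩
  have hd' : ((scGL b₁ hb₁0 * g.1 : GL (PI n) F) : Matrix (PI n) (PI n) F)
      = k * (γ : Matrix (MI n) (MI n) F₀).map ι * k' := by
    rw [scGL_mul_coe, hγc, hM₀, hN, Matrix.mul_smul, Matrix.smul_mul, ← Matrix.mul_assoc,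
      ← Matrix.mul_assoc, h1, Matrix.one_mul, Matrix.mul_assoc, h1, Matrix.mul_one, hG]
  have hdesc := pscp_descent hn1 hR ι a₀ b₀ hab₀ k k' h1 h2 lam hk γ hγsim
    (scGL b₁ hb₁0 * g.1) hd'
  have hP₀ : PreservesSingularClassesMinus n a₀ b₀ (γ : Matrix (MI n) (MI n) F₀) :=
    hdesc.2.mp (by rw [scGL_mul_coe]; exact (pres_smul _ b₁ hb₁0 _).mpr g.2.2)
  refine ⟨⟨γ, hγsim, hP₀⟩, ?_⟩
  rw [pscpD_apply, pscpD_apply]
  have h3 : semiAut (quadFormPlus (n + 1) F) (scGL b₁ hb₁0 * g.1) (RingEquiv.refl F)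
        (semi_of_mem _ _ hdesc.1)
      = semiAut (quadFormPlus (n + 1) F) g.1 (RingEquiv.refl F) hgS :=
    semiAut_scGL_mul (Helper43.plusQF (n + 1) F) b₁ hb₁0 g.1 (RingEquiv.refl F) hgS
      (semi_of_mem _ _ hdesc.1)
  refine h3.symm.trans (Helper45.OO.semiAut_congr (quadFormPlus (n + 1) F) _ _ ?_ rfl)
  apply Units.ext
  rw [hd', pscpTh_coe]

/-- the kernel of the action over the subfield is the kernel of the action over the big field -/
theorem pscpTh_ker (hn : 4 ≤ n) (hn1 : n ≠ 1)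
    (hR : Helper45.reflGroup (Helper43.plusQF (n + 1) F) = ⊤)
    (ι : F₀ →+* F) (a₀ b₀ : F₀)
    (hab₀ : ∀ z₁ z₂ : F₀, z₁ ^ 2 + a₀ * z₁ * z₂ + b₀ * z₂ ^ 2 = 0 → z₁ = 0 ∧ z₂ = 0)
    (k : Matrix (PI n) (MI n) F) (k' : Matrix (MI n) (PI n) F) (h1 : k * k' = 1)
    (h2 : k' * k = 1) (lam : F)
    (hk : ∀ v, quadFormPlus (n + 1) F (k *ᵥ v) = lam * quadFormMinus n F (ι a₀) (ι b₀) v)
    (γ : ↥(pscmGrp hn1 a₀ b₀ hab₀)) :
    γ ∈ (pscmD hn1 a₀ b₀ hab₀).ker
      ↔ pscpD hR (pscpTh hn1 hR ι a₀ b₀ hab₀ k k' h1 h2 lam hk γ) = 1 := by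
  rw [MonoidHom.mem_ker, pscmD_eq_one_iff (by omega) hn1 a₀ b₀ hab₀,
    pscpD_eq_one_iff (by omega) hR, pscpTh_coe]
  have hιinj : Function.Injective ι := ι.injective
  constructor
  · rintro ⟨c₀, hc₀⟩
    refine ⟨ι c₀, ?_⟩
    rw [hc₀]
    have h1' : (c₀ • (1 : Matrix (MI n) (MI n) F₀)).map ι
        = ι c₀ • (1 : Matrix (MI n) (MI n) F) := by
      rw [Matrix.map_smul' ι c₀ _ (fun x y => map_mul ι x y),
        Matrix.map_one _ (map_zero _) (map_one _)]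
    rw [h1', Matrix.mul_smul, Matrix.smul_mul, Matrix.mul_one, h1]
  · rintro ⟨c, hc⟩
    have h1' : ((γ : GL (MI n) F₀) : Matrix (MI n) (MI n) F₀).map ι
        = c • (1 : Matrix (MI n) (MI n) F) := by
      calc ((γ : GL (MI n) F₀) : Matrix (MI n) (MI n) F₀).map ι
          = k' * (k * ((γ : GL (MI n) F₀) : Matrix (MI n) (MI n) F₀).map ι * k') * k := by
            simp only [Matrix.mul_assoc]
            rw [h2, Matrix.mul_one, ← Matrix.mul_assoc, h2, Matrix.one_mul]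
        _ = c • (1 : Matrix (MI n) (MI n) F) := by
            rw [hc, Matrix.mul_smul, Matrix.smul_mul, Matrix.mul_one, h2]
    refine ⟨((γ : GL (MI n) F₀) : Matrix (MI n) (MI n) F₀) (Sum.inr 0) (Sum.inr 0), ?_⟩
    ext i j
    have h2' := congrFun (congrFun h1' i) j
    have h3 := congrFun (congrFun h1' (Sum.inr 0)) (Sum.inr 0)
    rw [Matrix.map_apply, Matrix.smul_apply, Matrix.one_apply, smul_eq_mul] at h2' h3
    rw [if_pos rfl, mul_one] at h3
    rw [Matrix.smul_apply, Matrix.one_apply, smul_eq_mul]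
    by_cases hij : i = j
    · rw [if_pos hij, mul_one] at h2'
      rw [if_pos hij, mul_one]
      exact hιinj (h2'.trans h3.symm)
    · rw [if_neg hij, mul_zero] at h2'
      rw [if_neg hij, mul_zero]
      exact hιinj (h2'.trans (map_zero ι).symm)

/-- **the centraliser of a graph-field automorphism in `Inndiag(PΩ⁺_{2n+2}(q))`** -/
theorem plus_centralizer_iso (hn : 4 ≤ n)
    (hR : Helper45.reflGroup (Helper43.plusQF (n + 1) F) = ⊤)
    (σ : RingAut F) (r : ℕ) (hr : orderOf σ = r) (hr0 : 0 < r)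
    (h : GL (PI n) F) (hh : IsSemisimilarityPair (quadFormPlus (n + 1) F) h σ)
    (ι : F₀ →+* F) (hι : ∀ x, σ x = x ↔ x ∈ Set.range ι) (a₀ b₀ : F₀)
    (hab₀ : ∀ z₁ z₂ : F₀, z₁ ^ 2 + a₀ * z₁ * z₂ + b₀ * z₂ ^ 2 = 0 → z₁ = 0 ∧ z₂ = 0)
    (k : Matrix (PI n) (MI n) F) (k' : Matrix (MI n) (PI n) F) (h1 : k * k' = 1)
    (h2 : k' * k = 1) (lam e : F) (hlam : lam ≠ 0) (he : e ≠ 0)
    (hk : ∀ v, quadFormPlus (n + 1) F (k *ᵥ v) = lam * quadFormMinus n F (ι a₀) (ι b₀) v)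
    (hhk : (h : Matrix (PI n) (PI n) F) * k.map σ = e • k) :
    Nonempty (↥(inndiagPOmegaPlus (n + 1) F
        ⊓ Subgroup.centralizer {semiAut (quadFormPlus (n + 1) F) h σ hh})
      ≃* ↥(inndiagPOmegaMinus n F₀ a₀ b₀)) := by
  have hn1 : n ≠ 1 := by omega
  obtain ⟨e1⟩ := centralizer_iso_gen (pscpD hR) (inndiagPOmegaPlus (n + 1) F)
    (pscpD_range hR) (pscpTh hn1 hR ι a₀ b₀ hab₀ k k' h1 h2 lam hk)
    (semiAut (quadFormPlus (n + 1) F) h σ hh)
    (fun γ => plus_fixed_comm σ h hh ι hι k k' h1 h2 e he hhk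
      ((γ : GL (MI n) F₀) : Matrix (MI n) (MI n) F₀) _
      (pscpTh_coe hn1 hR ι a₀ b₀ hab₀ k k' h1 h2 lam hk γ) _)
    (fun g hg => plus_comm_descend hn hn1 hR σ r hr hr0 h hh ι hι a₀ b₀ hab₀ k k' h1 h2 lam e
      hlam he hk hhk g hg)
    (pscmD hn1 a₀ b₀ hab₀).ker
    (fun γ => pscpTh_ker hn hn1 hR ι a₀ b₀ hab₀ k k' h1 h2 lam hk γ)
  have e2 : (↥(pscmGrp hn1 a₀ b₀ hab₀) ⧸ (pscmD hn1 a₀ b₀ hab₀).ker)
      ≃* ↥(inndiagPOmegaMinus n F₀ a₀ b₀) :=
    (QuotientGroup.quotientKerEquivRange (pscmD hn1 a₀ b₀ hab₀)).trans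
      (MulEquiv.subgroupCongr (pscmD_range hn1 a₀ b₀ hab₀))
  exact ⟨e1.trans e2⟩

end theta

end Cfsg.Agent.Helper44.POm
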