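import Mathlib
import Cfsg.Agent.Helper44.OmX

/-!
# Graph-field automorphisms of `PΩ⁺`: first properties

* `splitCount_eq_relIndex` : the number of `K`-classes in an `H`-class as an index;
* `graph_field_not_psc` : a semisimilarity inducing a graph-field automorphism interchanges the
  two classes of maximal totally singular subspaces;
* `inndiag_plus_le_inn_char2` : in characteristic two `Inndiag(PΩ⁺) = Inn`.
-/

set_option autoImplicit false
set_option linter.unusedSimpArgs false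
set_option linter.unusedSectionVars false
set_option linter.unusedVariables false

namespace Cfsg.Agent.Helper44.POm

open Matrix Cfsg
open Cfsg.Agent.Helper45.OO (semiAut semiMap glMap polarGram)

universe u v

section count

variable {X : Type*} [Group X]

/-- the number of `K`-classes in the `H`-class of `x` is the index in `H` of the subgroup of the
elements of `H` conjugating `x` into its `K`-class -/
theorem splitCount_eq_relIndex (H K N : Subgroup X) (x : X)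
    (hnorm : ∀ h ∈ H, ∀ k ∈ K, h * k * h⁻¹ ∈ K)
    (hN : ∀ g ∈ H, g ∈ N ↔ ∃ t ∈ K, g * x * g⁻¹ = t * x * t⁻¹) :
    splitClassCount H K x = N.relIndex H := by
  classical
  obtain ⟨r, hr⟩ : ∃ r : {y : X // IsConjUnder H x y} → {y : X // IsConjUnder H x y} → Prop,
      r = fun y z => IsConjUnder K y.1 z.1 := ⟨_, rfl⟩
  have hEq : Equivalence r := by
    rw [hr]
    refine ⟨fun y => ⟨1, one_mem K, by simp⟩, ?_, ?_⟩
    · rintro y z ⟨h, hh, e⟩
      exact ⟨h⁻¹, inv_mem hh, by rw [e]; group⟩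
    · rintro y z w ⟨h, hh, e⟩ ⟨h', hh', e'⟩
      exact ⟨h' * h, mul_mem hh' hh, by rw [e', e]; group⟩
  have hwd : ∀ a b : ↥H, (QuotientGroup.leftRel (N.subgroupOf H)) a b →
      Quot.mk r (⟨a.1 * x * a.1⁻¹, a.1, a.2, rfl⟩ : {y : X // IsConjUnder H x y})
        = Quot.mk r ⟨b.1 * x * b.1⁻¹, b.1, b.2, rfl⟩ := by
    intro a b hab
    have hab' : a⁻¹ * b ∈ N.subgroupOf H := QuotientGroup.leftRel_apply.mp hab
    rw [Subgroup.mem_subgroupOf] at hab'
    obtain ⟨t, ht, e⟩ := (hN _ (a⁻¹ * b).2).mp hab'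
    simp only [Subgroup.coe_mul, Subgroup.coe_inv] at e
    apply Quot.sound
    rw [hr]
    refine ⟨a.1 * t * a.1⁻¹, hnorm a.1 a.2 t ht, ?_⟩
    show b.1 * x * b.1⁻¹ = a.1 * t * a.1⁻¹ * (a.1 * x * a.1⁻¹) * (a.1 * t * a.1⁻¹)⁻¹
    have e' : b.1 * x * b.1⁻¹ = a.1 * (a.1⁻¹ * b.1 * x * (a.1⁻¹ * b.1)⁻¹) * a.1⁻¹ := by group
    rw [e', e]
    group
  obtain ⟨f, hf⟩ : ∃ f : ↥H ⧸ N.subgroupOf H → Quot r, ∀ a : ↥H,
      f (QuotientGroup.mk a) = Quot.mk r ⟨a.1 * x * a.1⁻¹, a.1, a.2, rfl⟩ :=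
    ⟨Quotient.lift (s := QuotientGroup.leftRel (N.subgroupOf H))
      (fun a : ↥H => Quot.mk r ⟨a.1 * x * a.1⁻¹, a.1, a.2, rfl⟩) hwd, fun a => rfl⟩
  have hinj : Function.Injective f := by
    intro qa qb hq
    obtain ⟨a, rfl⟩ := QuotientGroup.mk_surjective qa
    obtain ⟨b, rfl⟩ := QuotientGroup.mk_surjective qb
    rw [hf, hf] at hq
    have h1 := (hEq.eqvGen_iff).mp (Quot.eq.mp hq)
    rw [hr] at h1
    obtain ⟨t, ht, e⟩ := h1
    rw [QuotientGroup.eq, Subgroup.mem_subgroupOf, hN _ (a⁻¹ * b).2]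
    refine ⟨a.1⁻¹ * t * a.1, ?_, ?_⟩
    · have h2 := hnorm a.1⁻¹ (H.inv_mem a.2) t ht
      rwa [inv_inv] at h2
    · simp only [Subgroup.coe_mul, Subgroup.coe_inv]
      have e' : a.1⁻¹ * b.1 * x * (a.1⁻¹ * b.1)⁻¹ = a.1⁻¹ * (b.1 * x * b.1⁻¹) * a.1 := by group
      have e2 : b.1 * x * b.1⁻¹ = t * (a.1 * x * a.1⁻¹) * t⁻¹ := e
      rw [e', e2]
      group
  have hsurj : Function.Surjective f := by
    intro q
    induction q using Quot.ind with
    | _ y =>
      obtain ⟨y, g, hg, rfl⟩ := y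
      exact ⟨QuotientGroup.mk ⟨g, hg⟩, hf _⟩
  subst hr
  unfold splitClassCount Subgroup.relIndex Subgroup.index
  exact (Nat.card_congr (Equiv.ofBijective f ⟨hinj, hsurj⟩)).symm

end count

section basics

variable {F : Type u} [Field F] [Fintype F] {m : ℕ}

omit [Fintype F] in
theorem sim_of_semi (k : GL (Fin m ⊕ Fin m) F) (ρ : RingAut F)
    (hk : IsSemisimilarityPair (quadFormPlus m F) k ρ) :
    k ∈ Geo.quadSimilarityGroup (F := F) (quadFormPlus m F) := by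
  obtain ⟨c, hc⟩ := hk
  refine ⟨c, fun v => ?_⟩
  obtain ⟨v', rfl⟩ : ∃ v', v = fvec ρ v' := ⟨fvec ρ⁻¹ v, (fvec_inv ρ v).symm⟩
  rw [qplus_fvec]
  exact hc v'

/-- a semisimilarity inducing a graph-field automorphism interchanges the two classes -/
theorem graph_field_not_psc (hm : 5 ≤ m) (hR : Helper45.reflGroup (Helper43.plusQF m F) = ⊤)
    (Θ : MulAut (POmega F (quadFormPlus m F)) →* RingAut F)
    (hΘ2 : ∀ α : MulAut (POmega F (quadFormPlus m F)),
      ∃ (g : GL (Fin m ⊕ Fin m) F) (hg : IsSemisimilarityPair (quadFormPlus m F) g (Θ α)),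
        α = semiAut (quadFormPlus m F) g (Θ α) hg)
    (x : MulAut (POmega F (quadFormPlus m F))) (hx : IsGraphFieldAutClassPOmegaPlus m x)
    (σ : RingAut F) (h : GL (Fin m ⊕ Fin m) F)
    (hh : IsSemisimilarityPair (quadFormPlus m F) h σ)
    (ex : x = semiAut (quadFormPlus m F) h σ hh) :
    ¬ PreservesSingularClasses (quadFormPlus m F)
      (h : Matrix (Fin m ⊕ Fin m) (Fin m ⊕ Fin m) F) := by
  classical
  have hQ := Helper45.plusQF_nondeg' (F := F) m
  have hn5 : 5 ≤ Fintype.card (Fin m ⊕ Fin m) := by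
    rw [Fintype.card_sum, Fintype.card_fin]
    omega
  obtain ⟨α, γ, φ, σ', v, rr, hσ', hv, hσv, hrr, hγ, hφ, e⟩ := hx
  have hrs : IsSemisimilarityPair (quadFormPlus m F) rr (RingEquiv.refl F) := by
    refine ⟨1, fun w => ?_⟩
    rw [hrr, Units.val_one, one_mul]
    exact Helper13.reflection_preserves (Helper43.plusQF m F) v hv w
  have hγ' : γ = semiAut (quadFormPlus m F) rr (RingEquiv.refl F) hrs :=
    (Helper45.OO.semi_ind_iff _ _ _ hrs _).mp hγ
  have h1s : IsSemisimilarityPair (quadFormPlus m F) (1 : GL (Fin m ⊕ Fin m) F) σ' := by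
    refine ⟨1, fun w => ?_⟩
    rw [Units.val_one, Matrix.one_mulVec, Units.val_one, one_mul]
    exact qplus_fvec σ' w
  have hφ' : φ = semiAut (quadFormPlus m F) 1 σ' h1s := by
    apply (Helper45.OO.semi_ind_iff _ _ σ' h1s _).mp
    intro s s' hss'
    apply hφ s s'
    rw [hss', Units.val_one, Matrix.one_mul, inv_one, Units.val_one, Matrix.mul_one]
  obtain ⟨τ, a, ha, eα⟩ : ∃ (τ : RingAut F) (a : GL (Fin m ⊕ Fin m) F)
      (ha : IsSemisimilarityPair (quadFormPlus m F) a τ),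
      α = semiAut (quadFormPlus m F) a τ ha := by
    obtain ⟨a, ha, e⟩ := hΘ2 α
    exact ⟨Θ α, a, ha, e⟩
  have e' : α * x = γ * φ * α := by
    rw [← e]
    group
  rw [eα, ex, hγ', hφ'] at e'
  rw [Helper45.OO.semiAut_mul, Helper45.OO.semiAut_mul, Helper45.OO.semiAut_mul] at e'
  obtain ⟨hσeq, l, hl⟩ := Helper45.OO.semi_unique (Helper43.plusQF m F) hQ hn5 _ _ _ _ _ _ e'
  have hmat : ((rr * glMap (RingEquiv.refl F) 1 * glMap (RingEquiv.refl F * σ' : RingAut F) a :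
        GL (Fin m ⊕ Fin m) F) : Matrix (Fin m ⊕ Fin m) (Fin m ⊕ Fin m) F)
      = l • ((a * glMap τ h : GL (Fin m ⊕ Fin m) F) :
        Matrix (Fin m ⊕ Fin m) (Fin m ⊕ Fin m) F) := by
    apply Helper13.mulVec_ext
    intro z
    have h3 := hl (fvec (τ * σ : RingAut F)⁻¹ z)
    rw [semiMap_eq, semiMap_eq, hσeq, fvec_inv] at h3
    rw [h3, Matrix.smul_mulVec]
  have hl0 : l ≠ 0 := by
    rintro rfl
    rw [zero_smul] at hmat
    have hu1 : IsUnit ((rr * glMap (RingEquiv.refl F) 1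
        * glMap (RingEquiv.refl F * σ' : RingAut F) a : GL (Fin m ⊕ Fin m) F) :
        Matrix (Fin m ⊕ Fin m) (Fin m ⊕ Fin m) F) := Units.isUnit _
    rw [hmat] at hu1
    have h4 := (Matrix.isUnit_iff_isUnit_det _).mp hu1
    haveI : Nonempty (Fin m ⊕ Fin m) := ⟨Sum.inl ⟨0, by omega⟩⟩
    rw [Matrix.det_zero] at h4
    exact not_isUnit_zero h4
  obtain ⟨u, hu⟩ := isCls_exists a (sim_of_semi a τ ha)
  obtain ⟨w, hw⟩ := isCls_exists h (sim_of_semi h σ hh)
  have hv' : Helper43.plusQF m F v ≠ 0 := hv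
  have hcr : IsCls m (rr : Matrix (Fin m ⊕ Fin m) (Fin m ⊕ Fin m) F) 1 := by
    have h1 := isCls_iso (Helper45.reflO (Helper43.plusQF m F) v hv')
    rw [Helper45.dick_refl _ hQ] at h1
    rw [hrr]
    exact h1
  have hL : IsCls m ((rr * glMap (RingEquiv.refl F) 1
      * glMap (RingEquiv.refl F * σ' : RingAut F) a : GL (Fin m ⊕ Fin m) F) :
      Matrix (Fin m ⊕ Fin m) (Fin m ⊕ Fin m) F) (1 + 0 + u) := by
    rw [Units.val_mul, Units.val_mul, Helper45.OO.glMap_coe, Helper45.OO.glMap_coe]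
    exact isCls_mul hR _ _ _ _ (isCls_mul hR _ _ _ _ hcr
      (by rw [Units.val_one]; exact isCls_map _ _ _ isCls_one)) (isCls_map _ _ _ hu)
  have hRc : IsCls m ((a * glMap τ h : GL (Fin m ⊕ Fin m) F) :
      Matrix (Fin m ⊕ Fin m) (Fin m ⊕ Fin m) F) (u + w) := by
    rw [Units.val_mul, Helper45.OO.glMap_coe]
    exact isCls_mul hR _ _ _ _ hu (isCls_map _ _ _ hw)
  intro hP
  have hw0 := (isCls_psc hR _ _ hw).mp hP
  have h5 := isCls_psc hR _ _ hL
  rw [hmat, pres_smul _ l hl0, isCls_psc hR _ _ hRc, hw0] at h5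
  have key : ∀ u : ZMod 2, ¬ ((u + 0 = 0) ↔ (1 + 0 + u = 0)) := by decide
  exact key u h5

/-- in characteristic two every inner-diagonal automorphism of `PΩ⁺` is inner -/
theorem inndiag_plus_le_inn_char2 (hm : 3 ≤ m) (h2 : ringChar F = 2)
    (hR : Helper45.reflGroup (Helper43.plusQF m F) = ⊤) :
    inndiagPOmegaPlus m F ≤ Inn (POmega F (quadFormPlus m F)) := by
  intro δ hδ
  have hQ := Helper45.plusQF_nondeg' (F := F) m
  obtain ⟨d, hd, hP, hind⟩ := inndiag_plus_rep hR δ hδ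
  obtain ⟨c, hc⟩ := id hd
  obtain ⟨s, hs⟩ := FiniteField.isSquare_of_char_two h2 (c : F)
  have hs0 : s ≠ 0 := by
    rintro rfl
    rw [mul_zero] at hs
    exact c.ne_zero hs
  have hmem : scGL s⁻¹ (inv_ne_zero hs0) * d ∈ isometryGroup F ⇑(Helper43.plusQF m F) := by
    rw [Helper45.mem_iso_iff]
    intro v
    rw [scGL_mul_coe, Matrix.smul_mulVec, QuadraticMap.map_smul]
    have h3 : Helper43.plusQF m F ((d : Matrix (Fin m ⊕ Fin m) (Fin m ⊕ Fin m) F) *ᵥ v)
        = (c : F) * Helper43.plusQF m F v := hc v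
    rw [h3, hs, smul_eq_mul]
    field_simp
  obtain ⟨g', hg'⟩ : ∃ g' : ↥(isometryGroup F ⇑(Helper43.plusQF m F)),
      g' = ⟨scGL s⁻¹ (inv_ne_zero hs0) * d, hmem⟩ := ⟨_, rfl⟩
  have hg'v : ((g' : GL (Fin m ⊕ Fin m) F) : Matrix (Fin m ⊕ Fin m) (Fin m ⊕ Fin m) F)
      = s⁻¹ • (d : Matrix (Fin m ⊕ Fin m) (Fin m ⊕ Fin m) F) := by
    rw [hg']
    exact scGL_mul_coe _ _ _
  have hPg : PreservesSingularClasses (quadFormPlus m F)
      ((g' : GL (Fin m ⊕ Fin m) F) : Matrix (Fin m ⊕ Fin m) (Fin m ⊕ Fin m) F) := by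
    rw [hg'v]
    exact (pres_smul _ s⁻¹ (inv_ne_zero hs0) _).mpr hP
  have d1 : Helper45.dick (Helper43.plusQF m F) g' = 0 :=
    (isCls_psc hR _ _ (isCls_iso g')).mp hPg
  haveI : CharP F 2 := ringChar.of_eq h2
  have hg'Ω : g' ∈ Omega F ⇑(Helper43.plusQF m F) :=
    (Helper45.mem_omega_iff_dick _ hQ (Or.inr (by
      rw [Fintype.card_sum, Fintype.card_fin]
      omega)) g').mpr d1
  apply Helper45.mem_inn_of_ind_omega (Helper43.plusQF m F) g' hg'Ω δ
  have e0 := (Helper45.OO.semi_ind_iff _ d (RingEquiv.refl F) (semi_of_mem _ d hd) δ).mp hind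
  have hg'S : IsSemisimilarityPair (quadFormPlus m F) (g' : GL (Fin m ⊕ Fin m) F)
      (RingEquiv.refl F) := semi_of_mem _ _ (Helper45.iso_le_sim _ g'.2)
  apply (Helper45.OO.semi_ind_iff _ _ (RingEquiv.refl F) hg'S δ).mpr
  rw [e0]
  subst hg'
  exact (semiAut_scGL_mul (Helper43.plusQF m F) s⁻¹ (inv_ne_zero hs0) d (RingEquiv.refl F)
    (semi_of_mem _ d hd) _).symm

end basics

end Cfsg.Agent.Helper44.POm
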