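import Mathlib
import Cfsg.Agent.Helper44.OmY

/-!
# Involutory graph-field automorphisms of `PΩ⁺_{2n+2}(q)`, `q` odd: the class count

The centraliser of the graph-field automorphism in `Inndiag` comes from the class-preserving
similarities of the minus-type form over the fixed field `F₀`; its image modulo the inner
automorphisms is decided by the spinor norm of one explicit similarity.
-/

set_option autoImplicit false
set_option linter.unusedSimpArgs false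
set_option linter.unusedSectionVars false
set_option linter.unusedVariables false

namespace Cfsg.Agent.Helper44.POm

open Matrix Cfsg
open Cfsg.Agent.Helper45.OO (semiAut semiMap glMap polarGram)

universe u v

section arith

variable {F : Type u} [Field F] {F₀ : Type v} [Field F₀]

/-- the norm of a square is the image of a square -/
theorem norm_of_isSquare (σ : RingAut F) (hσ2 : ∀ y, σ (σ y) = y) (ι : F₀ →+* F)
    (hι : ∀ x, σ x = x ↔ x ∈ Set.range ι) (y : F) (hy : IsSquare y) :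
    ∃ w : F₀, y * σ y = ι (w * w) := by
  obtain ⟨u, rfl⟩ := hy
  have hfix : σ (u * σ u) = u * σ u := by rw [map_mul, hσ2, mul_comm]
  obtain ⟨w, hw⟩ := (hι _).mp hfix
  refine ⟨w, ?_⟩
  rw [map_mul ι, hw, map_mul σ]
  ring

/-- a square root of a non-square of the fixed field is negated -/
theorem sigma_sqrt (σ : RingAut F) (ι : F₀ →+* F) (hι : ∀ x, σ x = x ↔ x ∈ Set.range ι)
    (c₀ : F₀) (hc₀ : ¬ IsSquare c₀) (s : F) (hs : s * s = ι c₀) : σ s = -s := by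
  have h1 : σ s * σ s = s * s := by
    rw [← map_mul, hs]
    exact (hι _).mpr ⟨c₀, rfl⟩
  have h2 : (σ s - s) * (σ s + s) = 0 := by linear_combination h1
  rcases mul_eq_zero.mp h2 with h3 | h3
  · exfalso
    obtain ⟨w, hw⟩ := (hι _).mp (sub_eq_zero.mp h3)
    apply hc₀
    refine ⟨w, ι.injective ?_⟩
    rw [map_mul, hw, hs]
  · exact eq_neg_of_add_eq_zero_left h3

/-- the discriminant-type quantity attached to a representation of a non-square by an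
anisotropic binary form is a non-square -/
theorem disc_not_isSquare (a₀ b₀ : F₀)
    (hab₀ : ∀ z₁ z₂ : F₀, z₁ ^ 2 + a₀ * z₁ * z₂ + b₀ * z₂ ^ 2 = 0 → z₁ = 0 ∧ z₂ = 0)
    (h2₀ : (2 : F₀) ≠ 0) (c₀ z₁ z₂ : F₀) (hz : z₁ ^ 2 + a₀ * z₁ * z₂ + b₀ * z₂ ^ 2 = c₀)
    (hc₀ : ¬ IsSquare c₀) : ¬ IsSquare ((2 * z₁ + a₀ * z₂) ^ 2 - 4 * c₀) := by
  rintro ⟨w, hw⟩
  have h1 : ((w - a₀ * z₂) / 2) ^ 2 + a₀ * ((w - a₀ * z₂) / 2) * z₂ + b₀ * z₂ ^ 2 = 0 := by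
    field_simp
    linear_combination (-1 : F₀) * hw + 4 * hz
  have h3 := (hab₀ _ _ h1).2
  apply hc₀
  refine ⟨z₁, ?_⟩
  rw [← hz, h3]
  ring

variable [Fintype F] [Fintype F₀]

/-- the element `2 s + t` is not a square -/
theorem T_not_isSquare (σ : RingAut F) (hσ2 : ∀ y, σ (σ y) = y) (ι : F₀ →+* F)
    (hι : ∀ x, σ x = x ↔ x ∈ Set.range ι) (a₀ b₀ : F₀)
    (hab₀ : ∀ z₁ z₂ : F₀, z₁ ^ 2 + a₀ * z₁ * z₂ + b₀ * z₂ ^ 2 = 0 → z₁ = 0 ∧ z₂ = 0)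
    (h2 : (2 : F) ≠ 0) (c₀ z₁ z₂ : F₀) (hz : z₁ ^ 2 + a₀ * z₁ * z₂ + b₀ * z₂ ^ 2 = c₀)
    (hc₀ : ¬ IsSquare c₀) (s : F) (hs : s * s = ι c₀) :
    ¬ IsSquare (2 * s + 2 * ι z₁ + ι a₀ * ι z₂) ∧
      (2 * s + 2 * ι z₁ + ι a₀ * ι z₂) * σ (2 * s + 2 * ι z₁ + ι a₀ * ι z₂)
        = ι ((2 * z₁ + a₀ * z₂) ^ 2 - 4 * c₀) := by
  have hσs := sigma_sqrt σ ι hι c₀ hc₀ s hs
  have hf : ∀ z : F₀, σ (ι z) = ι z := fun z => (hι _).mpr ⟨z, rfl⟩
  have hprod : (2 * s + 2 * ι z₁ + ι a₀ * ι z₂) * σ (2 * s + 2 * ι z₁ + ι a₀ * ι z₂)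
      = ι ((2 * z₁ + a₀ * z₂) ^ 2 - 4 * c₀) := by
    rw [map_add, map_add, map_mul, map_mul, map_mul, hσs, hf, hf, hf, map_ofNat]
    simp only [map_sub, map_pow, map_mul, map_add, map_ofNat]
    rw [← hs]
    ring
  refine ⟨?_, hprod⟩
  intro hsq
  obtain ⟨w, hw⟩ := norm_of_isSquare σ hσ2 ι hι _ hsq
  rw [hprod] at hw
  exact disc_not_isSquare a₀ b₀ hab₀ (two_ne_zero_sub h2 ι) c₀ z₁ z₂ hz hc₀ ⟨w, ι.injective hw⟩

/-- **the square class of the spinor norm of the explicit similarity** -/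
theorem sqclass_main (σ : RingAut F) (hσ2 : ∀ y, σ (σ y) = y) (ι : F₀ →+* F)
    (hι : ∀ x, σ x = x ↔ x ∈ Set.range ι) (a₀ b₀ : F₀)
    (hab₀ : ∀ z₁ z₂ : F₀, z₁ ^ 2 + a₀ * z₁ * z₂ + b₀ * z₂ ^ 2 = 0 → z₁ = 0 ∧ z₂ = 0)
    (h2 : (2 : F) ≠ 0) (c₀ z₁ z₂ : F₀) (hz : z₁ ^ 2 + a₀ * z₁ * z₂ + b₀ * z₂ ^ 2 = c₀)
    (hc₀ : ¬ IsSquare c₀) (s : F) (hs : s * s = ι c₀) (n : ℕ) :
    IsSquare (s ^ n * (s * (2 * s + 2 * ι z₁ + ι a₀ * ι z₂)))
      ↔ (Even n ∧ Fintype.card F₀ % 4 = 1) := by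
  have h2₀ : (2 : F₀) ≠ 0 := two_ne_zero_sub h2 ι
  have hodd₀ : Fintype.card F₀ % 2 = 1 :=
    FiniteField.odd_card_of_char_ne_two (Helper45.ringChar_ne_two h2₀)
  have hc₀0 : c₀ ≠ 0 := by
    rintro rfl
    exact hc₀ ⟨0, by simp⟩
  have hs0 : s ≠ 0 := by
    rintro rfl
    rw [mul_zero] at hs
    exact hc₀0 (ι.injective (by rw [map_zero]; exact hs.symm))
  obtain ⟨hT, hTσ⟩ := T_not_isSquare σ hσ2 ι hι a₀ b₀ hab₀ h2 c₀ z₁ z₂ hz hc₀ s hs
  have hD := disc_not_isSquare a₀ b₀ hab₀ h2₀ c₀ z₁ z₂ hz hc₀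
  have hD0 : (2 * z₁ + a₀ * z₂) ^ 2 - 4 * c₀ ≠ 0 := by
    intro h0
    exact hD ⟨0, by rw [h0]; ring⟩
  have hσs := sigma_sqrt σ ι hι c₀ hc₀ s hs
  obtain ⟨T, hTdef⟩ : ∃ T : F, T = 2 * s + 2 * ι z₁ + ι a₀ * ι z₂ := ⟨_, rfl⟩
  obtain ⟨D', hD'def⟩ : ∃ D' : F₀, D' = (2 * z₁ + a₀ * z₂) ^ 2 - 4 * c₀ := ⟨_, rfl⟩
  rw [← hTdef] at hT hTσ ⊢
  rw [← hD'def] at hTσ hD hD0
  rcases Nat.even_or_odd n with ⟨j, hj⟩ | ⟨j, hj⟩
  · have e1 : s ^ n * (s * T) = s ^ j * s ^ j * (s * T) := by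
      rw [hj]
      ring
    rw [e1, Helper45.isSquare_sq_mul_iff (pow_ne_zero j hs0)]
    have hev : Even n := ⟨j, hj⟩
    constructor
    · intro hsq
      refine ⟨hev, ?_⟩
      obtain ⟨w, hw⟩ := norm_of_isSquare σ hσ2 ι hι _ hsq
      have h5 : ι (-c₀ * D') = ι (w * w) := by
        rw [← hw, map_mul σ, hσs, map_mul, map_neg, ← hs, ← hTσ]
        ring
      have h6 : -c₀ * D' = w * w := ι.injective h5
      by_contra h41
      have h43 : Fintype.card F₀ % 4 = 3 := by omega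
      have hneg : ¬ IsSquare (-1 : F₀) := by
        rw [FiniteField.isSquare_neg_one_iff]
        exact fun h => h h43
      have h7 : IsSquare (-1 * c₀) := Helper45.isSquare_mul_of_not h2₀ hneg hc₀
      have h8 : ¬ IsSquare (D' * (-1 * c₀)) :=
        Helper45.not_isSquare_mul hD h7 (mul_ne_zero (neg_ne_zero.mpr one_ne_zero) hc₀0)
      apply h8
      refine ⟨w, ?_⟩
      rw [← h6]
      ring
    · rintro ⟨-, h41⟩
      by_contra hns
      have hneg : IsSquare (-1 : F₀) := by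
        rw [FiniteField.isSquare_neg_one_iff]
        omega
      obtain ⟨i, hi⟩ := hneg
      have h7 : IsSquare (s * T * T) := Helper45.isSquare_mul_of_not h2 hns hT
      obtain ⟨w, hw⟩ := norm_of_isSquare σ hσ2 ι hι _ h7
      have h5 : ι (-c₀ * D' * D') = ι (w * w) := by
        rw [← hw, map_mul σ, map_mul σ, hσs, map_mul, map_mul, map_neg, ← hs, ← hTσ]
        ring
      have h6 : -c₀ * D' * D' = w * w := ι.injective h5
      apply hc₀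
      refine ⟨i * w / D', ?_⟩
      field_simp
      linear_combination (-1 : F₀) * h6 + (w * w) * hi
  · have e1 : s ^ n * (s * T) = s ^ (j + 1) * s ^ (j + 1) * T := by
      rw [hj]
      ring
    rw [e1, Helper45.isSquare_sq_mul_iff (pow_ne_zero (j + 1) hs0)]
    constructor
    · intro h
      exact absurd h hT
    · rintro ⟨hev, -⟩
      exfalso
      exact (Nat.not_even_iff_odd.mpr ⟨j, hj⟩) hev

end arith

section spin

variable {F : Type u} [Field F] [Fintype F] {F₀ : Type v} [Field F₀] [Fintype F₀] {n : ℕ}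

/-- the orthogonal group of the minus-type form over the subfield, inside the orthogonal group of
the hyperbolic form, through a model -/
noncomputable def psiO (ι : F₀ →+* F) (a₀ b₀ : F₀)
    (k : Matrix (PI n) (MI n) F) (k' : Matrix (MI n) (PI n) F) (h1 : k * k' = 1)
    (h2 : k' * k = 1) (lam : F)
    (hk : ∀ v, quadFormPlus (n + 1) F (k *ᵥ v) = lam * quadFormMinus n F (ι a₀) (ι b₀) v) :
    ↥(isometryGroup F₀ ⇑(Helper43.minusQF n F₀ a₀ b₀))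
      →* ↥(isometryGroup F ⇑(Helper43.plusQF (n + 1) F)) :=
  (((rectGL k k' h1 h2).comp (Matrix.GeneralLinearGroup.map ι)).comp
    (Subgroup.subtype _)).codRestrict _ (fun g₀ => by
      rw [Helper45.mem_iso_iff]
      intro v
      show quadFormPlus (n + 1) F ((k * ((g₀ : GL (MI n) F₀) : Matrix (MI n) (MI n) F₀).map ι
        * k') *ᵥ v) = quadFormPlus (n + 1) F v
      rw [← Matrix.mulVec_mulVec, ← Matrix.mulVec_mulVec, hk,
        minus_sim_map ι a₀ b₀ _ 1 (fun w => by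
          rw [one_mul]; exact (Helper45.mem_iso_iff _ _).mp g₀.2 w),
        map_one, one_mul, ← hk, Matrix.mulVec_mulVec, h1, Matrix.one_mulVec])

omit [Fintype F] [Fintype F₀] in
theorem psiO_coe (ι : F₀ →+* F) (a₀ b₀ : F₀)
    (k : Matrix (PI n) (MI n) F) (k' : Matrix (MI n) (PI n) F) (h1 : k * k' = 1)
    (h2 : k' * k = 1) (lam : F)
    (hk : ∀ v, quadFormPlus (n + 1) F (k *ᵥ v) = lam * quadFormMinus n F (ι a₀) (ι b₀) v)
    (g₀ : ↥(isometryGroup F₀ ⇑(Helper43.minusQF n F₀ a₀ b₀))) :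
    (((psiO ι a₀ b₀ k k' h1 h2 lam hk g₀ : ↥(isometryGroup F ⇑(Helper43.plusQF (n + 1) F))) :
      GL (PI n) F) : Matrix (PI n) (PI n) F)
    = k * ((g₀ : GL (MI n) F₀) : Matrix (MI n) (MI n) F₀).map ι * k' := rfl

omit [Fintype F] [Fintype F₀] in
theorem psiO_reflO (ι : F₀ →+* F) (a₀ b₀ : F₀)
    (k : Matrix (PI n) (MI n) F) (k' : Matrix (MI n) (PI n) F) (h1 : k * k' = 1)
    (h2 : k' * k = 1) (lam : F) (hlam : lam ≠ 0)
    (hk : ∀ v, quadFormPlus (n + 1) F (k *ᵥ v) = lam * quadFormMinus n F (ι a₀) (ι b₀) v)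
    (v : MI n → F₀) (hv : Helper43.minusQF n F₀ a₀ b₀ v ≠ 0)
    (hv' : Helper43.plusQF (n + 1) F (k *ᵥ (fun i => ι (v i))) ≠ 0) :
    psiO ι a₀ b₀ k k' h1 h2 lam hk (Helper45.reflO (Helper43.minusQF n F₀ a₀ b₀) v hv)
      = Helper45.reflO (Helper43.plusQF (n + 1) F) (k *ᵥ (fun i => ι (v i))) hv' := by
  apply Subtype.ext
  apply Units.ext
  show k * (reflectionMatrix (quadFormMinus n F₀ a₀ b₀) v).map ι * k'
    = reflectionMatrix (quadFormPlus (n + 1) F) (k *ᵥ fun i => ι (v i))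
  rw [minus_refl_map ι a₀ b₀ v]
  exact refl_rect (Helper43.plusQF (n + 1) F) (Helper43.minusQF n F (ι a₀) (ι b₀)) k k' h1 h2
    lam hlam hk _

/-- the special orthogonal group over the subfield lands in `Ω` of the hyperbolic form -/
theorem psiO_mem_omega (hodd : Odd (Fintype.card F)) (ι : F₀ →+* F)
    (hsq : ∀ c : F₀, IsSquare (ι c)) (a₀ b₀ : F₀)
    (hab₀ : ∀ z₁ z₂ : F₀, z₁ ^ 2 + a₀ * z₁ * z₂ + b₀ * z₂ ^ 2 = 0 → z₁ = 0 ∧ z₂ = 0)
    (k : Matrix (PI n) (MI n) F) (k' : Matrix (MI n) (PI n) F) (h1 : k * k' = 1)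
    (h2 : k' * k = 1) (lam : F) (hlam : lam ≠ 0)
    (hk : ∀ v, quadFormPlus (n + 1) F (k *ᵥ v) = lam * quadFormMinus n F (ι a₀) (ι b₀) v)
    (γ : ↥(isometryGroup F₀ ⇑(Helper43.minusQF n F₀ a₀ b₀)))
    (hdet : ((γ : GL (MI n) F₀) : Matrix (MI n) (MI n) F₀).det = 1) :
    psiO ι a₀ b₀ k k' h1 h2 lam hk γ ∈ Omega F ⇑(Helper43.plusQF (n + 1) F) := by
  have h2F : (2 : F) ≠ 0 := Helper45.two_ne_zero_of_odd_card hodd
  have h2₀ : (2 : F₀) ≠ 0 := two_ne_zero_sub h2F ι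
  have hQ := Helper45.plusQF_nondeg' (F := F) (n + 1)
  have hQ₀ := Helper45.minusQF_nondeg' (F := F₀) n a₀ b₀ hab₀
  have hcard2 : 2 ≤ Fintype.card (PI n) := by
    rw [Fintype.card_sum, Fintype.card_fin]
    omega
  have hR₀ : Helper45.reflGroup (Helper43.minusQF n F₀ a₀ b₀) = ⊤ :=
    Helper45.reflGroup_eq_top _ h2₀ hQ₀
  have hR' : Subgroup.closure {s : ↥(isometryGroup F₀ ⇑(Helper43.minusQF n F₀ a₀ b₀)) |
      ∃ (v : MI n → F₀) (hv : Helper43.minusQF n F₀ a₀ b₀ v ≠ 0),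
        s = Helper45.reflO (Helper43.minusQF n F₀ a₀ b₀) v hv} = ⊤ := hR₀
  obtain ⟨ε, hε⟩ := FiniteField.exists_nonsquare (Helper45.ringChar_ne_two h2F)
  have hnorm : ∀ v : MI n → F₀, Helper43.plusQF (n + 1) F (k *ᵥ (fun i => ι (v i)))
      = lam * ι (Helper43.minusQF n F₀ a₀ b₀ v) := by
    intro v
    show quadFormPlus (n + 1) F (k *ᵥ fun i => ι (v i)) = lam * ι (quadFormMinus n F₀ a₀ b₀ v)
    rw [hk, qminus_map]
  have hd : (((psiO ι a₀ b₀ k k' h1 h2 lam hk γ :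
      ↥(isometryGroup F ⇑(Helper43.plusQF (n + 1) F))) : GL (PI n) F) :
      Matrix (PI n) (PI n) F).det = 1 := by
    rw [psiO_coe, Matrix.det_conj_of_mul_eq_one h1 h2]
    have h4 : (((γ : GL (MI n) F₀) : Matrix (MI n) (MI n) F₀).map ι).det
        = ι ((γ : GL (MI n) F₀) : Matrix (MI n) (MI n) F₀).det := (RingHom.map_det ι _).symm
    rw [h4, hdet, map_one]
  have h3 := (Helper45.det_eq_one_iff (Helper43.plusQF (n + 1) F) h2F hQ ε hε _).mp hd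
  by_cases hl : IsSquare lam
  · have hχ : (Helper45.spin ⇑(Helper43.plusQF (n + 1) F) ε).comp
        (psiO ι a₀ b₀ k k' h1 h2 lam hk) = 1 := by
      apply MonoidHom.eq_of_eqOn_dense hR'
      rintro s ⟨v, hv, rfl⟩
      have hv' : Helper43.plusQF (n + 1) F (k *ᵥ (fun i => ι (v i))) ≠ 0 := by
        rw [hnorm]
        exact mul_ne_zero hlam ((map_ne_zero ι).mpr hv)
      show Helper45.spin ⇑(Helper43.plusQF (n + 1) F) ε
        (psiO ι a₀ b₀ k k' h1 h2 lam hk (Helper45.reflO (Helper43.minusQF n F₀ a₀ b₀) v hv)) = 1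
      rw [psiO_reflO ι a₀ b₀ k k' h1 h2 lam hlam hk v hv hv']
      exact Helper45.spin_eps_reflO_sq (Helper43.plusQF (n + 1) F) h2F ε hε _ hv'
        (by rw [hnorm]; exact hl.mul (hsq _))
    have h1' : Helper45.spin ⇑(Helper43.plusQF (n + 1) F) ε
        (psiO ι a₀ b₀ k k' h1 h2 lam hk γ) = 1 :=
      congrArg (fun f : ↥(isometryGroup F₀ ⇑(Helper43.minusQF n F₀ a₀ b₀)) →* ℤˣ => f γ) hχ
    rw [h1', mul_one] at h3
    exact (Helper45.mem_omega_iff (Helper43.plusQF (n + 1) F) h2F hQ hcard2 ε hε _).mpr ⟨h3, h1'⟩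
  · have hχ : (Helper45.spin ⇑(Helper43.plusQF (n + 1) F) 1).comp
        (psiO ι a₀ b₀ k k' h1 h2 lam hk) = 1 := by
      apply MonoidHom.eq_of_eqOn_dense hR'
      rintro s ⟨v, hv, rfl⟩
      have hv' : Helper43.plusQF (n + 1) F (k *ᵥ (fun i => ι (v i))) ≠ 0 := by
        rw [hnorm]
        exact mul_ne_zero hlam ((map_ne_zero ι).mpr hv)
      show Helper45.spin ⇑(Helper43.plusQF (n + 1) F) 1
        (psiO ι a₀ b₀ k k' h1 h2 lam hk (Helper45.reflO (Helper43.minusQF n F₀ a₀ b₀) v hv)) = 1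
      rw [psiO_reflO ι a₀ b₀ k k' h1 h2 lam hlam hk v hv hv']
      exact Helper45.spin_one_reflO_nsq (Helper43.plusQF (n + 1) F) h2F _ hv'
        (by
          rw [hnorm]
          exact Helper45.not_isSquare_mul hl (hsq _) ((map_ne_zero ι).mpr hv))
    have h1' : Helper45.spin ⇑(Helper43.plusQF (n + 1) F) 1
        (psiO ι a₀ b₀ k k' h1 h2 lam hk γ) = 1 :=
      congrArg (fun f : ↥(isometryGroup F₀ ⇑(Helper43.minusQF n F₀ a₀ b₀)) →* ℤˣ => f γ) hχ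
    rw [h1', one_mul] at h3
    exact (Helper45.mem_omega_iff (Helper43.plusQF (n + 1) F) h2F hQ hcard2 ε hε _).mpr ⟨h1', h3⟩

/-- a class-preserving similarity over the subfield with square multiplier induces an inner
automorphism -/
theorem pscpTh_inn_of_sq (hodd : Odd (Fintype.card F)) (hn1 : n ≠ 1)
    (hR : Helper45.reflGroup (Helper43.plusQF (n + 1) F) = ⊤) (ι : F₀ →+* F)
    (hsq : ∀ c : F₀, IsSquare (ι c)) (a₀ b₀ : F₀)
    (hab₀ : ∀ z₁ z₂ : F₀, z₁ ^ 2 + a₀ * z₁ * z₂ + b₀ * z₂ ^ 2 = 0 → z₁ = 0 ∧ z₂ = 0)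
    (k : Matrix (PI n) (MI n) F) (k' : Matrix (MI n) (PI n) F) (h1 : k * k' = 1)
    (h2 : k' * k = 1) (lam : F) (hlam : lam ≠ 0)
    (hk : ∀ v, quadFormPlus (n + 1) F (k *ᵥ v) = lam * quadFormMinus n F (ι a₀) (ι b₀) v)
    (γ : ↥(pscmGrp hn1 a₀ b₀ hab₀)) (e₀ : F₀) (he₀ : e₀ ≠ 0)
    (hγ : ∀ v, quadFormMinus n F₀ a₀ b₀
      (((γ : GL (MI n) F₀) : Matrix (MI n) (MI n) F₀) *ᵥ v)
        = (e₀ * e₀) * quadFormMinus n F₀ a₀ b₀ v) :
    pscpD hR (pscpTh hn1 hR ι a₀ b₀ hab₀ k k' h1 h2 lam hk γ)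
      ∈ Inn (POmega F (quadFormPlus (n + 1) F)) := by
  have h2F : (2 : F) ≠ 0 := Helper45.two_ne_zero_of_odd_card hodd
  have h2₀ : (2 : F₀) ≠ 0 := two_ne_zero_sub h2F ι
  have hodd₀ : Odd (Fintype.card F₀) := by
    rw [Nat.odd_iff]
    exact FiniteField.odd_card_of_char_ne_two (Helper45.ringChar_ne_two h2₀)
  have hdetγ : ((γ : GL (MI n) F₀) : Matrix (MI n) (MI n) F₀).det = (e₀ * e₀) ^ (n + 1) :=
    (Helper45.ID.pres_minus_iff hodd₀ a₀ b₀ hab₀ γ.1 (e₀ * e₀) (mul_ne_zero he₀ he₀) hγ).mp γ.2.2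
  have hmem : scGL e₀⁻¹ (inv_ne_zero he₀) * γ.1
      ∈ isometryGroup F₀ ⇑(Helper43.minusQF n F₀ a₀ b₀) := by
    rw [Helper45.mem_iso_iff]
    intro v
    rw [scGL_mul_coe, Matrix.smul_mulVec, QuadraticMap.map_smul]
    have h3 : Helper43.minusQF n F₀ a₀ b₀ (((γ : GL (MI n) F₀) : Matrix (MI n) (MI n) F₀) *ᵥ v)
        = (e₀ * e₀) * Helper43.minusQF n F₀ a₀ b₀ v := hγ v
    rw [h3, smul_eq_mul]
    field_simp
  obtain ⟨g₀, hg₀⟩ : ∃ g₀ : ↥(isometryGroup F₀ ⇑(Helper43.minusQF n F₀ a₀ b₀)),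
      g₀ = ⟨scGL e₀⁻¹ (inv_ne_zero he₀) * γ.1, hmem⟩ := ⟨_, rfl⟩
  have hg₀v : ((g₀ : GL (MI n) F₀) : Matrix (MI n) (MI n) F₀)
      = e₀⁻¹ • ((γ : GL (MI n) F₀) : Matrix (MI n) (MI n) F₀) := by
    rw [hg₀]
    exact scGL_mul_coe _ _ _
  have hdet : ((g₀ : GL (MI n) F₀) : Matrix (MI n) (MI n) F₀).det = 1 := by
    rw [hg₀v, Matrix.det_smul, hdetγ, card_MI]
    have h5 : (e₀ * e₀) ^ (n + 1) = e₀ ^ (2 * n + 2) := by ring
    rw [h5, inv_pow, inv_mul_cancel₀ (pow_ne_zero _ he₀)]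
  have hΩ := psiO_mem_omega hodd ι hsq a₀ b₀ hab₀ k k' h1 h2 lam hlam hk g₀ hdet
  apply Helper45.mem_inn_of_ind_omega (Helper43.plusQF (n + 1) F) _ hΩ
  have hne : ι e₀ ≠ 0 := (map_ne_zero ι).mpr he₀
  have hgl : ((pscpTh hn1 hR ι a₀ b₀ hab₀ k k' h1 h2 lam hk γ : ↥(pscpGrp hR)) : GL (PI n) F)
      = scGL (ι e₀) hne * ((psiO ι a₀ b₀ k k' h1 h2 lam hk g₀ :
        ↥(isometryGroup F ⇑(Helper43.plusQF (n + 1) F))) : GL (PI n) F) := by
    apply Units.ext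
    rw [pscpTh_coe, scGL_mul_coe, psiO_coe, hg₀v,
      Matrix.map_smul' ι _ _ (fun x y => map_mul ι x y), Matrix.mul_smul, Matrix.smul_mul,
      smul_smul, ← map_mul, mul_inv_cancel₀ he₀, map_one, one_smul]
  have hpS : IsSemisimilarityPair (quadFormPlus (n + 1) F)
      ((psiO ι a₀ b₀ k k' h1 h2 lam hk g₀ :
        ↥(isometryGroup F ⇑(Helper43.plusQF (n + 1) F))) : GL (PI n) F) (RingEquiv.refl F) :=
    semi_of_mem _ _ (Helper45.iso_le_sim _ (psiO ι a₀ b₀ k k' h1 h2 lam hk g₀).2)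
  have hpS' : IsSemisimilarityPair (quadFormPlus (n + 1) F)
      (scGL (ι e₀) hne * ((psiO ι a₀ b₀ k k' h1 h2 lam hk g₀ :
        ↥(isometryGroup F ⇑(Helper43.plusQF (n + 1) F))) : GL (PI n) F)) (RingEquiv.refl F) := by
    rw [← hgl]
    exact semi_of_mem _ _ (pscpTh hn1 hR ι a₀ b₀ hab₀ k k' h1 h2 lam hk γ).2.1
  apply (Helper45.OO.semi_ind_iff _ _ (RingEquiv.refl F) hpS _).mpr
  rw [pscpD_apply]
  have h4 := semiAut_scGL_mul (Helper43.plusQF (n + 1) F) (ι e₀) hne _ (RingEquiv.refl F) hpS hpS'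
  exact (Helper45.OO.semiAut_congr _ _ _ hgl rfl).trans h4

set_option maxHeartbeats 1000000 in
/-- **the explicit similarity induces an inner automorphism exactly when its spinor norm is a
square** -/
theorem g1_inn_iff (hodd : Odd (Fintype.card F)) (hn : 4 ≤ n) (hn1 : n ≠ 1)
    (hR : Helper45.reflGroup (Helper43.plusQF (n + 1) F) = ⊤)
    (hq4 : Fintype.card F % 4 = 1) (ι : F₀ →+* F) (a₀ b₀ : F₀)
    (hab₀ : ∀ z₁ z₂ : F₀, z₁ ^ 2 + a₀ * z₁ * z₂ + b₀ * z₂ ^ 2 = 0 → z₁ = 0 ∧ z₂ = 0)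
    (k : Matrix (PI n) (MI n) F) (k' : Matrix (MI n) (PI n) F) (h1 : k * k' = 1)
    (h2 : k' * k = 1) (lam : F) (hlam : lam ≠ 0)
    (hk : ∀ v, quadFormPlus (n + 1) F (k *ᵥ v) = lam * quadFormMinus n F (ι a₀) (ι b₀) v)
    (c₀ z₁ z₂ : F₀) (hz : z₁ ^ 2 + a₀ * z₁ * z₂ + b₀ * z₂ ^ 2 = c₀)
    (s : F) (hs : s * s = ι c₀) (hs0 : s ≠ 0) (hT : 2 * s + 2 * ι z₁ + ι a₀ * ι z₂ ≠ 0)
    (γ₁ : ↥(pscmGrp hn1 a₀ b₀ hab₀))
    (hγ₁ : ((γ₁ : GL (MI n) F₀) : Matrix (MI n) (MI n) F₀) = G1 n a₀ b₀ c₀ z₁ z₂) :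
    pscpD hR (pscpTh hn1 hR ι a₀ b₀ hab₀ k k' h1 h2 lam hk γ₁)
        ∈ Inn (POmega F (quadFormPlus (n + 1) F))
      ↔ IsSquare (s ^ n * (s * (2 * s + 2 * ι z₁ + ι a₀ * ι z₂))) := by
  classical
  have h2F : (2 : F) ≠ 0 := Helper45.two_ne_zero_of_odd_card hodd
  have hQ := Helper45.plusQF_nondeg' (F := F) (n + 1)
  have hcard2 : 2 ≤ Fintype.card (PI n) := by
    rw [Fintype.card_sum, Fintype.card_fin]
    omega
  have hn5 : 5 ≤ Fintype.card (PI n) := by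
    rw [Fintype.card_sum, Fintype.card_fin]
    omega
  have hzι : ι z₁ ^ 2 + ι a₀ * ι z₁ * ι z₂ + ι b₀ * ι z₂ ^ 2 = s * s := by
    rw [hs, ← hz]
    simp only [map_add, map_mul, map_pow]
  obtain ⟨vs, hvs⟩ : ∃ vs : List (PI n → F),
      vs = (LV n s (ι z₁) (ι z₂)).map (fun w => k *ᵥ w) := ⟨_, rfl⟩
  have hprod : k * (G1 n a₀ b₀ c₀ z₁ z₂).map ι * k'
      = s • (vs.map (fun v => reflectionMatrix (quadFormPlus (n + 1) F) v)).prod := by
    rw [G1_map, ← hs, G1_eq_smul_prod (ι a₀) (ι b₀) s (ι z₁) (ι z₂) hs0 hzι hT, Matrix.mul_smul,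
      Matrix.smul_mul, hvs]
    congr 1
    exact refl_list_rect (Helper43.plusQF (n + 1) F) (Helper43.minusQF n F (ι a₀) (ι b₀))
      k k' h1 h2 lam hlam hk _
  obtain ⟨d, hd⟩ : ∃ d : ↥(pscpGrp hR),
      d = pscpTh hn1 hR ι a₀ b₀ hab₀ k k' h1 h2 lam hk γ₁ := ⟨_, rfl⟩
  have hdv : ((d : GL (PI n) F) : Matrix (PI n) (PI n) F)
      = s • (vs.map (fun v => reflectionMatrix (quadFormPlus (n + 1) F) v)).prod := by
    rw [hd, pscpTh_coe, hγ₁, hprod]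
  have hvs0 : ∀ v ∈ vs, Helper43.plusQF (n + 1) F v ≠ 0 := by
    intro v hv
    rw [hvs, List.mem_map] at hv
    obtain ⟨w, hw, rfl⟩ := hv
    show quadFormPlus (n + 1) F (k *ᵥ w) ≠ 0
    rw [hk]
    exact mul_ne_zero hlam (LV_ne (ι a₀) (ι b₀) s (ι z₁) (ι z₂) hs0 hzι hT w hw)
  have hdsim : ∀ v, quadFormPlus (n + 1) F (((d : GL (PI n) F) : Matrix (PI n) (PI n) F) *ᵥ v)
      = (s * s) * quadFormPlus (n + 1) F v := by
    intro v
    rw [hd, pscpTh_coe, hγ₁, ← Matrix.mulVec_mulVec, ← Matrix.mulVec_mulVec, hk,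
      minus_sim_map ι a₀ b₀ _ c₀ (G1_sim a₀ b₀ c₀ z₁ z₂ hz), ← mul_assoc, mul_comm lam,
      mul_assoc, ← hk, Matrix.mulVec_mulVec, h1, Matrix.one_mulVec, hs]
  have hmem : scGL s⁻¹ (inv_ne_zero hs0) * d.1
      ∈ isometryGroup F ⇑(Helper43.plusQF (n + 1) F) := by
    rw [Helper45.mem_iso_iff]
    intro v
    rw [scGL_mul_coe, Matrix.smul_mulVec, QuadraticMap.map_smul, smul_eq_mul]
    have h3 : Helper43.plusQF (n + 1) F (((d : GL (PI n) F) : Matrix (PI n) (PI n) F) *ᵥ v)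
        = (s * s) * Helper43.plusQF (n + 1) F v := hdsim v
    rw [h3]
    field_simp
  obtain ⟨g'', hg''⟩ : ∃ g'' : ↥(isometryGroup F ⇑(Helper43.plusQF (n + 1) F)),
      g'' = ⟨scGL s⁻¹ (inv_ne_zero hs0) * d.1, hmem⟩ := ⟨_, rfl⟩
  have hg''gl : (g'' : GL (PI n) F) = scGL s⁻¹ (inv_ne_zero hs0) * d.1 := by rw [hg'']
  have hg''v : ((g'' : GL (PI n) F) : Matrix (PI n) (PI n) F)
      = (vs.map (fun v => reflectionMatrix ⇑(Helper43.plusQF (n + 1) F) v)).prod := by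
    rw [hg''gl, scGL_mul_coe, hdv, smul_smul, inv_mul_cancel₀ hs0, one_smul]
    rfl
  have hiff := Helper45.mem_omega_prod_refl (Helper43.plusQF (n + 1) F) h2F hQ hcard2 vs hvs0
    g'' hg''v
  have hnp : (vs.map (fun v => Helper43.plusQF (n + 1) F v)).prod
      = lam ^ (2 * n + 2) * (s ^ n * (s * (2 * s + 2 * ι z₁ + ι a₀ * ι z₂))) := by
    rw [hvs, norm_list_rect (Helper43.plusQF (n + 1) F) (Helper43.minusQF n F (ι a₀) (ι b₀)) k
      lam hk, LV_length]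
    congr 1
    exact LV_norm (ι a₀) (ι b₀) s (ι z₁) (ι z₂) hzι
  have hlen : vs.length = 2 * n + 2 := by rw [hvs, List.length_map, LV_length]
  rw [hnp, hlen] at hiff
  have hX : IsSquare (lam ^ (2 * n + 2) * (s ^ n * (s * (2 * s + 2 * ι z₁ + ι a₀ * ι z₂))))
      ↔ IsSquare (s ^ n * (s * (2 * s + 2 * ι z₁ + ι a₀ * ι z₂))) := by
    have h5 : lam ^ (2 * n + 2) = lam ^ (n + 1) * lam ^ (n + 1) := by ring
    rw [h5]
    exact Helper45.isSquare_sq_mul_iff (pow_ne_zero _ hlam)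
  have hgS : IsSemisimilarityPair (quadFormPlus (n + 1) F) (g'' : GL (PI n) F)
      (RingEquiv.refl F) := semi_of_mem _ _ (Helper45.iso_le_sim _ g''.2)
  have hind : Helper45.Ind (quadFormPlus (n + 1) F) (g'' : GL (PI n) F) (pscpD hR d) := by
    apply (Helper45.OO.semi_ind_iff _ _ (RingEquiv.refl F) hgS _).mpr
    rw [pscpD_apply]
    have hgS' : IsSemisimilarityPair (quadFormPlus (n + 1) F)
        (scGL s⁻¹ (inv_ne_zero hs0) * d.1) (RingEquiv.refl F) := by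
      rw [← hg''gl]
      exact hgS
    have h4 := semiAut_scGL_mul (Helper43.plusQF (n + 1) F) s⁻¹ (inv_ne_zero hs0) d.1
      (RingEquiv.refl F) (semi_of_mem _ d.1 d.2.1) hgS'
    exact h4.symm.trans (Helper45.OO.semiAut_congr _ _ _ hg''gl.symm rfl)
  have hneg : Helper45.negO (Helper43.plusQF (n + 1) F)
      ∈ Omega F ⇑(Helper43.plusQF (n + 1) F) :=
    (Helper45.negO_plus_mem_iff (m := n + 1) hodd h2F (by omega)).mpr (by
      rw [Nat.pow_mod, hq4]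
      simp)
  rw [← hd]
  constructor
  · intro hinn
    have hΩ := Helper45.omega_of_mem_inn (Helper43.plusQF (n + 1) F)
      (fun g hg h1 => Helper45.OO.scalar_of_ind (Helper43.plusQF (n + 1) F) hQ hn5 g hg h1) hneg
      ⟨Pi.single (Sum.inl 0) 1 + Pi.single (Sum.inr 0) 1, by
        rw [show (Helper43.plusQF (n + 1) F) (Pi.single (Sum.inl 0) 1 + Pi.single (Sum.inr 0) 1)
          = 1 from qplus_u0 n]
        exact one_ne_zero⟩ g'' _ hind hinn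
    exact hX.mp (hiff.mp hΩ).2
  · intro hsqX
    exact Helper45.mem_inn_of_ind_omega (Helper43.plusQF (n + 1) F) g''
      (hiff.mpr ⟨⟨n + 1, by ring⟩, hX.mpr hsqX⟩) _ hind

/-- the centraliser part lies in `PSO` -/
theorem pscpTh_pso (hodd : Odd (Fintype.card F)) (hn1 : n ≠ 1)
    (hR : Helper45.reflGroup (Helper43.plusQF (n + 1) F) = ⊤) (ι : F₀ →+* F)
    (hsq : ∀ c : F₀, IsSquare (ι c)) (a₀ b₀ : F₀)
    (hab₀ : ∀ z₁ z₂ : F₀, z₁ ^ 2 + a₀ * z₁ * z₂ + b₀ * z₂ ^ 2 = 0 → z₁ = 0 ∧ z₂ = 0)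
    (k : Matrix (PI n) (MI n) F) (k' : Matrix (MI n) (PI n) F) (h1 : k * k' = 1)
    (h2 : k' * k = 1) (lam : F)
    (hk : ∀ v, quadFormPlus (n + 1) F (k *ᵥ v) = lam * quadFormMinus n F (ι a₀) (ι b₀) v)
    (γ : ↥(pscmGrp hn1 a₀ b₀ hab₀)) :
    pscpD hR (pscpTh hn1 hR ι a₀ b₀ hab₀ k k' h1 h2 lam hk γ)
      ∈ psoAut F (quadFormPlus (n + 1) F) := by
  have h2F : (2 : F) ≠ 0 := Helper45.two_ne_zero_of_odd_card hodd
  have hchar : ringChar F ≠ 2 := Helper45.ringChar_ne_two h2F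
  have D : Helper45.KData (quadFormPlus (n + 1) F) (n + 1) (S2722.gramJ (n + 1) F)
      (S2722.v0 F (0 : Fin (n + 1))) := by
    constructor
    · simp
    · exact S2722.quad_eq
    · exact S2722.gramJ_transpose
    · exact S2722.gramJ_det
    · exact S2722.quad_v0 _
    · exact h2F
  obtain ⟨d, hd⟩ : ∃ d : ↥(pscpGrp hR),
      d = pscpTh hn1 hR ι a₀ b₀ hab₀ k k' h1 h2 lam hk γ := ⟨_, rfl⟩
  obtain ⟨cγ, hcγ⟩ := id γ.2.1
  have hdsim : ∀ v, quadFormPlus (n + 1) F (((d : GL (PI n) F) : Matrix (PI n) (PI n) F) *ᵥ v)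
      = ι (cγ : F₀) * quadFormPlus (n + 1) F v := by
    intro v
    rw [hd, pscpTh_coe, ← Matrix.mulVec_mulVec, ← Matrix.mulVec_mulVec, hk,
      minus_sim_map ι a₀ b₀ _ (cγ : F₀) hcγ, ← mul_assoc, mul_comm lam,
      mul_assoc, ← hk, Matrix.mulVec_mulVec, h1, Matrix.one_mulVec]
  have hne : ι (cγ : F₀) ≠ 0 := (map_ne_zero ι).mpr cγ.ne_zero
  have hmult : Helper45.mult (quadFormPlus (n + 1) F) (S2722.v0 F (0 : Fin (n + 1))) d.1
      = ι (cγ : F₀) := by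
    unfold Helper45.mult
    rw [hdsim, D.hv₀, mul_one]
  have e1 : Helper45.mult (quadFormPlus (n + 1) F) (S2722.v0 F (0 : Fin (n + 1))) d.1
      ^ (Fintype.card F / 2) = 1 := by
    rw [hmult]
    exact (FiniteField.isSquare_iff hchar hne).mp (hsq _)
  have hdet : ((d : GL (PI n) F) : Matrix (PI n) (PI n) F).det
      = Helper45.mult (quadFormPlus (n + 1) F) (S2722.v0 F (0 : Fin (n + 1))) d.1 ^ (n + 1) := by
    rw [hmult]
    exact (Helper45.ID.pres_plus_iff h2F d.1 (ι (cγ : F₀)) hne hdsim).mp d.2.2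
  rw [← hd]
  exact Helper45.ID.pso_of_theta (Helper43.plusQF (n + 1) F) D d.2.1 e1 hdet
    ((Helper45.OO.semi_ind_iff _ _ _ (semi_of_mem _ d.1 d.2.1) _).mpr rfl)

end spin

end Cfsg.Agent.Helper44.POm
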