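import Mathlib
import Cfsg.Agent.Helper44.OmZ

/-!
# Involutory graph automorphisms of `PΩ⁺_{2m}(q)` induced by similarities, `q` odd: tools

* `splitCount_one_or_two` : a class splits into one or two classes under a subgroup of index two;
* `comm_mem_of_relIndex_four` : commutators fall into a normal subgroup of index four;
* `two_refl_formula`, `refl_comm_orth`, `refl_conj_sim` : products of two reflections;
* `exists_aniso_perp` : a non-singular vector orthogonal to two given vectors;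
* `plus_cent_graph_pso` : the centraliser in `Inndiag` of a graph automorphism lies in `PSO`;
* `plus_graph_count_two` : the class count two.
-/

set_option autoImplicit false
set_option linter.unusedSimpArgs false
set_option linter.unusedSectionVars false
set_option linter.unusedVariables false
set_option linter.deprecated false

namespace Cfsg.Agent.Helper44.POm

open Matrix Cfsg
open Cfsg.Agent.Helper45.OO (semiAut semiMap glMap polarGram)

universe u v

section grp

variable {X : Type*} [Group X]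

/-- under a subgroup of index two a class is one class or the union of two -/
theorem splitCount_one_or_two (H K : Subgroup X) (x : X) (hKH : K ≤ H)
    (hnorm : ∀ h ∈ H, ∀ k ∈ K, h * k * h⁻¹ ∈ K) (hidx : K.relIndex H = 2) :
    splitClassCount H K x = 1 ∨ splitClassCount H K x = 2 := by
  obtain ⟨N, hN⟩ : ∃ N : Subgroup X,
      ∀ g, g ∈ N ↔ (g ∈ H ∧ ∃ t ∈ K, g * x * g⁻¹ = t * x * t⁻¹) := by
    refine ⟨{ carrier := {g | g ∈ H ∧ ∃ t ∈ K, g * x * g⁻¹ = t * x * t⁻¹}
              mul_mem' := ?_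
              one_mem' := ?_
              inv_mem' := ?_ }, fun g => Iff.rfl⟩
    · rintro a b ⟨ha, t, ht, hat⟩ ⟨hb, s, hs, hbs⟩
      refine ⟨mul_mem ha hb, a * s * a⁻¹ * t, mul_mem (hnorm a ha s hs) ht, ?_⟩
      calc a * b * x * (a * b)⁻¹ = a * (b * x * b⁻¹) * a⁻¹ := by group
        _ = a * (s * x * s⁻¹) * a⁻¹ := by rw [hbs]
        _ = (a * s * a⁻¹) * (a * x * a⁻¹) * (a * s * a⁻¹)⁻¹ := by group
        _ = (a * s * a⁻¹) * (t * x * t⁻¹) * (a * s * a⁻¹)⁻¹ := by rw [hat]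
        _ = a * s * a⁻¹ * t * x * (a * s * a⁻¹ * t)⁻¹ := by group
    · exact ⟨one_mem H, 1, one_mem K, rfl⟩
    · rintro a ⟨ha, t, ht, hat⟩
      refine ⟨inv_mem ha, a⁻¹ * t⁻¹ * a, ?_, ?_⟩
      · have h3 := hnorm a⁻¹ (inv_mem ha) t⁻¹ (inv_mem ht)
        rwa [inv_inv] at h3
      · calc a⁻¹ * x * a⁻¹⁻¹ = a⁻¹ * t⁻¹ * (t * x * t⁻¹) * t * a := by group
          _ = a⁻¹ * t⁻¹ * (a * x * a⁻¹) * t * a := by rw [hat]
          _ = a⁻¹ * t⁻¹ * a * x * (a⁻¹ * t⁻¹ * a)⁻¹ := by group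
  have hKN : K ≤ N := fun k hk => (hN k).mpr ⟨hKH hk, k, hk, rfl⟩
  have hNH : N ≤ H := fun g hg => ((hN g).mp hg).1
  have hcount := splitCount_eq_relIndex H K N x hnorm (fun g hg => by
    rw [hN]
    exact ⟨fun h => h.2, fun h => ⟨hg, h⟩⟩)
  rw [hcount]
  have hmul := Subgroup.relIndex_mul_relIndex K N H hKN hNH
  rw [hidx] at hmul
  have hdvd : N.relIndex H ∣ 2 := ⟨K.relIndex N, by rw [← hmul, mul_comm]⟩
  rcases (Nat.dvd_prime Nat.prime_two).mp hdvd with h | h
  · left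
    exact h
  · right
    exact h

/-- commutators of a group fall into a normal subgroup of index four -/
theorem comm_mem_of_relIndex_four (G T : Subgroup X)
    (hnorm : ∀ g ∈ G, ∀ t ∈ T, g * t * g⁻¹ ∈ T) (hidx : T.relIndex G = 4) (a b : X)
    (ha : a ∈ G) (hb : b ∈ G) : a * b * a⁻¹ * b⁻¹ ∈ T := by
  haveI : (T.subgroupOf G).Normal := ⟨fun t ht g => by
    rw [Subgroup.mem_subgroupOf] at ht ⊢
    simpa using hnorm g.1 g.2 t.1 ht⟩
  have hcard : Nat.card (↥G ⧸ T.subgroupOf G) = 2 ^ 2 := by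
    rw [← Subgroup.index_eq_card]
    exact hidx
  haveI : Fact (Nat.Prime 2) := ⟨Nat.prime_two⟩
  have hc := IsPGroup.commutative_of_card_eq_prime_sq hcard
    (QuotientGroup.mk (⟨a, ha⟩ : ↥G)) (QuotientGroup.mk ⟨b, hb⟩)
  have h3 : ((⟨a, ha⟩ : ↥G) * ⟨b, hb⟩ * (⟨a, ha⟩ : ↥G)⁻¹ * (⟨b, hb⟩ : ↥G)⁻¹ : ↥G)
      ∈ T.subgroupOf G := by
    rw [← QuotientGroup.eq_one_iff, QuotientGroup.mk_mul, QuotientGroup.mk_mul,
      QuotientGroup.mk_mul, QuotientGroup.mk_inv, QuotientGroup.mk_inv, hc]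
    group
  rw [Subgroup.mem_subgroupOf] at h3
  simpa using h3

end grp

section gen

variable {ι : Type} [Fintype ι] [DecidableEq ι] {F : Type u} [Field F]
  (Q : QuadraticForm F (ι → F))

theorem sim_polar (H : Matrix ι ι F) (c : F) (hsim : ∀ v, Q (H *ᵥ v) = c * Q v) (a b : ι → F) :
    QuadraticMap.polar ⇑Q (H *ᵥ a) (H *ᵥ b) = c * QuadraticMap.polar ⇑Q a b := by
  unfold QuadraticMap.polar
  rw [← Matrix.mulVec_add, hsim, hsim, hsim]
  ring

theorem sim_inv_apply (g : GL ι F) (c : F) (hc : c ≠ 0)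
    (hg : ∀ v, Q ((g : Matrix ι ι F) *ᵥ v) = c * Q v) (v : ι → F) :
    Q (((g⁻¹ : GL ι F) : Matrix ι ι F) *ᵥ v) = c⁻¹ * Q v := by
  have h3 := hg (((g⁻¹ : GL ι F) : Matrix ι ι F) *ᵥ v)
  rw [Matrix.mulVec_mulVec, ← Units.val_mul, mul_inv_cancel, Units.val_one,
    Matrix.one_mulVec] at h3
  rw [h3]
  field_simp

theorem comm_mem_iso (g₁ g₂ : GL ι F) (c₁ c₂ : F) (h₁ : c₁ ≠ 0) (h₂ : c₂ ≠ 0)
    (hg₁ : ∀ v, Q ((g₁ : Matrix ι ι F) *ᵥ v) = c₁ * Q v)
    (hg₂ : ∀ v, Q ((g₂ : Matrix ι ι F) *ᵥ v) = c₂ * Q v) :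
    g₁ * g₂ * g₁⁻¹ * g₂⁻¹ ∈ isometryGroup F ⇑Q := by
  rw [Helper45.mem_iso_iff]
  intro v
  rw [Units.val_mul, Units.val_mul, Units.val_mul, ← Matrix.mulVec_mulVec,
    ← Matrix.mulVec_mulVec, ← Matrix.mulVec_mulVec, hg₁, hg₂, sim_inv_apply Q g₁ c₁ h₁ hg₁,
    sim_inv_apply Q g₂ c₂ h₂ hg₂]
  field_simp

/-- conjugating a reflection by a similarity -/
theorem refl_conj_sim (h : GL ι F) (c : F) (hc : c ≠ 0)
    (hsim : ∀ v, Q ((h : Matrix ι ι F) *ᵥ v) = c * Q v) (w : ι → F) :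
    (h : Matrix ι ι F) * reflectionMatrix ⇑Q w
      = reflectionMatrix ⇑Q ((h : Matrix ι ι F) *ᵥ w) * (h : Matrix ι ι F) := by
  have h1 : (h : Matrix ι ι F) * ((h⁻¹ : GL ι F) : Matrix ι ι F) = 1 := by
    rw [← Units.val_mul, mul_inv_cancel, Units.val_one]
  have h2 : ((h⁻¹ : GL ι F) : Matrix ι ι F) * (h : Matrix ι ι F) = 1 := by
    rw [← Units.val_mul, inv_mul_cancel, Units.val_one]
  have h3 := refl_rect Q Q (h : Matrix ι ι F) ((h⁻¹ : GL ι F) : Matrix ι ι F) h1 h2 c hc hsim w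
  rw [← h3, Matrix.mul_assoc, h2, Matrix.mul_one]

/-- the product of two reflections in a plane with an orthogonal basis `u, u'` -/
theorem two_refl_formula (u u' : ι → F) (a c x y : F) (ha : Q u = a) (ha0 : a ≠ 0)
    (hu' : Q u' = c * a) (horth : QuadraticMap.polar ⇑Q u u' = 0)
    (hN : x ^ 2 + c * y ^ 2 ≠ 0) (z : ι → F) :
    (reflectionMatrix ⇑Q u * reflectionMatrix ⇑Q (x • u + y • u')) *ᵥ z
      = z + ((x * y * QuadraticMap.polar ⇑Q u' z - c * y ^ 2 * QuadraticMap.polar ⇑Q u z)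
            / (a * (x ^ 2 + c * y ^ 2))) • u
          - ((x * y * QuadraticMap.polar ⇑Q u z + y ^ 2 * QuadraticMap.polar ⇑Q u' z)
            / (a * (x ^ 2 + c * y ^ 2))) • u' := by
  have hQw : Q (x • u + y • u') = a * (x ^ 2 + c * y ^ 2) := by
    rw [Helper13.Q_add', QuadraticMap.map_smul, QuadraticMap.map_smul,
      QuadraticMap.polar_smul_left, QuadraticMap.polar_smul_right, horth, ha, hu']
    simp only [smul_eq_mul]
    ring
  have hpw : QuadraticMap.polar ⇑Q (x • u + y • u') z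
      = x * QuadraticMap.polar ⇑Q u z + y * QuadraticMap.polar ⇑Q u' z := by
    rw [QuadraticMap.polar_add_left, QuadraticMap.polar_smul_left, QuadraticMap.polar_smul_left]
    simp only [smul_eq_mul]
  have hpuw : QuadraticMap.polar ⇑Q u (x • u + y • u') = 2 * a * x := by
    rw [QuadraticMap.polar_add_right, QuadraticMap.polar_smul_right,
      QuadraticMap.polar_smul_right, horth, QuadraticMap.polar_self, ha]
    simp only [smul_eq_mul]
    ring
  rw [← Matrix.mulVec_mulVec, Helper13.reflectionMatrix_mulVec, Helper13.reflectionMatrix_mulVec,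
    QuadraticMap.polar_sub_right, QuadraticMap.polar_smul_right, hpuw, hQw, hpw, ha]
  ext i
  simp only [Pi.add_apply, Pi.sub_apply, Pi.smul_apply, smul_eq_mul]
  field_simp
  ring

/-- reflections in orthogonal vectors commute -/
theorem refl_comm_orth (u v : ι → F) (h : QuadraticMap.polar ⇑Q u v = 0) :
    reflectionMatrix ⇑Q u * reflectionMatrix ⇑Q v
      = reflectionMatrix ⇑Q v * reflectionMatrix ⇑Q u := by
  apply Helper13.mulVec_ext
  intro z
  have h' : QuadraticMap.polar ⇑Q v u = 0 := by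
    rw [QuadraticMap.polar_comm]
    exact h
  rw [← Matrix.mulVec_mulVec, ← Matrix.mulVec_mulVec, Helper13.reflectionMatrix_mulVec,
    Helper13.reflectionMatrix_mulVec, Helper13.reflectionMatrix_mulVec,
    Helper13.reflectionMatrix_mulVec, QuadraticMap.polar_sub_right, QuadraticMap.polar_sub_right,
    QuadraticMap.polar_smul_right, QuadraticMap.polar_smul_right, h, h']
  simp only [smul_zero, sub_zero]
  abel

/-- a non-singular vector orthogonal to two given vectors onto whose span one can project -/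
theorem exists_aniso_perp (hQ : (QuadraticMap.polarBilin Q).Nondegenerate)
    (hcard : 3 ≤ Fintype.card ι) (a₁ a₂ : ι → F)
    (hproj : ∀ y : ι → F, ∃ α β : F,
      QuadraticMap.polar ⇑Q a₁ (y - α • a₁ - β • a₂) = 0 ∧
      QuadraticMap.polar ⇑Q a₂ (y - α • a₁ - β • a₂) = 0) :
    ∃ z, QuadraticMap.polar ⇑Q a₁ z = 0 ∧ QuadraticMap.polar ⇑Q a₂ z = 0 ∧ Q z ≠ 0 := by
  obtain ⟨f, hf⟩ : ∃ f : (ι → F) →ₗ[F] (Fin 2 → F),
      ∀ z, f z = ![QuadraticMap.polar ⇑Q a₁ z, QuadraticMap.polar ⇑Q a₂ z] := by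
    refine ⟨LinearMap.pi ![QuadraticMap.polarBilin Q a₁, QuadraticMap.polarBilin Q a₂],
      fun z => ?_⟩
    ext i
    fin_cases i <;> rfl
  have hker : LinearMap.ker f ≠ ⊥ := by
    apply LinearMap.ker_ne_bot_of_finrank_lt
    rw [Module.finrank_fin_fun, Module.finrank_fintype_fun_eq_card]
    omega
  obtain ⟨w, hwk, hw0⟩ := Submodule.exists_mem_ne_zero_of_ne_bot hker
  rw [LinearMap.mem_ker, hf] at hwk
  have hw1 : QuadraticMap.polar ⇑Q a₁ w = 0 := by
    have h3 := congrFun hwk 0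
    simpa using h3
  have hw2 : QuadraticMap.polar ⇑Q a₂ w = 0 := by
    have h3 := congrFun hwk 1
    simpa using h3
  by_cases hQw : Q w = 0
  swap
  · exact ⟨w, hw1, hw2, hQw⟩
  obtain ⟨y, hy⟩ : ∃ y, QuadraticMap.polar ⇑Q w y ≠ 0 := by
    by_contra hcon
    push_neg at hcon
    exact hw0 (hQ.1 w (fun y => by
      rw [QuadraticMap.polarBilin_apply_apply]
      exact hcon y))
  obtain ⟨α, β, h1, h2'⟩ := hproj y
  have hwy' : QuadraticMap.polar ⇑Q w (y - α • a₁ - β • a₂) = QuadraticMap.polar ⇑Q w y := by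
    rw [QuadraticMap.polar_sub_right, QuadraticMap.polar_sub_right,
      QuadraticMap.polar_smul_right, QuadraticMap.polar_smul_right,
      QuadraticMap.polar_comm ⇑Q w a₁, QuadraticMap.polar_comm ⇑Q w a₂, hw1, hw2]
    simp
  by_cases hQy : Q (y - α • a₁ - β • a₂) = 0
  · refine ⟨w + (y - α • a₁ - β • a₂), ?_, ?_, ?_⟩
    · rw [QuadraticMap.polar_add_right, hw1, h1, add_zero]
    · rw [QuadraticMap.polar_add_right, hw2, h2', add_zero]
    · rw [Helper13.Q_add', hQw, hQy, hwy', zero_add, zero_add]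
      exact hy
  · exact ⟨_, h1, h2', hQy⟩

end gen

section plus

variable {F : Type u} [Field F] [Fintype F] {n : ℕ}

set_option maxHeartbeats 1600000 in
/-- **the centraliser in `Inndiag` of a similarity-induced graph automorphism lies in `PSO`**
(`q` odd, `-1 ∈ Ω`) -/
theorem plus_cent_graph_pso (hodd : Odd (Fintype.card F)) (hn : 3 ≤ n)
    (hR : Helper45.reflGroup (Helper43.plusQF (n + 1) F) = ⊤)
    (hq : Fintype.card F ^ (n + 1) % 4 = 1)
    (h : GL (PI n) F) (hh : h ∈ Geo.quadSimilarityGroup (F := F) (quadFormPlus (n + 1) F))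
    (hnp : ¬ PreservesSingularClasses (quadFormPlus (n + 1) F) (h : Matrix (PI n) (PI n) F))
    (d : ↥(pscpGrp hR))
    (hcomm : pscpD hR d * simHom (quadFormPlus (n + 1) F) ⟨h, hh⟩
      = simHom (quadFormPlus (n + 1) F) ⟨h, hh⟩ * pscpD hR d) :
    pscpD hR d ∈ psoAut F (quadFormPlus (n + 1) F) := by
  classical
  have h2F : (2 : F) ≠ 0 := Helper45.two_ne_zero_of_odd_card hodd
  have hchar : ringChar F ≠ 2 := Helper45.ringChar_ne_two h2F
  have hQ := Helper45.plusQF_nondeg' (F := F) (n + 1)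
  have hcard2 : 2 ≤ Fintype.card (PI n) := by
    rw [Fintype.card_sum, Fintype.card_fin]
    omega
  have hn5 : 5 ≤ Fintype.card (PI n) := by
    rw [Fintype.card_sum, Fintype.card_fin]
    omega
  have hneg : Helper45.negO (Helper43.plusQF (n + 1) F)
      ∈ Omega F ⇑(Helper43.plusQF (n + 1) F) :=
    (Helper45.negO_plus_mem_iff (m := n + 1) hodd h2F (by omega)).mpr hq
  have hscal : ∀ g : GL (PI n) F,
      g ∈ Geo.quadSimilarityGroup (F := F) ⇑(Helper43.plusQF (n + 1) F) →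
      Helper45.Ind ⇑(Helper43.plusQF (n + 1) F) g 1 →
      ∃ c : F, (g : Matrix (PI n) (PI n) F) = c • (1 : Matrix (PI n) (PI n) F) :=
    fun g hg h1 => Helper45.OO.scalar_of_ind (Helper43.plusQF (n + 1) F) hQ hn5 g hg h1
  have D : Helper45.KData (quadFormPlus (n + 1) F) (n + 1) (S2722.gramJ (n + 1) F)
      (S2722.v0 F (0 : Fin (n + 1))) := by
    constructor
    · simp
    · exact S2722.quad_eq
    · exact S2722.gramJ_transpose
    · exact S2722.gramJ_det
    · exact S2722.quad_v0 _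
    · exact h2F
  obtain ⟨c₁, hc₁⟩ := FiniteField.exists_nonsquare hchar
  have hc₁0 : c₁ ≠ 0 := by
    rintro rfl
    exact hc₁ ⟨0, by simp⟩
  obtain ⟨gg, hgg, hdetgg⟩ := S2722.exists_g1 (m := n + 1) h2F c₁ hc₁0
  have hG : inndiagPOmegaPlus (n + 1) F
      = Helper45.ID.autK (Helper43.plusQF (n + 1) F) D :=
    Helper45.ID.inndiag_plus_eq h2F 0 D
  have hidx4 : (Inn (POmega F (quadFormPlus (n + 1) F))).relIndex
      (inndiagPOmegaPlus (n + 1) F) = 4 := by
    rw [hG]
    exact Helper45.ID.relIndex_inn_autK (Helper43.plusQF (n + 1) F) hodd hQ hcard2 D hscal gg c₁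
      hgg hc₁ hdetgg hneg
  have hnormT : ∀ g ∈ inndiagPOmegaPlus (n + 1) F,
      ∀ t ∈ Inn (POmega F (quadFormPlus (n + 1) F)),
      g * t * g⁻¹ ∈ Inn (POmega F (quadFormPlus (n + 1) F)) :=
    fun g _ t ht => (innNormal (POmega F (quadFormPlus (n + 1) F))).conj_mem t ht g
  -- the multiplier of `d`
  obtain ⟨cd, hcd⟩ := id d.2.1
  obtain ⟨ch, hch⟩ := id hh
  have hsqc : IsSquare (cd : F) := by
    by_contra hns
    obtain ⟨w, hwdef⟩ : ∃ w : PI n → F, w = Pi.single (Sum.inl 0) 1 + Pi.single (Sum.inr 0) 1 :=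
      ⟨_, rfl⟩
    have hw1 : Helper43.plusQF (n + 1) F w = 1 := by
      rw [hwdef]
      exact qplus_u0 n
    have hw0 : Helper43.plusQF (n + 1) F w ≠ 0 := by
      rw [hw1]
      exact one_ne_zero
    have hdw : Helper43.plusQF (n + 1) F (((d : GL (PI n) F) : Matrix (PI n) (PI n) F) *ᵥ w)
        = (cd : F) := by
      have h3 : Helper43.plusQF (n + 1) F (((d : GL (PI n) F) : Matrix (PI n) (PI n) F) *ᵥ w)
          = (cd : F) * Helper43.plusQF (n + 1) F w := hcd w
      rw [h3, hw1, mul_one]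
    have hdw0 : Helper43.plusQF (n + 1) F (((d : GL (PI n) F) : Matrix (PI n) (PI n) F) *ᵥ w)
        ≠ 0 := by
      rw [hdw]
      exact cd.ne_zero
    obtain ⟨r, hr⟩ : ∃ r : ↥(isometryGroup F ⇑(Helper43.plusQF (n + 1) F)),
        r = Helper45.reflO (Helper43.plusQF (n + 1) F) w hw0 := ⟨_, rfl⟩
    obtain ⟨r', hr'⟩ : ∃ r' : ↥(isometryGroup F ⇑(Helper43.plusQF (n + 1) F)),
        r' = Helper45.reflO (Helper43.plusQF (n + 1) F)
          (((d : GL (PI n) F) : Matrix (PI n) (PI n) F) *ᵥ w) hdw0 := ⟨_, rfl⟩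
    -- `r h` preserves the classes
    obtain ⟨cu, hcu⟩ := isCls_exists h hh
    have hcu1 : cu = 1 := by
      have h3 : cu ≠ 0 := fun h0 => hnp ((isCls_psc hR _ _ hcu).mpr h0)
      have key : ∀ c : ZMod 2, c ≠ 0 → c = 1 := by decide
      exact key cu h3
    have hcr : IsCls (n + 1) ((r : GL (PI n) F) : Matrix (PI n) (PI n) F) 1 := by
      have h1 := isCls_iso r
      rw [hr, Helper45.dick_refl _ hQ] at h1
      rw [hr]
      exact h1
    have hrhP : PreservesSingularClasses (quadFormPlus (n + 1) F)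
        (((r : GL (PI n) F) * h : GL (PI n) F) : Matrix (PI n) (PI n) F) := by
      have h3 := isCls_mul hR _ _ _ _ hcr hcu
      rw [hcu1] at h3
      rw [Units.val_mul]
      exact (isCls_psc hR _ _ h3).mpr (by decide)
    have hrsim : (r : GL (PI n) F) ∈ Geo.quadSimilarityGroup (F := F) (quadFormPlus (n + 1) F) :=
      Helper45.iso_le_sim _ r.2
    obtain ⟨h', hh'⟩ : ∃ h' : ↥(pscpGrp hR), (h' : GL (PI n) F) = (r : GL (PI n) F) * h :=
      ⟨⟨(r : GL (PI n) F) * h, mul_mem hrsim hh, hrhP⟩, rfl⟩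
    obtain ⟨ch', hch'⟩ := id h'.2.1
    -- the commutator of `r h` and `d` lies in `Ω`
    obtain ⟨k, hk⟩ : ∃ k : ↥(pscpGrp hR), k = h' * d * h'⁻¹ * d⁻¹ := ⟨_, rfl⟩
    have hkgl : (k : GL (PI n) F)
        = (h' : GL (PI n) F) * (d : GL (PI n) F) * (h' : GL (PI n) F)⁻¹ * (d : GL (PI n) F)⁻¹ := by
      rw [hk]
      rfl
    have hkiso : (k : GL (PI n) F) ∈ isometryGroup F ⇑(Helper43.plusQF (n + 1) F) := by
      rw [hkgl]
      exact comm_mem_iso (Helper43.plusQF (n + 1) F) _ _ (ch' : F) (cd : F) ch'.ne_zero cd.ne_zero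
        hch' hcd
    have hmemG : ∀ g : ↥(pscpGrp hR), pscpD hR g ∈ inndiagPOmegaPlus (n + 1) F := by
      intro g
      rw [← pscpD_range hR]
      exact ⟨g, rfl⟩
    have hkinn : pscpD hR k ∈ Inn (POmega F (quadFormPlus (n + 1) F)) := by
      rw [hk, map_mul, map_mul, map_mul, map_inv, map_inv]
      exact comm_mem_of_relIndex_four _ _ hnormT hidx4 _ _ (hmemG h') (hmemG d)
    have hkΩ : (⟨(k : GL (PI n) F), hkiso⟩ : ↥(isometryGroup F ⇑(Helper43.plusQF (n + 1) F)))
        ∈ Omega F ⇑(Helper43.plusQF (n + 1) F) :=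
      Helper45.omega_of_mem_inn (Helper43.plusQF (n + 1) F) hscal hneg ⟨w, hw0⟩ _ (pscpD hR k)
        ((Helper45.OO.semi_ind_iff _ _ _ (semi_of_mem _ k.1 k.2.1) _).mpr rfl) hkinn
    -- the commutator of `h` and `d` is a scalar
    obtain ⟨zS, hzS⟩ : ∃ zS : ↥(Geo.quadSimilarityGroup (F := F) (quadFormPlus (n + 1) F)),
        zS = ⟨h, hh⟩ * Subgroup.inclusion (pscpGrp_le hR) d * (⟨h, hh⟩ : ↥(Geo.quadSimilarityGroup
          (F := F) (quadFormPlus (n + 1) F)))⁻¹ * (Subgroup.inclusion (pscpGrp_le hR) d)⁻¹ :=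
      ⟨_, rfl⟩
    have hzgl : (zS : GL (PI n) F) = h * (d : GL (PI n) F) * h⁻¹ * (d : GL (PI n) F)⁻¹ := by
      rw [hzS]
      rfl
    have hz1 : simHom (quadFormPlus (n + 1) F) zS = 1 := by
      have h3 : pscpD hR d = simHom (quadFormPlus (n + 1) F)
          (Subgroup.inclusion (pscpGrp_le hR) d) := rfl
      rw [hzS, map_mul, map_mul, map_mul, map_inv, map_inv, ← h3, ← hcomm]
      group
    obtain ⟨lam, hlam⟩ := (simHom_eq_one_iff (Helper43.plusQF (n + 1) F) hQ hn5 zS).mp hz1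
    have hziso : (zS : GL (PI n) F) ∈ isometryGroup F ⇑(Helper43.plusQF (n + 1) F) := by
      rw [hzgl]
      exact comm_mem_iso (Helper43.plusQF (n + 1) F) _ _ (ch : F) (cd : F) ch.ne_zero cd.ne_zero
        hch hcd
    have hlam2 : lam * lam = 1 := by
      have h3 := (Helper45.mem_iso_iff _ _).mp hziso w
      rw [hlam, Matrix.smul_mulVec, Matrix.one_mulVec, QuadraticMap.map_smul, hw1, smul_eq_mul,
        mul_one] at h3
      exact h3
    have hzΩ : (⟨(zS : GL (PI n) F), hziso⟩ : ↥(isometryGroup F ⇑(Helper43.plusQF (n + 1) F)))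
        ∈ Omega F ⇑(Helper43.plusQF (n + 1) F) := by
      have h4 : (lam - 1) * (lam + 1) = 0 := by linear_combination hlam2
      rcases mul_eq_zero.mp h4 with h5 | h5
      · have h6 : (⟨(zS : GL (PI n) F), hziso⟩ :
            ↥(isometryGroup F ⇑(Helper43.plusQF (n + 1) F))) = 1 := by
          apply Subtype.ext
          apply Units.ext
          show ((zS : GL (PI n) F) : Matrix (PI n) (PI n) F) = 1
          rw [hlam, sub_eq_zero.mp h5, one_smul]
        rw [h6]
        exact one_mem _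
      · have h6 : (⟨(zS : GL (PI n) F), hziso⟩ :
            ↥(isometryGroup F ⇑(Helper43.plusQF (n + 1) F)))
            = Helper45.negO (Helper43.plusQF (n + 1) F) := by
          apply Subtype.ext
          apply Units.ext
          show ((zS : GL (PI n) F) : Matrix (PI n) (PI n) F) = -1
          rw [hlam, eq_neg_of_add_eq_zero_left h5, neg_smul, one_smul]
        rw [h6]
        exact hneg
    -- the relation between the two commutators
    have hr'gl : (r' : GL (PI n) F) = (d : GL (PI n) F) * (r : GL (PI n) F) * (d : GL (PI n) F)⁻¹ := by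
      apply Units.ext
      rw [hr', hr, Units.val_mul, Units.val_mul, Helper45.reflO_coe, Helper45.reflO_coe]
      have h1 : ((d : GL (PI n) F) : Matrix (PI n) (PI n) F)
          * (((d : GL (PI n) F)⁻¹ : GL (PI n) F) : Matrix (PI n) (PI n) F) = 1 := by
        rw [← Units.val_mul, mul_inv_cancel, Units.val_one]
      have h2 : (((d : GL (PI n) F)⁻¹ : GL (PI n) F) : Matrix (PI n) (PI n) F)
          * ((d : GL (PI n) F) : Matrix (PI n) (PI n) F) = 1 := by
        rw [← Units.val_mul, inv_mul_cancel, Units.val_one]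
      exact (refl_rect (Helper43.plusQF (n + 1) F) (Helper43.plusQF (n + 1) F) _ _ h1 h2 (cd : F)
        cd.ne_zero hcd w).symm
    have hrel : (⟨(zS : GL (PI n) F), hziso⟩ : ↥(isometryGroup F ⇑(Helper43.plusQF (n + 1) F)))
        = r⁻¹ * ⟨(k : GL (PI n) F), hkiso⟩ * r' := by
      apply Subtype.ext
      show (zS : GL (PI n) F) = (r : GL (PI n) F)⁻¹ * (k : GL (PI n) F) * (r' : GL (PI n) F)
      rw [hzgl, hkgl, hr'gl, hh']
      group
    have hsz := ((Helper45.mem_omega_iff (Helper43.plusQF (n + 1) F) h2F hQ hcard2 c₁ hc₁ _).mp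
      hzΩ).1
    have hsk := ((Helper45.mem_omega_iff (Helper43.plusQF (n + 1) F) h2F hQ hcard2 c₁ hc₁ _).mp
      hkΩ).1
    rw [hrel, map_mul, map_mul, map_inv, hsk, mul_one] at hsz
    have hsr : Helper45.spin ⇑(Helper43.plusQF (n + 1) F) 1 r = -1 := by
      rw [hr]
      exact Helper45.spin_one_reflO_sq _ h2F w hw0 (by rw [hw1]; exact ⟨1, by ring⟩)
    have hsr' : Helper45.spin ⇑(Helper43.plusQF (n + 1) F) 1 r' = 1 := by
      rw [hr']
      exact Helper45.spin_one_reflO_nsq _ h2F _ hdw0 (by rw [hdw]; exact hns)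
    rw [hsr, hsr'] at hsz
    revert hsz
    decide
  -- conclusion: a square multiplier gives an element of `PSO`
  have hne : (cd : F) ≠ 0 := cd.ne_zero
  have hmult : Helper45.mult (quadFormPlus (n + 1) F) (S2722.v0 F (0 : Fin (n + 1))) d.1
      = (cd : F) := by
    unfold Helper45.mult
    rw [hcd, D.hv₀, mul_one]
  have e1 : Helper45.mult (quadFormPlus (n + 1) F) (S2722.v0 F (0 : Fin (n + 1))) d.1
      ^ (Fintype.card F / 2) = 1 := by
    rw [hmult]
    exact (FiniteField.isSquare_iff hchar hne).mp hsqc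
  have hdet : ((d : GL (PI n) F) : Matrix (PI n) (PI n) F).det
      = Helper45.mult (quadFormPlus (n + 1) F) (S2722.v0 F (0 : Fin (n + 1))) d.1 ^ (n + 1) := by
    rw [hmult]
    exact (Helper45.ID.pres_plus_iff h2F d.1 (cd : F) hne hcd).mp d.2.2
  exact Helper45.ID.pso_of_theta (Helper43.plusQF (n + 1) F) D d.2.1 e1 hdet
    ((Helper45.OO.semi_ind_iff _ _ _ (semi_of_mem _ d.1 d.2.1) _).mpr rfl)

set_option maxHeartbeats 1600000 in
/-- **the class count two for a similarity-induced graph automorphism commuting with a product of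
two reflections of non-square spinor norm** (`q` odd, `-1 ∈ Ω`) -/
theorem plus_graph_count_two (hodd : Odd (Fintype.card F)) (hn : 3 ≤ n)
    (hR : Helper45.reflGroup (Helper43.plusQF (n + 1) F) = ⊤)
    (hq : Fintype.card F ^ (n + 1) % 4 = 1)
    (h : GL (PI n) F) (hh : h ∈ Geo.quadSimilarityGroup (F := F) (quadFormPlus (n + 1) F))
    (hnp : ¬ PreservesSingularClasses (quadFormPlus (n + 1) F) (h : Matrix (PI n) (PI n) F))
    (u w : PI n → F) (hu : quadFormPlus (n + 1) F u ≠ 0) (hw : quadFormPlus (n + 1) F w ≠ 0)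
    (hns : ¬ IsSquare (quadFormPlus (n + 1) F u * quadFormPlus (n + 1) F w))
    (hcomm : (h : Matrix (PI n) (PI n) F)
        * (reflectionMatrix (quadFormPlus (n + 1) F) u * reflectionMatrix (quadFormPlus (n + 1) F) w)
      = (reflectionMatrix (quadFormPlus (n + 1) F) u * reflectionMatrix (quadFormPlus (n + 1) F) w)
        * (h : Matrix (PI n) (PI n) F)) :
    splitClassCount (inndiagPOmegaPlus (n + 1) F) (Inn (POmega F (quadFormPlus (n + 1) F)))
      (simHom (quadFormPlus (n + 1) F) ⟨h, hh⟩) = 2 := by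
  classical
  have h2F : (2 : F) ≠ 0 := Helper45.two_ne_zero_of_odd_card hodd
  have hchar : ringChar F ≠ 2 := Helper45.ringChar_ne_two h2F
  have hQ := Helper45.plusQF_nondeg' (F := F) (n + 1)
  have hcard2 : 2 ≤ Fintype.card (PI n) := by
    rw [Fintype.card_sum, Fintype.card_fin]
    omega
  have hn5 : 5 ≤ Fintype.card (PI n) := by
    rw [Fintype.card_sum, Fintype.card_fin]
    omega
  have hneg : Helper45.negO (Helper43.plusQF (n + 1) F)
      ∈ Omega F ⇑(Helper43.plusQF (n + 1) F) :=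
    (Helper45.negO_plus_mem_iff (m := n + 1) hodd h2F (by omega)).mpr hq
  have hscal : ∀ g : GL (PI n) F,
      g ∈ Geo.quadSimilarityGroup (F := F) ⇑(Helper43.plusQF (n + 1) F) →
      Helper45.Ind ⇑(Helper43.plusQF (n + 1) F) g 1 →
      ∃ c : F, (g : Matrix (PI n) (PI n) F) = c • (1 : Matrix (PI n) (PI n) F) :=
    fun g hg h1 => Helper45.OO.scalar_of_ind (Helper43.plusQF (n + 1) F) hQ hn5 g hg h1
  have D : Helper45.KData (quadFormPlus (n + 1) F) (n + 1) (S2722.gramJ (n + 1) F)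
      (S2722.v0 F (0 : Fin (n + 1))) := by
    constructor
    · simp
    · exact S2722.quad_eq
    · exact S2722.gramJ_transpose
    · exact S2722.gramJ_det
    · exact S2722.quad_v0 _
    · exact h2F
  obtain ⟨c₁, hc₁⟩ := FiniteField.exists_nonsquare hchar
  have hc₁0 : c₁ ≠ 0 := by
    rintro rfl
    exact hc₁ ⟨0, by simp⟩
  obtain ⟨gg, hgg, hdetgg⟩ := S2722.exists_g1 (m := n + 1) h2F c₁ hc₁0
  have hG : inndiagPOmegaPlus (n + 1) F
      = Helper45.ID.autK (Helper43.plusQF (n + 1) F) D :=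
    Helper45.ID.inndiag_plus_eq h2F 0 D
  have hidx2 : (psoAut F (quadFormPlus (n + 1) F)).relIndex
      (inndiagPOmegaPlus (n + 1) F) = 2 := by
    rw [hG]
    exact Helper45.ID.relIndex_pso_autK (Helper43.plusQF (n + 1) F) hodd D hscal gg c₁
      hgg hc₁ hdetgg
  have hidxPT : (Inn (POmega F (quadFormPlus (n + 1) F))).relIndex
      (psoAut F (quadFormPlus (n + 1) F)) = 2 :=
    Helper45.pso_relIndex_two (Helper43.plusQF (n + 1) F) h2F hQ hcard2 hscal hneg
  have hTP : Inn (POmega F (quadFormPlus (n + 1) F)) ≤ psoAut F (quadFormPlus (n + 1) F) :=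
    Helper45.inn_le_psoAut (Helper43.plusQF (n + 1) F)
  have hPG : psoAut F (quadFormPlus (n + 1) F) ≤ inndiagPOmegaPlus (n + 1) F := by
    rw [hG]
    exact Helper45.ID.psoAut_le_autK (Helper43.plusQF (n + 1) F) D
  have hInnG : Inn (POmega F (quadFormPlus (n + 1) F)) ≤ inndiagPOmegaPlus (n + 1) F :=
    hTP.trans hPG
  have hnormT : ∀ g ∈ inndiagPOmegaPlus (n + 1) F,
      ∀ t ∈ Inn (POmega F (quadFormPlus (n + 1) F)),
      g * t * g⁻¹ ∈ Inn (POmega F (quadFormPlus (n + 1) F)) :=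
    fun g _ t ht => (innNormal (POmega F (quadFormPlus (n + 1) F))).conj_mem t ht g
  obtain ⟨x, hxdef⟩ : ∃ x, x = simHom (quadFormPlus (n + 1) F) ⟨h, hh⟩ := ⟨_, rfl⟩
  rw [← hxdef]
  -- the commuting element
  have hu' : Helper43.plusQF (n + 1) F u ≠ 0 := hu
  have hw' : Helper43.plusQF (n + 1) F w ≠ 0 := hw
  obtain ⟨gO, hgO⟩ : ∃ gO : ↥(isometryGroup F ⇑(Helper43.plusQF (n + 1) F)),
      gO = Helper45.reflO (Helper43.plusQF (n + 1) F) u hu'
        * Helper45.reflO (Helper43.plusQF (n + 1) F) w hw' := ⟨_, rfl⟩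
  have hgOv : ((gO : GL (PI n) F) : Matrix (PI n) (PI n) F)
      = reflectionMatrix (quadFormPlus (n + 1) F) u
        * reflectionMatrix (quadFormPlus (n + 1) F) w := by
    rw [hgO]
    rfl
  have hdet : ((gO : GL (PI n) F) : Matrix (PI n) (PI n) F).det = 1 := by
    rw [hgOv, Matrix.det_mul]
    have e1 := Helper13.reflection_det (Helper43.plusQF (n + 1) F) u hu'
    have e2 := Helper13.reflection_det (Helper43.plusQF (n + 1) F) w hw'
    rw [Helper43.plusQF_coe] at e1 e2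
    rw [e1, e2]
    ring
  have hgsim : (gO : GL (PI n) F) ∈ Geo.quadSimilarityGroup (F := F) (quadFormPlus (n + 1) F) :=
    Helper45.iso_le_sim _ gO.2
  obtain ⟨β₁, hβ₁⟩ : ∃ β₁, β₁ = simHom (quadFormPlus (n + 1) F) ⟨(gO : GL (PI n) F), hgsim⟩ :=
    ⟨_, rfl⟩
  have hβ₁ind : Helper45.Ind ⇑(Helper43.plusQF (n + 1) F) (gO : GL (PI n) F) β₁ := by
    rw [hβ₁]
    exact (Helper45.OO.semi_ind_iff _ _ _ (semi_of_mem _ _ hgsim) _).mpr rfl
  have hβ₁P : β₁ ∈ psoAut F (quadFormPlus (n + 1) F) := by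
    exact (Helper45.mem_psoAut_iff _ β₁).mpr
      ⟨(gO : GL (PI n) F), (Helper45.mem_special_iff (Helper43.plusQF (n + 1) F) _).mpr
        ⟨gO.2, hdet⟩, hβ₁ind⟩
  have hβ₁T : β₁ ∉ Inn (POmega F (quadFormPlus (n + 1) F)) := by
    intro hinn
    have h3 := Helper45.omega_of_mem_inn (Helper43.plusQF (n + 1) F) hscal hneg ⟨u, hu'⟩ gO β₁
      hβ₁ind hinn
    rw [Helper45.mem_omega_prod_refl (Helper43.plusQF (n + 1) F) h2F hQ hcard2 [u, w]
      (by
        intro v hv
        simp only [List.mem_cons, List.not_mem_nil, or_false] at hv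
        rcases hv with rfl | rfl
        · exact hu'
        · exact hw')
      gO (by
        rw [hgOv]
        simp [Helper43.plusQF_coe])] at h3
    apply hns
    have h4 := h3.2
    simpa [Helper43.plusQF_coe] using h4
  have hβ₁x : β₁ * x = x * β₁ := by
    rw [hβ₁, hxdef, ← map_mul, ← map_mul]
    congr 1
    apply Subtype.ext
    apply Units.ext
    show ((gO : GL (PI n) F) : Matrix (PI n) (PI n) F) * (h : Matrix (PI n) (PI n) F)
      = (h : Matrix (PI n) (PI n) F) * ((gO : GL (PI n) F) : Matrix (PI n) (PI n) F)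
    rw [hgOv]
    exact hcomm.symm
  have hcent : ∀ c ∈ inndiagPOmegaPlus (n + 1) F, c * x = x * c →
      c ∈ psoAut F (quadFormPlus (n + 1) F) := by
    intro c hc hcx
    rw [← pscpD_range hR] at hc
    obtain ⟨d, rfl⟩ := hc
    rw [hxdef] at hcx
    exact plus_cent_graph_pso hodd hn hR hq h hh hnp d hcx
  rw [splitCount_eq_relIndex (inndiagPOmegaPlus (n + 1) F)
    (Inn (POmega F (quadFormPlus (n + 1) F))) (psoAut F (quadFormPlus (n + 1) F)) x
    hnormT ?_, hidx2]
  intro g hg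
  constructor
  · intro hgP
    by_cases hgT : g ∈ Inn (POmega F (quadFormPlus (n + 1) F))
    · exact ⟨g, hgT, rfl⟩
    · refine ⟨g * β₁⁻¹, ?_, ?_⟩
      · rw [mul_mem_iff_relIndex_two (psoAut F (quadFormPlus (n + 1) F))
          (Inn (POmega F (quadFormPlus (n + 1) F))) hidxPT hgP (inv_mem hβ₁P), inv_mem_iff]
        exact ⟨fun h3 => absurd h3 hgT, fun h3 => absurd h3 hβ₁T⟩
      · have h3 : β₁⁻¹ * x * β₁ = x := by
          rw [mul_assoc, ← hβ₁x, inv_mul_cancel_left]
        calc g * x * g⁻¹ = g * (β₁⁻¹ * x * β₁) * g⁻¹ := by rw [h3]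
          _ = g * β₁⁻¹ * x * (g * β₁⁻¹)⁻¹ := by group
  · rintro ⟨t, ht, hgt⟩
    have h3 : (t⁻¹ * g) * x = x * (t⁻¹ * g) := by
      have h4 : t⁻¹ * (g * x * g⁻¹) * g = t⁻¹ * (t * x * t⁻¹) * g := by rw [hgt]
      calc t⁻¹ * g * x = t⁻¹ * (g * x * g⁻¹) * g := by group
        _ = t⁻¹ * (t * x * t⁻¹) * g := h4
        _ = x * (t⁻¹ * g) := by group
    have h5 := hcent (t⁻¹ * g) (mul_mem (inv_mem (hInnG ht)) hg) h3
    have h6 : g = t * (t⁻¹ * g) := by group
    rw [h6]
    exact mul_mem (hTP ht) h5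

end plus

end Cfsg.Agent.Helper44.POm
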