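import Mathlib
import Cfsg.Agent.Helper44.OmGA

/-!
# Involutory graph automorphisms of `PΩ⁺_{2m}(q)` induced by similarities, `q` odd

For a similarity `h` whose square is a scalar we produce a product of two reflections of
non-square spinor norm commuting with `h`; this gives the class count.
-/

set_option autoImplicit false
set_option linter.unusedSimpArgs false
set_option linter.unusedSectionVars false
set_option linter.unusedVariables false
set_option linter.deprecated false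

namespace Cfsg.Agent.Helper44.POm

open Matrix Cfsg
open Cfsg.Agent.Helper45.OO (semiAut semiMap glMap polarGram)

universe u v

section gen

variable {ι : Type} [Fintype ι] [DecidableEq ι] {F : Type u} [Field F] [Fintype F]
  (Q : QuadraticForm F (ι → F))

/-- case `h² = -c`: a rotation of the plane `⟨u, h u⟩` -/
theorem exists_refl_neg (h2 : (2 : F) ≠ 0) (H : Matrix ι ι F) (c : F) (hc : c ≠ 0)
    (hsim : ∀ v, Q (H *ᵥ v) = c * Q v) (hHH : ∀ v, H *ᵥ (H *ᵥ v) = (-c) • v)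
    (u₀ : ι → F) (a : F) (ha : Q u₀ = a) (ha0 : a ≠ 0) :
    ∃ u w, Q u ≠ 0 ∧ Q w ≠ 0 ∧ ¬ IsSquare (Q u * Q w) ∧
      reflectionMatrix ⇑Q (H *ᵥ u) * reflectionMatrix ⇑Q (H *ᵥ w)
        = reflectionMatrix ⇑Q u * reflectionMatrix ⇑Q w := by
  have hchar : ringChar F ≠ 2 := Helper45.ringChar_ne_two h2
  have hodd' : Fintype.card F % 2 = 1 := FiniteField.odd_card_of_char_ne_two hchar
  obtain ⟨ε, hε⟩ := FiniteField.exists_nonsquare hchar
  have hε0 : ε ≠ 0 := by
    rintro rfl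
    exact hε ⟨0, by simp⟩
  have h4 : (4 : F) ≠ 0 := by
    have e : (4 : F) = 2 * 2 := by norm_num
    rw [e]
    exact mul_ne_zero h2 h2
  obtain ⟨x, y, hxy⟩ := S2726.exists_norm (0 : F) c hodd' h2 (by
    simp only [ne_eq, zero_pow, OfNat.ofNat_ne_zero, not_false_eq_true, sub_zero, mul_eq_zero]
    push_neg
    exact ⟨h4, hc⟩) ε
  have hN : x ^ 2 + c * y ^ 2 = ε := by
    rw [← hxy]
    ring
  have hN0 : x ^ 2 + c * y ^ 2 ≠ 0 := by
    rw [hN]
    exact hε0
  have horth : QuadraticMap.polar ⇑Q u₀ (H *ᵥ u₀) = 0 := by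
    have h5 := sim_polar Q H c hsim u₀ (H *ᵥ u₀)
    rw [hHH, QuadraticMap.polar_smul_right, QuadraticMap.polar_comm ⇑Q (H *ᵥ u₀) u₀,
      smul_eq_mul] at h5
    have h6 : (2 * c) * QuadraticMap.polar ⇑Q u₀ (H *ᵥ u₀) = 0 := by linear_combination -h5
    exact (mul_eq_zero.mp h6).resolve_left (mul_ne_zero h2 hc)
  have hQH : Q (H *ᵥ u₀) = c * a := by rw [hsim, ha]
  have hQw : Q (x • u₀ + y • H *ᵥ u₀) = a * ε := by
    rw [Helper13.Q_add', QuadraticMap.map_smul, QuadraticMap.map_smul,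
      QuadraticMap.polar_smul_left, QuadraticMap.polar_smul_right, horth, ha, hQH, ← hN]
    simp only [smul_eq_mul]
    ring
  refine ⟨u₀, x • u₀ + y • H *ᵥ u₀, by rw [ha]; exact ha0, by
    rw [hQw]; exact mul_ne_zero ha0 hε0, ?_, ?_⟩
  · rw [hQw, ha, ← mul_assoc]
    exact fun h3 => hε ((Helper45.isSquare_sq_mul_iff ha0).mp h3)
  · have hHw : H *ᵥ (x • u₀ + y • H *ᵥ u₀) = x • H *ᵥ u₀ + y • ((-c) • u₀) := by
      rw [Matrix.mulVec_add, Matrix.mulVec_smul, Matrix.mulVec_smul, hHH]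
    apply Helper13.mulVec_ext
    intro z
    rw [hHw, two_refl_formula Q (H *ᵥ u₀) ((-c) • u₀) (c * a) c x y hQH (mul_ne_zero hc ha0)
        (by
          rw [QuadraticMap.map_smul, ha, smul_eq_mul]
          ring)
        (by
          rw [QuadraticMap.polar_smul_right, QuadraticMap.polar_comm, horth, smul_zero]) hN0 z,
      two_refl_formula Q u₀ (H *ᵥ u₀) a c x y ha ha0 hQH horth hN0 z,
      QuadraticMap.polar_smul_left]
    ext i
    simp only [Pi.add_apply, Pi.sub_apply, Pi.smul_apply, smul_eq_mul]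
    field_simp
    ring

/-- case `h² = c = s²`: reflections in eigenvectors -/
theorem exists_refl_eigen (h2 : (2 : F) ≠ 0) (hQ : (QuadraticMap.polarBilin Q).Nondegenerate)
    (hcard : 3 ≤ Fintype.card ι) (H : Matrix ι ι F) (s : F) (hs : s ≠ 0)
    (hsim : ∀ v, Q (H *ᵥ v) = (s * s) * Q v) (hHH : ∀ v, H *ᵥ (H *ᵥ v) = (s * s) • v)
    (u₀ : ι → F) (hu₀ : Q u₀ ≠ 0) :
    ∃ u w, Q u ≠ 0 ∧ Q w ≠ 0 ∧ ¬ IsSquare (Q u * Q w) ∧
      reflectionMatrix ⇑Q (H *ᵥ u) * reflectionMatrix ⇑Q (H *ᵥ w)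
        = reflectionMatrix ⇑Q u * reflectionMatrix ⇑Q w := by
  have hchar : ringChar F ≠ 2 := Helper45.ringChar_ne_two h2
  have hodd' : Fintype.card F % 2 = 1 := FiniteField.odd_card_of_char_ne_two hchar
  have h4 : (4 : F) ≠ 0 := by
    have e : (4 : F) = 2 * 2 := by norm_num
    rw [e]
    exact mul_ne_zero h2 h2
  -- the two eigen-components of a vector
  have hsplit : ∀ z, Q z ≠ 0 → ∃ (v : ι → F) (σ : F), (σ = s ∨ σ = -s) ∧ H *ᵥ v = σ • v ∧
      Q v ≠ 0 ∧ (∀ b, QuadraticMap.polar ⇑Q b z = 0 → QuadraticMap.polar ⇑Q b (H *ᵥ z) = 0 →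
        QuadraticMap.polar ⇑Q b v = 0) := by
    intro z hz
    have hp : H *ᵥ (z + s⁻¹ • H *ᵥ z) = s • (z + s⁻¹ • H *ᵥ z) := by
      rw [Matrix.mulVec_add, Matrix.mulVec_smul, hHH]
      ext i
      simp only [Pi.add_apply, Pi.smul_apply, smul_eq_mul]
      field_simp
      ring
    have hm : H *ᵥ (z - s⁻¹ • H *ᵥ z) = (-s) • (z - s⁻¹ • H *ᵥ z) := by
      rw [Matrix.mulVec_sub, Matrix.mulVec_smul, hHH]
      ext i
      simp only [Pi.sub_apply, Pi.smul_apply, smul_eq_mul]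
      field_simp
      ring
    have hsum : Q (z + s⁻¹ • H *ᵥ z) + Q (z - s⁻¹ • H *ᵥ z) = 4 * Q z := by
      rw [sub_eq_add_neg, ← neg_smul, Helper13.Q_add', Helper13.Q_add', QuadraticMap.map_smul,
        QuadraticMap.map_smul, QuadraticMap.polar_smul_right, QuadraticMap.polar_smul_right, hsim]
      simp only [smul_eq_mul]
      field_simp
      ring
    by_cases h1 : Q (z + s⁻¹ • H *ᵥ z) = 0
    · refine ⟨z - s⁻¹ • H *ᵥ z, -s, Or.inr rfl, hm, ?_, ?_⟩
      · intro h0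
        rw [h1, h0, add_zero] at hsum
        exact hz ((mul_eq_zero.mp hsum.symm).resolve_left h4)
      · intro b hb1 hb2
        rw [QuadraticMap.polar_sub_right, QuadraticMap.polar_smul_right, hb1, hb2, smul_zero,
          sub_zero]
    · refine ⟨z + s⁻¹ • H *ᵥ z, s, Or.inl rfl, hp, h1, ?_⟩
      intro b hb1 hb2
      rw [QuadraticMap.polar_add_right, QuadraticMap.polar_smul_right, hb1, hb2, smul_zero,
        add_zero]
  -- an eigenvector orthogonal to `z` is orthogonal to `H z`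
  have hperp : ∀ (b z : ι → F) (τ : F), τ ≠ 0 → H *ᵥ b = τ • b →
      QuadraticMap.polar ⇑Q b z = 0 → QuadraticMap.polar ⇑Q b (H *ᵥ z) = 0 := by
    intro b z τ hτ hb hbz
    have h5 := sim_polar Q H (s * s) hsim b z
    rw [hb, QuadraticMap.polar_smul_left, hbz, mul_zero, smul_eq_mul] at h5
    exact (mul_eq_zero.mp h5).resolve_left hτ
  have hσ0 : ∀ σ : F, (σ = s ∨ σ = -s) → σ ≠ 0 := by
    rintro σ (rfl | rfl)
    · exact hs
    · exact neg_ne_zero.mpr hs
  -- the next eigenvector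
  have hnext : ∀ (a₁ a₂ : ι → F) (τ₁ τ₂ : F), τ₁ ≠ 0 → H *ᵥ a₁ = τ₁ • a₁ → Q a₁ ≠ 0 →
      QuadraticMap.polar ⇑Q a₁ a₂ = 0 →
      (a₂ = 0 ∨ (τ₂ ≠ 0 ∧ H *ᵥ a₂ = τ₂ • a₂ ∧ Q a₂ ≠ 0)) →
      ∃ (v : ι → F) (σ : F), (σ = s ∨ σ = -s) ∧ H *ᵥ v = σ • v ∧ Q v ≠ 0 ∧
        QuadraticMap.polar ⇑Q a₁ v = 0 ∧ QuadraticMap.polar ⇑Q a₂ v = 0 := by
    intro a₁ a₂ τ₁ τ₂ hτ₁ hea₁ hqa₁ h12 ha₂
    obtain ⟨z, hz1, hz2, hzq⟩ := exists_aniso_perp Q hQ hcard a₁ a₂ (by
      intro y
      refine ⟨QuadraticMap.polar ⇑Q a₁ y / (2 * Q a₁), QuadraticMap.polar ⇑Q a₂ y / (2 * Q a₂),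
        ?_, ?_⟩
      · rw [QuadraticMap.polar_sub_right, QuadraticMap.polar_sub_right,
          QuadraticMap.polar_smul_right, QuadraticMap.polar_smul_right, h12,
          QuadraticMap.polar_self]
        simp only [smul_eq_mul]
        field_simp
        ring
      · rcases ha₂ with rfl | ⟨-, -, hqa₂⟩
        · simp
        · rw [QuadraticMap.polar_sub_right, QuadraticMap.polar_sub_right,
            QuadraticMap.polar_smul_right, QuadraticMap.polar_smul_right,
            QuadraticMap.polar_comm ⇑Q a₂ a₁, h12, QuadraticMap.polar_self]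
          simp only [smul_eq_mul]
          field_simp
          ring)
    obtain ⟨v, σ, hσ, hev, hqv, hpv⟩ := hsplit z hzq
    refine ⟨v, σ, hσ, hev, hqv, hpv a₁ hz1 (hperp a₁ z τ₁ hτ₁ hea₁ hz1), ?_⟩
    rcases ha₂ with rfl | ⟨hτ₂, hea₂, -⟩
    · simp
    · exact hpv a₂ hz2 (hperp a₂ z τ₂ hτ₂ hea₂ hz2)
  -- two orthogonal non-singular eigenvectors with the same eigenvalue
  have hpair : ∀ (p p' : ι → F) (σ : F), σ ≠ 0 → H *ᵥ p = σ • p → H *ᵥ p' = σ • p' →
      Q p ≠ 0 → Q p' ≠ 0 → QuadraticMap.polar ⇑Q p p' = 0 →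
      ∃ u w, Q u ≠ 0 ∧ Q w ≠ 0 ∧ ¬ IsSquare (Q u * Q w) ∧
        reflectionMatrix ⇑Q (H *ᵥ u) * reflectionMatrix ⇑Q (H *ᵥ w)
          = reflectionMatrix ⇑Q u * reflectionMatrix ⇑Q w := by
    intro p p' σ hσ hp hp' hqp hqp' hpp'
    obtain ⟨ε, hε⟩ := FiniteField.exists_nonsquare hchar
    have hε0 : ε ≠ 0 := by
      rintro rfl
      exact hε ⟨0, by simp⟩
    obtain ⟨x, y, hxy⟩ := S2726.exists_norm (0 : F) (Q p' / Q p) hodd' h2 (by
      simp only [ne_eq, zero_pow, OfNat.ofNat_ne_zero, not_false_eq_true, sub_zero, mul_eq_zero]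
      push_neg
      exact ⟨h4, div_ne_zero hqp' hqp⟩) ε
    have hQw : Q (x • p + y • p') = Q p * Q p * (ε / Q p) := by
      rw [Helper13.Q_add', QuadraticMap.map_smul, QuadraticMap.map_smul,
        QuadraticMap.polar_smul_left, QuadraticMap.polar_smul_right, hpp', ← hxy]
      simp only [smul_eq_mul]
      field_simp
      ring
    have hQw0 : Q (x • p + y • p') ≠ 0 := by
      rw [hQw]
      exact mul_ne_zero (mul_ne_zero hqp hqp) (div_ne_zero hε0 hqp)
    refine ⟨p, x • p + y • p', hqp, hQw0, ?_, ?_⟩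
    · have e1 : Q p * Q (x • p + y • p') = (Q p * Q p) * (Q p * Q p) * (ε / (Q p * Q p)) * 1 := by
        rw [hQw]
        field_simp
      rw [e1, mul_one]
      intro h3
      have h5 := (Helper45.isSquare_sq_mul_iff (mul_ne_zero hqp hqp)).mp h3
      apply hε
      obtain ⟨r, hr⟩ := h5
      refine ⟨r * Q p, ?_⟩
      have h6 : ε = (ε / (Q p * Q p)) * (Q p * Q p) := by field_simp
      rw [h6, hr]
      ring
    · have hHw : H *ᵥ (x • p + y • p') = σ • (x • p + y • p') := by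
        rw [Matrix.mulVec_add, Matrix.mulVec_smul, Matrix.mulVec_smul, hp, hp', smul_add,
          smul_comm x σ p, smul_comm y σ p']
      rw [hp, hHw, Helper43.reflectionMatrix_smul Q p σ hσ hqp,
        Helper43.reflectionMatrix_smul Q _ σ hσ hQw0]
  obtain ⟨v₁, σ₁, hσ₁, he₁, hq₁, -⟩ := hsplit u₀ hu₀
  obtain ⟨v₂, σ₂, hσ₂, he₂, hq₂, h12, -⟩ := hnext v₁ 0 σ₁ 0 (hσ0 σ₁ hσ₁) he₁ hq₁ (by simp)
    (Or.inl rfl)
  obtain ⟨v₃, σ₃, hσ₃, he₃, hq₃, h13, h23⟩ := hnext v₁ v₂ σ₁ σ₂ (hσ0 σ₁ hσ₁) he₁ hq₁ h12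
    (Or.inr ⟨hσ0 σ₂ hσ₂, he₂, hq₂⟩)
  by_cases e12 : σ₁ = σ₂
  · rw [← e12] at he₂
    exact hpair v₁ v₂ σ₁ (hσ0 σ₁ hσ₁) he₁ he₂ hq₁ hq₂ h12
  by_cases e13 : σ₁ = σ₃
  · rw [← e13] at he₃
    exact hpair v₁ v₃ σ₁ (hσ0 σ₁ hσ₁) he₁ he₃ hq₁ hq₃ h13
  have e23 : σ₂ = σ₃ := by
    rcases hσ₁ with h1 | h1 <;> rcases hσ₂ with h2' | h2' <;> rcases hσ₃ with h3 | h3
    all_goals first
      | exact absurd (h1.trans h2'.symm) e12
      | exact absurd (h1.trans h3.symm) e13
      | exact h2'.trans h3.symm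
  rw [← e23] at he₃
  exact hpair v₂ v₃ σ₂ (hσ0 σ₂ hσ₂) he₂ he₃ hq₂ hq₃ h23

/-- case `h² = c` a non-square: the half-turn of a plane `⟨u, h u⟩` with `u ⊥ h u` -/
theorem exists_refl_nsq (h2 : (2 : F) ≠ 0) (hQ : (QuadraticMap.polarBilin Q).Nondegenerate)
    (hcard : 3 ≤ Fintype.card ι) (H : Matrix ι ι F) (c : F) (hc : c ≠ 0) (hcns : ¬ IsSquare c)
    (hsim : ∀ v, Q (H *ᵥ v) = c * Q v) (hHH : ∀ v, H *ᵥ (H *ᵥ v) = c • v)
    (e : ι → F) (he : Q e = 0) (het : QuadraticMap.polar ⇑Q e (H *ᵥ e) ≠ 0) :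
    ∃ u w, Q u ≠ 0 ∧ Q w ≠ 0 ∧ ¬ IsSquare (Q u * Q w) ∧
      reflectionMatrix ⇑Q (H *ᵥ u) * reflectionMatrix ⇑Q (H *ᵥ w)
        = reflectionMatrix ⇑Q u * reflectionMatrix ⇑Q w := by
  have hchar : ringChar F ≠ 2 := Helper45.ringChar_ne_two h2
  have hodd' : Fintype.card F % 2 = 1 := FiniteField.odd_card_of_char_ne_two hchar
  have h4 : (4 : F) ≠ 0 := by
    have e : (4 : F) = 2 * 2 := by norm_num
    rw [e]
    exact mul_ne_zero h2 h2
  have hsa : ∀ a b, QuadraticMap.polar ⇑Q a (H *ᵥ b) = QuadraticMap.polar ⇑Q (H *ᵥ a) b := by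
    intro a b
    have h3 := sim_polar Q H c hsim a (H *ᵥ b)
    rw [hHH, QuadraticMap.polar_smul_right, smul_eq_mul] at h3
    exact (mul_left_cancel₀ hc h3).symm
  obtain ⟨t, ht⟩ : ∃ t, t = QuadraticMap.polar ⇑Q e (H *ᵥ e) := ⟨_, rfl⟩
  have ht0 : t ≠ 0 := by
    rw [ht]
    exact het
  have hQHe : Q (H *ᵥ e) = 0 := by rw [hsim, he, mul_zero]
  obtain ⟨u₂, hu1, hu2, hu2q⟩ := exists_aniso_perp Q hQ hcard e (H *ᵥ e) (by
    intro y
    refine ⟨QuadraticMap.polar ⇑Q (H *ᵥ e) y / t, QuadraticMap.polar ⇑Q e y / t, ?_, ?_⟩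
    · rw [QuadraticMap.polar_sub_right, QuadraticMap.polar_sub_right,
        QuadraticMap.polar_smul_right, QuadraticMap.polar_smul_right, QuadraticMap.polar_self,
        he, ← ht]
      simp only [smul_eq_mul]
      field_simp
      ring
    · rw [QuadraticMap.polar_sub_right, QuadraticMap.polar_sub_right,
        QuadraticMap.polar_smul_right, QuadraticMap.polar_smul_right, QuadraticMap.polar_self,
        hQHe, QuadraticMap.polar_comm ⇑Q (H *ᵥ e) e, ← ht]
      simp only [smul_eq_mul]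
      field_simp
      ring)
  obtain ⟨x, y, hxy⟩ := S2726.exists_norm (0 : F) c hodd' h2 (by
    simp only [ne_eq, zero_pow, OfNat.ofNat_ne_zero, not_false_eq_true, sub_zero, mul_eq_zero]
    push_neg
    exact ⟨h4, hc⟩) (-(QuadraticMap.polar ⇑Q u₂ (H *ᵥ u₂)) / t)
  have hxy' : t * (x ^ 2 + c * y ^ 2) = -(QuadraticMap.polar ⇑Q u₂ (H *ᵥ u₂)) := by
    have e1 : x ^ 2 + c * y ^ 2 = -(QuadraticMap.polar ⇑Q u₂ (H *ᵥ u₂)) / t := by
      rw [← hxy]
      ring
    rw [e1]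
    field_simp
  have hQU : ∀ y' : F, Q (x • e + y' • H *ᵥ e + u₂) = x * y' * t + Q u₂ := by
    intro y'
    rw [Helper13.Q_add', Helper13.Q_add', QuadraticMap.map_smul, QuadraticMap.map_smul, he, hQHe,
      QuadraticMap.polar_smul_left, QuadraticMap.polar_smul_right, ← ht,
      QuadraticMap.polar_add_left, QuadraticMap.polar_smul_left, QuadraticMap.polar_smul_left,
      hu1, hu2]
    simp only [smul_eq_mul]
    ring
  have hHU : ∀ y' : F, H *ᵥ (x • e + y' • H *ᵥ e + u₂)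
      = x • H *ᵥ e + (y' * c) • e + H *ᵥ u₂ := by
    intro y'
    rw [Matrix.mulVec_add, Matrix.mulVec_add, Matrix.mulVec_smul, Matrix.mulVec_smul, hHH,
      smul_smul]
  have e1 : QuadraticMap.polar ⇑Q e e = 0 := by
    rw [QuadraticMap.polar_self, he]
    simp
  have e2 : QuadraticMap.polar ⇑Q e (H *ᵥ u₂) = 0 := by rw [hsa, hu2]
  have e3 : QuadraticMap.polar ⇑Q (H *ᵥ e) (H *ᵥ e) = 0 := by
    rw [QuadraticMap.polar_self, hQHe]
    simp
  have e4 : QuadraticMap.polar ⇑Q (H *ᵥ e) e = t := by rw [QuadraticMap.polar_comm, ht]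
  have e5 : QuadraticMap.polar ⇑Q (H *ᵥ e) (H *ᵥ u₂) = 0 := by
    rw [sim_polar Q H c hsim, hu1, mul_zero]
  have e6 : QuadraticMap.polar ⇑Q u₂ (H *ᵥ e) = 0 := by rw [QuadraticMap.polar_comm, hu2]
  have e7 : QuadraticMap.polar ⇑Q u₂ e = 0 := by rw [QuadraticMap.polar_comm, hu1]
  have e8 : QuadraticMap.polar ⇑Q e (H *ᵥ e) = t := ht.symm
  have hpU : ∀ y' : F, y' ^ 2 = y ^ 2 →
      QuadraticMap.polar ⇑Q (x • e + y' • H *ᵥ e + u₂) (H *ᵥ (x • e + y' • H *ᵥ e + u₂)) = 0 := by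
    intro y' hy'
    rw [hHU]
    simp only [QuadraticMap.polar_add_left, QuadraticMap.polar_add_right,
      QuadraticMap.polar_smul_left, QuadraticMap.polar_smul_right, smul_eq_mul, e1, e2, e3, e4,
      e5, e6, e7, e8]
    linear_combination hxy' + (c * t) * hy'
  obtain ⟨y', hy', hQy'⟩ : ∃ y' : F, y' ^ 2 = y ^ 2 ∧ x * y' * t + Q u₂ ≠ 0 := by
    by_cases hz : x * y * t + Q u₂ = 0
    · refine ⟨-y, by ring, ?_⟩
      intro h0
      apply hu2q
      have h5 : (2 : F) * Q u₂ = 0 := by linear_combination hz + h0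
      exact (mul_eq_zero.mp h5).resolve_left h2
    · exact ⟨y, rfl, hz⟩
  obtain ⟨u, hudef⟩ : ∃ u, u = x • e + y' • H *ᵥ e + u₂ := ⟨_, rfl⟩
  have hQu : Q u ≠ 0 := by
    rw [hudef, hQU]
    exact hQy'
  have hpu : QuadraticMap.polar ⇑Q u (H *ᵥ u) = 0 := by
    rw [hudef]
    exact hpU y' hy'
  refine ⟨u, H *ᵥ u, hQu, by rw [hsim]; exact mul_ne_zero hc hQu, ?_, ?_⟩
  · rw [hsim]
    have e9 : Q u * (c * Q u) = Q u * Q u * c := by ring
    rw [e9]
    exact fun h3 => hcns ((Helper45.isSquare_sq_mul_iff hQu).mp h3)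
  · rw [hHH, Helper43.reflectionMatrix_smul Q u c hc hQu]
    exact (refl_comm_orth Q u (H *ᵥ u) hpu).symm

end gen

section basis

variable {F : Type u} [Field F] {m : ℕ}

theorem polar_single_inl (j : Fin m) (v : Fin m ⊕ Fin m → F) :
    QuadraticMap.polar (quadFormPlus m F) (Pi.single (Sum.inl j) 1) v = v (Sum.inr j) := by
  rw [Helper43.OrthEven.polar_plus]
  simp [Pi.single_apply]

theorem polar_single_inr (j : Fin m) (v : Fin m ⊕ Fin m → F) :
    QuadraticMap.polar (quadFormPlus m F) (Pi.single (Sum.inr j) 1) v = v (Sum.inl j) := by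
  rw [Helper43.OrthEven.polar_plus]
  simp [Pi.single_apply]

theorem qplus_single_inl (j : Fin m) :
    quadFormPlus m F (Pi.single (Sum.inl j) 1) = 0 := by
  unfold quadFormPlus
  simp [Pi.single_apply]

theorem qplus_single_inr (j : Fin m) :
    quadFormPlus m F (Pi.single (Sum.inr j) 1) = 0 := by
  unfold quadFormPlus
  simp [Pi.single_apply]

theorem pow_mod_four_aux (q m : ℕ) (hodd : Odd q) (h : q ^ m % 4 ≠ 1) : Odd m ∧ q % 4 = 3 := by
  have hq : q % 4 = 1 ∨ q % 4 = 3 := by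
    have h3 := Nat.odd_iff.mp hodd
    omega
  rcases hq with hq | hq
  · exfalso
    apply h
    rw [Nat.pow_mod, hq]
    simp
  · refine ⟨?_, hq⟩
    by_contra hm
    rw [Nat.not_odd_iff_even] at hm
    obtain ⟨j, rfl⟩ := hm
    apply h
    rw [← two_mul, pow_mul, Nat.pow_mod, Nat.pow_mod q 2, hq]
    norm_num

end basis

section plus

variable {F : Type u} [Field F] [Fintype F] {n : ℕ}

omit [Fintype F] in
/-- a similarity of the hyperbolic form with non-square scalar square moves some singular vector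
off its orthogonal complement -/
theorem plus_exists_sing (h2 : (2 : F) ≠ 0) (H : Matrix (PI n) (PI n) F) (c : F) (hc : c ≠ 0)
    (hcns : ¬ IsSquare c)
    (hsim : ∀ v, quadFormPlus (n + 1) F (H *ᵥ v) = c * quadFormPlus (n + 1) F v)
    (hHH : ∀ v, H *ᵥ (H *ᵥ v) = c • v) :
    ∃ e, quadFormPlus (n + 1) F e = 0 ∧
      QuadraticMap.polar (quadFormPlus (n + 1) F) e (H *ᵥ e) ≠ 0 := by
  by_contra hcon
  push_neg at hcon
  have hsa : ∀ a b, QuadraticMap.polar (quadFormPlus (n + 1) F) a (H *ᵥ b)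
      = QuadraticMap.polar (quadFormPlus (n + 1) F) (H *ᵥ a) b := by
    intro a b
    have h3 := sim_polar (Helper43.plusQF (n + 1) F) H c hsim a (H *ᵥ b)
    rw [hHH, QuadraticMap.polar_smul_right, smul_eq_mul] at h3
    exact (mul_left_cancel₀ hc h3).symm
  have key : ∀ a b : PI n → F, quadFormPlus (n + 1) F a = 0 → quadFormPlus (n + 1) F b = 0 →
      QuadraticMap.polar (quadFormPlus (n + 1) F) a b = 0 →
      QuadraticMap.polar (quadFormPlus (n + 1) F) a (H *ᵥ b) = 0 := by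
    intro a b ha hb hab
    have hab0 : quadFormPlus (n + 1) F (a + b) = 0 := by
      have h5 := Helper13.Q_add' (Helper43.plusQF (n + 1) F) a b
      rw [Helper43.plusQF_coe] at h5
      rw [h5, ha, hb, hab]
      simp
    have h3 := hcon (a + b) hab0
    have h6 : QuadraticMap.polar (quadFormPlus (n + 1) F) (a + b) (H *ᵥ (a + b))
        = QuadraticMap.polar (quadFormPlus (n + 1) F) a (H *ᵥ a)
          + QuadraticMap.polar (quadFormPlus (n + 1) F) a (H *ᵥ b)
          + (QuadraticMap.polar (quadFormPlus (n + 1) F) b (H *ᵥ a)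
          + QuadraticMap.polar (quadFormPlus (n + 1) F) b (H *ᵥ b)) := by
      have h7 := QuadraticMap.polar_add_left (Q := Helper43.plusQF (n + 1) F) a b (H *ᵥ (a + b))
      rw [Helper43.plusQF_coe] at h7
      rw [h7, Matrix.mulVec_add]
      have h8 := QuadraticMap.polar_add_right (Q := Helper43.plusQF (n + 1) F) a (H *ᵥ a) (H *ᵥ b)
      have h9 := QuadraticMap.polar_add_right (Q := Helper43.plusQF (n + 1) F) b (H *ᵥ a) (H *ᵥ b)
      rw [Helper43.plusQF_coe] at h8 h9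
      rw [h8, h9]
    rw [h6, hcon a ha, hcon b hb, hsa b a, QuadraticMap.polar_comm _ (H *ᵥ b) a] at h3
    have h10 : (2 : F) * QuadraticMap.polar (quadFormPlus (n + 1) F) a (H *ᵥ b) = 0 := by
      linear_combination h3
    exact (mul_eq_zero.mp h10).resolve_left h2
  obtain ⟨e₀, he₀⟩ : ∃ e₀ : PI n → F, e₀ = Pi.single (Sum.inl 0) 1 := ⟨_, rfl⟩
  have hQe₀ : quadFormPlus (n + 1) F e₀ = 0 := by
    rw [he₀]
    exact qplus_single_inl 0
  have h1 : ∀ j : Fin (n + 1), (H *ᵥ e₀) (Sum.inr j) = 0 := by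
    intro j
    have h3 := key (Pi.single (Sum.inl j) 1) e₀ (qplus_single_inl j) hQe₀ (by
      rw [polar_single_inl, he₀]
      simp)
    rwa [polar_single_inl] at h3
  have h2' : ∀ j : Fin (n + 1), j ≠ 0 → (H *ᵥ e₀) (Sum.inl j) = 0 := by
    intro j hj
    have h3 := key (Pi.single (Sum.inr j) 1) e₀ (qplus_single_inr j) hQe₀ (by
      rw [polar_single_inr, he₀]
      simp [hj])
    rwa [polar_single_inr] at h3
  obtain ⟨τ, hτ⟩ : ∃ τ : F, H *ᵥ e₀ = τ • e₀ := by
    refine ⟨(H *ᵥ e₀) (Sum.inl 0), ?_⟩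
    ext i
    rcases i with j | j
    · by_cases hj : j = 0
      · subst hj
        rw [he₀]
        simp
      · rw [h2' j hj, he₀]
        simp [hj]
    · rw [h1 j, he₀]
      simp
  have h4 := hHH e₀
  rw [hτ, Matrix.mulVec_smul, hτ, smul_smul] at h4
  have h5 := congrFun h4 (Sum.inl 0)
  rw [he₀] at h5
  simp only [Pi.smul_apply, Pi.single_eq_same, smul_eq_mul, mul_one] at h5
  exact hcns ⟨τ, h5.symm⟩

/-- for a similarity of the hyperbolic form with scalar square there is a product of two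
reflections of non-square spinor norm commuting with it -/
theorem plus_graph_exists_refl (hodd : Odd (Fintype.card F)) (hn : 3 ≤ n) (h : GL (PI n) F)
    (c : F) (hc : c ≠ 0)
    (hsim : ∀ v, quadFormPlus (n + 1) F ((h : Matrix (PI n) (PI n) F) *ᵥ v)
      = c * quadFormPlus (n + 1) F v)
    (ν : F) (hν : (h : Matrix (PI n) (PI n) F) * (h : Matrix (PI n) (PI n) F)
      = ν • (1 : Matrix (PI n) (PI n) F)) :
    ∃ u w : PI n → F, quadFormPlus (n + 1) F u ≠ 0 ∧ quadFormPlus (n + 1) F w ≠ 0 ∧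
      ¬ IsSquare (quadFormPlus (n + 1) F u * quadFormPlus (n + 1) F w) ∧
      reflectionMatrix (quadFormPlus (n + 1) F) ((h : Matrix (PI n) (PI n) F) *ᵥ u)
          * reflectionMatrix (quadFormPlus (n + 1) F) ((h : Matrix (PI n) (PI n) F) *ᵥ w)
        = reflectionMatrix (quadFormPlus (n + 1) F) u
          * reflectionMatrix (quadFormPlus (n + 1) F) w := by
  have h2F : (2 : F) ≠ 0 := Helper45.two_ne_zero_of_odd_card hodd
  have hQ := Helper45.plusQF_nondeg' (F := F) (n + 1)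
  have hcard3 : 3 ≤ Fintype.card (PI n) := by
    rw [Fintype.card_sum, Fintype.card_fin]
    omega
  have hHH : ∀ v, (h : Matrix (PI n) (PI n) F) *ᵥ ((h : Matrix (PI n) (PI n) F) *ᵥ v) = ν • v := by
    intro v
    rw [Matrix.mulVec_mulVec, hν, Matrix.smul_mulVec, Matrix.one_mulVec]
  obtain ⟨u₀, hu₀⟩ : ∃ u₀ : PI n → F, quadFormPlus (n + 1) F u₀ = 1 := ⟨_, qplus_u0 n⟩
  have hν2 : ν * ν = c * c := by
    have h3 := hsim ((h : Matrix (PI n) (PI n) F) *ᵥ u₀)
    have h4 : quadFormPlus (n + 1) F (ν • u₀) = ν * ν * quadFormPlus (n + 1) F u₀ := by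
      have h5 := QuadraticMap.map_smul (Helper43.plusQF (n + 1) F) ν u₀
      rw [Helper43.plusQF_coe] at h5
      rw [h5, smul_eq_mul]
    rw [hHH, hsim, h4, hu₀] at h3
    linear_combination h3
  have h6 : (ν - c) * (ν + c) = 0 := by linear_combination hν2
  rcases mul_eq_zero.mp h6 with h7 | h7
  · have hνc : ν = c := sub_eq_zero.mp h7
    rw [hνc] at hHH
    by_cases hsq : IsSquare c
    · obtain ⟨s, rfl⟩ := hsq
      have hs : s ≠ 0 := fun h0 => hc (by rw [h0, mul_zero])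
      exact exists_refl_eigen (Helper43.plusQF (n + 1) F) h2F hQ hcard3 _ s hs hsim hHH u₀
        (by
          show quadFormPlus (n + 1) F u₀ ≠ 0
          rw [hu₀]
          exact one_ne_zero)
    · obtain ⟨e, he, het⟩ := plus_exists_sing h2F _ c hc hsq hsim hHH
      exact exists_refl_nsq (Helper43.plusQF (n + 1) F) h2F hQ hcard3 _ c hc hsq hsim hHH e he het
  · have hνc : ν = -c := eq_neg_of_add_eq_zero_left h7
    rw [hνc] at hHH
    exact exists_refl_neg (Helper43.plusQF (n + 1) F) h2F _ c hc hsim hHH u₀ 1 hu₀ one_ne_zero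

set_option maxHeartbeats 1600000 in
/-- **involutory graph automorphisms of `PΩ⁺_{2n+2}(q)` induced by similarities, `q` odd: the
number of `PΩ⁺`-classes in the `Inndiag`-class** -/
theorem plus_graph_class (hodd : Odd (Fintype.card F)) (n : ℕ) (hn : 3 ≤ n)
    (γ : MulAut (POmega F (quadFormPlus (n + 1) F)))
    (hγ : IsSimilarityGraphAutPOmegaPlus (n + 1) γ) (hγ2 : orderOf γ = 2) :
    (splitClassCount (inndiagPOmegaPlus (n + 1) F) (Inn (POmega F (quadFormPlus (n + 1) F))) γ = 1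
      ∨ splitClassCount (inndiagPOmegaPlus (n + 1) F)
        (Inn (POmega F (quadFormPlus (n + 1) F))) γ = 2) ∧
    (¬ (Odd (n + 1) ∧ Fintype.card F % 4 = 3) →
      splitClassCount (inndiagPOmegaPlus (n + 1) F)
        (Inn (POmega F (quadFormPlus (n + 1) F))) γ = 2) := by
  classical
  have hR : Helper45.reflGroup (Helper43.plusQF (n + 1) F) = ⊤ :=
    Helper44.reflGroup_eq_top_of _ (Helper45.plusQF_nondeg' (F := F) (n + 1)) (Or.inr (by
      rw [Fintype.card_sum, Fintype.card_fin]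
      omega))
  have h2F : (2 : F) ≠ 0 := Helper45.two_ne_zero_of_odd_card hodd
  have hchar : ringChar F ≠ 2 := Helper45.ringChar_ne_two h2F
  have hQ := Helper45.plusQF_nondeg' (F := F) (n + 1)
  have hcard2 : 2 ≤ Fintype.card (PI n) := by
    rw [Fintype.card_sum, Fintype.card_fin]
    omega
  have hn5 : 5 ≤ Fintype.card (PI n) := by
    rw [Fintype.card_sum, Fintype.card_fin]
    omega
  obtain ⟨h, hh, hnp, hind⟩ := hγ
  have eγ : γ = simHom (quadFormPlus (n + 1) F) ⟨h, hh⟩ :=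
    (Helper45.OO.semi_ind_iff _ _ _ (semi_of_mem _ h hh) _).mp hind
  by_cases hq : Fintype.card F ^ (n + 1) % 4 = 1
  · have hcount : splitClassCount (inndiagPOmegaPlus (n + 1) F)
        (Inn (POmega F (quadFormPlus (n + 1) F))) γ = 2 := by
      have hγγ : γ * γ = 1 := by
        rw [← pow_two, ← hγ2]
        exact pow_orderOf_eq_one γ
      rw [eγ, ← map_mul] at hγγ
      obtain ⟨ν, hν⟩ := (simHom_eq_one_iff (Helper43.plusQF (n + 1) F) hQ hn5 _).mp hγγ
      obtain ⟨c, hc⟩ := id hh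
      obtain ⟨u, w, hu, hw, hns, hid⟩ := plus_graph_exists_refl hodd hn h (c : F) c.ne_zero hc ν hν
      rw [eγ]
      refine plus_graph_count_two hodd hn hR hq h hh hnp u w hu hw hns ?_
      have hc1 : (h : Matrix (PI n) (PI n) F) * reflectionMatrix (quadFormPlus (n + 1) F) u
          = reflectionMatrix (quadFormPlus (n + 1) F) ((h : Matrix (PI n) (PI n) F) *ᵥ u)
            * (h : Matrix (PI n) (PI n) F) :=
        refl_conj_sim (Helper43.plusQF (n + 1) F) h (c : F) c.ne_zero hc u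
      have hc2 : (h : Matrix (PI n) (PI n) F) * reflectionMatrix (quadFormPlus (n + 1) F) w
          = reflectionMatrix (quadFormPlus (n + 1) F) ((h : Matrix (PI n) (PI n) F) *ᵥ w)
            * (h : Matrix (PI n) (PI n) F) :=
        refl_conj_sim (Helper43.plusQF (n + 1) F) h (c : F) c.ne_zero hc w
      rw [← Matrix.mul_assoc, hc1, Matrix.mul_assoc, hc2, ← Matrix.mul_assoc, hid]
    exact ⟨Or.inr hcount, fun _ => hcount⟩
  · refine ⟨?_, fun hnot => absurd (pow_mod_four_aux _ _ hodd hq) hnot⟩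
    have hneg : Helper45.negO (Helper43.plusQF (n + 1) F)
        ∉ Omega F ⇑(Helper43.plusQF (n + 1) F) :=
      fun h3 => hq ((Helper45.negO_plus_mem_iff (m := n + 1) hodd h2F (by omega)).mp h3)
    have hscal : ∀ g : GL (PI n) F,
        g ∈ Geo.quadSimilarityGroup (F := F) ⇑(Helper43.plusQF (n + 1) F) →
        Helper45.Ind ⇑(Helper43.plusQF (n + 1) F) g 1 →
        ∃ c : F, (g : Matrix (PI n) (PI n) F) = c • (1 : Matrix (PI n) (PI n) F) :=
      fun g hg h1 => Helper45.OO.scalar_of_ind (Helper43.plusQF (n + 1) F) hQ hn5 g hg h1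
    have D : Helper45.KData (quadFormPlus (n + 1) F) (n + 1) (S2722.gramJ (n + 1) F)
        (S2722.v0 F (0 : Fin (n + 1))) := by
      constructor
      · simp
      · exact S2722.quad_eq
      · exact S2722.gramJ_transpose
      · exact S2722.gramJ_det
      · exact S2722.quad_v0 _
      · exact h2F
    obtain ⟨c₁, hc₁⟩ := FiniteField.exists_nonsquare hchar
    have hc₁0 : c₁ ≠ 0 := by
      rintro rfl
      exact hc₁ ⟨0, by simp⟩
    obtain ⟨gg, hgg, hdetgg⟩ := S2722.exists_g1 (m := n + 1) h2F c₁ hc₁0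
    have hG : inndiagPOmegaPlus (n + 1) F
        = Helper45.ID.autK (Helper43.plusQF (n + 1) F) D :=
      Helper45.ID.inndiag_plus_eq h2F 0 D
    have heven : Even (Fintype.card (PI n)) := by
      rw [Fintype.card_sum, Fintype.card_fin]
      exact ⟨n + 1, rfl⟩
    obtain ⟨φ, hφs, hφk⟩ := Helper45.ID.autK_mod_inn_two (Helper43.plusQF (n + 1) F) hodd hQ
      hcard2 heven D hscal gg c₁ hgg hc₁ hdetgg hneg
    have hidx : (Inn (POmega F (quadFormPlus (n + 1) F))).relIndex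
        (inndiagPOmegaPlus (n + 1) F) = 2 := by
      rw [hG]
      show ((Inn (POmega F ⇑(Helper43.plusQF (n + 1) F))).subgroupOf
        (Helper45.ID.autK (Helper43.plusQF (n + 1) F) D)).index = 2
      rw [← hφk, Subgroup.index_ker, MonoidHom.range_eq_top.mpr hφs, Subgroup.card_top,
        Nat.card_eq_fintype_card]
      rfl
    have hInnG : Inn (POmega F (quadFormPlus (n + 1) F)) ≤ inndiagPOmegaPlus (n + 1) F := by
      rw [hG]
      exact (Helper45.inn_le_psoAut (Helper43.plusQF (n + 1) F)).trans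
        (Helper45.ID.psoAut_le_autK (Helper43.plusQF (n + 1) F) D)
    have hnormT : ∀ g ∈ inndiagPOmegaPlus (n + 1) F,
        ∀ t ∈ Inn (POmega F (quadFormPlus (n + 1) F)),
        g * t * g⁻¹ ∈ Inn (POmega F (quadFormPlus (n + 1) F)) :=
      fun g _ t ht => (innNormal (POmega F (quadFormPlus (n + 1) F))).conj_mem t ht g
    exact splitCount_one_or_two _ _ γ hInnG hnormT hidx

end plus

end Cfsg.Agent.Helper44.POm
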