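import Mathlib
import Cfsg.Agent.Helper44.PSUI

/-!
# Automorphisms of `PSU_n(q)` (helper44), part J: the induced map on `W` is semilinear
-/

set_option autoImplicit false
set_option linter.unusedSimpArgs false
set_option linter.unusedSectionVars false
set_option linter.unusedVariables false

namespace Cfsg.Agent.Helper44.PSUn

open Matrix
open scoped Pointwise
open Cfsg.Agent.Helper5 (frobQ frobQ_apply frobQ_frobQ frobQ_ne_id)
open Cfsg.Agent.Helper13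

variable {F : Type*} [Field F] [Fintype F] {q n : ℕ}

local notation "⟪" x ", " y "⟫" => Cfsg.hermForm n F q x y

/-- an additive map which is multiplicative against `F_q` and one element outside `F_q` is
multiplicative -/
theorem psu_field_lemma (hF : Fintype.card F = q ^ 2) (θ : F → F)
    (hadd : ∀ x y, θ (x + y) = θ x + θ y)
    (hfix : ∀ x, frobQ hF x = x → ∀ c, θ (x * c) = θ x * θ c)
    (ζ : F) (hζ : frobQ hF ζ ≠ ζ) (hζm : ∀ c, θ (ζ * c) = θ ζ * θ c) (y c : F) :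
    θ (y * c) = θ y * θ c := by
  have hne : ζ - frobQ hF ζ ≠ 0 := fun h => hζ (sub_eq_zero.1 h).symm
  obtain ⟨b, hb⟩ : ∃ b : F, b = (y - frobQ hF y) / (ζ - frobQ hF ζ) := ⟨_, rfl⟩
  have hb' : b * (ζ - frobQ hF ζ) = y - frobQ hF y := by rw [hb]; field_simp
  have hbfix : frobQ hF b = b := by
    have h1 := congrArg (frobQ hF) hb'
    rw [map_mul, map_sub, map_sub, frobQ_frobQ, frobQ_frobQ] at h1
    have h2 : (frobQ hF b - b) * (ζ - frobQ hF ζ) = 0 := by linear_combination -h1 - hb'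
    rcases mul_eq_zero.1 h2 with h | h
    · exact sub_eq_zero.1 h
    · exact absurd h hne
  obtain ⟨a, ha⟩ : ∃ a : F, a = y - b * ζ := ⟨_, rfl⟩
  have hafix : frobQ hF a = a := by
    rw [ha, map_sub, map_mul, hbfix]
    linear_combination hb'
  have hy : y = a + b * ζ := by rw [ha]; ring
  have h1 : θ y = θ a + θ b * θ ζ := by rw [hy, hadd, hfix b hbfix]
  have h2 : θ (y * c) = θ a * θ c + θ b * (θ ζ * θ c) := by
    have : y * c = a * c + b * (ζ * c) := by rw [hy]; ring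
    rw [this, hadd, hfix a hafix, hfix b hbfix, hζm]
  rw [h2, h1]; ring

/-- a map to a line which is additive and has enough multipliers is given by a ring
homomorphism -/
theorem psu_line_hom (hF : Fintype.card F = q ^ 2) (r' : Fin n → F) (hr' : r' ≠ 0)
    (B : F → Fin n → F) (hB1 : B 1 = r') (hBadd : ∀ x y, B (x + y) = B x + B y)
    (hline : ∀ c, ∃ t : F, B c = t • r')
    (hfix : ∀ x, frobQ hF x = x → ∃ μ : F, ∀ c, B (x * c) = μ • B c)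
    (ζ : F) (hζ : frobQ hF ζ ≠ ζ) (hζm : ∃ μ : F, ∀ c, B (ζ * c) = μ • B c) :
    ∃ σ : F →+* F, ∀ c, B c = σ c • r' := by
  choose θ hθ using hline
  have hinj : ∀ a b : F, a • r' = b • r' → a = b := by
    intro a b h
    have h1 : (a - b) • r' = 0 := by rw [sub_smul, h, sub_self]
    rcases smul_eq_zero.1 h1 with h2 | h2
    · exact sub_eq_zero.1 h2
    · exact absurd h2 hr'
  have h1 : θ 1 = 1 := by
    apply hinj
    rw [← hθ, hB1, one_smul]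
  have hadd : ∀ x y, θ (x + y) = θ x + θ y := by
    intro x y
    apply hinj
    rw [← hθ, hBadd, hθ x, hθ y, add_smul]
  have hmul : ∀ x : F, (∃ μ : F, ∀ c, B (x * c) = μ • B c) → ∀ c, θ (x * c) = θ x * θ c := by
    rintro x ⟨μ, hμ⟩ c
    have h2 : ∀ c, θ (x * c) = μ * θ c := by
      intro c
      apply hinj
      rw [← hθ, hμ, hθ c, smul_smul]
    have h3 : θ x = μ := by
      have := h2 1
      rwa [mul_one, h1, mul_one] at this
    rw [h2, h3]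
  have hall := psu_field_lemma hF θ hadd (fun x hx => hmul x (hfix x hx)) ζ hζ (hmul ζ hζm)
  refine ⟨{ toFun := θ, map_one' := h1, map_mul' := hall, map_zero' := ?_, map_add' := hadd }, hθ⟩
  have := hadd 0 0
  rw [add_zero] at this
  exact left_eq_add.1 this

section semi

variable (hF : Fintype.card F = q ^ 2)

/-- elements fixing the points `⟨e⟩`, `⟨f⟩` preserve `W` -/
theorem W_uact (hF : Fintype.card F = q ^ 2) (k : ↥(Cfsg.SU n F q)) (e f : Fin n → F) (a c : F) (y : Fin n → F)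
    (ha : a ≠ 0) (hc : c ≠ 0) (hke : uact k e = a • e) (hkf : uact k f = c • f)
    (hye : ⟪y, e⟫ = 0) (hyf : ⟪y, f⟫ = 0) : ⟪uact k y, e⟫ = 0 ∧ ⟪uact k y, f⟫ = 0 := by
  have hfz : ∀ x : F, x ≠ 0 → frobQ hF x ≠ 0 := fun x hx h => hx ((ufrob_eq_zero hF).1 h)
  have h1 := uact_herm k y e
  have h2 := uact_herm k y f
  rw [hke, uh_smul_right hF, hye] at h1
  rw [hkf, uh_smul_right hF, hyf] at h2
  constructor
  · rcases mul_eq_zero.1 h1 with h | h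
    · exact absurd h (hfz a ha)
    · exact h
  · rcases mul_eq_zero.1 h2 with h | h
    · exact absurd h (hfz c hc)
    · exact h

/-- lifts of elements fixing the two points -/
theorem exists_lift_tor (p : ℕ) [Fact p.Prime] [CharP F p] {e f d : Fin n → F}
    (hfr : UFrame q e f d) (α : MulAut (Cfsg.PSU n F q))
    (hαe : (Tb hF e).map α.toMonoidHom = Tb hF e) (hαf : (Tb hF f).map α.toMonoidHom = Tb hF f)
    (l : ↥(Cfsg.SU n F q)) (lam kap : F) (hlam : lam ≠ 0) (hkap : kap ≠ 0)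
    (hle : uact l e = lam • e) (hlf : uact l f = kap • f) :
    ∃ (l' : ↥(Cfsg.SU n F q)) (lam' kap' : F), lam' ≠ 0 ∧ kap' ≠ 0 ∧ α (prU l) = prU l' ∧
      uact l' e = lam' • e ∧ uact l' f = kap' • f := by
  obtain ⟨l', hl'⟩ := prU_surjective (α (prU l))
  obtain ⟨lam', h1, h2⟩ := lift_line hF p α e (hfr.e_ne hF) hfr.ee hαe l l' hl'.symm lam hlam hle
  obtain ⟨kap', h3, h4⟩ := lift_line hF p α f (hfr.f_ne hF) hfr.ff hαf l l' hl'.symm kap hkap hlf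
  exact ⟨l', lam', kap', h1, h3, hl'.symm, h2, h4⟩

/-- lifts of elements fixing a point fix the image point -/
theorem lift_line' (p : ℕ) [Fact p.Prime] [CharP F p] (α : MulAut (Cfsg.PSU n F q))
    (v v' : Fin n → F) (hv'0 : v' ≠ 0) (hv' : ⟪v', v'⟫ = 0)
    (hα : (Tb hF v).map α.toMonoidHom = Tb hF v')
    (x x' : ↥(Cfsg.SU n F q)) (hL : α (prU x) = prU x') (l : F) (hl : l ≠ 0)
    (hx : uact x v = l • v) : ∃ l' : F, l' ≠ 0 ∧ uact x' v' = l' • v' := by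
  have h1 := rel_conj hF α x x' hL v v' hα
  rw [hx, Tb_smul hF l hl, hα] at h1
  exact Tb_eq hF p (uact x' v') v' (uact_ne_zero x' v' hv'0) (by rw [uact_herm]; exact hv')
    hv'0 hv' h1.symm

/-- the transvection relation -/
theorem Abar_tv (p : ℕ) [Fact p.Prime] [CharP F p] (hn : 3 ≤ n) (h32 : ¬ (n = 3 ∧ q = 2))
    {e f d : Fin n → F} (hfr : UFrame q e f d) (α : MulAut (Cfsg.PSU n F q))
    (hαe : (Tb hF e).map α.toMonoidHom = Tb hF e)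
    (r r' : Fin n → F) (hre : ⟪r, e⟫ = 0) (hrf : ⟪r, f⟫ = 0) (hrr : ⟪r, r⟫ = 0)
    (hr'e : ⟪r', e⟫ = 0) (hr'f : ⟪r', f⟫ = 0) (hr'r' : ⟪r', r'⟫ = 0)
    (hα : (Tb hF r).map α.toMonoidHom = Tb hF r') (a : F) (ha : frobQ hF a = -a) :
    ∃ a' : F, frobQ hF a' = -a' ∧ ∀ w : Fin n → F, ⟪w, e⟫ = 0 → ⟪w, f⟫ = 0 →
      Abar hF e f α ((a * ⟪w, r⟫) • r) = (a' * ⟪Abar hF e f α w, r'⟫) • r' := by
  obtain ⟨a', ha', h1⟩ := exists_lift_utv hF α r r' hα a ha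
  refine ⟨a', ha', fun w hwe hwf => ?_⟩
  have h2 := Abar_conj hF p hn h32 hfr α hαe (utv hF r a) (utv hF r' a') h1 1 1 1 1
    one_ne_zero one_ne_zero one_ne_zero one_ne_zero
    (by rw [uact_utv hF r a hrr ha, psu_swap_zero hF hre, mul_zero, zero_smul, add_zero,
      one_smul])
    (by rw [uact_utv hF r a hrr ha, psu_swap_zero hF hrf, mul_zero, zero_smul, add_zero,
      one_smul])
    (by rw [uact_utv hF r' a' hr'r' ha', psu_swap_zero hF hr'e, mul_zero, zero_smul, add_zero,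
      one_smul])
    (by rw [uact_utv hF r' a' hr'r' ha', psu_swap_zero hF hr'f, mul_zero, zero_smul, add_zero,
      one_smul])
    w hwe hwf
  rw [map_one, one_smul, one_smul, uact_utv hF r a hrr ha, uact_utv hF r' a' hr'r' ha',
    Abar_add hF p hn h32 hfr α hαe w _ hwe hwf (by rw [uh_smul_left, hre, mul_zero])
      (by rw [uh_smul_left, hrf, mul_zero])] at h2
  exact add_left_cancel h2

/-- the image of an isotropic line of `W` -/
theorem Abar_line (p : ℕ) [Fact p.Prime] [CharP F p] (hn : 3 ≤ n) (h32 : ¬ (n = 3 ∧ q = 2))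
    {e f d : Fin n → F} (hfr : UFrame q e f d) (α : MulAut (Cfsg.PSU n F q))
    (hαe : (Tb hF e).map α.toMonoidHom = Tb hF e) (hαf : (Tb hF f).map α.toMonoidHom = Tb hF f)
    (r : Fin n → F) (hr0 : r ≠ 0) (hre : ⟪r, e⟫ = 0) (hrf : ⟪r, f⟫ = 0) (hrr : ⟪r, r⟫ = 0) :
    Abar hF e f α r ≠ 0 ∧ ⟪Abar hF e f α r, Abar hF e f α r⟫ = 0 ∧
    (Tb hF r).map α.toMonoidHom = Tb hF (Abar hF e f α r) ∧
    ∀ c : F, ∃ t : F, Abar hF e f α (c • r) = t • Abar hF e f α r := by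
  have he0 := hfr.e_ne hF
  have hf0 := hfr.f_ne hF
  obtain ⟨r', hr'0, hr'r', hα⟩ := rel_exists hF p hn h32 α r hr0 hrr
  have hr'e : ⟪r', e⟫ = 0 :=
    rel_perp hF p α r r' e e hrr hfr.ee hr'0 hr'r' he0 hfr.ee hα hαe hre
  have hr'f : ⟪r', f⟫ = 0 :=
    rel_perp hF p α r r' f f hrr hfr.ff hr'0 hr'r' hf0 hfr.ff hα hαf hrf
  obtain ⟨a0, ha0, ha0'⟩ := ufld_exists_skew hF
  obtain ⟨a', ha', h1⟩ := Abar_tv hF p hn h32 hfr α hαe r r' hre hrf hrr hr'e hr'f hr'r' hα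
    a0 ha0'
  obtain ⟨s, hse, hsf, hss, hrs⟩ := hfr.partner hF r hr0 hre hrf hrr
  have hsr := psu_swap_one hF hrs
  have hline : ∀ c : F, ∃ t : F, Abar hF e f α (c • r) = t • r' := by
    intro c
    have h2 := h1 ((c / a0) • s) (by rw [uh_smul_left, hse, mul_zero])
      (by rw [uh_smul_left, hsf, mul_zero])
    have h3 : a0 * ⟪(c / a0) • s, r⟫ = c := by
      rw [uh_smul_left, hsr]; field_simp
    rw [h3] at h2
    exact ⟨_, h2⟩
  have hAr0 : Abar hF e f α r ≠ 0 := fun h => hr0 (Abar_inj hF p hn h32 hfr α hαe r hre hrf h)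
  obtain ⟨t₁, ht₁⟩ := hline 1
  rw [one_smul] at ht₁
  have ht₁0 : t₁ ≠ 0 := by
    rintro rfl
    rw [zero_smul] at ht₁
    exact hAr0 ht₁
  refine ⟨hAr0, ?_, ?_, ?_⟩
  · rw [ht₁, uh_smul_left, uh_smul_right hF, hr'r']; ring
  · rw [ht₁, Tb_smul hF t₁ ht₁0, hα]
  · intro c
    obtain ⟨t, ht⟩ := hline c
    refine ⟨t / t₁, ?_⟩
    rw [ht, ht₁, smul_smul, div_mul_cancel₀ t ht₁0]

/-- multipliers on an isotropic line of `W` (`n ≥ 4`) -/
theorem Abar_mult4 (p : ℕ) [Fact p.Prime] [CharP F p] (hn : 3 ≤ n) (h32 : ¬ (n = 3 ∧ q = 2))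
    {e f d : Fin n → F} (hfr : UFrame q e f d) (α : MulAut (Cfsg.PSU n F q))
    (hαe : (Tb hF e).map α.toMonoidHom = Tb hF e) (hαf : (Tb hF f).map α.toMonoidHom = Tb hF f)
    (r : Fin n → F) (hr0 : r ≠ 0) (hre : ⟪r, e⟫ = 0) (hrf : ⟪r, f⟫ = 0) (hrr : ⟪r, r⟫ = 0)
    (lam kap : F) (hlam : lam ≠ 0) (hkap : kap ≠ 0)
    (hlk : frobQ hF (lam * kap) = lam * kap) :
    ∃ μ : F, ∀ c : F, Abar hF e f α ((frobQ hF lam * kap * c) • r)
      = μ • Abar hF e f α (c • r) := by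
  obtain ⟨hAr0, hArr, hα, hline⟩ := Abar_line hF p hn h32 hfr α hαe hαf r hr0 hre hrf hrr
  obtain ⟨s, hse, hsf, hss, hrs⟩ := hfr.partner hF r hr0 hre hrf hrr
  obtain ⟨D, hDe, hDf, hDr⟩ := exists_tor4 hF e f r s hfr.ee hfr.ff hfr.ef hrr hss hrs hre hrf
    hse hsf lam kap hlam hkap hlk
  have hlam' : frobQ hF lam ≠ 0 := fun h => hlam ((ufrob_eq_zero hF).1 h)
  obtain ⟨D', lam', kap', hlam'0, hkap'0, hL, hD'e, hD'f⟩ := exists_lift_tor hF p hfr α hαe hαf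
    D lam (frobQ hF lam)⁻¹ hlam (inv_ne_zero hlam') hDe hDf
  obtain ⟨κ', hκ'0, hD'r⟩ := lift_line' hF p α r (Abar hF e f α r) hAr0 hArr hα D D' hL kap
    hkap hDr
  refine ⟨frobQ hF lam' * κ', fun c => ?_⟩
  have h1 := Abar_conj hF p hn h32 hfr α hαe D D' hL lam (frobQ hF lam)⁻¹ lam' kap' hlam
    (inv_ne_zero hlam') hlam'0 hkap'0 hDe hDf hD'e hD'f (c • r)
    (by rw [uh_smul_left, hre, mul_zero]) (by rw [uh_smul_left, hrf, mul_zero])
  obtain ⟨t, ht⟩ := hline c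
  rw [uact_smul, hDr, smul_smul, smul_smul, ht, uact_smul, hD'r, smul_smul, smul_smul] at h1
  rw [ht, smul_smul]
  have e1 : frobQ hF lam * kap * c = frobQ hF lam * c * kap := by ring
  have e2 : frobQ hF lam' * κ' * t = frobQ hF lam' * t * κ' := by ring
  rw [e1, e2]; exact h1

/-- the field automorphism attached to an isotropic line of `W` (`n ≥ 4`) -/
theorem Abar_sigma4 (p : ℕ) [Fact p.Prime] [CharP F p] (hn : 3 ≤ n) (h32 : ¬ (n = 3 ∧ q = 2))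
    {e f d : Fin n → F} (hfr : UFrame q e f d) (α : MulAut (Cfsg.PSU n F q))
    (hαe : (Tb hF e).map α.toMonoidHom = Tb hF e) (hαf : (Tb hF f).map α.toMonoidHom = Tb hF f)
    (r : Fin n → F) (hr0 : r ≠ 0) (hre : ⟪r, e⟫ = 0) (hrf : ⟪r, f⟫ = 0) (hrr : ⟪r, r⟫ = 0) :
    ∃ σ : F →+* F, ∀ c : F, Abar hF e f α (c • r) = σ c • Abar hF e f α r := by
  obtain ⟨hAr0, hArr, hα, hline⟩ := Abar_line hF p hn h32 hfr α hαe hαf r hr0 hre hrf hrr
  obtain ⟨ζ, hζ1, hζ2⟩ := ufld_exists_norm_one hF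
  have hsm : ∀ c : F, ⟪c • r, e⟫ = 0 ∧ ⟪c • r, f⟫ = 0 := fun c =>
    ⟨by rw [uh_smul_left, hre, mul_zero], by rw [uh_smul_left, hrf, mul_zero]⟩
  refine psu_line_hom hF _ hAr0 (fun c => Abar hF e f α (c • r)) ?_ ?_ hline ?_ ζ hζ2 ?_
  · show Abar hF e f α ((1 : F) • r) = _
    rw [one_smul]
  · intro x y
    show Abar hF e f α ((x + y) • r) = Abar hF e f α (x • r) + Abar hF e f α (y • r)
    rw [add_smul, Abar_add hF p hn h32 hfr α hαe _ _ (hsm x).1 (hsm x).2 (hsm y).1 (hsm y).2]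
  · intro x hx
    by_cases hx0 : x = 0
    · refine ⟨0, fun c => ?_⟩
      show Abar hF e f α ((x * c) • r) = (0 : F) • Abar hF e f α (c • r)
      rw [hx0, zero_mul, zero_smul, zero_smul, Abar_zero hF p hfr α hαe]
    · obtain ⟨μ, hμ⟩ := Abar_mult4 hF p hn h32 hfr α hαe hαf r hr0 hre hrf hrr 1 x one_ne_zero
        hx0 (by rw [one_mul, hx])
      refine ⟨μ, fun c => ?_⟩
      have := hμ c
      rwa [map_one, one_mul] at this
  · have hl0 : 1 + frobQ hF ζ ≠ 0 := by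
      intro h
      have h1 : frobQ hF ζ = -1 := by linear_combination h
      have h2 := congrArg (frobQ hF) h1
      rw [frobQ_frobQ, map_neg, map_one] at h2
      exact hζ2 (by rw [h1, h2])
    obtain ⟨μ, hμ⟩ := Abar_mult4 hF p hn h32 hfr α hαe hαf r hr0 hre hrf hrr (1 + frobQ hF ζ)
      (1 + frobQ hF ζ)⁻¹ hl0 (inv_ne_zero hl0) (by rw [mul_inv_cancel₀ hl0, map_one])
    have h3 : frobQ hF (1 + frobQ hF ζ) * (1 + frobQ hF ζ)⁻¹ = ζ := by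
      rw [map_add, map_one, frobQ_frobQ, eq_comm, eq_mul_inv_iff_mul_eq₀ hl0]
      linear_combination hζ1
    refine ⟨μ, fun c => ?_⟩
    have := hμ c
    rwa [h3] at this

/-- the form relation attached to an isotropic line of `W` (`n ≥ 4`) -/
theorem Abar_form4 (p : ℕ) [Fact p.Prime] [CharP F p] (hn : 3 ≤ n) (h32 : ¬ (n = 3 ∧ q = 2))
    {e f d : Fin n → F} (hfr : UFrame q e f d) (α : MulAut (Cfsg.PSU n F q))
    (hαe : (Tb hF e).map α.toMonoidHom = Tb hF e) (hαf : (Tb hF f).map α.toMonoidHom = Tb hF f)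
    (r : Fin n → F) (hr0 : r ≠ 0) (hre : ⟪r, e⟫ = 0) (hrf : ⟪r, f⟫ = 0) (hrr : ⟪r, r⟫ = 0)
    (σ : F →+* F) (hσ : ∀ c : F, Abar hF e f α (c • r) = σ c • Abar hF e f α r) :
    ∃ C : F, C ≠ 0 ∧ frobQ hF C = C ∧ ∀ w : Fin n → F, ⟪w, e⟫ = 0 → ⟪w, f⟫ = 0 →
      ⟪Abar hF e f α w, Abar hF e f α r⟫ = C * σ ⟪w, r⟫ := by
  obtain ⟨hAr0, hArr, hα, hline⟩ := Abar_line hF p hn h32 hfr α hαe hαf r hr0 hre hrf hrr
  obtain ⟨hAre, hArf⟩ := Abar_mem hF p hn h32 hfr α hαe r hre hrf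
  obtain ⟨a0, ha0, ha0'⟩ := ufld_exists_skew hF
  obtain ⟨a', ha', h1⟩ := Abar_tv hF p hn h32 hfr α hαe r (Abar hF e f α r) hre hrf hrr hAre
    hArf hArr hα a0 ha0'
  obtain ⟨s, hse, hsf, hss, hrs⟩ := hfr.partner hF r hr0 hre hrf hrr
  have hsr := psu_swap_one hF hrs
  have hinj : ∀ a b : F, a • Abar hF e f α r = b • Abar hF e f α r → a = b := by
    intro a b h
    have h1 : (a - b) • Abar hF e f α r = 0 := by rw [sub_smul, h, sub_self]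
    rcases smul_eq_zero.1 h1 with h2 | h2
    · exact sub_eq_zero.1 h2
    · exact absurd h2 hAr0
  have h2 : ∀ w : Fin n → F, ⟪w, e⟫ = 0 → ⟪w, f⟫ = 0 →
      σ a0 * σ ⟪w, r⟫ = a' * ⟪Abar hF e f α w, Abar hF e f α r⟫ := by
    intro w hwe hwf
    apply hinj
    rw [← h1 w hwe hwf, hσ, map_mul]
  have hσa0 : σ a0 ≠ 0 := (map_ne_zero σ).2 ha0
  have ha'0 : a' ≠ 0 := by
    rintro rfl
    have := h2 s hse hsf
    rw [hsr, map_one, mul_one, zero_mul] at this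
    exact hσa0 this
  have hστ : frobQ hF (σ a0) = -σ a0 := by
    rw [frobQ_apply, ← map_pow, ← frobQ_apply hF, ha0', map_neg]
  refine ⟨σ a0 / a', div_ne_zero hσa0 ha'0, ?_, fun w hwe hwf => ?_⟩
  · rw [map_div₀, hστ, ha', neg_div_neg_eq]
  · have := h2 w hwe hwf
    field_simp
    linear_combination -this

/-- consistency of the data of two non-orthogonal isotropic lines of `W` -/
theorem Abar_consist (p : ℕ) [Fact p.Prime] [CharP F p] (hn : 3 ≤ n) (h32 : ¬ (n = 3 ∧ q = 2))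
    {e f d : Fin n → F} (hfr : UFrame q e f d) (α : MulAut (Cfsg.PSU n F q))
    (hαe : (Tb hF e).map α.toMonoidHom = Tb hF e)
    (r₁ r₂ : Fin n → F) (hr₁e : ⟪r₁, e⟫ = 0) (hr₁f : ⟪r₁, f⟫ = 0) (hr₂e : ⟪r₂, e⟫ = 0)
    (hr₂f : ⟪r₂, f⟫ = 0) (h12 : ⟪r₁, r₂⟫ ≠ 0)
    (σ₁ σ₂ : F →+* F) (C₁ C₂ : F) (hC₁ : frobQ hF C₁ = C₁) (hC₂0 : C₂ ≠ 0)
    (hσ₁ : ∀ c : F, Abar hF e f α (c • r₁) = σ₁ c • Abar hF e f α r₁)
    (hP₁ : ∀ w : Fin n → F, ⟪w, e⟫ = 0 → ⟪w, f⟫ = 0 →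
      ⟪Abar hF e f α w, Abar hF e f α r₁⟫ = C₁ * σ₁ ⟪w, r₁⟫)
    (hP₂ : ∀ w : Fin n → F, ⟪w, e⟫ = 0 → ⟪w, f⟫ = 0 →
      ⟪Abar hF e f α w, Abar hF e f α r₂⟫ = C₂ * σ₂ ⟪w, r₂⟫) :
    (∀ c, σ₁ c = σ₂ c) ∧ C₁ = C₂ := by
  have hne : σ₂ ⟪r₁, r₂⟫ ≠ 0 := (map_ne_zero σ₂).2 h12
  have h1 := hP₂ r₁ hr₁e hr₁f
  have hσ : ∀ c, σ₁ c = σ₂ c := by
    intro c
    have h2 := hP₂ (c • r₁) (by rw [uh_smul_left, hr₁e, mul_zero])
      (by rw [uh_smul_left, hr₁f, mul_zero])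
    rw [hσ₁, uh_smul_left, uh_smul_left, h1, map_mul] at h2
    have h3 : (σ₁ c - σ₂ c) * (C₂ * σ₂ ⟪r₁, r₂⟫) = 0 := by linear_combination h2
    rcases mul_eq_zero.1 h3 with h | h
    · exact sub_eq_zero.1 h
    · exact absurd h (mul_ne_zero hC₂0 hne)
  refine ⟨hσ, ?_⟩
  have h4 := hP₁ r₂ hr₂e hr₂f
  have h5 := congrArg (frobQ hF) h4
  rw [uh_conj hF, map_mul, hC₁, hσ, frobQ_apply, ← map_pow, ← frobQ_apply hF, uh_conj hF, h1]
    at h5
  have h6 : (C₂ - C₁) * σ₂ ⟪r₁, r₂⟫ = 0 := by linear_combination h5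
  rcases mul_eq_zero.1 h6 with h | h
  · exact (sub_eq_zero.1 h).symm
  · exact absurd h hne

/-- semilinearity for `n ≥ 4` -/
theorem Abar_semi4 (p : ℕ) [Fact p.Prime] [CharP F p] (hn : 3 ≤ n) (h32 : ¬ (n = 3 ∧ q = 2))
    (hn4 : 4 ≤ n)
    {e f d : Fin n → F} (hfr : UFrame q e f d) (α : MulAut (Cfsg.PSU n F q))
    (hαe : (Tb hF e).map α.toMonoidHom = Tb hF e) (hαf : (Tb hF f).map α.toMonoidHom = Tb hF f) :
    ∃ (σ : F →+* F) (ν : F), ν ≠ 0 ∧ frobQ hF ν = ν ∧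
      (∀ (c : F) (w : Fin n → F), ⟪w, e⟫ = 0 → ⟪w, f⟫ = 0 →
        Abar hF e f α (c • w) = σ c • Abar hF e f α w) ∧
      (∀ w w' : Fin n → F, ⟪w, e⟫ = 0 → ⟪w, f⟫ = 0 → ⟪w', e⟫ = 0 → ⟪w', f⟫ = 0 →
        ⟪Abar hF e f α w, Abar hF e f α w'⟫ = ν * σ ⟪w, w'⟫) := by
  obtain ⟨r₀, hr₀0, hr₀e, hr₀f, hr₀⟩ := hfr.iso4 hn4
  obtain ⟨σ, hσ⟩ := Abar_sigma4 hF p hn h32 hfr α hαe hαf r₀ hr₀0 hr₀e hr₀f hr₀
  obtain ⟨ν, hν0, hν, hP⟩ := Abar_form4 hF p hn h32 hfr α hαe hαf r₀ hr₀0 hr₀e hr₀f hr₀ σ hσ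
  have key : ∀ r : Fin n → F, ⟪r, e⟫ = 0 → ⟪r, f⟫ = 0 → ⟪r, r⟫ = 0 →
      (∀ c : F, Abar hF e f α (c • r) = σ c • Abar hF e f α r) ∧
      (∀ w : Fin n → F, ⟪w, e⟫ = 0 → ⟪w, f⟫ = 0 →
        ⟪Abar hF e f α w, Abar hF e f α r⟫ = ν * σ ⟪w, r⟫) := by
    intro r hre hrf hrr
    by_cases hr0 : r = 0
    · subst hr0
      constructor
      · intro c; rw [smul_zero, Abar_zero hF p hfr α hαe, smul_zero]
      · intro w _ _
        rw [Abar_zero hF p hfr α hαe, uh_zero_right hF, uh_zero_right hF, map_zero, mul_zero]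
    obtain ⟨c, hce, hcf, hcc, hr₀c, hrc⟩ := hfr.common hF r₀ r hr₀0 hr₀e hr₀f hr₀ hr0 hre hrf hrr
    have hc0 : c ≠ 0 := by
      rintro rfl
      exact hrc (uh_zero_right hF _)
    obtain ⟨σc, hσc⟩ := Abar_sigma4 hF p hn h32 hfr α hαe hαf c hc0 hce hcf hcc
    obtain ⟨νc, hνc0, hνc, hPc⟩ := Abar_form4 hF p hn h32 hfr α hαe hαf c hc0 hce hcf hcc σc hσc
    obtain ⟨σr, hσr⟩ := Abar_sigma4 hF p hn h32 hfr α hαe hαf r hr0 hre hrf hrr
    obtain ⟨νr, hνr0, hνr, hPr⟩ := Abar_form4 hF p hn h32 hfr α hαe hαf r hr0 hre hrf hrr σr hσr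
    obtain ⟨h1, h2⟩ := Abar_consist hF p hn h32 hfr α hαe r₀ c hr₀e hr₀f hce hcf hr₀c σ σc ν νc
      hν hνc0 hσ hP hPc
    obtain ⟨h3, h4⟩ := Abar_consist hF p hn h32 hfr α hαe r c hre hrf hce hcf hrc σr σc νr νc
      hνr hνc0 hσr hPr hPc
    constructor
    · intro x; rw [hσr, h3, ← h1]
    · intro w hwe hwf; rw [hPr w hwe hwf, h3, ← h1, h4, ← h2]
  refine ⟨σ, ν, hν0, hν, ?_, ?_⟩
  · intro c w hwe hwf
    have := hfr.induction hF hn4 (fun w => ⟪w, e⟫ = 0 ∧ ⟪w, f⟫ = 0 ∧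
        ∀ c : F, Abar hF e f α (c • w) = σ c • Abar hF e f α w)
      (by
        rintro x y ⟨hxe, hxf, hx⟩ ⟨hye, hyf, hy⟩
        refine ⟨by rw [uh_add_left, hxe, hye, add_zero], by rw [uh_add_left, hxf, hyf, add_zero],
          fun c => ?_⟩
        rw [smul_add, Abar_add hF p hn h32 hfr α hαe _ _ (by rw [uh_smul_left, hxe, mul_zero])
          (by rw [uh_smul_left, hxf, mul_zero]) (by rw [uh_smul_left, hye, mul_zero])
          (by rw [uh_smul_left, hyf, mul_zero]), hx, hy,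
          Abar_add hF p hn h32 hfr α hαe x y hxe hxf hye hyf, smul_add])
      (fun r hre hrf hrr => ⟨hre, hrf, (key r hre hrf hrr).1⟩) w hwe hwf
    exact this.2.2 c
  · intro w w' hwe hwf hw'e hw'f
    have := hfr.induction hF hn4 (fun w' => ⟪w', e⟫ = 0 ∧ ⟪w', f⟫ = 0 ∧
        ∀ w : Fin n → F, ⟪w, e⟫ = 0 → ⟪w, f⟫ = 0 →
          ⟪Abar hF e f α w, Abar hF e f α w'⟫ = ν * σ ⟪w, w'⟫)
      (by
        rintro x y ⟨hxe, hxf, hx⟩ ⟨hye, hyf, hy⟩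
        refine ⟨by rw [uh_add_left, hxe, hye, add_zero], by rw [uh_add_left, hxf, hyf, add_zero],
          fun w hwe hwf => ?_⟩
        rw [Abar_add hF p hn h32 hfr α hαe x y hxe hxf hye hyf, uh_add_right hF,
          uh_add_right hF, hx w hwe hwf, hy w hwe hwf, map_add, mul_add])
      (fun r hre hrf hrr => ⟨hre, hrf, (key r hre hrf hrr).2⟩) w' hw'e hw'f
    exact this.2.2 w hwe hwf

/-- an element of `F` whose `(q-1)`-st power is not a cube root of unity (`q ≥ 3`) -/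
theorem psu_exists_cube (hq : 3 ≤ q) :
    ∃ lam : F, lam ≠ 0 ∧ frobQ hF (frobQ hF lam * (frobQ hF lam / lam))
      ≠ frobQ hF lam * (frobQ hF lam / lam) := by
  have hcard : Nat.card Fˣ = q ^ 2 - 1 := by
    rw [Nat.card_units, Nat.card_eq_fintype_card, hF]
  obtain ⟨u, hu⟩ := exists_pow_ne_one_of_isCyclic (G := Fˣ) (k := 3 * (q - 1)) (by omega) (by
    rw [hcard]
    obtain ⟨k, rfl⟩ : ∃ k, q = k + 3 := ⟨q - 3, by omega⟩
    have h1 : (k + 3) ^ 2 - 1 = k ^ 2 + 6 * k + 8 := by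
      have : (k + 3) ^ 2 = k ^ 2 + 6 * k + 9 := by ring
      omega
    have h2 : k + 3 - 1 = k + 2 := by omega
    rw [h1, h2]
    nlinarith)
  have hu0 : (u : F) ≠ 0 := u.ne_zero
  refine ⟨(u : F), hu0, fun h => hu ?_⟩
  rw [map_mul, map_div₀, frobQ_frobQ, frobQ_apply] at h
  have hq0 : ((u : F) ^ q) ≠ 0 := pow_ne_zero _ hu0
  have h1 : (u : F) ^ 3 = ((u : F) ^ q) ^ 3 := by
    field_simp at h
    linear_combination h
  have h3 : ((u : F) ^ q) ^ 3 = (u : F) ^ (3 * (q - 1)) * (u : F) ^ 3 := by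
    rw [← pow_mul, ← pow_add]; congr 1; omega
  rw [h3] at h1
  have h4 : (u : F) ^ 3 ≠ 0 := pow_ne_zero _ hu0
  have h2 : (u : F) ^ (3 * (q - 1)) = 1 := by
    have h5 : ((u : F) ^ (3 * (q - 1)) - 1) * (u : F) ^ 3 = 0 := by linear_combination -h1
    rcases mul_eq_zero.1 h5 with h | h
    · exact sub_eq_zero.1 h
    · exact absurd h h4
  apply Units.ext
  rw [Units.val_pow_eq_pow_val, h2, Units.val_one]

/-- semilinearity for `n = 3` -/
theorem Abar_semi3 (p : ℕ) [Fact p.Prime] [CharP F p] (hn : 3 ≤ n) (h32 : ¬ (n = 3 ∧ q = 2))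
    (hn3 : n = 3)
    {e f d : Fin n → F} (hfr : UFrame q e f d) (α : MulAut (Cfsg.PSU n F q))
    (hαe : (Tb hF e).map α.toMonoidHom = Tb hF e) (hαf : (Tb hF f).map α.toMonoidHom = Tb hF f) :
    ∃ (σ : F →+* F) (ν : F), ν ≠ 0 ∧ frobQ hF ν = ν ∧
      (∀ (c : F) (w : Fin n → F), ⟪w, e⟫ = 0 → ⟪w, f⟫ = 0 →
        Abar hF e f α (c • w) = σ c • Abar hF e f α w) ∧
      (∀ w w' : Fin n → F, ⟪w, e⟫ = 0 → ⟪w, f⟫ = 0 → ⟪w', e⟫ = 0 → ⟪w', f⟫ = 0 →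
        ⟪Abar hF e f α w, Abar hF e f α w'⟫ = ν * σ ⟪w, w'⟫) := by
  have hq3 : 3 ≤ q := by
    have h1 : 1 < Fintype.card F := Fintype.one_lt_card
    rw [hF] at h1
    have h2 : q ≠ 2 := fun h => h32 ⟨hn3, h⟩
    have h3 : q ≠ 0 := by rintro rfl; simp at h1
    have h4 : q ≠ 1 := by rintro rfl; simp at h1
    omega
  have hfz : ∀ x : F, x ≠ 0 → frobQ hF x ≠ 0 := fun x hx h => hx ((ufrob_eq_zero hF).1 h)
  have hd0 : d ≠ 0 := by
    rintro rfl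
    have := hfr.dd
    rw [uh_zero_left] at this
    exact zero_ne_one this
  have hAd0 : Abar hF e f α d ≠ 0 := fun h =>
    hd0 (Abar_inj hF p hn h32 hfr α hαe d hfr.de hfr.df h)
  obtain ⟨hAde, hAdf⟩ := Abar_mem hF p hn h32 hfr α hαe d hfr.de hfr.df
  obtain ⟨t₀, ht₀⟩ := hfr.line3 hn3 _ hAde hAdf
  have ht₀0 : t₀ ≠ 0 := by
    rintro rfl
    rw [zero_smul] at ht₀
    exact hAd0 ht₀
  have hlineW : ∀ w : Fin n → F, ⟪w, e⟫ = 0 → ⟪w, f⟫ = 0 → ∃ t : F, w = t • Abar hF e f α d := by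
    intro w hwe hwf
    obtain ⟨c, hc⟩ := hfr.line3 hn3 w hwe hwf
    refine ⟨c / t₀, ?_⟩
    rw [hc, ht₀, smul_smul, div_mul_cancel₀ c ht₀0]
  have hsm : ∀ c : F, ⟪c • d, e⟫ = 0 ∧ ⟪c • d, f⟫ = 0 := fun c =>
    ⟨by rw [uh_smul_left, hfr.de, mul_zero], by rw [uh_smul_left, hfr.df, mul_zero]⟩
  have hline : ∀ c : F, ∃ t : F, Abar hF e f α (c • d) = t • Abar hF e f α d := by
    intro c
    obtain ⟨h1, h2⟩ := Abar_mem hF p hn h32 hfr α hαe (c • d) (hsm c).1 (hsm c).2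
    exact hlineW _ h1 h2
  have hmult : ∀ lam : F, lam ≠ 0 → ∃ μ : F, ∀ c : F,
      Abar hF e f α ((frobQ hF lam * (frobQ hF lam / lam) * c) • d)
        = μ • Abar hF e f α (c • d) := by
    intro lam hlam
    have hlam' := hfz lam hlam
    obtain ⟨D, hDe, hDf, hDd⟩ := exists_tor3 hF e f d hfr.ee hfr.ff hfr.ef hfr.dd hfr.de hfr.df
      lam hlam
    obtain ⟨D', lam', kap', hlam'0, hkap'0, hL, hD'e, hD'f⟩ := exists_lift_tor hF p hfr α hαe hαf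
      D lam (frobQ hF lam)⁻¹ hlam (inv_ne_zero hlam') hDe hDf
    obtain ⟨h1, h2⟩ := W_uact hF D' e f lam' kap' (Abar hF e f α d) hlam'0 hkap'0 hD'e hD'f
      hAde hAdf
    obtain ⟨κ', hD'd⟩ := hlineW _ h1 h2
    refine ⟨frobQ hF lam' * κ', fun c => ?_⟩
    have h3 := Abar_conj hF p hn h32 hfr α hαe D D' hL lam (frobQ hF lam)⁻¹ lam' kap' hlam
      (inv_ne_zero hlam') hlam'0 hkap'0 hDe hDf hD'e hD'f (c • d) (hsm c).1 (hsm c).2
    obtain ⟨t, ht⟩ := hline c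
    rw [uact_smul, hDd, smul_smul, smul_smul, ht, uact_smul, hD'd, smul_smul, smul_smul] at h3
    rw [ht, smul_smul]
    have e1 : frobQ hF lam * (frobQ hF lam / lam) * c = frobQ hF lam * c * (frobQ hF lam / lam) := by
      ring
    have e2 : frobQ hF lam' * κ' * t = frobQ hF lam' * t * κ' := by ring
    rw [e1, e2]; exact h3
  obtain ⟨lam₀, hlam₀, hlam₀'⟩ := psu_exists_cube hF hq3
  obtain ⟨σ, hσ⟩ : ∃ σ : F →+* F, ∀ c : F, Abar hF e f α (c • d) = σ c • Abar hF e f α d := by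
    refine psu_line_hom hF _ hAd0 (fun c => Abar hF e f α (c • d)) ?_ ?_ hline ?_ _ hlam₀'
      (hmult lam₀ hlam₀)
    · show Abar hF e f α ((1 : F) • d) = _
      rw [one_smul]
    · intro x y
      show Abar hF e f α ((x + y) • d) = Abar hF e f α (x • d) + Abar hF e f α (y • d)
      rw [add_smul, Abar_add hF p hn h32 hfr α hαe _ _ (hsm x).1 (hsm x).2 (hsm y).1 (hsm y).2]
    · intro x hx
      by_cases hx0 : x = 0
      · refine ⟨0, fun c => ?_⟩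
        show Abar hF e f α ((x * c) • d) = (0 : F) • Abar hF e f α (c • d)
        rw [hx0, zero_mul, zero_smul, zero_smul, Abar_zero hF p hfr α hαe]
      · obtain ⟨μ, hμ⟩ := hmult x hx0
        refine ⟨μ, fun c => ?_⟩
        have := hμ c
        rwa [hx, div_self hx0, mul_one] at this
  have hστ : ∀ x : F, σ (frobQ hF x) = frobQ hF (σ x) := by
    intro x
    rw [frobQ_apply, frobQ_apply, map_pow]
  refine ⟨σ, ⟪Abar hF e f α d, Abar hF e f α d⟫, ?_, psu_self_fix hF _, ?_, ?_⟩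
  · rw [ht₀, uh_smul_left, uh_smul_right hF, hfr.dd, mul_one]
    exact mul_ne_zero ht₀0 (hfz t₀ ht₀0)
  · intro c w hwe hwf
    obtain ⟨c', hc'⟩ := hfr.line3 hn3 w hwe hwf
    rw [hc', smul_smul, hσ, hσ, map_mul, smul_smul]
  · intro w w' hwe hwf hw'e hw'f
    obtain ⟨c, hc⟩ := hfr.line3 hn3 w hwe hwf
    obtain ⟨c', hc'⟩ := hfr.line3 hn3 w' hw'e hw'f
    rw [hc, hc', hσ, hσ, uh_smul_left, uh_smul_right hF, uh_smul_left, uh_smul_right hF, hfr.dd,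
      mul_one, map_mul, hστ]
    ring

/-- **the map induced on `W` is semilinear and a similitude** -/
theorem Abar_semilinear (p : ℕ) [Fact p.Prime] [CharP F p] (hn : 3 ≤ n)
    (h32 : ¬ (n = 3 ∧ q = 2))
    {e f d : Fin n → F} (hfr : UFrame q e f d) (α : MulAut (Cfsg.PSU n F q))
    (hαe : (Tb hF e).map α.toMonoidHom = Tb hF e) (hαf : (Tb hF f).map α.toMonoidHom = Tb hF f) :
    ∃ (σ : F ≃+* F) (ν : F), ν ≠ 0 ∧ frobQ hF ν = ν ∧
      (∀ (c : F) (w : Fin n → F), ⟪w, e⟫ = 0 → ⟪w, f⟫ = 0 →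
        Abar hF e f α (c • w) = σ c • Abar hF e f α w) ∧
      (∀ w w' : Fin n → F, ⟪w, e⟫ = 0 → ⟪w, f⟫ = 0 → ⟪w', e⟫ = 0 → ⟪w', f⟫ = 0 →
        ⟪Abar hF e f α w, Abar hF e f α w'⟫ = ν * σ ⟪w, w'⟫) := by
  have h : ∃ (σ : F →+* F) (ν : F), ν ≠ 0 ∧ frobQ hF ν = ν ∧
      (∀ (c : F) (w : Fin n → F), ⟪w, e⟫ = 0 → ⟪w, f⟫ = 0 →
        Abar hF e f α (c • w) = σ c • Abar hF e f α w) ∧
      (∀ w w' : Fin n → F, ⟪w, e⟫ = 0 → ⟪w, f⟫ = 0 → ⟪w', e⟫ = 0 → ⟪w', f⟫ = 0 →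
        ⟪Abar hF e f α w, Abar hF e f α w'⟫ = ν * σ ⟪w, w'⟫) := by
    by_cases hn3 : n = 3
    · exact Abar_semi3 hF p hn h32 hn3 hfr α hαe hαf
    · exact Abar_semi4 hF p hn h32 (by omega) hfr α hαe hαf
  obtain ⟨σ, ν, h1, h2, h3, h4⟩ := h
  have hbij : Function.Bijective σ := ⟨σ.injective, Finite.injective_iff_surjective.1 σ.injective⟩
  exact ⟨RingEquiv.ofBijective σ hbij, ν, h1, h2, fun c w hwe hwf => h3 c w hwe hwf,
    fun w w' h5 h6 h7 h8 => h4 w w' h5 h6 h7 h8⟩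

end semi

end Cfsg.Agent.Helper44.PSUn
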