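import Mathlib
import Cfsg.Agent.Helper44.PSUJ
import Cfsg.Agent.Helper44.PSLnA

/-!
# Automorphisms of `PSU_n(q)` (helper44), part K: the automorphisms induced by semilinear maps
-/

set_option autoImplicit false
set_option linter.unusedSimpArgs false
set_option linter.unusedSectionVars false
set_option linter.unusedVariables false

namespace Cfsg.Agent.Helper44.PSUn

open Matrix
open scoped Pointwise
open Cfsg.Agent.Helper5 (frobQ frobQ_apply frobQ_frobQ frobQ_ne_id)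
open Cfsg.Agent.Helper13

section Res

variable {G : Type*} [Group G]

/-- restriction of an automorphism to a finite subgroup which it maps into itself -/
noncomputable def resAut (H : Subgroup G) [Finite H] (e : MulAut G) (h : ∀ x ∈ H, e x ∈ H) :
    MulAut H :=
  MulEquiv.ofBijective
    ({ toFun := fun x => ⟨e (x : G), h (x : G) x.2⟩
       map_one' := Subtype.ext (map_one e)
       map_mul' := fun x y => Subtype.ext (map_mul e (x : G) (y : G)) } : H →* H)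
    (by
      have hinj : Function.Injective (fun x : H => (⟨e (x : G), h (x : G) x.2⟩ : H)) := by
        intro x y hxy
        exact Subtype.ext (e.injective (congrArg Subtype.val hxy))
      exact ⟨hinj, Finite.injective_iff_surjective.1 hinj⟩)

theorem resAut_coe (H : Subgroup G) [Finite H] (e : MulAut G) (h : ∀ x ∈ H, e x ∈ H) (x : H) :
    ((resAut H e h x : H) : G) = e (x : G) := rfl

end Res

variable {F : Type*} [Field F] [Fintype F] {q n : ℕ}

local notation "⟪" x ", " y "⟫" => Cfsg.hermForm n F q x y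

/-- a field automorphism applied to the coordinates of a vector -/
def sv (σ : RingAut F) (x : Fin n → F) : Fin n → F := fun i => σ (x i)

theorem sv_apply (σ : RingAut F) (x : Fin n → F) (i : Fin n) : sv σ x i = σ (x i) := rfl

theorem sv_add (σ : RingAut F) (x y : Fin n → F) : sv σ (x + y) = sv σ x + sv σ y := by
  funext i; simp [sv]

theorem sv_sub (σ : RingAut F) (x y : Fin n → F) : sv σ (x - y) = sv σ x - sv σ y := by
  funext i; simp [sv]

theorem sv_smul (σ : RingAut F) (c : F) (x : Fin n → F) : sv σ (c • x) = σ c • sv σ x := by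
  funext i; simp [sv]

theorem sv_zero (σ : RingAut F) : sv σ (0 : Fin n → F) = 0 := by
  funext i; simp [sv]

theorem sv_inv (σ : RingAut F) (x : Fin n → F) : sv σ (sv σ⁻¹ x) = x := by
  funext i
  show σ (σ⁻¹ (x i)) = x i
  rw [← RingAut.mul_apply, mul_inv_cancel, RingAut.one_apply]

theorem sv_inv' (σ : RingAut F) (x : Fin n → F) : sv σ⁻¹ (sv σ x) = x := by
  funext i
  show σ⁻¹ (σ (x i)) = x i
  rw [← RingAut.mul_apply, inv_mul_cancel, RingAut.one_apply]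

theorem sv_mulVec (σ : RingAut F) (M : Matrix (Fin n) (Fin n) F) (x : Fin n → F) :
    (M.map σ) *ᵥ sv σ x = sv σ (M *ᵥ x) := by
  funext i
  simp [sv, Matrix.mulVec, dotProduct, map_sum, map_mul]

theorem herm_sv (σ : RingAut F) (x y : Fin n → F) : ⟪sv σ x, sv σ y⟫ = σ ⟪x, y⟫ := by
  unfold Cfsg.hermForm
  rw [map_sum]
  refine Finset.sum_congr rfl fun i _ => ?_
  rw [map_mul, map_pow]
  rfl

theorem mem_SU_iff (s : Matrix.SpecialLinearGroup (Fin n) F) :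
    s ∈ Cfsg.SU n F q ↔ ∀ u v : Fin n → F,
      ⟪(s : Matrix (Fin n) (Fin n) F) *ᵥ u, (s : Matrix (Fin n) (Fin n) F) *ᵥ v⟫ = ⟪u, v⟫ :=
  Iff.rfl

theorem conjSL_mem_SU (g : GL (Fin n) F) (hg : g ∈ Cfsg.GU n F q)
    (s : Matrix.SpecialLinearGroup (Fin n) F) (hs : s ∈ Cfsg.SU n F q) :
    PSLn.conjSL g s ∈ Cfsg.SU n F q := by
  rw [mem_SU_iff] at hs ⊢
  have hg' := (Cfsg.Agent.Helper5.mem_GU_iff g).1 hg
  have hgi := (Cfsg.Agent.Helper5.mem_GU_iff g⁻¹).1 (Subgroup.inv_mem _ hg)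
  intro u v
  rw [PSLn.conjSL_apply, PSLn.conjFun_coe, ← Matrix.mulVec_mulVec, ← Matrix.mulVec_mulVec,
    ← Matrix.mulVec_mulVec, ← Matrix.mulVec_mulVec, hg', hs, hgi]

theorem mapSL_mem_SU (σ : RingAut F) (s : Matrix.SpecialLinearGroup (Fin n) F)
    (hs : s ∈ Cfsg.SU n F q) : PSLn.mapSL σ s ∈ Cfsg.SU n F q := by
  rw [mem_SU_iff] at hs ⊢
  intro u v
  rw [PSLn.mapSL_apply, PSLn.mapFun_coe, ← sv_inv σ u, ← sv_inv σ v, sv_mulVec, sv_mulVec,
    herm_sv, herm_sv, hs]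

instance finite_SU : Finite ↥(Cfsg.SU n F q) := by
  classical
  exact inferInstance

/-- conjugation by `g ∈ GU_n(q)` as an automorphism of `SU_n(q)` -/
noncomputable def conjSU : ↥(Cfsg.GU n F q) →* MulAut ↥(Cfsg.SU n F q) where
  toFun g := resAut (Cfsg.SU n F q) (PSLn.conjSL (g : GL (Fin n) F))
    (fun s hs => conjSL_mem_SU _ g.2 s hs)
  map_one' := by
    apply MulEquiv.ext
    intro s
    apply Subtype.ext
    rw [resAut_coe, Subgroup.coe_one, map_one]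
    rfl
  map_mul' g h := by
    apply MulEquiv.ext
    intro s
    apply Subtype.ext
    rw [resAut_coe, Subgroup.coe_mul, map_mul]
    rfl

/-- a field automorphism as an automorphism of `SU_n(q)` -/
noncomputable def mapSU : RingAut F →* MulAut ↥(Cfsg.SU n F q) where
  toFun σ := resAut (Cfsg.SU n F q) (PSLn.mapSL σ) (fun s hs => mapSL_mem_SU σ s hs)
  map_one' := by
    apply MulEquiv.ext
    intro s
    apply Subtype.ext
    rw [resAut_coe, map_one]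
    rfl
  map_mul' σ τ := by
    apply MulEquiv.ext
    intro s
    apply Subtype.ext
    rw [resAut_coe, map_mul]
    rfl

theorem conjSU_coe (g : ↥(Cfsg.GU n F q)) (s : ↥(Cfsg.SU n F q)) :
    (((conjSU g s : ↥(Cfsg.SU n F q)) : Matrix.SpecialLinearGroup (Fin n) F) :
      Matrix (Fin n) (Fin n) F)
      = ((g : GL (Fin n) F) : Matrix (Fin n) (Fin n) F)
        * ((s : Matrix.SpecialLinearGroup (Fin n) F) : Matrix (Fin n) (Fin n) F)
        * (((g : GL (Fin n) F)⁻¹ : GL (Fin n) F) : Matrix (Fin n) (Fin n) F) := rfl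

theorem mapSU_coe (σ : RingAut F) (s : ↥(Cfsg.SU n F q)) :
    (((mapSU σ s : ↥(Cfsg.SU n F q)) : Matrix.SpecialLinearGroup (Fin n) F) :
      Matrix (Fin n) (Fin n) F)
      = ((s : Matrix.SpecialLinearGroup (Fin n) F) : Matrix (Fin n) (Fin n) F).map σ := rfl

/-- an automorphism of `SU_n(q)` induces an automorphism of `PSU_n(q)` -/
def quotAutU : MulAut ↥(Cfsg.SU n F q) →* MulAut (Cfsg.PSU n F q) where
  toFun e := QuotientGroup.congr (Subgroup.center ↥(Cfsg.SU n F q))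
    (Subgroup.center ↥(Cfsg.SU n F q)) e (Subgroup.characteristic_iff_map_eq.mp inferInstance e)
  map_one' := by
    apply MulEquiv.ext
    intro x
    obtain ⟨s, rfl⟩ := prU_surjective x
    rfl
  map_mul' e₁ e₂ := by
    apply MulEquiv.ext
    intro x
    obtain ⟨s, rfl⟩ := prU_surjective x
    rfl

theorem quotAutU_prU (e : MulAut ↥(Cfsg.SU n F q)) (s : ↥(Cfsg.SU n F q)) :
    quotAutU e (prU s) = prU (e s) := rfl

/-- the automorphism of `PSU_n(q)` induced by conjugation with `g ∈ GU_n(q)` -/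
noncomputable def uD : ↥(Cfsg.GU n F q) →* MulAut (Cfsg.PSU n F q) := quotAutU.comp conjSU

/-- the automorphism of `PSU_n(q)` induced by a field automorphism -/
noncomputable def uF : RingAut F →* MulAut (Cfsg.PSU n F q) := quotAutU.comp mapSU

theorem uD_prU (g : ↥(Cfsg.GU n F q)) (s : ↥(Cfsg.SU n F q)) :
    uD g (prU s) = prU (conjSU g s) := rfl

theorem uF_prU (σ : RingAut F) (s : ↥(Cfsg.SU n F q)) :
    (uF σ : MulAut (Cfsg.PSU n F q)) (prU s) = prU (mapSU σ s) := rfl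

/-- the semilinear map `x ↦ g σ(x)` -/
def semiV (g : GL (Fin n) F) (σ : RingAut F) (x : Fin n → F) : Fin n → F :=
  (g : Matrix (Fin n) (Fin n) F) *ᵥ sv σ x

theorem semiV_add (g : GL (Fin n) F) (σ : RingAut F) (x y : Fin n → F) :
    semiV g σ (x + y) = semiV g σ x + semiV g σ y := by
  unfold semiV
  rw [sv_add, Matrix.mulVec_add]

theorem semiV_sub (g : GL (Fin n) F) (σ : RingAut F) (x y : Fin n → F) :
    semiV g σ (x - y) = semiV g σ x - semiV g σ y := by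
  unfold semiV
  rw [sv_sub, Matrix.mulVec_sub]

theorem semiV_smul (g : GL (Fin n) F) (σ : RingAut F) (c : F) (x : Fin n → F) :
    semiV g σ (c • x) = σ c • semiV g σ x := by
  unfold semiV
  rw [sv_smul, Matrix.mulVec_smul]

theorem semiV_zero (g : GL (Fin n) F) (σ : RingAut F) : semiV g σ (0 : Fin n → F) = 0 := by
  unfold semiV
  rw [sv_zero, Matrix.mulVec_zero]

theorem semiV_herm (g : GL (Fin n) F) (hg : g ∈ Cfsg.GU n F q) (σ : RingAut F)
    (x y : Fin n → F) : ⟪semiV g σ x, semiV g σ y⟫ = σ ⟪x, y⟫ := by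
  unfold semiV
  rw [(Cfsg.Agent.Helper5.mem_GU_iff g).1 hg, herm_sv]

theorem semiV_surj (g : GL (Fin n) F) (σ : RingAut F) (y : Fin n → F) :
    ∃ x : Fin n → F, semiV g σ x = y := by
  refine ⟨sv σ⁻¹ (((g⁻¹ : GL (Fin n) F) : Matrix (Fin n) (Fin n) F) *ᵥ y), ?_⟩
  unfold semiV
  rw [sv_inv, Matrix.mulVec_mulVec, ← Units.val_mul, mul_inv_cancel, Units.val_one,
    Matrix.one_mulVec]

theorem uact_semi (g : ↥(Cfsg.GU n F q)) (σ : RingAut F) (s : ↥(Cfsg.SU n F q))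
    (x : Fin n → F) :
    uact (conjSU g (mapSU σ s)) (semiV (g : GL (Fin n) F) σ x)
      = semiV (g : GL (Fin n) F) σ (uact s x) := by
  unfold uact semiV
  rw [conjSU_coe, mapSU_coe, ← sv_mulVec, Matrix.mulVec_mulVec, Matrix.mulVec_mulVec]
  congr 1
  rw [mul_assoc, ← Units.val_mul, inv_mul_cancel, Units.val_one, mul_one]

section transport

variable (hF : Fintype.card F = q ^ 2)

theorem semi_usg (g : ↥(Cfsg.GU n F q)) (σ : RingAut F) (e w : Fin n → F) (b : F)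
    (he : ⟪e, e⟫ = 0) (hwe : ⟪w, e⟫ = 0) (hb : b + frobQ hF b + ⟪w, w⟫ = 0) :
    (⟪semiV (g : GL (Fin n) F) σ e, semiV (g : GL (Fin n) F) σ e⟫ = 0 ∧
     ⟪semiV (g : GL (Fin n) F) σ w, semiV (g : GL (Fin n) F) σ e⟫ = 0 ∧
     σ b + frobQ hF (σ b)
       + ⟪semiV (g : GL (Fin n) F) σ w, semiV (g : GL (Fin n) F) σ w⟫ = 0) ∧
    conjSU g (mapSU σ (usg hF e w b))
      = usg hF (semiV (g : GL (Fin n) F) σ e) (semiV (g : GL (Fin n) F) σ w) (σ b) := by
  have h1 : ⟪semiV (g : GL (Fin n) F) σ e, semiV (g : GL (Fin n) F) σ e⟫ = 0 := by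
    rw [semiV_herm _ g.2, he, map_zero]
  have h2 : ⟪semiV (g : GL (Fin n) F) σ w, semiV (g : GL (Fin n) F) σ e⟫ = 0 := by
    rw [semiV_herm _ g.2, hwe, map_zero]
  have h3 : σ b + frobQ hF (σ b)
      + ⟪semiV (g : GL (Fin n) F) σ w, semiV (g : GL (Fin n) F) σ w⟫ = 0 := by
    rw [semiV_herm _ g.2, ← psu_sigma_tau hF σ b, ← map_add, ← map_add, hb, map_zero]
  refine ⟨⟨h1, h2, h3⟩, ?_⟩
  rw [uact_eq_iff]
  intro y
  obtain ⟨x, rfl⟩ := semiV_surj (g : GL (Fin n) F) σ y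
  rw [uact_semi, uact_usg hF e w b he hwe hb, uact_usg hF _ _ _ h1 h2 h3]
  simp only [semiV_add, semiV_sub, semiV_smul, semiV_herm _ g.2]

theorem semi_utv (g : ↥(Cfsg.GU n F q)) (σ : RingAut F) (v : Fin n → F) (a : F)
    (hv : ⟪v, v⟫ = 0) (ha : frobQ hF a = -a) :
    frobQ hF (σ a) = -σ a ∧
    ⟪semiV (g : GL (Fin n) F) σ v, semiV (g : GL (Fin n) F) σ v⟫ = 0 ∧
    conjSU g (mapSU σ (utv hF v a)) = utv hF (semiV (g : GL (Fin n) F) σ v) (σ a) := by
  have h0 : a + frobQ hF a + ⟪(0 : Fin n → F), 0⟫ = 0 := by rw [ha, uh_zero_left]; ring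
  obtain ⟨⟨h1, h2, h3⟩, h4⟩ := semi_usg hF g σ v 0 a hv (uh_zero_left _) h0
  have h5 : frobQ hF (σ a) = -σ a := by rw [← psu_sigma_tau hF σ a, ha, map_neg]
  refine ⟨h5, h1, ?_⟩
  rw [← usg_zero hF v a hv ha, h4, semiV_zero, usg_zero hF _ _ h1 h5]

theorem semi_Tb (g : ↥(Cfsg.GU n F q)) (σ : RingAut F) (v : Fin n → F) (hv : ⟪v, v⟫ = 0) :
    (Tb hF v).map (uD g * uF σ).toMonoidHom = Tb hF (semiV (g : GL (Fin n) F) σ v) := by
  ext y
  rw [Subgroup.mem_map, mem_Tb]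
  constructor
  · rintro ⟨t, ht, rfl⟩
    obtain ⟨t₀, ⟨c, hc, rfl⟩, rfl⟩ := (mem_Tb hF v t).1 ht
    obtain ⟨h1, h2, h3⟩ := semi_utv hF g σ v c hv hc
    refine ⟨utv hF (semiV (g : GL (Fin n) F) σ v) (σ c), ⟨σ c, h1, rfl⟩, ?_⟩
    show prU _ = (uD g * uF σ : MulAut (Cfsg.PSU n F q)) (prU (utv hF v c))
    rw [MulAut.mul_apply, uF_prU, uD_prU, h3]
  · rintro ⟨t₀, ⟨c, hc, rfl⟩, rfl⟩
    have hc' : frobQ hF (σ⁻¹ c) = -σ⁻¹ c := by rw [← psu_sigma_tau hF σ⁻¹ c, hc, map_neg]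
    obtain ⟨h1, h2, h3⟩ := semi_utv hF g σ v (σ⁻¹ c) hv hc'
    refine ⟨prU (utv hF v (σ⁻¹ c)), Subgroup.mem_map_of_mem _ ⟨_, hc', rfl⟩, ?_⟩
    show (uD g * uF σ : MulAut (Cfsg.PSU n F q)) (prU (utv hF v (σ⁻¹ c))) = _
    rw [MulAut.mul_apply, uF_prU, uD_prU, h3]
    congr 2
    show σ (σ⁻¹ c) = c
    rw [← RingAut.mul_apply, mul_inv_cancel, RingAut.one_apply]

theorem semi_matrix (σ : RingAut F) (Φ : (Fin n → F) → (Fin n → F))
    (hadd : ∀ x y, Φ (x + y) = Φ x + Φ y)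
    (hsmul : ∀ (c : F) (x : Fin n → F), Φ (c • x) = σ c • Φ x) :
    ∃ M : Matrix (Fin n) (Fin n) F, ∀ x, M *ᵥ sv σ x = Φ x := by
  classical
  refine ⟨Matrix.of (fun i j => Φ (Pi.single j 1) i), fun x => ?_⟩
  let Φ' : (Fin n → F) →+ (Fin n → F) := AddMonoidHom.mk' Φ hadd
  have h1 : Φ x = ∑ j, σ (x j) • Φ (Pi.single j 1) := by
    conv_lhs => rw [pi_eq_sum_univ' x]
    show Φ' (∑ j, x j • Pi.single j 1) = _
    rw [map_sum]
    refine Finset.sum_congr rfl fun j _ => ?_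
    show Φ (x j • Pi.single j 1) = _
    rw [hsmul]
  rw [h1]
  funext i
  simp only [Matrix.mulVec, dotProduct, Matrix.of_apply, sv_apply, Finset.sum_apply,
    Pi.smul_apply, smul_eq_mul]
  exact Finset.sum_congr rfl fun j _ => mul_comm _ _

theorem exists_semi_GU (hF : Fintype.card F = q ^ 2) (σ : RingAut F)
    (Φ : (Fin n → F) → (Fin n → F))
    (hadd : ∀ x y, Φ (x + y) = Φ x + Φ y)
    (hsmul : ∀ (c : F) (x : Fin n → F), Φ (c • x) = σ c • Φ x)
    (hherm : ∀ x y, ⟪Φ x, Φ y⟫ = σ ⟪x, y⟫) :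
    ∃ g : ↥(Cfsg.GU n F q), ∀ x, semiV (g : GL (Fin n) F) σ x = Φ x := by
  classical
  obtain ⟨M, hM⟩ := semi_matrix σ Φ hadd hsmul
  have hpres : ∀ u v : Fin n → F, ⟪M *ᵥ u, M *ᵥ v⟫ = ⟪u, v⟫ := by
    intro u v
    have h := hherm (sv σ⁻¹ u) (sv σ⁻¹ v)
    rw [← hM, ← hM, sv_inv, sv_inv, ← herm_sv, sv_inv, sv_inv] at h
    exact h
  have hdet : M.det ≠ 0 := by
    intro h0
    obtain ⟨v, hv0, hv⟩ := Matrix.exists_mulVec_eq_zero_iff.2 h0
    obtain ⟨x, hx⟩ := uh_nondeg_right hF v hv0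
    apply hx
    rw [← hpres, hv, uh_zero_left]
  refine ⟨⟨Matrix.GeneralLinearGroup.mkOfDetNeZero M hdet, ?_⟩, fun x => ?_⟩
  · rw [Cfsg.Agent.Helper5.mem_GU_iff]
    exact hpres
  · exact hM x

theorem wproj_add {e f : Fin n → F} (x y : Fin n → F) :
    wproj q e f (x + y) = wproj q e f x + wproj q e f y := by
  unfold wproj
  rw [uh_add_left, uh_add_left]
  module

theorem wproj_smul {e f : Fin n → F} (c : F) (x : Fin n → F) :
    wproj q e f (c • x) = c • wproj q e f x := by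
  unfold wproj
  rw [uh_smul_left, uh_smul_left]
  module

theorem UFrame.herm_decomp {e f d : Fin n → F} (hfr : UFrame q e f d) (x y : Fin n → F) :
    ⟪x, y⟫ = ⟪x, f⟫ * frobQ hF ⟪y, e⟫ + ⟪x, e⟫ * frobQ hF ⟪y, f⟫
      + ⟪wproj q e f x, wproj q e f y⟫ := by
  have hx := wproj_decomp (q := q) (e := e) (f := f) x
  have hy := wproj_decomp (q := q) (e := e) (f := f) y
  have h1 := hfr.wproj_e hF x
  have h2 := hfr.wproj_f hF x
  have h3 := hfr.wproj_e hF y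
  have h4 := hfr.wproj_f hF y
  have h3' := psu_swap_zero hF h3
  have h4' := psu_swap_zero hF h4
  calc ⟪x, y⟫ = ⟪⟪x, f⟫ • e + ⟪x, e⟫ • f + wproj q e f x,
        ⟪y, f⟫ • e + ⟪y, e⟫ • f + wproj q e f y⟫ := by rw [← hx, ← hy]
    _ = _ := by
      simp only [uh_add_left, uh_add_right hF, uh_smul_left, uh_smul_right hF, hfr.ee, hfr.ff,
        hfr.ef, hfr.fe hF, h1, h2, h3', h4']
      ring

/-- **the semilinear automorphism with the same action on `USg e / uroot e` as `α`** -/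
theorem exists_semi_aut (p : ℕ) [Fact p.Prime] [CharP F p] (hn : 3 ≤ n)
    (h32 : ¬ (n = 3 ∧ q = 2))
    {e f d : Fin n → F} (hfr : UFrame q e f d) (α : MulAut (Cfsg.PSU n F q))
    (hαe : (Tb hF e).map α.toMonoidHom = Tb hF e) (hαf : (Tb hF f).map α.toMonoidHom = Tb hF f) :
    ∃ (g : ↥(Cfsg.GU n F q)) (σ : RingAut F),
      (Tb hF e).map (uD g * uF σ).toMonoidHom = Tb hF e ∧
      (Tb hF f).map (uD g * uF σ).toMonoidHom = Tb hF f ∧
      ∀ (w : Fin n → F) (b : F), SV hF e f w b → ∃ b' : F, SV hF e f (Abar hF e f α w) b' ∧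
        (uD g * uF σ : MulAut (Cfsg.PSU n F q)) (prU (usg hF e w b))
          = prU (usg hF e (Abar hF e f α w) b') := by
  obtain ⟨σ, ν, hν0, hν, hsemi, hform⟩ := Abar_semilinear hF p hn h32 hfr α hαe hαf
  obtain ⟨c₀, hc₀0, hc₀⟩ := ufld_exists_norm hF hν0 hν
  subst hc₀
  have hτc₀ : frobQ hF c₀ ≠ 0 := fun h => hc₀0 ((ufrob_eq_zero hF).1 h)
  have hfe := hfr.fe hF
  have hWe : ∀ x, ⟪wproj q e f x, e⟫ = 0 := hfr.wproj_e hF
  have hWf : ∀ x, ⟪wproj q e f x, f⟫ = 0 := hfr.wproj_f hF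
  have hA : ∀ x, ⟪Abar hF e f α (wproj q e f x), e⟫ = 0
      ∧ ⟪Abar hF e f α (wproj q e f x), f⟫ = 0 :=
    fun x => Abar_mem hF p hn h32 hfr α hαe _ (hWe x) (hWf x)
  obtain ⟨Φ, hΦ⟩ : ∃ Φ : (Fin n → F) → (Fin n → F), ∀ x, Φ x =
      (σ ⟪x, f⟫ * frobQ hF c₀) • e + (σ ⟪x, e⟫ * c₀⁻¹) • f
        + c₀⁻¹ • Abar hF e f α (wproj q e f x) := ⟨_, fun x => rfl⟩
  have hadd : ∀ x y, Φ (x + y) = Φ x + Φ y := by
    intro x y
    rw [hΦ, hΦ, hΦ, uh_add_left, uh_add_left, map_add, map_add, wproj_add,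
      Abar_add hF p hn h32 hfr α hαe _ _ (hWe x) (hWf x) (hWe y) (hWf y)]
    module
  have hsmul : ∀ (c : F) (x : Fin n → F), Φ (c • x) = σ c • Φ x := by
    intro c x
    rw [hΦ, hΦ, uh_smul_left, uh_smul_left, map_mul, map_mul, wproj_smul,
      hsemi c _ (hWe x) (hWf x)]
    module
  have hστ : ∀ x : F, frobQ hF (σ x) = σ (frobQ hF x) := fun x => (psu_sigma_tau hF σ x).symm
  have hherm : ∀ x y, ⟪Φ x, Φ y⟫ = σ ⟪x, y⟫ := by
    intro x y
    obtain ⟨h1, h2⟩ := hA x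
    obtain ⟨h3, h4⟩ := hA y
    have h3' := psu_swap_zero hF h3
    have h4' := psu_swap_zero hF h4
    rw [hΦ, hΦ, hfr.herm_decomp hF x y]
    simp only [uh_add_left, uh_add_right hF, uh_smul_left, uh_smul_right hF, hfr.ee, hfr.ff,
      hfr.ef, hfe, h1, h2, h3', h4', hform _ _ (hWe x) (hWf x) (hWe y) (hWf y), map_mul,
      map_add, map_inv₀, frobQ_frobQ, hστ]
    field_simp
    ring
  obtain ⟨g, hg⟩ := exists_semi_GU hF σ Φ hadd hsmul hherm
  have hΦe : Φ e = frobQ hF c₀ • e := by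
    have h0 : wproj q e f e = 0 := by
      unfold wproj
      rw [hfr.ef, hfr.ee]
      module
    rw [hΦ, h0, Abar_zero hF p hfr α hαe, hfr.ef, hfr.ee]
    simp only [map_zero, map_one, zero_mul, one_mul, zero_smul, add_zero, smul_zero]
  have hΦf : Φ f = c₀⁻¹ • f := by
    have h0 : wproj q e f f = 0 := by
      unfold wproj
      rw [hfr.ff, hfe]
      module
    rw [hΦ, h0, Abar_zero hF p hfr α hαe, hfr.ff, hfe]
    simp only [map_zero, map_one, zero_mul, one_mul, zero_smul, add_zero, smul_zero, zero_add]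
  have hΦw : ∀ w, ⟪w, e⟫ = 0 → ⟪w, f⟫ = 0 → Φ w = c₀⁻¹ • Abar hF e f α w := by
    intro w hwe hwf
    rw [hΦ, wproj_of_mem w hwe hwf, hwe, hwf]
    simp only [map_zero, zero_mul, zero_smul, zero_add]
  refine ⟨g, σ, ?_, ?_, ?_⟩
  · rw [semi_Tb hF g σ e hfr.ee, hg, hΦe, Tb_smul hF _ hτc₀]
  · rw [semi_Tb hF g σ f hfr.ff, hg, hΦf, Tb_smul hF _ (inv_ne_zero hc₀0)]
  · intro w b hwb
    obtain ⟨hAe, hAf⟩ := Abar_mem hF p hn h32 hfr α hαe w hwb.1 hwb.2.1
    obtain ⟨⟨h1, h2, h3⟩, h4⟩ := semi_usg hF g σ e w b hfr.ee hwb.1 hwb.2.2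
    simp only [hg] at h1 h2 h3 h4
    rw [hΦe, hΦw w hwb.1 hwb.2.1] at h4
    rw [hΦw w hwb.1 hwb.2.1] at h3
    obtain ⟨⟨h5, h6⟩, h7⟩ := usg_smul_left hF (frobQ hF c₀) e (c₀⁻¹ • Abar hF e f α w) (σ b)
      hfr.ee (by rw [uh_smul_left, hAe, mul_zero]) h3
    have h8 : frobQ hF (frobQ hF c₀) • c₀⁻¹ • Abar hF e f α w = Abar hF e f α w := by
      rw [frobQ_frobQ, smul_smul, mul_inv_cancel₀ hc₀0, one_smul]
    rw [h8] at h6 h7
    refine ⟨_, ⟨hAe, hAf, h6⟩, ?_⟩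
    rw [MulAut.mul_apply, uF_prU, uD_prU, h4, h7]

end transport

end Cfsg.Agent.Helper44.PSUn
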