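import Mathlib
import Cfsg.Agent.Helper44.PSUK

/-!
# Automorphisms of `PSU_n(q)` (helper44), part L: every automorphism is induced by a semilinear map
-/

set_option autoImplicit false
set_option linter.unusedSimpArgs false
set_option linter.unusedSectionVars false
set_option linter.unusedVariables false

namespace Cfsg.Agent.Helper44.PSUn

open Matrix
open scoped Pointwise
open Cfsg.Agent.Helper5 (frobQ frobQ_apply frobQ_frobQ frobQ_ne_id)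
open Cfsg.Agent.Helper13

variable {F : Type*} [Field F] [Fintype F] {q n : ℕ}

local notation "⟪" x ", " y "⟫" => Cfsg.hermForm n F q x y

/-- the elements of `SU` whose image is fixed by `β` -/
def fixS (β : MulAut (Cfsg.PSU n F q)) : Subgroup ↥(Cfsg.SU n F q) :=
  MonoidHom.eqLocus (β.toMonoidHom.comp prU) prU

theorem mem_fixS (β : MulAut (Cfsg.PSU n F q)) (x : ↥(Cfsg.SU n F q)) :
    x ∈ fixS β ↔ β (prU x) = prU x := Iff.rfl

theorem usg_comm (hF : Fintype.card F = q ^ 2) (e w₁ w₂ : Fin n → F) (b₁ b₂ : F)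
    (he : ⟪e, e⟫ = 0) (h1e : ⟪w₁, e⟫ = 0) (hb₁ : b₁ + frobQ hF b₁ + ⟪w₁, w₁⟫ = 0)
    (h2e : ⟪w₂, e⟫ = 0) (hb₂ : b₂ + frobQ hF b₂ + ⟪w₂, w₂⟫ = 0) :
    usg hF e w₁ b₁ * usg hF e w₂ b₂
      = usg hF e w₂ b₂ * usg hF e w₁ b₁ * utv hF e (⟪w₁, w₂⟫ - ⟪w₂, w₁⟫) := by
  obtain ⟨⟨h3, h4⟩, h5⟩ := usg_mul hF e w₁ w₂ b₁ b₂ he h1e hb₁ h2e hb₂
  obtain ⟨⟨h6, h7⟩, h8⟩ := usg_mul hF e w₂ w₁ b₂ b₁ he h2e hb₂ h1e hb₁
  have hc : frobQ hF (⟪w₁, w₂⟫ - ⟪w₂, w₁⟫) = -(⟪w₁, w₂⟫ - ⟪w₂, w₁⟫) := by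
    rw [map_sub, uh_conj hF, uh_conj hF]; ring
  obtain ⟨-, h9⟩ := usg_mul_utv hF e (w₂ + w₁) (b₂ + b₁ - ⟪w₁, w₂⟫) (⟪w₁, w₂⟫ - ⟪w₂, w₁⟫) he
    h6 h7 hc
  rw [h5, h8, h9]
  congr 1
  · exact add_comm _ _
  · ring

section main

variable (hF : Fintype.card F = q ^ 2)

/-- Step A: the root subgroup of `e` is fixed -/
theorem fix_uroot {e f d : Fin n → F} (hfr : UFrame q e f d) (β : MulAut (Cfsg.PSU n F q))
    (H : ∀ (w : Fin n → F) (b : F), SV hF e f w b → ∃ c : F, frobQ hF c = -c ∧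
      β (prU (usg hF e w b)) = prU (usg hF e w (b + c)))
    (c₀ : F) (hc₀ : frobQ hF c₀ = -c₀) : utv hF e c₀ ∈ fixS β := by
  obtain ⟨t, ht⟩ := psu_exists_psi hF c₀ hc₀
  have h1e : ⟪t • d, e⟫ = 0 := by rw [uh_smul_left, hfr.de, mul_zero]
  have h1f : ⟪t • d, f⟫ = 0 := by rw [uh_smul_left, hfr.df, mul_zero]
  obtain ⟨b₁, hb₁⟩ := exists_SV hF e f (t • d) h1e h1f
  obtain ⟨b₂, hb₂⟩ := exists_SV hF e f d hfr.de hfr.df
  obtain ⟨c₁, hc₁, hβ₁⟩ := H _ _ hb₁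
  obtain ⟨c₂, hc₂, hβ₂⟩ := H _ _ hb₂
  obtain ⟨hb₁', -⟩ := usg_mul_utv hF e (t • d) b₁ c₁ hfr.ee hb₁.1 hb₁.2.2 hc₁
  obtain ⟨hb₂', -⟩ := usg_mul_utv hF e d b₂ c₂ hfr.ee hb₂.1 hb₂.2.2 hc₂
  have hκ : ⟪t • d, d⟫ - ⟪d, t • d⟫ = c₀ := by
    rw [uh_smul_left, uh_smul_right hF, hfr.dd, mul_one, mul_one, ht]
  have k1 := usg_comm hF e (t • d) d b₁ b₂ hfr.ee hb₁.1 hb₁.2.2 hb₂.1 hb₂.2.2
  have k2 := usg_comm hF e (t • d) d (b₁ + c₁) (b₂ + c₂) hfr.ee hb₁.1 hb₁' hb₂.1 hb₂'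
  rw [hκ] at k1 k2
  have e1 : utv hF e c₀ = (usg hF e d b₂ * usg hF e (t • d) b₁)⁻¹
      * (usg hF e (t • d) b₁ * usg hF e d b₂) := by rw [k1]; group
  have e2 : utv hF e c₀ = (usg hF e d (b₂ + c₂) * usg hF e (t • d) (b₁ + c₁))⁻¹
      * (usg hF e (t • d) (b₁ + c₁) * usg hF e d (b₂ + c₂)) := by rw [k2]; group
  rw [mem_fixS]
  calc β (prU (utv hF e c₀))
      = β (prU ((usg hF e d b₂ * usg hF e (t • d) b₁)⁻¹
          * (usg hF e (t • d) b₁ * usg hF e d b₂))) := by rw [← e1]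
    _ = (prU (usg hF e d (b₂ + c₂)) * prU (usg hF e (t • d) (b₁ + c₁)))⁻¹
          * (prU (usg hF e (t • d) (b₁ + c₁)) * prU (usg hF e d (b₂ + c₂))) := by
        simp only [map_mul, map_inv, hβ₁, hβ₂]
    _ = prU ((usg hF e d (b₂ + c₂) * usg hF e (t • d) (b₁ + c₁))⁻¹
          * (usg hF e (t • d) (b₁ + c₁) * usg hF e d (b₂ + c₂))) := by
        simp only [map_mul, map_inv]
    _ = prU (utv hF e c₀) := by rw [← e2]

/-- Step A': lifts of torus elements have the same norm on `e` -/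
theorem fix_norm (p : ℕ) [Fact p.Prime] [CharP F p] {e f d : Fin n → F} (hfr : UFrame q e f d)
    (β : MulAut (Cfsg.PSU n F q))
    (hA : ∀ c : F, frobQ hF c = -c → utv hF e c ∈ fixS β)
    (D D' : ↥(Cfsg.SU n F q)) (hL : β (prU D) = prU D') (lam lam' : F) (hlam : lam ≠ 0)
    (hlam' : lam' ≠ 0) (hDe : uact D e = lam • e) (hD'e : uact D' e = lam' • e) :
    lam' * frobQ hF lam' = lam * frobQ hF lam := by
  obtain ⟨c₀, hc₀0, hc₀⟩ := ufld_exists_skew hF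
  have he0 := hfr.e_ne hF
  have h1 : D * utv hF e c₀ * D⁻¹ = utv hF e (c₀ * (lam * frobQ hF lam)) := by
    rw [utv_conj, hDe, utv_smul hF lam hlam]
  have h2 : D' * utv hF e c₀ * D'⁻¹ = utv hF e (c₀ * (lam' * frobQ hF lam')) := by
    rw [utv_conj, hD'e, utv_smul hF lam' hlam']
  have hN : ∀ l : F, frobQ hF (c₀ * (l * frobQ hF l)) = -(c₀ * (l * frobQ hF l)) := by
    intro l
    rw [map_mul, map_mul, frobQ_frobQ, hc₀]; ring
  have h3 : β (prU (utv hF e (c₀ * (lam * frobQ hF lam))))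
      = prU (utv hF e (c₀ * (lam' * frobQ hF lam'))) := by
    rw [← h1, ← h2]
    simp only [map_mul, map_inv, hL, (mem_fixS β _).1 (hA c₀ hc₀)]
  rw [(mem_fixS β _).1 (hA _ (hN lam))] at h3
  have h4 := psu_lift_unique hF p e he0 hfr.ee _ _
    (uroot_pelem hF p e hfr.ee _ ⟨_, hN lam, rfl⟩)
    (uroot_pelem hF p e hfr.ee _ ⟨_, hN lam', rfl⟩) h3
  have h5 : uact (utv hF e (c₀ * (lam * frobQ hF lam))) f
      = uact (utv hF e (c₀ * (lam' * frobQ hF lam'))) f := by rw [h4]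
  rw [uact_utv hF e _ hfr.ee (hN lam), uact_utv hF e _ hfr.ee (hN lam'), hfr.fe hF, mul_one,
    mul_one] at h5
  have h6 : (c₀ * (lam * frobQ hF lam) - c₀ * (lam' * frobQ hF lam')) • e = 0 := by
    rw [sub_smul, add_left_cancel h5, sub_self]
  rcases smul_eq_zero.1 h6 with h | h
  · have h7 : c₀ * (lam * frobQ hF lam - lam' * frobQ hF lam') = 0 := by linear_combination h
    rcases mul_eq_zero.1 h7 with h' | h'
    · exact absurd h' hc₀0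
    · linear_combination -h'
  · exact absurd h he0

/-- `w ∈ W` such that all `usg e w b` are fixed -/
def Wfix (hF : Fintype.card F = q ^ 2) (e f : Fin n → F) (β : MulAut (Cfsg.PSU n F q))
    (w : Fin n → F) : Prop :=
  Cfsg.hermForm n F q w e = 0 ∧ Cfsg.hermForm n F q w f = 0 ∧
    ∀ b : F, SV hF e f w b → usg hF e w b ∈ fixS β

theorem Wfix_of_one {e f d : Fin n → F} (hfr : UFrame q e f d) (β : MulAut (Cfsg.PSU n F q))
    (hA : ∀ c : F, frobQ hF c = -c → utv hF e c ∈ fixS β)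
    (w : Fin n → F) (b₀ : F) (hSV : SV hF e f w b₀) (h : usg hF e w b₀ ∈ fixS β) :
    Wfix hF e f β w := by
  refine ⟨hSV.1, hSV.2.1, fun b hb => ?_⟩
  have hc : frobQ hF (b - b₀) = -(b - b₀) := by
    rw [map_sub]
    linear_combination hb.2.2 - hSV.2.2
  obtain ⟨-, h1⟩ := usg_mul_utv hF e w b₀ (b - b₀) hfr.ee hSV.1 hSV.2.2 hc
  have h2 : b₀ + (b - b₀) = b := by ring
  rw [h2] at h1
  rw [← h1]
  exact Subgroup.mul_mem _ h (hA _ hc)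

theorem Wfix_zero {e f d : Fin n → F} (hfr : UFrame q e f d) (β : MulAut (Cfsg.PSU n F q))
    (hA : ∀ c : F, frobQ hF c = -c → utv hF e c ∈ fixS β) : Wfix hF e f β 0 := by
  refine ⟨uh_zero_left _, uh_zero_left _, fun b hb => ?_⟩
  have hb' : frobQ hF b = -b := by
    have := hb.2.2
    rw [uh_zero_left] at this
    linear_combination this
  rw [usg_zero hF e b hfr.ee hb']
  exact hA b hb'

theorem Wfix_add {e f d : Fin n → F} (hfr : UFrame q e f d) (β : MulAut (Cfsg.PSU n F q))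
    (hA : ∀ c : F, frobQ hF c = -c → utv hF e c ∈ fixS β)
    (w₁ w₂ : Fin n → F) (h1 : Wfix hF e f β w₁) (h2 : Wfix hF e f β w₂) :
    Wfix hF e f β (w₁ + w₂) := by
  obtain ⟨b₁, hb₁⟩ := exists_SV hF e f w₁ h1.1 h1.2.1
  obtain ⟨b₂, hb₂⟩ := exists_SV hF e f w₂ h2.1 h2.2.1
  obtain ⟨⟨h3, h4⟩, h5⟩ := usg_mul hF e w₁ w₂ b₁ b₂ hfr.ee hb₁.1 hb₁.2.2 hb₂.1 hb₂.2.2
  refine Wfix_of_one hF hfr β hA (w₁ + w₂) _
    ⟨h3, by rw [uh_add_left, h1.2.1, h2.2.1, add_zero], h4⟩ ?_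
  rw [← h5]
  exact Subgroup.mul_mem _ (h1.2.2 b₁ hb₁) (h2.2.2 b₂ hb₂)

/-- Step D: the torus relation -/
theorem fix_torus (p : ℕ) [Fact p.Prime] [CharP F p] (hn : 3 ≤ n) (h32 : ¬ (n = 3 ∧ q = 2))
    {e f d : Fin n → F} (hfr : UFrame q e f d) (β : MulAut (Cfsg.PSU n F q))
    (hβe : (Tb hF e).map β.toMonoidHom = Tb hF e) (hβf : (Tb hF f).map β.toMonoidHom = Tb hF f)
    (H : ∀ (w : Fin n → F) (b : F), SV hF e f w b → ∃ c : F, frobQ hF c = -c ∧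
      β (prU (usg hF e w b)) = prU (usg hF e w (b + c)))
    (D : ↥(Cfsg.SU n F q)) (lam kap : F) (hlam1 : lam * frobQ hF lam = 1) (hkap : kap ≠ 0)
    (hDe : uact D e = lam • e) (hDf : uact D f = kap • f)
    (w : Fin n → F) (hwe : ⟪w, e⟫ = 0) (hwf : ⟪w, f⟫ = 0) :
    Wfix hF e f β (frobQ hF lam • uact D w + -w) := by
  have he0 := hfr.e_ne hF
  have hA := fix_uroot hF hfr β H
  have hlam : lam ≠ 0 := by
    rintro rfl
    rw [zero_mul] at hlam1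
    exact zero_ne_one hlam1
  obtain ⟨D', lam', kap', hlam'0, hkap'0, hL, hD'e, hD'f⟩ := exists_lift_tor hF p hfr β hβe hβf
    D lam kap hlam hkap hDe hDf
  have hN := fix_norm hF p hfr β hA D D' hL lam lam' hlam hlam'0 hDe hD'e
  rw [hlam1] at hN
  obtain ⟨b, hb⟩ := exists_SV hF e f w hwe hwf
  obtain ⟨c, hc, hβw⟩ := H w b hb
  obtain ⟨hbc, hbc'⟩ := usg_mul_utv hF e w b c hfr.ee hb.1 hb.2.2 hc
  obtain ⟨hDw1, hDw2⟩ := W_uact hF D e f lam kap w hlam hkap hDe hDf hwe hwf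
  obtain ⟨hD'w1, hD'w2⟩ := W_uact hF D' e f lam' kap' w hlam'0 hkap'0 hD'e hD'f hwe hwf
  obtain ⟨⟨h3, h4⟩, h5⟩ := usg_smul_left hF lam e (uact D w) b hfr.ee hDw1
    (by rw [uact_herm]; exact hb.2.2)
  obtain ⟨⟨h3', h4'⟩, h5'⟩ := usg_smul_left hF lam' e (uact D' w) (b + c) hfr.ee hD'w1
    (by rw [uact_herm]; exact hbc)
  rw [hlam1, one_mul] at h4 h5
  rw [hN, one_mul] at h4' h5'
  have hk : β (prU (usg hF e (frobQ hF lam • uact D w) b))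
      = prU (usg hF e (frobQ hF lam' • uact D' w) (b + c)) := by
    rw [← h5, ← h5', ← hDe, ← hD'e, ← usg_conj, ← usg_conj]
    simp only [map_mul, map_inv, hL, hβw]
  have hSV1 : SV hF e f (frobQ hF lam • uact D w) b :=
    ⟨h3, by rw [uh_smul_left, hDw2, mul_zero], h4⟩
  obtain ⟨c₁, hc₁, hβ₁⟩ := H _ _ hSV1
  obtain ⟨hbc₁, hbc₁'⟩ := usg_mul_utv hF e (frobQ hF lam • uact D w) b c₁ hfr.ee h3 h4 hc₁
  have hlift := psu_lift_unique hF p e he0 hfr.ee _ _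
    (USg_pelem hF p e _ ⟨_, _, h3', h4', rfl⟩)
    (USg_pelem hF p e _ ⟨_, _, h3, hbc₁, rfl⟩) (hk.symm.trans hβ₁)
  obtain ⟨-, hcc⟩ := usg_inj hF e f _ _ _ _ hfr.ee hfr.ef h3'
    (by rw [uh_smul_left, hD'w2, mul_zero]) h4' h3 (by rw [uh_smul_left, hDw2, mul_zero]) hbc₁
    hlift
  have hcc' : c₁ = c := by linear_combination -hcc
  subst hcc'
  rw [← hbc₁'] at hβ₁
  rw [← hbc'] at hβw
  obtain ⟨⟨h6, h7⟩, h8⟩ := usg_inv hF e w b hfr.ee hb.1 hb.2.2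
  obtain ⟨⟨h9, h10⟩, h11⟩ := usg_mul hF e (frobQ hF lam • uact D w) (-w) b (frobQ hF b) hfr.ee
    h3 h4 h6 h7
  refine Wfix_of_one hF hfr β hA _ _
    ⟨h9, by rw [uh_add_left, uh_neg_left, uh_smul_left, hDw2, hwf]; ring, h10⟩ ?_
  rw [← h11, ← h8, mem_fixS]
  have e1 : β (prU (usg hF e (frobQ hF lam • uact D w) b * (usg hF e w b)⁻¹))
      = β (prU (usg hF e (frobQ hF lam • uact D w) b)) * (β (prU (usg hF e w b)))⁻¹ := by
    simp only [map_mul, map_inv]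
  rw [e1, hβ₁, hβw]
  simp only [map_mul, map_inv]
  group

end main

end Cfsg.Agent.Helper44.PSUn
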