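import Mathlib
import Cfsg.Agent.Helper44.PSUL

/-!
# Automorphisms of `PSU_n(q)` (helper44), part M: the main theorem
`Aut(PSU_n(q))` is induced by the semilinear unitary group.
-/

set_option autoImplicit false
set_option linter.unusedSimpArgs false
set_option linter.unusedSectionVars false
set_option linter.unusedVariables false

namespace Cfsg.Agent.Helper44.PSUn

open Matrix
open scoped Pointwise
open Cfsg.Agent.Helper5 (frobQ frobQ_apply frobQ_frobQ frobQ_ne_id)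
open Cfsg.Agent.Helper13

variable {F : Type*} [Field F] [Fintype F] {q n : ℕ}

local notation "⟪" x ", " y "⟫" => Cfsg.hermForm n F q x y

theorem psu_q_ge_three (hF : Fintype.card F = q ^ 2) (h2 : q ≠ 2) : 3 ≤ q := by
  have h1 : 1 < Fintype.card F := Fintype.one_lt_card
  rw [hF] at h1
  have h3 : q ≠ 0 := by rintro rfl; simp at h1
  have h4 : q ≠ 1 := by rintro rfl; simp at h1
  omega

theorem psu_exists_cube' (hF : Fintype.card F = q ^ 2) (hq : 3 ≤ q) :
    ∃ x : F, x ≠ 0 ∧ (frobQ hF x / x) ^ 3 ≠ 1 := by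
  obtain ⟨lam, hlam, h⟩ := psu_exists_cube hF hq
  have hτ : frobQ hF lam ≠ 0 := fun h0 => hlam ((ufrob_eq_zero hF).1 h0)
  refine ⟨lam, hlam, fun h1 => h ?_⟩
  have h2 : frobQ hF lam ^ 3 = lam ^ 3 := by
    rw [div_pow, div_eq_one_iff_eq (pow_ne_zero _ hlam)] at h1
    exact h1
  rw [map_mul, map_div₀, frobQ_frobQ]
  field_simp
  linear_combination -h2

section main

variable (hF : Fintype.card F = q ^ 2)

/-- all Siegel elements are fixed -/
theorem fix_W (p : ℕ) [Fact p.Prime] [CharP F p] (hn : 3 ≤ n) (h32 : ¬ (n = 3 ∧ q = 2))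
    {e f d : Fin n → F} (hfr : UFrame q e f d) (β : MulAut (Cfsg.PSU n F q))
    (hβe : (Tb hF e).map β.toMonoidHom = Tb hF e) (hβf : (Tb hF f).map β.toMonoidHom = Tb hF f)
    (H : ∀ (w : Fin n → F) (b : F), SV hF e f w b → ∃ c : F, frobQ hF c = -c ∧
      β (prU (usg hF e w b)) = prU (usg hF e w (b + c)))
    (w : Fin n → F) (hwe : ⟪w, e⟫ = 0) (hwf : ⟪w, f⟫ = 0) : Wfix hF e f β w := by
  have hA := fix_uroot hF hfr β H
  have hfz : ∀ x : F, x ≠ 0 → frobQ hF x ≠ 0 := fun x hx h => hx ((ufrob_eq_zero hF).1 h)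
  by_cases hn3 : n = 3
  · have hq3 : 3 ≤ q := psu_q_ge_three hF (fun h => h32 ⟨hn3, h⟩)
    obtain ⟨x, hx0, hx⟩ := psu_exists_cube' hF hq3
    have hτx := hfz x hx0
    obtain ⟨lam, hlam⟩ : ∃ lam : F, lam = frobQ hF x / x := ⟨_, rfl⟩
    have hlam0 : lam ≠ 0 := by rw [hlam]; exact div_ne_zero hτx hx0
    have hlam1 : lam * frobQ hF lam = 1 := by
      rw [hlam, map_div₀, frobQ_frobQ]; field_simp
    have hτlam : frobQ hF lam = lam⁻¹ := eq_inv_of_mul_eq_one_right hlam1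
    obtain ⟨D, hDe, hDf, hDd⟩ := exists_tor3 hF e f d hfr.ee hfr.ff hfr.ef hfr.dd hfr.de hfr.df
      lam hlam0
    obtain ⟨c', hc'⟩ := hfr.line3 hn3 w hwe hwf
    have hm : frobQ hF lam * (frobQ hF lam / lam) - 1 ≠ 0 := by
      intro h
      apply hx
      rw [← hlam]
      rw [hτlam] at h
      field_simp at h
      linear_combination -h
    have h1 := fix_torus hF p hn h32 hfr β hβe hβf H D lam (frobQ hF lam)⁻¹ hlam1
      (inv_ne_zero (hfz lam hlam0)) hDe hDf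
      ((c' / (frobQ hF lam * (frobQ hF lam / lam) - 1)) • d)
      (by rw [uh_smul_left, hfr.de, mul_zero]) (by rw [uh_smul_left, hfr.df, mul_zero])
    have h2 : frobQ hF lam • uact D ((c' / (frobQ hF lam * (frobQ hF lam / lam) - 1)) • d)
        + -((c' / (frobQ hF lam * (frobQ hF lam / lam) - 1)) • d) = w := by
      rw [uact_smul, hDd, hc']
      calc frobQ hF lam • (c' / (frobQ hF lam * (frobQ hF lam / lam) - 1))
              • (frobQ hF lam / lam) • d
            + -((c' / (frobQ hF lam * (frobQ hF lam / lam) - 1)) • d)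
          = (c' / (frobQ hF lam * (frobQ hF lam / lam) - 1)
              * (frobQ hF lam * (frobQ hF lam / lam) - 1)) • d := by module
        _ = c' • d := by rw [div_mul_cancel₀ c' hm]
    rw [h2] at h1
    exact h1
  · have hn4 : 4 ≤ n := by omega
    refine hfr.induction hF hn4 (Wfix hF e f β)
      (fun x y hx hy => Wfix_add hF hfr β hA x y hx hy) ?_ w hwe hwf
    intro r hre hrf hrr
    by_cases hr0 : r = 0
    · rw [hr0]; exact Wfix_zero hF hfr β hA
    obtain ⟨s, hse, hsf, hss, hrs⟩ := hfr.partner hF r hr0 hre hrf hrr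
    obtain ⟨ζ, hζ1, hζ2⟩ := ufld_exists_norm_one hF
    have hζ0 : ζ ≠ 0 := by
      rintro rfl
      rw [zero_mul] at hζ1
      exact zero_ne_one hζ1
    have hτζ0 := hfz ζ hζ0
    obtain ⟨D, hDe, hDf, hDr⟩ := exists_tor4 hF e f r s hfr.ee hfr.ff hfr.ef hrr hss hrs hre hrf
      hse hsf ζ (frobQ hF ζ) hζ0 hτζ0 (by rw [hζ1, map_one])
    have hm : frobQ hF ζ * frobQ hF ζ - 1 ≠ 0 := by
      intro h
      apply hζ2
      have h3 : frobQ hF ζ * (frobQ hF ζ - ζ) = 0 := by linear_combination h - hζ1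
      rcases mul_eq_zero.1 h3 with h4 | h4
      · exact absurd h4 hτζ0
      · exact sub_eq_zero.1 h4
    have h1 := fix_torus hF p hn h32 hfr β hβe hβf H D ζ (frobQ hF ζ)⁻¹ hζ1 (inv_ne_zero hτζ0)
      hDe hDf ((frobQ hF ζ * frobQ hF ζ - 1)⁻¹ • r) (by rw [uh_smul_left, hre, mul_zero])
      (by rw [uh_smul_left, hrf, mul_zero])
    have h2 : frobQ hF ζ • uact D ((frobQ hF ζ * frobQ hF ζ - 1)⁻¹ • r)
        + -((frobQ hF ζ * frobQ hF ζ - 1)⁻¹ • r) = r := by
      rw [uact_smul, hDr]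
      calc frobQ hF ζ • (frobQ hF ζ * frobQ hF ζ - 1)⁻¹ • frobQ hF ζ • r
            + -((frobQ hF ζ * frobQ hF ζ - 1)⁻¹ • r)
          = ((frobQ hF ζ * frobQ hF ζ - 1)⁻¹ * (frobQ hF ζ * frobQ hF ζ - 1)) • r := by module
        _ = r := by rw [inv_mul_cancel₀ hm, one_smul]
    rw [h2] at h1
    exact h1

theorem weyl_apply {e f d : Fin n → F} (hfr : UFrame q e f d) (a b : F)
    (ha : frobQ hF a = -a) (hb : frobQ hF b = -b) :
    uact (utv hF e a * utv hF f b * utv hF e a) e = (1 + a * b) • e + b • f := by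
  simp only [uact_mul, uact_utv hF e a hfr.ee ha, uact_utv hF f b hfr.ff hb, uh_add_left,
    uh_smul_left, hfr.ee, hfr.ef, hfr.fe hF, mul_zero, mul_one, zero_smul, add_zero]
  module

/-- the root subgroup of `f` is fixed -/
theorem fix_uroot_f (p : ℕ) [Fact p.Prime] [CharP F p] {e f d : Fin n → F}
    (hfr : UFrame q e f d) (β : MulAut (Cfsg.PSU n F q))
    (hβe : (Tb hF e).map β.toMonoidHom = Tb hF e) (hβf : (Tb hF f).map β.toMonoidHom = Tb hF f)
    (hA : ∀ c : F, frobQ hF c = -c → utv hF e c ∈ fixS β) (b : F) (hb : frobQ hF b = -b) :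
    utv hF f b ∈ fixS β := by
  by_cases hb0 : b = 0
  · rw [hb0, utv_zero_right]
    exact Subgroup.one_mem _
  have he0 := hfr.e_ne hF
  have hf0 := hfr.f_ne hF
  obtain ⟨b', hb', hβ⟩ := exists_lift_utv hF β f f hβf b hb
  have ha : frobQ hF (-b⁻¹) = -(-b⁻¹) := by rw [map_neg, map_inv₀, hb, inv_neg]
  have hfixa := (mem_fixS β _).1 (hA (-b⁻¹) ha)
  have hL : β (prU (utv hF e (-b⁻¹) * utv hF f b * utv hF e (-b⁻¹)))
      = prU (utv hF e (-b⁻¹) * utv hF f b' * utv hF e (-b⁻¹)) := by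
    simp only [map_mul, hfixa, hβ]
  have h1 := rel_conj hF β _ _ hL e e hβe
  rw [weyl_apply hF hfr (-b⁻¹) b ha hb] at h1
  have h0 : (1 + -b⁻¹ * b) • e + b • f = b • f := by
    rw [neg_mul, inv_mul_cancel₀ hb0, add_neg_cancel, zero_smul, zero_add]
  rw [h0, Tb_smul hF b hb0, hβf] at h1
  obtain ⟨l, hl0, hl⟩ := Tb_eq hF p _ f (uact_ne_zero _ e he0) (by rw [uact_herm]; exact hfr.ee)
    hf0 hfr.ff h1.symm
  rw [weyl_apply hF hfr (-b⁻¹) b' ha hb'] at hl
  have h2 := congrArg (fun v => ⟪v, f⟫) hl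
  simp only [uh_add_left, uh_smul_left, hfr.ef, hfr.ff, mul_one, mul_zero, add_zero] at h2
  have hb'b : b' = b := by
    field_simp at h2
    linear_combination -h2
  rw [mem_fixS, hβ, hb'b]

/-- `USg e` and `uroot f` generate `SU` -/
theorem fix_top (hn : 3 ≤ n) (h32 : ¬ (n = 3 ∧ q = 2)) {e f d : Fin n → F}
    (hfr : UFrame q e f d) (S : Subgroup ↥(Cfsg.SU n F q)) (hU : USg hF e ≤ S)
    (hf : uroot hF f ≤ S) : S = ⊤ := by
  have case1 : ∀ v : Fin n → F, ⟪v, v⟫ = 0 → ⟪e, v⟫ ≠ 0 → uroot hF v ≤ S := by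
    intro v hv hev
    have hτ : frobQ hF ⟪e, v⟫ ≠ 0 := fun h => hev ((ufrob_eq_zero hF).1 h)
    have hc0 : (frobQ hF ⟪e, v⟫)⁻¹ ≠ 0 := inv_ne_zero hτ
    obtain ⟨u, hu, huf⟩ := usg_trans hF e f ((frobQ hF ⟪e, v⟫)⁻¹ • v) hfr.ee hfr.ff hfr.ef
      (by rw [uh_smul_left, uh_smul_right hF, hv]; ring)
      (by rw [uh_smul_right hF, map_inv₀, frobQ_frobQ, inv_mul_cancel₀ hev])
    rw [← uroot_smul hF _ hc0 v, ← huf, ← uroot_conj]
    intro x hx
    rw [Subgroup.mem_smul_pointwise_iff_exists] at hx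
    obtain ⟨t, ht, rfl⟩ := hx
    rw [MulAut.smul_def, MulAut.conj_apply]
    exact S.mul_mem (S.mul_mem (hU hu) (hf ht)) (S.inv_mem (hU hu))
  rw [eq_top_iff, ← iSup_uroot hF hn h32]
  apply iSup_le
  rintro ⟨T, v, hv0, hv, rfl⟩
  show uroot hF v ≤ S
  by_cases hev : ⟪e, v⟫ = 0
  · obtain ⟨c, hcc, hec, hvc⟩ := uiso_common hF e v (hfr.e_ne hF) hv0 hfr.ee hev
    obtain ⟨a, ha0, ha⟩ := ufld_exists_skew hF
    have hcS := case1 c hcc hec
    have hg : utv hF c a ∈ S := hcS ⟨a, ha, rfl⟩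
    have hgv : ⟪e, uact (utv hF c a) v⟫ ≠ 0 := by
      rw [uact_utv hF c a hcc ha, uh_add_right hF, uh_smul_right hF, hev, zero_add]
      exact mul_ne_zero (fun h => (mul_ne_zero ha0 hvc) ((ufrob_eq_zero hF).1 h)) hec
    have h1 := case1 (uact (utv hF c a) v) (by rw [uact_herm]; exact hv) hgv
    rw [← uroot_conj] at h1
    intro x hx
    have h2 : MulAut.conj (utv hF c a) • x ∈ MulAut.conj (utv hF c a) • uroot hF v :=
      Subgroup.smul_mem_pointwise_smul _ _ _ hx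
    have h3 := h1 h2
    rw [MulAut.smul_def, MulAut.conj_apply] at h3
    have h4 : x = (utv hF c a)⁻¹ * (utv hF c a * x * (utv hF c a)⁻¹) * utv hF c a := by group
    rw [h4]
    exact S.mul_mem (S.mul_mem (S.inv_mem hg) h3) hg
  · exact case1 v hv hev

/-- **Main Lemma**: an automorphism fixing the images of the root subgroups of `e` and `f` and
acting trivially on `USg e / uroot e` is trivial -/
theorem aut_eq_one (p : ℕ) [Fact p.Prime] [CharP F p] (hn : 3 ≤ n) (h32 : ¬ (n = 3 ∧ q = 2))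
    {e f d : Fin n → F} (hfr : UFrame q e f d) (β : MulAut (Cfsg.PSU n F q))
    (hβe : (Tb hF e).map β.toMonoidHom = Tb hF e) (hβf : (Tb hF f).map β.toMonoidHom = Tb hF f)
    (H : ∀ (w : Fin n → F) (b : F), SV hF e f w b → ∃ c : F, frobQ hF c = -c ∧
      β (prU (usg hF e w b)) = prU (usg hF e w (b + c))) : β = 1 := by
  have hA := fix_uroot hF hfr β H
  have hU : USg hF e ≤ fixS β := by
    intro u hu
    obtain ⟨w, b, h1, h2, h3, rfl⟩ := (mem_USg_iff hF e f hfr.ee hfr.ef u).1 hu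
    exact (fix_W hF p hn h32 hfr β hβe hβf H w h1 h2).2.2 b ⟨h1, h2, h3⟩
  have hf : uroot hF f ≤ fixS β := by
    rintro x ⟨b, hb, rfl⟩
    exact fix_uroot_f hF p hfr β hβe hβf hA b hb
  have htop := fix_top hF hn h32 hfr (fixS β) hU hf
  apply MulEquiv.ext
  intro y
  obtain ⟨x, rfl⟩ := prU_surjective y
  rw [MulAut.one_apply]
  exact (mem_fixS β x).1 (by rw [htop]; exact Subgroup.mem_top x)

end main

end Cfsg.Agent.Helper44.PSUn
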