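import Mathlib
import Cfsg.Agent.Helper44.PSUM
import Cfsg.Agent.Helper44.PSL2E

/-!
# Automorphisms of `PSU_n(q)` (helper44), part N: the decomposition `α = uD g * uF σ`
-/

set_option autoImplicit false
set_option linter.unusedSimpArgs false
set_option linter.unusedSectionVars false
set_option linter.unusedVariables false

namespace Cfsg.Agent.Helper44.PSUn

open Matrix
open scoped Pointwise
open Cfsg.Agent.Helper5 (frobQ frobQ_apply frobQ_frobQ frobQ_ne_id)
open Cfsg.Agent.Helper13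

variable {F : Type*} [Field F] [Fintype F] {q n : ℕ}

local notation "⟪" x ", " y "⟫" => Cfsg.hermForm n F q x y

/-- an element of `SU` as an element of `GU` -/
def suGU (s : ↥(Cfsg.SU n F q)) : ↥(Cfsg.GU n F q) :=
  ⟨Matrix.SpecialLinearGroup.toGL (s : Matrix.SpecialLinearGroup (Fin n) F), s.2⟩

theorem conj_prU (s : ↥(Cfsg.SU n F q)) : MulAut.conj (prU s) = uD (suGU s) := by
  apply MulEquiv.ext
  intro x
  obtain ⟨y, rfl⟩ := prU_surjective x
  rw [MulAut.conj_apply, uD_prU, ← map_inv, ← map_mul, ← map_mul]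
  congr 1

/-- **every automorphism of `PSU_n(q)` is induced by a semilinear unitary map** -/
theorem aut_psu_decomp (hF : Fintype.card F = q ^ 2) (p : ℕ) [Fact p.Prime] [CharP F p]
    (hn : 3 ≤ n) (h32 : ¬ (n = 3 ∧ q = 2)) (α : MulAut (Cfsg.PSU n F q)) :
    ∃ (g : ↥(Cfsg.GU n F q)) (σ : RingAut F), α = uD g * uF σ := by
  obtain ⟨e, f, d, hfr⟩ := exists_uframe (F := F) (q := q) hF hn
  obtain ⟨g₀, hαe, hαf⟩ := exists_normalize hF p hn h32 hfr α
  obtain ⟨g, σ, hγe, hγf, hγ⟩ := exists_semi_aut hF p hn h32 hfr _ hαe hαf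
  have hcomp : ∀ v : Fin n → F,
      (Tb hF v).map ((uD g * uF σ)⁻¹ * (MulAut.conj (prU g₀) * α)).toMonoidHom
      = ((Tb hF v).map (MulAut.conj (prU g₀) * α).toMonoidHom).map
          ((uD g * uF σ)⁻¹).toMonoidHom := by
    intro v
    rw [Subgroup.map_map]
    rfl
  have hγe' := rel_inv hF (uD g * uF σ) e e hγe
  have hγf' := rel_inv hF (uD g * uF σ) f f hγf
  have hβ : (uD g * uF σ)⁻¹ * (MulAut.conj (prU g₀) * α) = 1 := by
    apply aut_eq_one hF p hn h32 hfr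
    · rw [hcomp, hαe, hγe']
    · rw [hcomp, hαf, hγf']
    · intro w b hwb
      obtain ⟨b₁, hSV1, hα'⟩ := Abar_spec hF p hn h32 hfr _ hαe w b hwb
      obtain ⟨b₂, hSV2, hγ'⟩ := hγ w b hwb
      have hc : frobQ hF (b₁ - b₂) = -(b₁ - b₂) := by
        rw [map_sub]
        linear_combination hSV1.2.2 - hSV2.2.2
      obtain ⟨-, h1⟩ := usg_mul_utv hF e _ b₂ (b₁ - b₂) hfr.ee hSV2.1 hSV2.2.2 hc
      have h2 : b₂ + (b₁ - b₂) = b₁ := by ring
      rw [h2] at h1
      obtain ⟨c', hc', h3⟩ := exists_lift_utv hF (uD g * uF σ)⁻¹ e e hγe' (b₁ - b₂) hc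
      obtain ⟨-, h4⟩ := usg_mul_utv hF e w b c' hfr.ee hwb.1 hwb.2.2 hc'
      refine ⟨c', hc', ?_⟩
      rw [MulAut.mul_apply, hα', ← h1]
      simp only [map_mul]
      rw [h3, ← hγ', ← h4, map_mul]
      congr 1
      rw [← MulAut.mul_apply, inv_mul_cancel, MulAut.one_apply]
  have h5 : MulAut.conj (prU g₀) * α = uD g * uF σ := (inv_mul_eq_one.1 hβ).symm
  refine ⟨(suGU g₀)⁻¹ * g, σ, ?_⟩
  rw [map_mul, map_inv, ← conj_prU, mul_assoc, ← h5, inv_mul_cancel_left]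

theorem uD_innerDiag (g : ↥(Cfsg.GU n F q)) : Cfsg.IsInnerDiagonalAutPSU (uD g) := by
  refine ⟨(g : GL (Fin n) F), g.2, fun s s' h => ?_⟩
  show uD g (prU s) = prU s'
  rw [uD_prU]
  congr 1
  apply Subtype.ext
  apply Subtype.ext
  rw [conjSU_coe, h]

theorem uF_fieldAut (σ : RingAut F) :
    Cfsg.IsFieldAutPSUOf σ (uF σ : MulAut (Cfsg.PSU n F q)) := by
  intro s s' h
  show uF σ (prU s) = prU s'
  rw [uF_prU]
  congr 1
  apply Subtype.ext
  apply Subtype.ext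
  rw [mapSU_coe, h]

theorem semi_induced (g : ↥(Cfsg.GU n F q)) (σ : RingAut F) :
    Cfsg.IsInducedBySemilinearPSU (g : GL (Fin n) F) σ (uD g * uF σ) := by
  intro s s' h
  show (uD g * uF σ : MulAut (Cfsg.PSU n F q)) (prU s) = prU s'
  rw [MulAut.mul_apply, uF_prU, uD_prU]
  congr 1
  apply Subtype.ext
  apply Subtype.ext
  rw [conjSU_coe, mapSU_coe, h]

theorem charP_of_card_sq {p f : ℕ} [Fact p.Prime] (hq : q = p ^ f)
    (hF : Fintype.card F = q ^ 2) : CharP F p :=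
  Cfsg.Agent.Helper44.charP_of_card p (f * 2) (by rw [hF, hq, pow_mul])

end Cfsg.Agent.Helper44.PSUn
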