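import Mathlib
import Cfsg.Agent.Helper44.PSUN
import Cfsg.Agent.Helper5.UnitPSU

/-!
# Automorphisms of `PSU_n(q)` (helper44), part O: uniqueness of the decomposition
-/

set_option autoImplicit false
set_option linter.unusedSimpArgs false
set_option linter.unusedSectionVars false
set_option linter.unusedVariables false

namespace Cfsg.Agent.Helper44.PSUn

open Matrix
open scoped Pointwise
open Cfsg.Agent.Helper5 (frobQ frobQ_apply frobQ_frobQ frobQ_ne_id)
open Cfsg.Agent.Helper13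

variable {F : Type*} [Field F] [Fintype F] {q n : ℕ}

local notation "⟪" x ", " y "⟫" => Cfsg.hermForm n F q x y

theorem mapGL_mem_GU (σ : RingAut F) (g : GL (Fin n) F) (hg : g ∈ Cfsg.GU n F q) :
    Matrix.GeneralLinearGroup.map (σ : F →+* F) g ∈ Cfsg.GU n F q := by
  rw [Cfsg.Agent.Helper5.mem_GU_iff] at hg ⊢
  intro u v
  have hcoe : ((Matrix.GeneralLinearGroup.map (σ : F →+* F) g : GL (Fin n) F) :
      Matrix (Fin n) (Fin n) F) = (g : Matrix (Fin n) (Fin n) F).map σ := rfl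
  rw [hcoe, ← sv_inv σ u, ← sv_inv σ v, sv_mulVec, sv_mulVec, herm_sv, herm_sv, hg]

/-- a field automorphism acting on `GU` -/
def mapGU (σ : RingAut F) (g : ↥(Cfsg.GU n F q)) : ↥(Cfsg.GU n F q) :=
  ⟨Matrix.GeneralLinearGroup.map (σ : F →+* F) (g : GL (Fin n) F), mapGL_mem_GU σ _ g.2⟩

theorem uF_mul_uD (σ : RingAut F) (g : ↥(Cfsg.GU n F q)) :
    uF σ * uD g = uD (mapGU σ g) * uF σ := by
  apply MulEquiv.ext
  intro x
  obtain ⟨s, rfl⟩ := prU_surjective x
  rw [MulAut.mul_apply, MulAut.mul_apply, uD_prU, uF_prU, uF_prU, uD_prU]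
  congr 1
  apply Subtype.ext
  apply Subtype.ext
  rw [mapSU_coe, conjSU_coe, conjSU_coe, mapSU_coe]
  have h1 : (((mapGU σ g : ↥(Cfsg.GU n F q)) : GL (Fin n) F)⁻¹ : GL (Fin n) F)
      = Matrix.GeneralLinearGroup.map (σ : F →+* F) ((g : GL (Fin n) F)⁻¹) :=
    (map_inv (Matrix.GeneralLinearGroup.map (σ : F →+* F)) (g : GL (Fin n) F)).symm
  rw [h1]
  show (((g : GL (Fin n) F) : Matrix (Fin n) (Fin n) F)
      * ((s : Matrix.SpecialLinearGroup (Fin n) F) : Matrix (Fin n) (Fin n) F)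
      * (((g : GL (Fin n) F)⁻¹ : GL (Fin n) F) : Matrix (Fin n) (Fin n) F)).map (σ : F →+* F)
    = ((g : GL (Fin n) F) : Matrix (Fin n) (Fin n) F).map (σ : F →+* F)
      * ((s : Matrix.SpecialLinearGroup (Fin n) F) : Matrix (Fin n) (Fin n) F).map (σ : F →+* F)
      * (((g : GL (Fin n) F)⁻¹ : GL (Fin n) F) : Matrix (Fin n) (Fin n) F).map (σ : F →+* F)
  rw [Matrix.map_mul, Matrix.map_mul]

theorem usemi_mul (g g' : ↥(Cfsg.GU n F q)) (σ σ' : RingAut F) :
    (uD g * uF σ) * (uD g' * uF σ') = uD (g * mapGU σ g') * uF (σ * σ') := by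
  rw [map_mul, map_mul, mul_assoc, ← mul_assoc (uF σ), uF_mul_uD]
  simp only [mul_assoc]

theorem usemi_inv (g : ↥(Cfsg.GU n F q)) (σ : RingAut F) :
    (uD g * uF σ)⁻¹ = uD (mapGU σ⁻¹ g⁻¹) * uF σ⁻¹ := by
  rw [_root_.mul_inv_rev, ← map_inv, ← map_inv, uF_mul_uD]

theorem usemi_inv_mul (g g' : ↥(Cfsg.GU n F q)) (σ σ' : RingAut F) :
    ∃ g'' : ↥(Cfsg.GU n F q),
      (uD g * uF σ)⁻¹ * (uD g' * uF σ') = uD g'' * uF (σ⁻¹ * σ') := by
  rw [usemi_inv, usemi_mul]
  exact ⟨_, rfl⟩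

theorem sv_one (x : Fin n → F) : sv (1 : RingAut F) x = x := rfl

theorem semiV_one_right (g : GL (Fin n) F) (x : Fin n → F) :
    semiV g 1 x = (g : Matrix (Fin n) (Fin n) F) *ᵥ x := rfl

theorem semiV_one_left (σ : RingAut F) (x : Fin n → F) :
    semiV (1 : GL (Fin n) F) σ x = sv σ x := by
  unfold semiV
  rw [Units.val_one, Matrix.one_mulVec]

theorem semiV_ne_zero (hF : Fintype.card F = q ^ 2) (g : GL (Fin n) F)
    (hg : g ∈ Cfsg.GU n F q) (σ : RingAut F) (v : Fin n → F) (hv : v ≠ 0) :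
    semiV g σ v ≠ 0 := by
  intro h
  obtain ⟨y, hy⟩ := uh_nondeg_right hF v hv
  have h1 := semiV_herm g hg σ v y
  rw [h, uh_zero_left] at h1
  exact hy ((map_eq_zero σ).1 h1.symm)

/-- a semilinear similitude fixing all isotropic points is a scalar -/
theorem semi_scalar (hF : Fintype.card F = q ^ 2) {e f d : Fin n → F} (hfr : UFrame q e f d)
    (ρ : RingAut F) (Ψ : (Fin n → F) → (Fin n → F))
    (hadd : ∀ x y, Ψ (x + y) = Ψ x + Ψ y)
    (hsmul : ∀ (c : F) (x : Fin n → F), Ψ (c • x) = ρ c • Ψ x)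
    (hherm : ∀ x y, ⟪Ψ x, Ψ y⟫ = ρ ⟪x, y⟫)
    (hiso : ∀ v : Fin n → F, ⟪v, v⟫ = 0 → ∃ μ : F, Ψ v = μ • v) :
    ρ = 1 ∧ ∃ a : F, ∀ x, Ψ x = a • x := by
  have hfz : ∀ x : F, x ≠ 0 → frobQ hF x ≠ 0 := fun x hx h => hx ((ufrob_eq_zero hF).1 h)
  have hfe := hfr.fe hF
  obtain ⟨a, ha⟩ := hiso e hfr.ee
  obtain ⟨a', ha'⟩ := hiso f hfr.ff
  have haa' : a * frobQ hF a' = 1 := by
    have h1 := hherm e f
    rw [ha, ha', uh_smul_left, uh_smul_right hF, hfr.ef, map_one, mul_one] at h1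
    exact h1
  have ha0 : a ≠ 0 := by
    rintro rfl
    rw [zero_mul] at haa'
    exact zero_ne_one haa'
  have ha'0 : a' ≠ 0 := by
    rintro rfl
    rw [map_zero, mul_zero] at haa'
    exact zero_ne_one haa'
  have hW : ∀ w : Fin n → F, ⟪w, e⟫ = 0 → ⟪w, f⟫ = 0 → ⟪Ψ w, e⟫ = 0 ∧ ⟪Ψ w, f⟫ = 0 := by
    intro w hwe hwf
    have h1 := hherm w e
    have h2 := hherm w f
    rw [ha, uh_smul_right hF, hwe, map_zero] at h1
    rw [ha', uh_smul_right hF, hwf, map_zero] at h2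
    constructor
    · rcases mul_eq_zero.1 h1 with h | h
      · exact absurd h (hfz a ha0)
      · exact h
    · rcases mul_eq_zero.1 h2 with h | h
      · exact absurd h (hfz a' ha'0)
      · exact h
  have key : ∀ (w : Fin n → F) (b : F), SV hF e f w b → Ψ w = a • w ∧ a * b = ρ b * a' := by
    intro w b hwb
    obtain ⟨hΨe, hΨf⟩ := hW w hwb.1 hwb.2.1
    have hew := psu_swap_zero hF hwb.1
    have hfw := psu_swap_zero hF hwb.2.1
    have hv : ⟪e + w + b • f, e + w + b • f⟫ = 0 := by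
      simp only [uh_add_left, uh_add_right hF, uh_smul_left, uh_smul_right hF, hfr.ee, hfr.ff,
        hfr.ef, hfe, hwb.1, hwb.2.1, hew, hfw]
      linear_combination hwb.2.2
    obtain ⟨μ, hμ⟩ := hiso _ hv
    rw [hadd, hadd, hsmul, ha, ha'] at hμ
    have h1 := congrArg (fun v => ⟪v, f⟫) hμ
    simp only [uh_add_left, uh_smul_left, hfr.ef, hfr.ff, hΨf, hwb.2.1, mul_one, mul_zero,
      add_zero] at h1
    have h2 := congrArg (fun v => ⟪v, e⟫) hμ
    simp only [uh_add_left, uh_smul_left, hfr.ee, hfe, hΨe, hwb.1, mul_one, mul_zero,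
      add_zero, zero_add] at h2
    subst h1
    refine ⟨?_, by linear_combination -h2⟩
    have h3 : Ψ w = a • (e + w + b • f) - a • e - ρ b • a' • f := by
      rw [← hμ]; abel
    have h2' : ρ b * a' = a * b := by linear_combination h2
    rw [h3, smul_smul, h2']
    module
  have hd0 : d ≠ 0 := by
    rintro rfl
    have := hfr.dd
    rw [uh_zero_left] at this
    exact zero_ne_one this
  have hρ : ρ = 1 := by
    apply RingEquiv.ext
    intro c
    obtain ⟨b₁, hb₁⟩ := exists_SV hF e f d hfr.de hfr.df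
    obtain ⟨b₂, hb₂⟩ := exists_SV hF e f (c • d) (by rw [uh_smul_left, hfr.de, mul_zero])
      (by rw [uh_smul_left, hfr.df, mul_zero])
    have h1 := (key d b₁ hb₁).1
    have h2 := (key (c • d) b₂ hb₂).1
    rw [hsmul, h1, smul_smul, smul_smul] at h2
    have h3 : (ρ c * a - a * c) • d = 0 := by rw [sub_smul, h2, sub_self]
    rcases smul_eq_zero.1 h3 with h | h
    · have h4 : a * (ρ c - c) = 0 := by linear_combination h
      rcases mul_eq_zero.1 h4 with h5 | h5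
      · exact absurd h5 ha0
      · rw [RingAut.one_apply]; exact sub_eq_zero.1 h5
    · exact absurd h hd0
  subst hρ
  obtain ⟨c₀, hc₀0, hc₀⟩ := ufld_exists_skew hF
  have h0 : SV hF e f (0 : Fin n → F) c₀ :=
    ⟨uh_zero_left _, uh_zero_left _, by rw [uh_zero_left, hc₀]; ring⟩
  have haa : a' = a := by
    have h1 := (key 0 c₀ h0).2
    rw [RingAut.one_apply] at h1
    have h2 : c₀ * (a - a') = 0 := by linear_combination h1
    rcases mul_eq_zero.1 h2 with h | h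
    · exact absurd h hc₀0
    · exact (sub_eq_zero.1 h).symm
  subst haa
  refine ⟨rfl, a', fun x => ?_⟩
  obtain ⟨b, hb⟩ := exists_SV hF e f (wproj q e f x) (hfr.wproj_e hF x) (hfr.wproj_f hF x)
  have h1 := (key _ b hb).1
  conv_lhs => rw [wproj_decomp (q := q) (e := e) (f := f) x]
  rw [hadd, hadd, hsmul, hsmul, ha, ha', h1, RingAut.one_apply, RingAut.one_apply]
  conv_rhs => rw [wproj_decomp (q := q) (e := e) (f := f) x]
  module

/-- a diagonal automorphism equal to a field automorphism is trivial -/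
theorem uD_eq_uF (hF : Fintype.card F = q ^ 2) (p : ℕ) [Fact p.Prime] [CharP F p]
    (hn : 3 ≤ n) (h32 : ¬ (n = 3 ∧ q = 2)) (g : ↥(Cfsg.GU n F q)) (σ : RingAut F)
    (h : uD g = uF σ) :
    σ = 1 ∧ ∃ a : F, ∀ x : Fin n → F,
      ((g : GL (Fin n) F) : Matrix (Fin n) (Fin n) F) *ᵥ x = a • x := by
  obtain ⟨e, f, d, hfr⟩ := exists_uframe (F := F) (q := q) hF hn
  have hg := (Cfsg.Agent.Helper5.mem_GU_iff (g : GL (Fin n) F)).1 g.2
  obtain ⟨h1, a, h2⟩ := semi_scalar hF hfr σ⁻¹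
    (fun x => sv σ⁻¹ (((g : GL (Fin n) F) : Matrix (Fin n) (Fin n) F) *ᵥ x))
    (fun x y => by rw [Matrix.mulVec_add, sv_add])
    (fun c x => by rw [Matrix.mulVec_smul, sv_smul])
    (fun x y => by rw [herm_sv, hg])
    (by
      intro v hv
      by_cases hv0 : v = 0
      · exact ⟨0, by rw [hv0, Matrix.mulVec_zero, sv_zero, smul_zero]⟩
      have e1 := semi_Tb hF g 1 v hv
      have e2 := semi_Tb hF (1 : ↥(Cfsg.GU n F q)) σ v hv
      rw [map_one, mul_one, h] at e1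
      rw [map_one, one_mul, e1] at e2
      obtain ⟨l, hl0, hl⟩ := Tb_eq hF p _ _
        (semiV_ne_zero hF _ g.2 1 v hv0) (by rw [semiV_herm _ g.2, hv, map_zero])
        (semiV_ne_zero hF _ (1 : ↥(Cfsg.GU n F q)).2 σ v hv0)
        (by rw [semiV_herm _ (1 : ↥(Cfsg.GU n F q)).2, hv, map_zero]) e2
      rw [semiV_one_right] at hl
      have e3 : semiV ((1 : ↥(Cfsg.GU n F q)) : GL (Fin n) F) σ v = sv σ v := semiV_one_left σ v
      rw [e3] at hl
      exact ⟨σ⁻¹ l, by rw [hl, sv_smul, sv_inv']⟩)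
  have hσ : σ = 1 := by
    rw [← inv_inv σ, h1, inv_one]
  refine ⟨hσ, a, fun x => ?_⟩
  have h3 := h2 x
  rw [h1] at h3
  exact h3

end Cfsg.Agent.Helper44.PSUn
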