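import Mathlib
import Cfsg.Agent.Helper44.PSUO
import Cfsg.Agent.Helper44.PSLnI

/-!
# Automorphisms of `PSU_n(q)` (helper44), part P: the order of `Aut(PSU_n(q))` and the structure
of `Out(PSU_n(q))`
-/

set_option autoImplicit false
set_option linter.unusedSimpArgs false
set_option linter.unusedSectionVars false
set_option linter.unusedVariables false

namespace Cfsg.Agent.Helper44.PSUn

open Matrix
open scoped Pointwise
open Cfsg.Agent.Helper5 (frobQ frobQ_apply frobQ_frobQ frobQ_ne_id)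
open Cfsg.Agent.Helper13

variable {F : Type*} [Field F] [Fintype F] {q n : ℕ}

local notation "⟪" x ", " y "⟫" => Cfsg.hermForm n F q x y

/-- the norm-one subgroup of `Fˣ` -/
abbrev N1 (F : Type*) [Field F] (q : ℕ) : Subgroup Fˣ := (powMonoidHom (q + 1) : Fˣ →* Fˣ).ker

theorem mem_N1 (a : Fˣ) : a ∈ N1 F q ↔ a ^ (q + 1) = 1 := Iff.rfl

theorem scalar_mem_GU (a : ↥(N1 F q)) :
    Matrix.GeneralLinearGroup.scalar (Fin n) (a : Fˣ) ∈ Cfsg.GU n F q := by
  apply Cfsg.Agent.Helper5.diagonal_mem_GU (fun _ => ((a : Fˣ) : F)) _ _ rfl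
  intro i
  have h := (mem_N1 (a : Fˣ)).1 a.2
  rw [← Units.val_pow_eq_pow_val, h, Units.val_one]

/-- scalar matrices in `GU` -/
noncomputable def scalarGU : ↥(N1 F q) →* ↥(Cfsg.GU n F q) :=
  ((Matrix.GeneralLinearGroup.scalar (Fin n)).comp (Subgroup.subtype _)).codRestrict
    (Cfsg.GU n F q) scalar_mem_GU

theorem scalarGU_coe (a : ↥(N1 F q)) :
    (((scalarGU a : ↥(Cfsg.GU n F q)) : GL (Fin n) F) : Matrix (Fin n) (Fin n) F)
      = Matrix.diagonal (fun _ => ((a : Fˣ) : F)) := rfl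

theorem scalarGU_mulVec (a : ↥(N1 F q)) (x : Fin n → F) :
    (((scalarGU a : ↥(Cfsg.GU n F q)) : GL (Fin n) F) : Matrix (Fin n) (Fin n) F) *ᵥ x
      = ((a : Fˣ) : F) • x := by
  rw [scalarGU_coe]
  funext i
  rw [Matrix.mulVec_diagonal, Pi.smul_apply, smul_eq_mul]

theorem scalarGU_injective (hn : 1 ≤ n) :
    Function.Injective (scalarGU : ↥(N1 F q) →* ↥(Cfsg.GU n F q)) := by
  intro a b h
  have h1 := congrArg (fun g : ↥(Cfsg.GU n F q) =>
    ((g : GL (Fin n) F) : Matrix (Fin n) (Fin n) F) ⟨0, hn⟩ ⟨0, hn⟩) h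
  simp only [scalarGU_coe, Matrix.diagonal_apply_eq] at h1
  exact Subtype.ext (Units.ext h1)

theorem uD_scalarGU (a : ↥(N1 F q)) : uD (scalarGU a : ↥(Cfsg.GU n F q)) = 1 := by
  apply MulEquiv.ext
  intro x
  obtain ⟨s, rfl⟩ := prU_surjective x
  rw [uD_prU, MulAut.one_apply]
  congr 1
  rw [uact_eq_iff]
  intro y
  have h1 : ∀ z : Fin n → F,
      ((((scalarGU a : ↥(Cfsg.GU n F q)) : GL (Fin n) F)⁻¹ : GL (Fin n) F) :
        Matrix (Fin n) (Fin n) F) *ᵥ
      ((((scalarGU a : ↥(Cfsg.GU n F q)) : GL (Fin n) F) : Matrix (Fin n) (Fin n) F) *ᵥ z)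
        = z := by
    intro z
    rw [Matrix.mulVec_mulVec, ← Units.val_mul, inv_mul_cancel, Units.val_one,
      Matrix.one_mulVec]
  unfold uact
  rw [conjSU_coe, ← Matrix.mulVec_mulVec, ← Matrix.mulVec_mulVec, scalarGU_mulVec,
    ← Matrix.mulVec_smul]
  congr 1
  rw [← Matrix.mulVec_smul, ← scalarGU_mulVec a, h1]

/-- the kernel of `GU_n(q) → Aut(PSU_n(q))` is the group of scalars -/
theorem uD_ker (hF : Fintype.card F = q ^ 2) (p : ℕ) [Fact p.Prime] [CharP F p]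
    (hn : 3 ≤ n) (h32 : ¬ (n = 3 ∧ q = 2)) :
    (uD : ↥(Cfsg.GU n F q) →* MulAut (Cfsg.PSU n F q)).ker
      = (scalarGU : ↥(N1 F q) →* ↥(Cfsg.GU n F q)).range := by
  ext g
  rw [MonoidHom.mem_ker, MonoidHom.mem_range]
  constructor
  · intro h
    obtain ⟨-, a, ha⟩ := uD_eq_uF hF p hn h32 g 1 (by rw [h, map_one])
    obtain ⟨e, f, d, hfr⟩ := exists_uframe (F := F) (q := q) hF hn
    have hg := (Cfsg.Agent.Helper5.mem_GU_iff (g : GL (Fin n) F)).1 g.2 e f
    rw [ha, ha, uh_smul_left, uh_smul_right hF, hfr.ef, mul_one, frobQ_apply] at hg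
    have ha0 : a ≠ 0 := by
      rintro rfl
      rw [zero_mul] at hg
      exact zero_ne_one hg
    have hmem : Units.mk0 a ha0 ∈ N1 F q := by
      rw [mem_N1]
      apply Units.ext
      rw [Units.val_pow_eq_pow_val, Units.val_mk0, Units.val_one, pow_succ, mul_comm]
      exact hg
    refine ⟨⟨Units.mk0 a ha0, hmem⟩, ?_⟩
    apply Subtype.ext
    apply Units.ext
    rw [scalarGU_coe]
    ext i j
    have h1 := congrFun (ha (Pi.single j 1)) i
    rw [Matrix.mulVec_single_one] at h1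
    rw [Matrix.diagonal_apply]
    show _ = ((g : GL (Fin n) F) : Matrix (Fin n) (Fin n) F) i j
    have h2 : ((g : GL (Fin n) F) : Matrix (Fin n) (Fin n) F) i j
        = (a • (Pi.single j 1 : Fin n → F)) i := h1
    rw [h2, Pi.smul_apply, smul_eq_mul]
    by_cases hij : i = j
    · subst hij
      rw [if_pos rfl, Pi.single_eq_same, mul_one]
      rfl
    · rw [if_neg hij, Pi.single_eq_of_ne hij, mul_zero]
  · rintro ⟨a, rfl⟩
    exact uD_scalarGU a

theorem udecomp_unique (hF : Fintype.card F = q ^ 2) (p : ℕ) [Fact p.Prime] [CharP F p]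
    (hn : 3 ≤ n) (h32 : ¬ (n = 3 ∧ q = 2)) (g g' : ↥(Cfsg.GU n F q)) (σ σ' : RingAut F)
    (h : uD g * uF σ = uD g' * (uF σ' : MulAut (Cfsg.PSU n F q))) : σ = σ' := by
  obtain ⟨g'', hg''⟩ := usemi_inv_mul g' g σ' σ
  rw [h, inv_mul_cancel] at hg''
  have h2 : uD g'' = (uF (σ'⁻¹ * σ)⁻¹ : MulAut (Cfsg.PSU n F q)) := by
    rw [map_inv, eq_inv_iff_mul_eq_one, ← hg'']
  have h3 := (uD_eq_uF hF p hn h32 g'' _ h2).1
  rw [inv_eq_one, inv_mul_eq_one] at h3
  exact h3.symm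

section OutHom

variable (hF : Fintype.card F = q ^ 2) (p : ℕ) [Fact p.Prime] [CharP F p] (hn : 3 ≤ n)
  (h32 : ¬ (n = 3 ∧ q = 2))

/-- the field part of an automorphism -/
noncomputable def galU (hF : Fintype.card F = q ^ 2) (p : ℕ) [Fact p.Prime] [CharP F p]
    (hn : 3 ≤ n) (h32 : ¬ (n = 3 ∧ q = 2)) (α : MulAut (Cfsg.PSU n F q)) : RingAut F :=
  (aut_psu_decomp hF p hn h32 α).choose_spec.choose

theorem galU_spec (hF : Fintype.card F = q ^ 2) (p : ℕ) [Fact p.Prime] [CharP F p]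
    (hn : 3 ≤ n) (h32 : ¬ (n = 3 ∧ q = 2)) (α : MulAut (Cfsg.PSU n F q)) :
    ∃ g : ↥(Cfsg.GU n F q), α = uD g * uF (galU hF p hn h32 α) :=
  ⟨(aut_psu_decomp hF p hn h32 α).choose, (aut_psu_decomp hF p hn h32 α).choose_spec.choose_spec⟩

theorem galU_eq (hF : Fintype.card F = q ^ 2) (p : ℕ) [Fact p.Prime] [CharP F p]
    (hn : 3 ≤ n) (h32 : ¬ (n = 3 ∧ q = 2)) (α : MulAut (Cfsg.PSU n F q))
    (g : ↥(Cfsg.GU n F q)) (σ : RingAut F) (h : α = uD g * uF σ) :
    galU hF p hn h32 α = σ := by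
  obtain ⟨g', hg'⟩ := galU_spec hF p hn h32 α
  exact udecomp_unique hF p hn h32 g' g _ σ (hg'.symm.trans h)

/-- the homomorphism `Aut(PSU_n(q)) → Aut(F)` -/
noncomputable def outHomU (hF : Fintype.card F = q ^ 2) (p : ℕ) [Fact p.Prime] [CharP F p]
    (hn : 3 ≤ n) (h32 : ¬ (n = 3 ∧ q = 2)) : MulAut (Cfsg.PSU n F q) →* RingAut F where
  toFun := galU hF p hn h32
  map_one' := galU_eq hF p hn h32 1 1 1 (by rw [map_one, map_one, one_mul])
  map_mul' α β := by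
    obtain ⟨g, hg⟩ := galU_spec hF p hn h32 α
    obtain ⟨g', hg'⟩ := galU_spec hF p hn h32 β
    apply galU_eq hF p hn h32 _ (g * mapGU (galU hF p hn h32 α) g')
    rw [← usemi_mul, ← hg, ← hg']

theorem outHomU_apply (g : ↥(Cfsg.GU n F q)) (σ : RingAut F) :
    outHomU hF p hn h32 (uD g * uF σ) = σ :=
  galU_eq hF p hn h32 _ g σ rfl

theorem outHomU_uD (g : ↥(Cfsg.GU n F q)) : outHomU hF p hn h32 (uD g) = 1 := by
  have h := outHomU_apply hF p hn h32 g 1
  rw [map_one, mul_one] at h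
  exact h

theorem outHomU_surjective : Function.Surjective (outHomU (n := n) hF p hn h32) :=
  fun σ => ⟨uD 1 * uF σ, outHomU_apply hF p hn h32 1 σ⟩

theorem outHomU_ker :
    (outHomU (n := n) hF p hn h32).ker
      = (uD : ↥(Cfsg.GU n F q) →* MulAut (Cfsg.PSU n F q)).range := by
  ext α
  rw [MonoidHom.mem_ker, MonoidHom.mem_range]
  constructor
  · intro h
    obtain ⟨g, hg⟩ := galU_spec hF p hn h32 α
    have h1 : galU hF p hn h32 α = 1 := h
    rw [h1, map_one, mul_one] at hg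
    exact ⟨g, hg.symm⟩
  · rintro ⟨g, rfl⟩
    exact outHomU_uD hF p hn h32 g

end OutHom

/-- **`|Aut(PSU_n(q))| = gcd(n, q + 1) · 2f · |PSU_n(q)|`** -/
theorem card_aut_psu (hF : Fintype.card F = q ^ 2) (p f : ℕ) [Fact p.Prime] (hq : q = p ^ f)
    (hn : 3 ≤ n) (h32 : ¬ (n = 3 ∧ q = 2)) :
    Nat.card (MulAut (Cfsg.PSU n F q))
      = Nat.gcd n (q + 1) * (2 * f) * Nat.card (Cfsg.PSU n F q) := by
  haveI : CharP F p := charP_of_card_sq hq hF
  have hF' : Fintype.card F = p ^ (2 * f) := by rw [hF, hq, ← pow_mul, mul_comm]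
  have h1 := PSLn.card_of_ker_range (outHomU hF p hn h32) (outHomU_surjective hF p hn h32) uD
    (outHomU_ker hF p hn h32)
  rw [(Cfsg.Agent.Helper44.ringAut_cyclic_card p (2 * f) hF').2] at h1
  have h2 : Nat.card ↥((uD : ↥(Cfsg.GU n F q) →* MulAut (Cfsg.PSU n F q)).ker) = q + 1 := by
    rw [uD_ker hF p hn h32,
      ← Nat.card_congr (MonoidHom.ofInjective (scalarGU_injective (F := F) (q := q) (n := n)
        (by omega))).toEquiv]
    exact Cfsg.Agent.Helper5.card_norm_one hF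
  have h3 := Subgroup.card_mul_index (uD : ↥(Cfsg.GU n F q) →* MulAut (Cfsg.PSU n F q)).ker
  rw [h2, ← Cfsg.Agent.Helper5.card_PSU_mul hF n (by omega)] at h3
  have h4 : (uD : ↥(Cfsg.GU n F q) →* MulAut (Cfsg.PSU n F q)).ker.index
      = Nat.gcd n (q + 1) * Nat.card (Cfsg.PSU n F q) := by
    have h5 : (q + 1) * (uD : ↥(Cfsg.GU n F q) →* MulAut (Cfsg.PSU n F q)).ker.index
        = (q + 1) * (Nat.gcd n (q + 1) * Nat.card (Cfsg.PSU n F q)) := by
      rw [h3]; ring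
    exact Nat.eq_of_mul_eq_mul_left (Nat.succ_pos q) h5
  rw [h1, h4]
  ring

end Cfsg.Agent.Helper44.PSUn
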