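import Mathlib
import Cfsg.Agent.Helper44.PSUP

/-!
# Automorphisms of `PSU_n(q)` (helper44), part Q: the structure of `Out(PSU_n(q))`
-/

set_option autoImplicit false
set_option linter.unusedSimpArgs false
set_option linter.unusedSectionVars false
set_option linter.unusedVariables false

namespace Cfsg.Agent.Helper44.PSUn

open Matrix
open scoped Pointwise
open Cfsg.Agent.Helper5 (frobQ frobQ_apply frobQ_frobQ frobQ_ne_id detGU)
open Cfsg.Agent.Helper13

variable {F : Type*} [Field F] [Fintype F] {q n : ℕ}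

local notation "⟪" x ", " y "⟫" => Cfsg.hermForm n F q x y

theorem detGU_suGU (s : ↥(Cfsg.SU n F q)) : detGU F q n (suGU s) = 1 := by
  apply Units.ext
  rw [Cfsg.Agent.Helper5.detGU_coe, Units.val_one]
  exact s.1.2

theorem detGU_scalarGU (a : ↥(N1 F q)) : detGU F q n (scalarGU a) = (a : Fˣ) ^ n := by
  have h := Matrix.GeneralLinearGroup.det_scalar (n := Fin n) (a : Fˣ)
  rw [Fintype.card_fin] at h
  exact h

/-- a diagonal automorphism is inner iff the determinant of the matrix is an `n`-th power in the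
norm-one group -/
theorem uD_inner_iff (hF : Fintype.card F = q ^ 2) (p : ℕ) [Fact p.Prime] [CharP F p]
    (hn : 3 ≤ n) (h32 : ¬ (n = 3 ∧ q = 2)) (g : ↥(Cfsg.GU n F q)) :
    (∃ x : Cfsg.PSU n F q, MulAut.conj x = uD g)
      ↔ ∃ c : ↥(N1 F q), detGU F q n g = (c : Fˣ) ^ n := by
  constructor
  · rintro ⟨x, hx⟩
    obtain ⟨s, rfl⟩ := prU_surjective x
    rw [conj_prU] at hx
    have h1 : (suGU s)⁻¹ * g ∈ (uD : ↥(Cfsg.GU n F q) →* MulAut (Cfsg.PSU n F q)).ker := by
      rw [MonoidHom.mem_ker, map_mul, map_inv, hx, inv_mul_cancel]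
    rw [uD_ker hF p hn h32] at h1
    obtain ⟨c, hc⟩ := h1
    refine ⟨c, ?_⟩
    have h2 := congrArg (detGU F q n) hc
    rw [detGU_scalarGU, map_mul, map_inv, detGU_suGU, inv_one, one_mul] at h2
    exact h2.symm
  · rintro ⟨c, hc⟩
    have h1 : g * (scalarGU c)⁻¹ ∈ (detGU F q n).ker := by
      rw [MonoidHom.mem_ker, map_mul, map_inv, detGU_scalarGU, hc, mul_inv_cancel]
    rw [← Cfsg.Agent.Helper5.range_suToGU] at h1
    obtain ⟨s, hs⟩ := h1
    refine ⟨prU s, ?_⟩
    have h2 : suGU s = g * (scalarGU c)⁻¹ := hs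
    rw [conj_prU, h2, map_mul, map_inv, uD_scalarGU, inv_one, mul_one]

/-- the determinant as a map `GU_n(q) → N1` -/
noncomputable def detN (hF : Fintype.card F = q ^ 2) (hn : 1 ≤ n) :
    ↥(Cfsg.GU n F q) →* ↥(N1 F q) :=
  (detGU F q n).codRestrict (N1 F q) (fun g => by
    have h : detGU F q n g ∈ (detGU F q n).range := ⟨g, rfl⟩
    rw [Cfsg.Agent.Helper5.range_detGU hF hn] at h
    exact h)

theorem detN_coe (hF : Fintype.card F = q ^ 2) (hn : 1 ≤ n) (g : ↥(Cfsg.GU n F q)) :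
    ((detN hF hn g : ↥(N1 F q)) : Fˣ) = detGU F q n g := rfl

theorem detN_surjective (hF : Fintype.card F = q ^ 2) (hn : 1 ≤ n) :
    Function.Surjective (detN (n := n) hF hn) := by
  intro l
  have h : (l : Fˣ) ∈ (detGU F q n).range := by
    rw [Cfsg.Agent.Helper5.range_detGU hF hn]
    exact l.2
  obtain ⟨g, hg⟩ := h
  exact ⟨g, Subtype.ext hg⟩

/-- **the outer automorphism group of `PSU_n(q)`** maps onto the cyclic group `Aut(F)` with
cyclic kernel of order `gcd(n, q + 1)` -/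
theorem out_psu_aux (hF : Fintype.card F = q ^ 2) (p : ℕ) [Fact p.Prime] [CharP F p]
    (hn : 3 ≤ n) (h32 : ¬ (n = 3 ∧ q = 2)) (m : ℕ) (hcyc : IsCyclic (RingAut F))
    (hm : Nat.card (RingAut F) = m) :
    ∃ φ : Cfsg.Out (Cfsg.PSU n F q) →* Multiplicative (ZMod m),
      Function.Surjective φ ∧ IsCyclic φ.ker ∧ Nat.card φ.ker = Nat.gcd n (q + 1) := by
  subst hm
  have hn1 : 1 ≤ n := by omega
  let e1 : RingAut F ≃* Multiplicative (ZMod (Nat.card (RingAut F))) :=
    (zmodCyclicMulEquiv hcyc).symm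
  let Ψ : MulAut (Cfsg.PSU n F q) →* Multiplicative (ZMod (Nat.card (RingAut F))) :=
    e1.toMonoidHom.comp (outHomU hF p hn h32)
  have hΨ1 : ∀ α : MulAut (Cfsg.PSU n F q), Ψ α = 1 ↔ outHomU hF p hn h32 α = 1 := by
    intro α
    show e1 (outHomU hF p hn h32 α) = 1 ↔ _
    rw [MulEquiv.map_eq_one_iff]
  let Φ : Cfsg.Out (Cfsg.PSU n F q) →* Multiplicative (ZMod (Nat.card (RingAut F))) :=
    QuotientGroup.lift (Cfsg.Inn (Cfsg.PSU n F q)) Ψ (by
      rintro _ ⟨x, rfl⟩
      obtain ⟨s, rfl⟩ := prU_surjective x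
      rw [MonoidHom.mem_ker, hΨ1, conj_prU]
      exact outHomU_uD hF p hn h32 _)
  have hΦ : ∀ α : MulAut (Cfsg.PSU n F q), Φ (QuotientGroup.mk α) = Ψ α := fun α => rfl
  refine ⟨Φ, ?_, ?_⟩
  · intro y
    obtain ⟨α, hα⟩ := outHomU_surjective (n := n) hF p hn h32 (e1.symm y)
    refine ⟨QuotientGroup.mk α, ?_⟩
    rw [hΦ]
    show e1 (outHomU hF p hn h32 α) = y
    rw [hα, MulEquiv.apply_symm_apply]
  · let κ : ↥(Cfsg.GU n F q) →* Cfsg.Out (Cfsg.PSU n F q) :=
      (QuotientGroup.mk' (Cfsg.Inn (Cfsg.PSU n F q))).comp uD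
    have hker : Φ.ker = κ.range := by
      ext x
      rw [MonoidHom.mem_ker, MonoidHom.mem_range]
      constructor
      · intro hx
        obtain ⟨α, rfl⟩ := QuotientGroup.mk_surjective x
        rw [hΦ, hΨ1, ← MonoidHom.mem_ker, outHomU_ker] at hx
        obtain ⟨g, rfl⟩ := hx
        exact ⟨g, rfl⟩
      · rintro ⟨g, rfl⟩
        show Ψ (uD g) = 1
        rw [hΨ1]
        exact outHomU_uD hF p hn h32 g
    let P : Subgroup ↥(N1 F q) := (powMonoidHom n : ↥(N1 F q) →* ↥(N1 F q)).range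
    let δ : ↥(Cfsg.GU n F q) →* ↥(N1 F q) ⧸ P := (QuotientGroup.mk' P).comp (detN hF hn1)
    have hκδ : κ.ker = δ.ker := by
      ext g
      rw [MonoidHom.mem_ker, MonoidHom.mem_ker]
      show (QuotientGroup.mk (uD g) : Cfsg.Out (Cfsg.PSU n F q)) = 1
        ↔ (QuotientGroup.mk (detN hF hn1 g) : ↥(N1 F q) ⧸ P) = 1
      rw [QuotientGroup.eq_one_iff, QuotientGroup.eq_one_iff]
      constructor
      · rintro ⟨x, hx⟩
        obtain ⟨c, hc⟩ := (uD_inner_iff hF p hn h32 g).mp ⟨x, hx⟩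
        refine ⟨c, ?_⟩
        apply Subtype.ext
        rw [detN_coe, hc]
        rfl
      · rintro ⟨c, hc⟩
        have hc' : detGU F q n g = (c : Fˣ) ^ n := by
          rw [← detN_coe hF hn1, ← hc]
          rfl
        obtain ⟨x, hx⟩ := (uD_inner_iff hF p hn h32 g).mpr ⟨c, hc'⟩
        exact ⟨x, hx⟩
    have hδ : Function.Surjective δ := by
      intro y
      obtain ⟨u, rfl⟩ := QuotientGroup.mk_surjective y
      obtain ⟨g, rfl⟩ := detN_surjective hF hn1 u
      exact ⟨g, rfl⟩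
    let iso : Φ.ker ≃* ↥(N1 F q) ⧸ P :=
      ((MulEquiv.subgroupCongr hker).trans (QuotientGroup.quotientKerEquivRange κ).symm).trans
        ((QuotientGroup.quotientMulEquivOfEq hκδ).trans
          (QuotientGroup.quotientKerEquivOfSurjective δ hδ))
    constructor
    · haveI : IsCyclic (↥(N1 F q) ⧸ P) :=
        isCyclic_of_surjective (QuotientGroup.mk' P) (QuotientGroup.mk'_surjective P)
      exact isCyclic_of_surjective iso.symm.toMonoidHom iso.symm.surjective
    · rw [Nat.card_congr iso.toEquiv]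
      show P.index = _
      rw [IsCyclic.index_powMonoidHom_range, Cfsg.Agent.Helper5.card_norm_one hF, Nat.gcd_comm]

theorem out_psu (hF : Fintype.card F = q ^ 2) (p f : ℕ) [Fact p.Prime] (hq : q = p ^ f)
    (hn : 3 ≤ n) (h32 : ¬ (n = 3 ∧ q = 2)) :
    ∃ φ : Cfsg.Out (Cfsg.PSU n F q) →* Multiplicative (ZMod (2 * f)),
      Function.Surjective φ ∧ IsCyclic φ.ker ∧ Nat.card φ.ker = Nat.gcd n (q + 1) := by
  haveI : CharP F p := charP_of_card_sq hq hF
  have hF' : Fintype.card F = p ^ (2 * f) := by rw [hF, hq, ← pow_mul, mul_comm]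
  obtain ⟨hcyc, hcard⟩ := Cfsg.Agent.Helper44.ringAut_cyclic_card p (2 * f) hF'
  exact out_psu_aux hF p hn h32 (2 * f) hcyc hcard

end Cfsg.Agent.Helper44.PSUn
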