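import Mathlib
import Cfsg.Agent.Helper44.PSUQ
import Cfsg.Agent.Helper44.LangG

set_option autoImplicit false

/-!
Helper library (helper44): tools for the classes of field automorphisms of `PSU_n(q)`
(`n ≥ 3`): `Inndiag = uD.range`, `Inn = uD(SU_n)`, reduction of a field automorphism to the
standard one by an inner-diagonal conjugation (`ulang_field_reduce`), powers of semilinear
automorphisms (`ulang_semi_pow`), and the number of `Inn`-classes in an `Inndiag`-class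
(`ulang_split_count`).
-/

namespace Cfsg.Agent.Helper44.PSUn

open Matrix
open Cfsg.Agent.Helper5 (frobQ frobQ_apply frobQ_frobQ frobQ_ne_id detGU)

universe u

section LangR

variable {F : Type u} [Field F] [Fintype F] {q n : ℕ}

/-- `Inndiag(PSU_n(q))` is the image of `GU_n(q)` -/
theorem ulang_inndiag_eq :
    Cfsg.inndiagPSU n F q = (uD : ↥(Cfsg.GU n F q) →* MulAut (Cfsg.PSU n F q)).range := by
  unfold Cfsg.inndiagPSU Cfsg.autSubgroupOf
  have h : {β : MulAut (Cfsg.PSU n F q) | Cfsg.IsInnerDiagonalAutPSU β}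
      = ((uD : ↥(Cfsg.GU n F q) →* MulAut (Cfsg.PSU n F q)).range :
          Set (MulAut (Cfsg.PSU n F q))) := by
    ext β
    constructor
    · rintro ⟨g, hg, hgs⟩
      refine ⟨⟨g, hg⟩, ?_⟩
      apply MulEquiv.ext
      intro x
      obtain ⟨s, rfl⟩ := prU_surjective x
      rw [uD_prU]
      exact (hgs s (conjSU ⟨g, hg⟩ s) (conjSU_coe ⟨g, hg⟩ s)).symm
    · rintro ⟨g, rfl⟩
      exact uD_innerDiag g
  rw [h, Subgroup.closure_eq]

theorem ulang_mem_inndiag (δ : MulAut (Cfsg.PSU n F q)) :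
    δ ∈ Cfsg.inndiagPSU n F q ↔ ∃ g : ↥(Cfsg.GU n F q), uD g = δ := by
  rw [ulang_inndiag_eq]
  exact MonoidHom.mem_range

theorem ulang_uD_mem_inndiag (g : ↥(Cfsg.GU n F q)) :
    (uD g : MulAut (Cfsg.PSU n F q)) ∈ Cfsg.inndiagPSU n F q :=
  (ulang_mem_inndiag _).mpr ⟨g, rfl⟩

theorem ulang_mem_inn (α : MulAut (Cfsg.PSU n F q)) :
    α ∈ Cfsg.Inn (Cfsg.PSU n F q) ↔ ∃ s : ↥(Cfsg.SU n F q), uD (suGU s) = α := by
  constructor
  · rintro ⟨x, rfl⟩
    obtain ⟨s, rfl⟩ := prU_surjective x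
    exact ⟨s, (conj_prU s).symm⟩
  · rintro ⟨s, rfl⟩
    exact ⟨prU s, conj_prU s⟩

theorem ulang_eq_uF_of_std (σ : RingAut F) (β : MulAut (Cfsg.PSU n F q))
    (h : Cfsg.IsFieldAutPSUOf σ β) : β = uF σ := by
  apply MulEquiv.ext
  intro x
  obtain ⟨s, rfl⟩ := prU_surjective x
  rw [uF_prU]
  exact h s (mapSU σ s) (mapSU_coe σ s)

theorem ulang_uF_injective (hF : Fintype.card F = q ^ 2) (p : ℕ) [Fact p.Prime] [CharP F p]
    (hn : 3 ≤ n) (h32 : ¬ (n = 3 ∧ q = 2)) :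
    Function.Injective (uF : RingAut F →* MulAut (Cfsg.PSU n F q)) := by
  rw [injective_iff_map_eq_one]
  intro σ h
  exact (uD_eq_uF hF p hn h32 1 σ (by rw [map_one, h])).1

theorem ulang_orderOf_uF (hF : Fintype.card F = q ^ 2) (p : ℕ) [Fact p.Prime] [CharP F p]
    (hn : 3 ≤ n) (h32 : ¬ (n = 3 ∧ q = 2)) (σ : RingAut F) :
    orderOf (uF σ : MulAut (Cfsg.PSU n F q)) = orderOf σ :=
  orderOf_injective uF (ulang_uF_injective hF p hn h32) σ

/-- a field automorphism is conjugate to a standard one under the inner-diagonal group -/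
theorem ulang_field_reduce (p f : ℕ) [Fact p.Prime] (hq : q = p ^ f)
    (hF : Fintype.card F = q ^ 2) (hn : 3 ≤ n) (h32 : ¬ (n = 3 ∧ q = 2))
    (x : MulAut (Cfsg.PSU n F q)) (hx : Cfsg.IsFieldAutClassPSU x) :
    ∃ (σ : RingAut F) (h : ↥(Cfsg.GU n F q)), σ ≠ 1 ∧ Odd (orderOf σ) ∧
      x = uD h * uF σ * (uD h)⁻¹ := by
  have : CharP F p := charP_of_card_sq hq hF
  obtain ⟨α, φ, σ, hσ, hodd, hstd, hconj⟩ := hx
  have h1 : α * x * α⁻¹ = uF σ := by
    rw [hconj]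
    exact ulang_eq_uF_of_std σ _ hstd
  have h2 : x = α⁻¹ * uF σ * α⁻¹⁻¹ := by
    rw [← h1]
    group
  obtain ⟨g, τ, h3⟩ := aut_psu_decomp hF p hn h32 α⁻¹
  refine ⟨σ, g, hσ, hodd, ?_⟩
  rw [h2, h3]
  have hF' : Fintype.card F = p ^ (f * 2) := by rw [hF, hq, pow_mul]
  apply PSLn.lang_conj_comm
  rw [← map_mul, ← map_mul, PSLn.lang_ringAut_comm p (f * 2) hF']

/-- powers of a semilinear automorphism -/
theorem ulang_semi_pow (g : ↥(Cfsg.GU n F q)) (σ : RingAut F) (k : ℕ) :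
    ∃ gk : ↥(Cfsg.GU n F q),
      ((gk : GL (Fin n) F) : Matrix (Fin n) (Fin n) F)
          = PSLn.twR (RingHom.mapMatrix (σ : F →+* F))
              ((g : GL (Fin n) F) : Matrix (Fin n) (Fin n) F) k ∧
        (uD g * uF σ : MulAut (Cfsg.PSU n F q)) ^ k = uD gk * uF (σ ^ k) := by
  induction k with
  | zero => exact ⟨1, rfl, by rw [pow_zero, pow_zero, map_one, map_one, one_mul]⟩
  | succ k ih =>
    obtain ⟨gk, hgk, hpow⟩ := ih
    refine ⟨g * mapGU σ gk, ?_, ?_⟩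
    · rw [PSLn.twR_succ, ← hgk]
      rfl
    · rw [pow_succ', hpow, usemi_mul, pow_succ']

/-- the unitary matrices inducing automorphisms commuting with `x` -/
noncomputable def ulang_cGU (x : MulAut (Cfsg.PSU n F q)) : Subgroup ↥(Cfsg.GU n F q) :=
  (Subgroup.centralizer {x}).comap uD

theorem ulang_mem_cGU (x : MulAut (Cfsg.PSU n F q)) (g : ↥(Cfsg.GU n F q)) :
    g ∈ ulang_cGU x ↔ uD g * x = x * uD g := by
  unfold ulang_cGU
  rw [Subgroup.mem_comap, Subgroup.mem_centralizer_iff]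
  constructor
  · intro h
    exact (h x rfl).symm
  · intro h y hy
    rw [Set.mem_singleton_iff] at hy
    subst hy
    exact h.symm

/-- **class splitting**: the number of `Inn`-classes in the `Inndiag`-class of `x` is the index
in the norm-one group of the determinants of the unitary matrices commuting with `x` -/
theorem ulang_split_count (hF : Fintype.card F = q ^ 2) (hn : 1 ≤ n)
    (x : MulAut (Cfsg.PSU n F q)) :
    Cfsg.splitClassCount (Cfsg.inndiagPSU n F q) (Cfsg.Inn (Cfsg.PSU n F q)) x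
      = ((ulang_cGU x).map (detN hF hn)).index := by
  set A : Subgroup ↥(N1 F q) := (ulang_cGU x).map (detN hF hn) with hA
  have hex : ∀ y : {y : MulAut (Cfsg.PSU n F q) //
      Cfsg.IsConjUnder (Cfsg.inndiagPSU n F q) x y},
      ∃ g : ↥(Cfsg.GU n F q), y.1 = uD g * x * (uD g)⁻¹ := by
    rintro ⟨y, h, hh, rfl⟩
    obtain ⟨g, rfl⟩ := (ulang_mem_inndiag h).mp hh
    exact ⟨g, rfl⟩
  choose gy hgy using hex
  let fq : {y : MulAut (Cfsg.PSU n F q) // Cfsg.IsConjUnder (Cfsg.inndiagPSU n F q) x y}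
      → ↥(N1 F q) ⧸ A := fun y => QuotientGroup.mk (detN hF hn (gy y))
  have key : ∀ (y : {y : MulAut (Cfsg.PSU n F q) //
      Cfsg.IsConjUnder (Cfsg.inndiagPSU n F q) x y})
      (g : ↥(Cfsg.GU n F q)), y.1 = uD g * x * (uD g)⁻¹ →
      fq y = QuotientGroup.mk (detN hF hn g) := by
    intro y g hg
    show (QuotientGroup.mk (detN hF hn (gy y)) : ↥(N1 F q) ⧸ A) = _
    rw [QuotientGroup.eq, ← map_inv, ← map_mul]
    refine ⟨(gy y)⁻¹ * g, ?_, rfl⟩
    rw [SetLike.mem_coe, ulang_mem_cGU, map_mul, map_inv]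
    have h1 := (hgy y).symm.trans hg
    calc (uD (gy y))⁻¹ * uD g * x
        = (uD (gy y))⁻¹ * (uD g * x * (uD g)⁻¹) * uD g := by group
      _ = (uD (gy y))⁻¹ * (uD (gy y) * x * (uD (gy y))⁻¹) * uD g := by rw [h1]
      _ = x * ((uD (gy y))⁻¹ * uD g) := by group
  have hI : ∀ y z : {y : MulAut (Cfsg.PSU n F q) //
      Cfsg.IsConjUnder (Cfsg.inndiagPSU n F q) x y},
      Cfsg.IsConjUnder (Cfsg.Inn (Cfsg.PSU n F q)) y.1 z.1 → fq y = fq z := by
    rintro y z ⟨k, hk, hz⟩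
    obtain ⟨s, rfl⟩ := (ulang_mem_inn k).mp hk
    have h1 : z.1 = uD (suGU s * gy y) * x * (uD (suGU s * gy y))⁻¹ := by
      rw [hz, hgy y, map_mul]
      group
    rw [key z _ h1, map_mul]
    have h3 : detN hF hn (suGU s) = 1 := Subtype.ext (detGU_suGU s)
    rw [h3, one_mul]
  have hII : ∀ y z : {y : MulAut (Cfsg.PSU n F q) //
      Cfsg.IsConjUnder (Cfsg.inndiagPSU n F q) x y},
      fq y = fq z → Cfsg.IsConjUnder (Cfsg.Inn (Cfsg.PSU n F q)) y.1 z.1 := by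
    intro y z hyz
    have h1 : (detN hF hn (gy y))⁻¹ * detN hF hn (gy z) ∈ A := QuotientGroup.eq.mp hyz
    obtain ⟨c, hc, hdet⟩ := h1
    rw [SetLike.mem_coe, ulang_mem_cGU] at hc
    set t : ↥(Cfsg.GU n F q) := gy z * c⁻¹ * (gy y)⁻¹ with ht
    have hdt : detN hF hn t = 1 := by
      rw [ht, map_mul, map_mul, map_inv, map_inv, hdet]
      rw [_root_.mul_inv_rev, inv_inv, mul_inv_cancel_left, mul_inv_cancel]
    have hdt' : t ∈ (detGU F q n).ker := by
      rw [MonoidHom.mem_ker]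
      have := congrArg Subtype.val hdt
      rwa [detN_coe] at this
    rw [← Cfsg.Agent.Helper5.range_suToGU] at hdt'
    obtain ⟨s, hs⟩ := hdt'
    have hs' : suGU s = t := hs
    refine ⟨uD t, (ulang_mem_inn _).mpr ⟨s, by rw [hs']⟩, ?_⟩
    have hc' : (uD c)⁻¹ * x * uD c = x := by
      rw [mul_assoc, ← hc, ← mul_assoc, inv_mul_cancel, one_mul]
    rw [hgy z, hgy y, ht, map_mul, map_mul, map_inv, map_inv]
    calc uD (gy z) * x * (uD (gy z))⁻¹
        = uD (gy z) * ((uD c)⁻¹ * x * uD c) * (uD (gy z))⁻¹ := by rw [hc']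
      _ = uD (gy z) * (uD c)⁻¹ * (uD (gy y))⁻¹
            * (uD (gy y) * x * (uD (gy y))⁻¹)
            * (uD (gy z) * (uD c)⁻¹ * (uD (gy y))⁻¹)⁻¹ := by group
  have hIII : Function.Surjective fq := by
    intro a
    obtain ⟨u, rfl⟩ := QuotientGroup.mk_surjective a
    obtain ⟨g, rfl⟩ := detN_surjective (n := n) hF hn u
    exact ⟨⟨uD g * x * (uD g)⁻¹, uD g, ulang_uD_mem_inndiag g, rfl⟩, key _ g rfl⟩
  unfold Cfsg.splitClassCount
  show _ = Nat.card (↥(N1 F q) ⧸ A)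
  apply Nat.card_eq_of_bijective (Quot.lift fq hI)
  constructor
  · intro a b
    induction a using Quot.ind with
    | _ y =>
      induction b using Quot.ind with
      | _ z =>
        intro h
        exact Quot.sound (hII y z h)
  · intro a
    obtain ⟨y, rfl⟩ := hIII a
    exact ⟨Quot.mk _ y, rfl⟩

/-- the determinants of the matrices commuting with `x` only depend on the conjugacy class of
`x` under the inner-diagonal group -/
theorem ulang_cGU_conj (hF : Fintype.card F = q ^ 2) (hn : 1 ≤ n)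
    (x₀ : MulAut (Cfsg.PSU n F q)) (h₁ : ↥(Cfsg.GU n F q)) :
    (ulang_cGU (uD h₁ * x₀ * (uD h₁)⁻¹)).map (detN hF hn)
      = (ulang_cGU x₀).map (detN hF hn) := by
  ext u
  constructor
  · rintro ⟨g, hg, rfl⟩
    rw [SetLike.mem_coe, ulang_mem_cGU] at hg
    refine ⟨h₁⁻¹ * g * h₁, ?_, ?_⟩
    · rw [SetLike.mem_coe, ulang_mem_cGU, map_mul, map_mul, map_inv]
      calc (uD h₁)⁻¹ * uD g * uD h₁ * x₀
          = (uD h₁)⁻¹ * (uD g * (uD h₁ * x₀ * (uD h₁)⁻¹)) * uD h₁ := by group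
        _ = (uD h₁)⁻¹ * ((uD h₁ * x₀ * (uD h₁)⁻¹) * uD g) * uD h₁ := by rw [hg]
        _ = x₀ * ((uD h₁)⁻¹ * uD g * uD h₁) := by group
    · rw [map_mul, map_mul, map_inv, mul_comm, ← mul_assoc, mul_inv_cancel, one_mul]
  · rintro ⟨g, hg, rfl⟩
    rw [SetLike.mem_coe, ulang_mem_cGU] at hg
    refine ⟨h₁ * g * h₁⁻¹, ?_, ?_⟩
    · rw [SetLike.mem_coe, ulang_mem_cGU, map_mul, map_mul, map_inv]
      calc uD h₁ * uD g * (uD h₁)⁻¹ * (uD h₁ * x₀ * (uD h₁)⁻¹)
          = uD h₁ * (uD g * x₀) * (uD h₁)⁻¹ := by group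
        _ = uD h₁ * (x₀ * uD g) * (uD h₁)⁻¹ := by rw [hg]
        _ = uD h₁ * x₀ * (uD h₁)⁻¹ * (uD h₁ * uD g * (uD h₁)⁻¹) := by group
    · rw [map_mul, map_mul, map_inv, mul_comm, ← mul_assoc, inv_mul_cancel, one_mul]

end LangR

end Cfsg.Agent.Helper44.PSUn
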