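import Mathlib
import Cfsg.Agent.Helper44.PSUR

set_option autoImplicit false

/-!
Helper library (helper44): the Lang–Steinberg property for the standard field automorphisms of
odd order of `PSU_n(q)`: an element of order `r` in the coset `Inndiag · φ_σ` is conjugate to
`φ_σ` under `Inndiag` (`ulang_field_std`), and the coset statement `ulang_coset_conj`.
-/

namespace Cfsg.Agent.Helper44.PSUn

open Matrix
open Cfsg.Agent.Helper5 (frobQ frobQ_apply frobQ_frobQ frobQ_ne_id detGU)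

universe u v

section Tw

variable {F : Type u} [Field F]

theorem ulang_twR_fixed (σ : RingAut F) (a : F) (ha : σ a = a) (k : ℕ) :
    PSLn.twR (σ : F →+* F) a k = a ^ k := by
  induction k with
  | zero => rw [PSLn.twR_zero, pow_zero]
  | succ k ih =>
    rw [PSLn.twR_succ, ih, pow_succ']
    show a * σ (a ^ k) = a * a ^ k
    rw [map_pow, ha]

theorem ulang_twR_pow (σ : RingAut F) (a : F) (m k : ℕ) :
    PSLn.twR (σ : F →+* F) (a ^ m) k = (PSLn.twR (σ : F →+* F) a k) ^ m := by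
  induction m with
  | zero => rw [pow_zero, pow_zero, PSLn.twR_one]
  | succ m ih => rw [pow_succ, pow_succ, PSLn.twR_mul, ih]

theorem ulang_twR_inv (σ : RingAut F) (a : F) (ha : a ≠ 0) (k : ℕ) :
    PSLn.twR (σ : F →+* F) a⁻¹ k = (PSLn.twR (σ : F →+* F) a k)⁻¹ := by
  have h := PSLn.twR_mul (σ : F →+* F) a a⁻¹ k
  rw [mul_inv_cancel₀ ha, PSLn.twR_one] at h
  exact eq_inv_of_mul_eq_one_right h.symm

end Tw

section Tau

variable {F : Type u} [Field F] [Fintype F] {q n : ℕ}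

/-- the involution `a ↦ a ^ q` as a ring automorphism -/
noncomputable def ulang_tau (hF : Fintype.card F = q ^ 2) : RingAut F :=
  RingEquiv.ofBijective (frobQ hF)
    ⟨(frobQ hF).injective, Finite.injective_iff_surjective.mp (frobQ hF).injective⟩

theorem ulang_tau_apply (hF : Fintype.card F = q ^ 2) (a : F) : ulang_tau hF a = a ^ q :=
  frobQ_apply hF a

theorem ulang_tau_tau (hF : Fintype.card F = q ^ 2) (a : F) :
    ulang_tau hF (ulang_tau hF a) = a :=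
  frobQ_frobQ hF a

theorem ulang_tau_ne_one (hF : Fintype.card F = q ^ 2) : ulang_tau hF ≠ 1 := by
  intro h
  apply frobQ_ne_id hF
  ext a
  exact DFunLike.congr_fun h a

theorem ulang_pow_card_sq (hF : Fintype.card F = q ^ 2) (a : F) : a ^ (q ^ 2) = a := by
  rw [← hF]
  exact FiniteField.pow_card a

theorem ulang_pow_odd (hF : Fintype.card F = q ^ 2) (r : ℕ) (hro : Odd r) (a : F) :
    a ^ (q ^ r) = a ^ q := by
  obtain ⟨m, rfl⟩ := hro
  have h1 : ∀ m : ℕ, a ^ ((q ^ 2) ^ m) = a := by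
    intro m
    induction m with
    | zero => rw [pow_zero, pow_one]
    | succ m ih => rw [pow_succ, pow_mul, ih, ulang_pow_card_sq hF]
  rw [pow_succ, pow_mul q 2 m, pow_mul, h1]

/-- the norm `N_σ` maps the norm-one group of `F` onto the norm-one group of the fixed field
(`σ` of odd order) -/
theorem ulang_norm_N1 (hF : Fintype.card F = q ^ 2) (σ : RingAut F) (r : ℕ)
    (hr : orderOf σ = r) (hro : Odd r) (c : F) (hc1 : c ^ (q + 1) = 1) (hσc : σ c = c) :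
    ∃ μ : F, μ ^ (q + 1) = 1 ∧ PSLn.twR (σ : F →+* F) μ r = c := by
  have hr0 : 0 < r := hro.pos
  by_cases hc : c = -1
  · refine ⟨-1, ?_, ?_⟩
    · rw [← hc]
      exact hc1
    · rw [ulang_twR_fixed σ (-1) (by rw [map_neg, map_one]) r, hro.neg_one_pow, hc]
  · have hc0 : c ≠ 0 := by
      rintro rfl
      rw [zero_pow (Nat.succ_ne_zero q)] at hc1
      exact zero_ne_one hc1
    have ha0 : 1 + c ≠ 0 := by
      intro h
      exact hc (eq_neg_of_add_eq_zero_right h)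
    obtain ⟨b, hb0, hb⟩ := PSLn.lang_norm_surj σ r hr hr0 (1 + c) ha0
      (by rw [map_add, map_one, hσc])
    have hbq : b ^ q ≠ 0 := pow_ne_zero q hb0
    refine ⟨b * (b ^ q)⁻¹, ?_, ?_⟩
    · have e1 : (b ^ q) ^ (q + 1) = b ^ (q + 1) := by
        rw [← pow_mul, show q * (q + 1) = q ^ 2 + q by ring, pow_add, ulang_pow_card_sq hF,
          pow_succ']
      rw [mul_pow, inv_pow, e1]
      exact mul_inv_cancel₀ (pow_ne_zero _ hb0)
    · rw [PSLn.twR_mul, ulang_twR_inv σ _ hbq, ulang_twR_pow, hb]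
      have h1 : (1 + c) ^ q = 1 + c ^ q := by
        rw [← frobQ_apply hF, map_add, map_one, frobQ_apply]
      have h2 : c * c ^ q = 1 := by
        rw [← pow_succ']
        exact hc1
      have h3 : (1 + c ^ q) ≠ 0 := by
        rw [← h1]
        exact pow_ne_zero q ha0
      rw [h1]
      field_simp
      linear_combination -h2

theorem ulang_map_comm (hF : Fintype.card F = q ^ 2) (σ : RingAut F)
    (M : Matrix (Fin n) (Fin n) F) :
    (M.map (ulang_tau hF)).map σ = (M.map σ).map (ulang_tau hF) := by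
  ext i j
  show σ (ulang_tau hF (M i j)) = ulang_tau hF (σ (M i j))
  rw [ulang_tau_apply, ulang_tau_apply, map_pow]

theorem ulang_pullback {F₀ : Type v} [Field F₀] (σ : RingAut F) (ι : F₀ →+* F)
    (hι : ∀ x, σ x = x ↔ x ∈ Set.range ι) (M : Matrix (Fin n) (Fin n) F)
    (hM : M.map σ = M) : ∃ M₀ : Matrix (Fin n) (Fin n) F₀, M₀.map ι = M := by
  have hex : ∀ i j, ∃ a : F₀, ι a = M i j :=
    fun i j => (hι _).mp (congrFun (congrFun hM i) j)
  choose M₀ hM₀ using hex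
  exact ⟨Matrix.of M₀, by ext i j; exact hM₀ i j⟩

theorem ulang_map_fixed {F₀ : Type v} [Field F₀] (σ : RingAut F) (ι : F₀ →+* F)
    (hι : ∀ x, σ x = x ↔ x ∈ Set.range ι) (M₀ : Matrix (Fin n) (Fin n) F₀) :
    (M₀.map ι).map σ = M₀.map ι := by
  ext i j
  exact (hι _).mpr ⟨_, rfl⟩

theorem ulang_tau_iota {F₀ : Type v} [Field F₀] [Fintype F₀] {q₀ : ℕ}
    (hF : Fintype.card F = q ^ 2) (hF₀ : Fintype.card F₀ = q₀ ^ 2) (r : ℕ) (hro : Odd r)
    (hq₀ : q = q₀ ^ r) (ι : F₀ →+* F) (a : F₀) :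
    ulang_tau hF (ι a) = ι (ulang_tau hF₀ a) := by
  rw [ulang_tau_apply, ulang_tau_apply, ← map_pow, hq₀, ulang_pow_odd hF₀ r hro]

theorem ulang_mapGU_inv (σ : RingAut F) (k : ↥(Cfsg.GU n F q)) :
    mapGU σ k⁻¹ = (mapGU σ k)⁻¹ :=
  Subtype.ext (map_inv (Matrix.GeneralLinearGroup.map (σ : F →+* F)) (k : GL (Fin n) F))

/-- **Hilbert 90 for the unitary group**: a unitary matrix whose twisted `r`-th power is `1`
(`σ` of odd order `r`) is of the form `k σ(k)⁻¹` with `k` unitary -/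
theorem ulang_h90_GU (hF : Fintype.card F = q ^ 2) (σ : RingAut F) (r : ℕ)
    (hr : orderOf σ = r) (hro : Odd r)
    {F₀ : Type v} [Field F₀] [Fintype F₀] {q₀ : ℕ} (hq₀ : q = q₀ ^ r)
    (hF₀ : Fintype.card F₀ = q₀ ^ 2) (ι : F₀ →+* F) (hι : ∀ x, σ x = x ↔ x ∈ Set.range ι)
    (g : ↥(Cfsg.GU n F q))
    (hN : PSLn.twR (RingHom.mapMatrix (σ : F →+* F))
      ((g : GL (Fin n) F) : Matrix (Fin n) (Fin n) F) r = 1) :
    ∃ k : ↥(Cfsg.GU n F q), g * mapGU σ k = k := by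
  have hτq : ∀ a, ulang_tau hF a = a ^ q := ulang_tau_apply hF
  have hτ2 : ∀ a, ulang_tau hF (ulang_tau hF a) = a := ulang_tau_tau hF
  have hG : ((g : GL (Fin n) F) : Matrix (Fin n) (Fin n) F)ᵀ
      * ((g : GL (Fin n) F) : Matrix (Fin n) (Fin n) F).map (ulang_tau hF) = 1 :=
    (PSLn.lang_mem_GU (ulang_tau hF) q hτq (g : GL (Fin n) F)).mp g.2
  obtain ⟨b, hbU, hb⟩ := PSLn.lang_h90_matrix σ r hr hro.pos _ hN
  have hcomm : ∀ M : Matrix (Fin n) (Fin n) F,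
      (M.map (ulang_tau hF)).map σ = (M.map σ).map (ulang_tau hF) := ulang_map_comm hF σ
  -- the Hermitian matrix `H = bᵀ τ(b)` is fixed by `σ`
  have hHσ : (bᵀ * b.map (ulang_tau hF)).map σ = bᵀ * b.map (ulang_tau hF) := by
    have e1 : bᵀ = (b.map σ)ᵀ * ((g : GL (Fin n) F) : Matrix (Fin n) (Fin n) F)ᵀ := by
      rw [← Matrix.transpose_mul, hb]
    have e2 : b.map (ulang_tau hF)
        = ((g : GL (Fin n) F) : Matrix (Fin n) (Fin n) F).map (ulang_tau hF)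
          * (b.map σ).map (ulang_tau hF) := by
      rw [← PSLn.lang_map_mul, hb]
    rw [PSLn.lang_map_mul, Matrix.transpose_map, hcomm]
    conv_rhs => rw [e1, e2]
    rw [Matrix.mul_assoc, ← Matrix.mul_assoc (((g : GL (Fin n) F) :
      Matrix (Fin n) (Fin n) F)ᵀ), hG, Matrix.one_mul]
  have hHτ : ((bᵀ * b.map (ulang_tau hF)).map (ulang_tau hF))ᵀ
      = bᵀ * b.map (ulang_tau hF) := by
    rw [PSLn.lang_map_mul, PSLn.lang_map_map (ulang_tau hF) hτ2, Matrix.transpose_mul,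
      Matrix.transpose_map, Matrix.transpose_transpose]
  have hdb : b.det ≠ 0 := ((Matrix.isUnit_iff_isUnit_det b).mp hbU).ne_zero
  have hHdet : (bᵀ * b.map (ulang_tau hF)).det ≠ 0 := by
    rw [Matrix.det_mul, Matrix.det_transpose, PSLn.lang_det_map]
    exact mul_ne_zero hdb ((map_ne_zero (ulang_tau hF)).mpr hdb)
  obtain ⟨H₀, hH₀⟩ := ulang_pullback σ ι hι _ hHσ
  have hιτ : ∀ M₀ : Matrix (Fin n) (Fin n) F₀,
      (M₀.map (ulang_tau hF₀)).map ι = (M₀.map ι).map (ulang_tau hF) := by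
    intro M₀
    ext i j
    exact (ulang_tau_iota hF hF₀ r hro hq₀ ι _).symm
  have hinj : Function.Injective (fun M₀ : Matrix (Fin n) (Fin n) F₀ => M₀.map ι) :=
    Matrix.map_injective ι.injective
  have hH₀τ : (H₀.map (ulang_tau hF₀))ᵀ = H₀ := by
    apply hinj
    show ((H₀.map (ulang_tau hF₀))ᵀ).map ι = H₀.map ι
    rw [Matrix.transpose_map, hιτ, hH₀, hHτ]
  have hH₀U : IsUnit H₀ := by
    rw [Matrix.isUnit_iff_isUnit_det, isUnit_iff_ne_zero]
    intro h0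
    apply hHdet
    rw [← hH₀]
    have h1 := RingHom.map_det ι H₀
    rw [h0, map_zero] at h1
    exact h1.symm
  obtain ⟨P₀, hP₀⟩ := PSLn.lang_herm_class (ulang_tau hF₀) H₀ (ulang_tau_tau hF₀)
    (ulang_tau_ne_one hF₀) hH₀τ hH₀U
  have hP : P₀.map ι * (bᵀ * b.map (ulang_tau hF)) * ((P₀.map ι).map (ulang_tau hF))ᵀ = 1 := by
    have e : (P₀ * H₀ * (P₀.map (ulang_tau hF₀))ᵀ).map ι
        = (1 : Matrix (Fin n) (Fin n) F₀).map ι := congrArg (fun M => M.map ι) hP₀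
    rw [Matrix.map_mul, Matrix.map_mul, Matrix.transpose_map, hιτ, hH₀,
      Matrix.map_one _ (map_zero ι) (map_one ι)] at e
    exact e
  have hPσ : (P₀.map ι).map σ = P₀.map ι := ulang_map_fixed σ ι hι P₀
  have hk1 : (b * (P₀.map ι)ᵀ)ᵀ * (b * (P₀.map ι)ᵀ).map (ulang_tau hF) = 1 := by
    rw [Matrix.transpose_mul, Matrix.transpose_transpose, PSLn.lang_map_mul,
      Matrix.transpose_map, ← hP]
    simp only [Matrix.mul_assoc]
  have hk2 : ((g : GL (Fin n) F) : Matrix (Fin n) (Fin n) F) * (b * (P₀.map ι)ᵀ).map σ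
      = b * (P₀.map ι)ᵀ := by
    rw [PSLn.lang_map_mul, Matrix.transpose_map, hPσ, ← Matrix.mul_assoc, hb]
  have hkdet : (b * (P₀.map ι)ᵀ).det ≠ 0 := by
    have h1 := congrArg Matrix.det hk1
    rw [Matrix.det_mul, Matrix.det_transpose, Matrix.det_one] at h1
    intro h0
    rw [h0, zero_mul] at h1
    exact zero_ne_one h1
  have hkGU : Matrix.GeneralLinearGroup.mkOfDetNeZero _ hkdet ∈ Cfsg.GU n F q :=
    (PSLn.lang_mem_GU (ulang_tau hF) q hτq _).mpr hk1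
  refine ⟨⟨Matrix.GeneralLinearGroup.mkOfDetNeZero _ hkdet, hkGU⟩, ?_⟩
  apply Subtype.ext
  apply Units.ext
  exact hk2

end Tau

section Std

variable {F : Type u} [Field F] [Fintype F] {q n : ℕ}

/-- **Lang–Steinberg for field automorphisms of `PSU_n(q)`**: an element of `Inndiag · φ_σ`
whose `r`-th power is trivial (`r` the odd order of `σ`) is `Inndiag`-conjugate to `φ_σ` -/
theorem ulang_field_std (hF : Fintype.card F = q ^ 2) (p : ℕ) [Fact p.Prime] [CharP F p]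
    (hn : 3 ≤ n) (h32 : ¬ (n = 3 ∧ q = 2)) (σ : RingAut F) (r : ℕ) (hr : orderOf σ = r)
    (hro : Odd r)
    {F₀ : Type v} [Field F₀] [Fintype F₀] {q₀ : ℕ} (hq₀ : q = q₀ ^ r)
    (hF₀ : Fintype.card F₀ = q₀ ^ 2) (ι : F₀ →+* F) (hι : ∀ x, σ x = x ↔ x ∈ Set.range ι)
    (g : ↥(Cfsg.GU n F q)) (hy : (uD g * uF σ : MulAut (Cfsg.PSU n F q)) ^ r = 1) :
    ∃ k : ↥(Cfsg.GU n F q),
      (uD g * uF σ : MulAut (Cfsg.PSU n F q)) = uD k * uF σ * (uD k)⁻¹ := by
  obtain ⟨gr, hgr, hpow⟩ := ulang_semi_pow g σ r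
  have hσr : σ ^ r = 1 := by rw [← hr, pow_orderOf_eq_one]
  rw [hy, hσr, map_one, mul_one] at hpow
  have hker : gr ∈ (uD : ↥(Cfsg.GU n F q) →* MulAut (Cfsg.PSU n F q)).ker := hpow.symm
  rw [uD_ker hF p hn h32] at hker
  obtain ⟨c, hc⟩ := hker
  have hT : PSLn.twR (RingHom.mapMatrix (σ : F →+* F))
      ((g : GL (Fin n) F) : Matrix (Fin n) (Fin n) F) r
        = ((c : Fˣ) : F) • (1 : Matrix (Fin n) (Fin n) F) := by
    rw [← hgr, ← hc, scalarGU_coe, Matrix.smul_one_eq_diagonal]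
  have hc0 : ((c : Fˣ) : F) ≠ 0 := (c : Fˣ).ne_zero
  -- the scalar is fixed by `σ`
  have hσc : σ ((c : Fˣ) : F) = ((c : Fˣ) : F) := by
    have h1 : PSLn.twR (RingHom.mapMatrix (σ : F →+* F))
        ((g : GL (Fin n) F) : Matrix (Fin n) (Fin n) F) (r + 1)
        = ((g : GL (Fin n) F) : Matrix (Fin n) (Fin n) F)
          * (PSLn.twR (RingHom.mapMatrix (σ : F →+* F))
              ((g : GL (Fin n) F) : Matrix (Fin n) (Fin n) F) r).map σ := rfl
    have h2 := PSLn.twR_succ' (RingHom.mapMatrix (σ : F →+* F))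
      ((g : GL (Fin n) F) : Matrix (Fin n) (Fin n) F) r
    rw [h1, hT, PSLn.lang_iter_mapMatrix, hσr, PSLn.lang_map_map_one, PSLn.lang_map_smul,
      PSLn.lang_map_one, Matrix.mul_smul, mul_one, Matrix.smul_mul, one_mul] at h2
    have h3 := congrArg (fun M => M * (((g : GL (Fin n) F)⁻¹ : GL (Fin n) F) :
      Matrix (Fin n) (Fin n) F)) h2
    simp only [Matrix.smul_mul, PSLn.lang_mul_inv_coe] at h3
    exact PSLn.lang_smul_one_inj (by omega) _ _ h3
  have hcN : ((c : Fˣ) : F) ^ (q + 1) = 1 := by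
    have h := (mem_N1 (c : Fˣ)).1 c.2
    rw [← Units.val_pow_eq_pow_val, h, Units.val_one]
  obtain ⟨μ, hμ1, hμ⟩ := ulang_norm_N1 hF σ r hr hro ((c : Fˣ) : F)⁻¹
    (by rw [inv_pow, hcN, inv_one]) (by rw [map_inv₀, hσc])
  have hμ0 : μ ≠ 0 := by
    rintro rfl
    rw [zero_pow (Nat.succ_ne_zero q)] at hμ1
    exact zero_ne_one hμ1
  have hm : Units.mk0 μ hμ0 ∈ N1 F q := by
    rw [mem_N1]
    apply Units.ext
    rw [Units.val_pow_eq_pow_val, Units.val_mk0, hμ1, Units.val_one]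
  have hg'coe : (((scalarGU ⟨Units.mk0 μ hμ0, hm⟩ * g : ↥(Cfsg.GU n F q)) : GL (Fin n) F) :
      Matrix (Fin n) (Fin n) F) = μ • ((g : GL (Fin n) F) : Matrix (Fin n) (Fin n) F) := by
    show (((scalarGU ⟨Units.mk0 μ hμ0, hm⟩ : ↥(Cfsg.GU n F q)) : GL (Fin n) F) :
      Matrix (Fin n) (Fin n) F) * ((g : GL (Fin n) F) : Matrix (Fin n) (Fin n) F) = _
    rw [scalarGU_coe, ← Matrix.smul_one_eq_diagonal, Matrix.smul_mul, Matrix.one_mul]
    rfl
  have hT' : PSLn.twR (RingHom.mapMatrix (σ : F →+* F))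
      (((scalarGU ⟨Units.mk0 μ hμ0, hm⟩ * g : ↥(Cfsg.GU n F q)) : GL (Fin n) F) :
        Matrix (Fin n) (Fin n) F) r = 1 := by
    rw [hg'coe, PSLn.lang_twR_smul, hμ, hT, smul_smul, inv_mul_cancel₀ hc0, one_smul]
  obtain ⟨k, hk⟩ := ulang_h90_GU hF σ r hr hro hq₀ hF₀ ι hι _ hT'
  refine ⟨k, ?_⟩
  have h4 : (uD g : MulAut (Cfsg.PSU n F q)) = uD (scalarGU ⟨Units.mk0 μ hμ0, hm⟩ * g) := by
    rw [map_mul, uD_scalarGU, one_mul]
  have h5 : scalarGU ⟨Units.mk0 μ hμ0, hm⟩ * g = k * (mapGU σ k)⁻¹ := eq_mul_inv_of_mul_eq hk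
  have h6 : ((uD (mapGU σ k))⁻¹ * uF σ : MulAut (Cfsg.PSU n F q)) = uF σ * (uD k)⁻¹ := by
    calc ((uD (mapGU σ k))⁻¹ * uF σ : MulAut (Cfsg.PSU n F q))
        = (uD (mapGU σ k))⁻¹ * (uF σ * uD k) * (uD k)⁻¹ := by group
      _ = (uD (mapGU σ k))⁻¹ * (uD (mapGU σ k) * uF σ) * (uD k)⁻¹ := by rw [uF_mul_uD]
      _ = uF σ * (uD k)⁻¹ := by group
  rw [h4, h5, map_mul, map_inv, mul_assoc, h6, mul_assoc]

/-- the fixed field of an automorphism of odd order `r` of a field with `q² = p^(2f)`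
elements -/
theorem ulang_fixed_field (p f : ℕ) [Fact p.Prime] (hq : q = p ^ f)
    (hF : Fintype.card F = q ^ 2) (σ : RingAut F) (r : ℕ) (hr : orderOf σ = r)
    (hro : Odd r) :
    r ∣ f ∧ q = (p ^ (f / r)) ^ r ∧ ∃ K₀ : Subfield F,
      (∀ x, x ∈ K₀ ↔ σ x = x) ∧ Nat.card K₀ = (p ^ (f / r)) ^ 2 := by
  have hF' : Fintype.card F = p ^ (2 * f) := by rw [hF, hq, ← pow_mul, mul_comm]
  obtain ⟨hd, K₀, hmem, hK⟩ := PSLn.lang_card_fix p (2 * f) hF' σ r hr hro.pos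
  have hrf : r ∣ f := Nat.Coprime.dvd_of_dvd_mul_left (Nat.coprime_two_right.mpr hro) hd
  obtain ⟨k, hk⟩ := hrf
  have hr0 : 0 < r := hro.pos
  have e1 : f / r = k := by rw [hk, Nat.mul_div_cancel_left k hr0]
  have e2 : 2 * f / r = 2 * k := by
    rw [hk, show 2 * (r * k) = r * (2 * k) by ring, Nat.mul_div_cancel_left _ hr0]
  refine ⟨⟨k, hk⟩, ?_, K₀, hmem, ?_⟩
  · rw [e1, hq, hk, ← pow_mul, mul_comm]
  · rw [hK, e1, e2, ← pow_mul, mul_comm]

/-- **the coset statement for field automorphisms of `PSU_n(q)`** -/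
theorem ulang_coset_conj (p f : ℕ) [Fact p.Prime] (hq : q = p ^ f)
    (hF : Fintype.card F = q ^ 2) (hn : 3 ≤ n) (h32 : ¬ (n = 3 ∧ q = 2))
    (x δ : MulAut (Cfsg.PSU n F q)) (hx : Cfsg.IsFieldAutClassPSU x) (r : ℕ) (_hr : r.Prime)
    (hxr : orderOf x = r) (hδ : δ ∈ Cfsg.inndiagPSU n F q) :
    orderOf (δ * x) = r ↔ Cfsg.IsConjUnder (Cfsg.inndiagPSU n F q) x (δ * x) := by
  have : CharP F p := charP_of_card_sq hq hF
  constructor
  · intro ho
    obtain ⟨σ, h, hσ, hodd, hxe⟩ := ulang_field_reduce p f hq hF hn h32 x hx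
    have hσr : orderOf σ = r := by
      rw [← hxr, hxe, PSLn.lang_orderOf_conj, ulang_orderOf_uF hF p hn h32]
    have hro : Odd r := hσr ▸ hodd
    obtain ⟨hrf, hq₀, K₀, hK₀, hcard⟩ := ulang_fixed_field p f hq hF σ r hσr hro
    haveI : Fintype K₀ := Fintype.ofFinite K₀
    have hF₀ : Fintype.card K₀ = (p ^ (f / r)) ^ 2 := by
      rw [← hcard, Nat.card_eq_fintype_card]
    have hι : ∀ x : F, σ x = x ↔ x ∈ Set.range K₀.subtype := by
      intro x
      rw [← hK₀]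
      constructor
      · intro hx
        exact ⟨⟨x, hx⟩, rfl⟩
      · rintro ⟨y, rfl⟩
        exact y.2
    refine PSLn.lang_reduce_conj _ x (uF σ) (uD h) δ r (ulang_uD_mem_inndiag h) hxe hδ ?_ ho
    intro δ₀ hδ₀ ho₀
    obtain ⟨g, rfl⟩ := (ulang_mem_inndiag δ₀).mp hδ₀
    obtain ⟨k, hk⟩ := ulang_field_std hF p hn h32 σ r hσr hro hq₀ hF₀ K₀.subtype hι g (by
      rw [← ho₀]
      exact pow_orderOf_eq_one _)
    exact ⟨uD k, ulang_uD_mem_inndiag k, hk⟩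
  · rintro ⟨h, -, heq⟩
    rw [heq, PSLn.lang_orderOf_conj, hxr]

end Std

end Cfsg.Agent.Helper44.PSUn
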