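import Mathlib
import Cfsg.Agent.Helper44.PSUS

set_option autoImplicit false

/-!
Helper library (helper44): centralisers and class splitting for field automorphisms of odd
prime order of `PSU_n(q)` (`ulang_field_class`): the centraliser in `Inndiag` is `PGU_n(q₀)`,
and the `Inndiag`-class splits into `gcd(n, (q + 1) / (q₀ + 1))` classes under the inner
automorphisms.
-/

namespace Cfsg.Agent.Helper44.PSUn

open Matrix
open Cfsg.Agent.Helper5 (frobQ frobQ_apply frobQ_frobQ frobQ_ne_id detGU)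

universe u v

section MkN1

variable {F : Type u} [Field F] [Fintype F] {q : ℕ}

/-- an element of norm one as an element of `N1` -/
def ulang_mkN1 (c : F) (hc : c ^ (q + 1) = 1) : ↥(N1 F q) :=
  ⟨Units.mk0 c (by
    rintro rfl
    rw [zero_pow (Nat.succ_ne_zero q)] at hc
    exact zero_ne_one hc), by
    rw [mem_N1]
    apply Units.ext
    rw [Units.val_pow_eq_pow_val, Units.val_mk0, hc, Units.val_one]⟩

theorem ulang_mkN1_coe (c : F) (hc : c ^ (q + 1) = 1) :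
    (((ulang_mkN1 c hc : ↥(N1 F q)) : Fˣ) : F) = c := rfl

theorem ulang_N1_pow (c : ↥(N1 F q)) : ((c : Fˣ) : F) ^ (q + 1) = 1 := by
  have h := (mem_N1 (c : Fˣ)).1 c.2
  rw [← Units.val_pow_eq_pow_val, h, Units.val_one]

end MkN1

section Cent

variable {F : Type u} [Field F] [Fintype F] {q n : ℕ}

theorem ulang_mul_scalarGU_coe (g : ↥(Cfsg.GU n F q)) (c : ↥(N1 F q)) :
    (((g * scalarGU c : ↥(Cfsg.GU n F q)) : GL (Fin n) F) : Matrix (Fin n) (Fin n) F)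
      = ((c : Fˣ) : F) • ((g : GL (Fin n) F) : Matrix (Fin n) (Fin n) F) := by
  show ((g : GL (Fin n) F) : Matrix (Fin n) (Fin n) F)
    * (((scalarGU c : ↥(Cfsg.GU n F q)) : GL (Fin n) F) : Matrix (Fin n) (Fin n) F) = _
  rw [scalarGU_coe, ← Matrix.smul_one_eq_diagonal, Matrix.mul_smul, Matrix.mul_one]

theorem ulang_scalarGU_mul_coe (g : ↥(Cfsg.GU n F q)) (c : ↥(N1 F q)) :
    (((scalarGU c * g : ↥(Cfsg.GU n F q)) : GL (Fin n) F) : Matrix (Fin n) (Fin n) F)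
      = ((c : Fˣ) : F) • ((g : GL (Fin n) F) : Matrix (Fin n) (Fin n) F) := by
  show (((scalarGU c : ↥(Cfsg.GU n F q)) : GL (Fin n) F) : Matrix (Fin n) (Fin n) F)
    * ((g : GL (Fin n) F) : Matrix (Fin n) (Fin n) F) = _
  rw [scalarGU_coe, ← Matrix.smul_one_eq_diagonal, Matrix.smul_mul, Matrix.one_mul]

/-- a unitary matrix induces the trivial automorphism iff it is scalar -/
theorem ulang_uD_eq_one_iff (hF : Fintype.card F = q ^ 2) (p : ℕ) [Fact p.Prime] [CharP F p]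
    (hn : 3 ≤ n) (h32 : ¬ (n = 3 ∧ q = 2)) (g : ↥(Cfsg.GU n F q)) :
    (uD g : MulAut (Cfsg.PSU n F q)) = 1 ↔
      ∃ c : F, ((g : GL (Fin n) F) : Matrix (Fin n) (Fin n) F)
        = c • (1 : Matrix (Fin n) (Fin n) F) := by
  constructor
  · intro h
    have hker : g ∈ (uD : ↥(Cfsg.GU n F q) →* MulAut (Cfsg.PSU n F q)).ker := h
    rw [uD_ker hF p hn h32] at hker
    obtain ⟨a, rfl⟩ := hker
    exact ⟨((a : Fˣ) : F), by rw [scalarGU_coe, Matrix.smul_one_eq_diagonal]⟩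
  · rintro ⟨c, hc⟩
    have hG := (PSLn.lang_mem_GU (ulang_tau hF) q (ulang_tau_apply hF)
      (g : GL (Fin n) F)).mp g.2
    rw [hc, Matrix.transpose_smul, Matrix.transpose_one, PSLn.lang_map_smul,
      PSLn.lang_map_one, Matrix.smul_mul, Matrix.one_mul, smul_smul] at hG
    have h1 : (c * ulang_tau hF c) • (1 : Matrix (Fin n) (Fin n) F)
        = (1 : F) • (1 : Matrix (Fin n) (Fin n) F) := by
      rw [one_smul]
      exact hG
    have h2 : c * ulang_tau hF c = 1 := PSLn.lang_smul_one_inj (by omega) _ _ h1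
    have hc1 : c ^ (q + 1) = 1 := by
      rw [pow_succ', ← ulang_tau_apply hF]
      exact h2
    have hg : g = scalarGU (ulang_mkN1 c hc1) := by
      apply Subtype.ext
      apply Units.ext
      rw [hc, scalarGU_coe, Matrix.smul_one_eq_diagonal]
      rfl
    rw [hg]
    exact uD_scalarGU _

/-- two unitary matrices induce the same automorphism iff they differ by a scalar -/
theorem ulang_uD_eq_iff (hF : Fintype.card F = q ^ 2) (p : ℕ) [Fact p.Prime] [CharP F p]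
    (hn : 3 ≤ n) (h32 : ¬ (n = 3 ∧ q = 2)) (g g' : ↥(Cfsg.GU n F q)) :
    (uD g : MulAut (Cfsg.PSU n F q)) = uD g' ↔ ∃ c : ↥(N1 F q), g' = g * scalarGU c := by
  constructor
  · intro h
    have hker : g⁻¹ * g' ∈ (uD : ↥(Cfsg.GU n F q) →* MulAut (Cfsg.PSU n F q)).ker := by
      rw [MonoidHom.mem_ker, map_mul, map_inv, h, inv_mul_cancel]
    rw [uD_ker hF p hn h32] at hker
    obtain ⟨c, hc⟩ := hker
    exact ⟨c, by rw [hc, mul_inv_cancel_left]⟩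
  · rintro ⟨c, rfl⟩
    rw [map_mul, uD_scalarGU, mul_one]

theorem ulang_map_tau_iota {F₀ : Type v} [Field F₀] [Fintype F₀] {q₀ : ℕ}
    (hF : Fintype.card F = q ^ 2) (hF₀ : Fintype.card F₀ = q₀ ^ 2) (r : ℕ) (hro : Odd r)
    (hq₀ : q = q₀ ^ r) (ι : F₀ →+* F) (M₀ : Matrix (Fin n) (Fin n) F₀) :
    (M₀.map (ulang_tau hF₀)).map ι = (M₀.map ι).map (ulang_tau hF) := by
  ext i j
  exact (ulang_tau_iota hF hF₀ r hro hq₀ ι _).symm

/-- Hilbert 90 inside the norm-one group -/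
theorem ulang_h90_N1 (hF : Fintype.card F = q ^ 2) (σ : RingAut F) (r : ℕ)
    (hr : orderOf σ = r) (hro : Odd r)
    {F₀ : Type v} [Field F₀] [Fintype F₀] {q₀ : ℕ} (hq₀ : q = q₀ ^ r)
    (hF₀ : Fintype.card F₀ = q₀ ^ 2) (ι : F₀ →+* F) (hι : ∀ x, σ x = x ↔ x ∈ Set.range ι)
    (ε : F) (hε1 : ε ^ (q + 1) = 1) (hεN : PSLn.twR (σ : F →+* F) ε r = 1) :
    ∃ c : F, c ^ (q + 1) = 1 ∧ ε * σ c = c := by
  obtain ⟨b, hb0, hb⟩ := PSLn.lang_h90_scalar σ r hr hro.pos ε hεN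
  have hν0 : b ^ (q + 1) ≠ 0 := pow_ne_zero _ hb0
  have hνσ : σ (b ^ (q + 1)) = b ^ (q + 1) := by
    conv_rhs => rw [← hb]
    rw [mul_pow, hε1, one_mul, map_pow]
  have hνq : (b ^ (q + 1)) ^ q = b ^ (q + 1) := by
    rw [← pow_mul, show (q + 1) * q = q ^ 2 + q by ring, pow_add, ulang_pow_card_sq hF,
      pow_succ']
  obtain ⟨ν₀, hν₀⟩ := (hι _).mp hνσ
  have hν₀0 : ν₀ ≠ 0 := by
    rintro rfl
    rw [map_zero] at hν₀
    exact hν0 hν₀.symm
  have hν₀τ : frobQ hF₀ ν₀ = ν₀ := by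
    apply ι.injective
    show ι (ulang_tau hF₀ ν₀) = ι ν₀
    rw [← ulang_tau_iota hF hF₀ r hro hq₀ ι ν₀, ulang_tau_apply, hν₀, hνq]
  obtain ⟨d₀, hd₀0, hd₀⟩ := Cfsg.Agent.Helper13.ufld_exists_norm hF₀ hν₀0 hν₀τ
  have hd0 : ι d₀ ≠ 0 := (map_ne_zero ι).mpr hd₀0
  have hdσ : σ (ι d₀) = ι d₀ := (hι _).mpr ⟨_, rfl⟩
  have hdN : (ι d₀) ^ (q + 1) = b ^ (q + 1) := by
    rw [pow_succ', ← ulang_tau_apply hF, ulang_tau_iota hF hF₀ r hro hq₀, ← map_mul, ← hν₀]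
    congr 1
  refine ⟨b * (ι d₀)⁻¹, ?_, ?_⟩
  · rw [mul_pow, inv_pow, hdN, mul_inv_cancel₀ hν0]
  · rw [map_mul, map_inv₀, hdσ, ← mul_assoc, hb]

/-- the unitary matrices commuting with a standard field automorphism of odd order: scalar
multiples of unitary matrices fixed by `σ` -/
theorem ulang_cGU_field (hF : Fintype.card F = q ^ 2) (p : ℕ) [Fact p.Prime] [CharP F p]
    (hn : 3 ≤ n) (h32 : ¬ (n = 3 ∧ q = 2)) (σ : RingAut F) (r : ℕ) (hr : orderOf σ = r)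
    (hro : Odd r)
    {F₀ : Type v} [Field F₀] [Fintype F₀] {q₀ : ℕ} (hq₀ : q = q₀ ^ r)
    (hF₀ : Fintype.card F₀ = q₀ ^ 2) (ι : F₀ →+* F) (hι : ∀ x, σ x = x ↔ x ∈ Set.range ι)
    (g : ↥(Cfsg.GU n F q)) :
    g ∈ ulang_cGU (uF σ : MulAut (Cfsg.PSU n F q)) ↔
      ∃ (c : ↥(N1 F q)) (g₀ : ↥(Cfsg.GU n F q)), mapGU σ g₀ = g₀ ∧ g = scalarGU c * g₀ := by
  rw [ulang_mem_cGU]
  constructor
  · intro h
    rw [uF_mul_uD] at h
    have h1 : (uD g : MulAut (Cfsg.PSU n F q)) = uD (mapGU σ g) := mul_right_cancel h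
    obtain ⟨ε, hε⟩ := (ulang_uD_eq_iff hF p hn h32 g (mapGU σ g)).mp h1
    have hlam : ((g : GL (Fin n) F) : Matrix (Fin n) (Fin n) F).map σ
        = ((ε : Fˣ) : F) • ((g : GL (Fin n) F) : Matrix (Fin n) (Fin n) F) := by
      rw [← ulang_mul_scalarGU_coe, ← hε]
      rfl
    have hσr : σ ^ r = 1 := by rw [← hr, pow_orderOf_eq_one]
    have h2 := PSLn.lang_map_pow_smul σ _ _ hlam r
    rw [hσr, PSLn.lang_map_map_one] at h2
    have h3 : PSLn.twR (σ : F →+* F) ((ε : Fˣ) : F) r = 1 := by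
      have h4 := congrArg (fun M => M * (((g : GL (Fin n) F)⁻¹ : GL (Fin n) F) :
        Matrix (Fin n) (Fin n) F)) h2
      simp only [Matrix.smul_mul, PSLn.lang_mul_inv_coe] at h4
      have h5 : (1 : F) • (1 : Matrix (Fin n) (Fin n) F)
          = PSLn.twR (σ : F →+* F) ((ε : Fˣ) : F) r • (1 : Matrix (Fin n) (Fin n) F) := by
        rw [one_smul]
        exact h4
      exact (PSLn.lang_smul_one_inj (by omega) _ _ h5).symm
    obtain ⟨c, hc1, hc⟩ := ulang_h90_N1 hF σ r hr hro hq₀ hF₀ ι hι _ (ulang_N1_pow ε) h3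
    refine ⟨(ulang_mkN1 c hc1)⁻¹, scalarGU (ulang_mkN1 c hc1) * g, ?_, ?_⟩
    · apply Subtype.ext
      apply Units.ext
      show (((scalarGU (ulang_mkN1 c hc1) * g : ↥(Cfsg.GU n F q)) : GL (Fin n) F) :
          Matrix (Fin n) (Fin n) F).map σ
        = (((scalarGU (ulang_mkN1 c hc1) * g : ↥(Cfsg.GU n F q)) : GL (Fin n) F) :
          Matrix (Fin n) (Fin n) F)
      rw [ulang_scalarGU_mul_coe, PSLn.lang_map_smul, hlam, smul_smul, ulang_mkN1_coe,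
        mul_comm, hc]
    · rw [← mul_assoc, ← map_mul, inv_mul_cancel, map_one, one_mul]
  · rintro ⟨c, g₀, hfix, rfl⟩
    rw [map_mul, uD_scalarGU, one_mul, uF_mul_uD, hfix]

/-- the determinants of the unitary matrices commuting with a standard field automorphism -/
theorem ulang_det_cGU_field (hF : Fintype.card F = q ^ 2) (p : ℕ) [Fact p.Prime] [CharP F p]
    (hn : 3 ≤ n) (h32 : ¬ (n = 3 ∧ q = 2)) (σ : RingAut F) (r : ℕ) (hr : orderOf σ = r)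
    (hro : Odd r)
    {F₀ : Type v} [Field F₀] [Fintype F₀] {q₀ : ℕ} (hq₀ : q = q₀ ^ r)
    (hF₀ : Fintype.card F₀ = q₀ ^ 2) (ι : F₀ →+* F) (hι : ∀ x, σ x = x ↔ x ∈ Set.range ι)
    (hn1 : 1 ≤ n) :
    (ulang_cGU (uF σ : MulAut (Cfsg.PSU n F q))).map (detN hF hn1)
      = (PSLn.lang_fixU σ).subgroupOf (N1 F q)
        ⊔ (powMonoidHom n : ↥(N1 F q) →* ↥(N1 F q)).range := by
  apply le_antisymm
  · rintro _ ⟨g, hg, rfl⟩
    obtain ⟨c, g₀, hfix, rfl⟩ :=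
      (ulang_cGU_field hF p hn h32 σ r hr hro hq₀ hF₀ ι hι g).mp hg
    rw [map_mul, mul_comm]
    refine Subgroup.mul_mem_sup ?_ ⟨c, ?_⟩
    · rw [Subgroup.mem_subgroupOf, PSLn.lang_mem_fixU, detN_coe,
        Cfsg.Agent.Helper5.detGU_coe, ← PSLn.lang_det_map]
      congr 1
      exact congrArg (fun k : ↥(Cfsg.GU n F q) =>
        ((k : GL (Fin n) F) : Matrix (Fin n) (Fin n) F)) hfix
    · exact Subtype.ext (detGU_scalarGU c).symm
  · apply sup_le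
    · intro u hu
      rw [Subgroup.mem_subgroupOf, PSLn.lang_mem_fixU] at hu
      have hd : PSLn.lang_d1 hn1 (u : Fˣ) ∈ Cfsg.GU n F q := by
        apply Cfsg.Agent.Helper5.diagonal_mem_GU _ _ _ (PSLn.lang_d1_coe hn1 (u : Fˣ))
        intro i
        by_cases hi : i = ⟨0, hn1⟩
        · rw [hi, Function.update_self]
          exact ulang_N1_pow u
        · rw [Function.update_of_ne hi, one_pow]
      refine ⟨⟨PSLn.lang_d1 hn1 (u : Fˣ), hd⟩, ?_, ?_⟩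
      · rw [SetLike.mem_coe, ulang_cGU_field hF p hn h32 σ r hr hro hq₀ hF₀ ι hι]
        refine ⟨1, _, ?_, by rw [map_one, one_mul]⟩
        apply Subtype.ext
        apply Units.ext
        show ((PSLn.lang_d1 hn1 (u : Fˣ) : GL (Fin n) F) : Matrix (Fin n) (Fin n) F).map σ
          = ((PSLn.lang_d1 hn1 (u : Fˣ) : GL (Fin n) F) : Matrix (Fin n) (Fin n) F)
        rw [PSLn.lang_d1_coe, Matrix.diagonal_map (map_zero σ)]
        congr 1
        funext i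
        by_cases hi : i = ⟨0, hn1⟩
        · rw [hi, Function.update_self, hu]
        · rw [Function.update_of_ne hi, map_one]
      · apply Subtype.ext
        exact PSLn.lang_d1_det hn1 (u : Fˣ)
    · rintro _ ⟨c, rfl⟩
      refine ⟨scalarGU c, ?_, Subtype.ext (detGU_scalarGU c)⟩
      rw [SetLike.mem_coe, ulang_mem_cGU, uD_scalarGU, one_mul, mul_one]

theorem ulang_iota_pow {F₀ : Type v} [Field F₀] [Fintype F₀] {q₀ : ℕ}
    (hF : Fintype.card F = q ^ 2) (hF₀ : Fintype.card F₀ = q₀ ^ 2) (r : ℕ) (hro : Odd r)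
    (hq₀ : q = q₀ ^ r) (ι : F₀ →+* F) (a : F₀) :
    (ι a) ^ (q + 1) = ι (a ^ (q₀ + 1)) := by
  rw [pow_succ', pow_succ', map_mul, ← ulang_tau_apply hF, ulang_tau_iota hF hF₀ r hro hq₀,
    ulang_tau_apply]

/-- the norm-one elements fixed by `σ` form a group of order `q₀ + 1` -/
theorem ulang_card_fixN1 (hF : Fintype.card F = q ^ 2) (σ : RingAut F) (r : ℕ) (hro : Odd r)
    {F₀ : Type v} [Field F₀] [Fintype F₀] {q₀ : ℕ} (hq₀ : q = q₀ ^ r)
    (hF₀ : Fintype.card F₀ = q₀ ^ 2) (ι : F₀ →+* F) (hι : ∀ x, σ x = x ↔ x ∈ Set.range ι) :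
    Nat.card ↥((PSLn.lang_fixU σ).subgroupOf (N1 F q)) = q₀ + 1 := by
  rw [← Cfsg.Agent.Helper5.card_norm_one hF₀]
  symm
  have hpow : ∀ a : F₀, (ι a) ^ (q + 1) = ι (a ^ (q₀ + 1)) :=
    ulang_iota_pow hF hF₀ r hro hq₀ ι
  let fn : ↥(N1 F₀ q₀) → ↥((PSLn.lang_fixU σ).subgroupOf (N1 F q)) := fun a =>
    ⟨ulang_mkN1 (ι ((a : F₀ˣ) : F₀)) (by rw [hpow, ulang_N1_pow, map_one]), by
      rw [Subgroup.mem_subgroupOf, PSLn.lang_mem_fixU]
      exact (hι _).mpr ⟨_, rfl⟩⟩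
  apply Nat.card_eq_of_bijective fn
  constructor
  · intro a b hab
    have h1 : ι ((a : F₀ˣ) : F₀) = ι ((b : F₀ˣ) : F₀) :=
      congrArg (fun u : ↥((PSLn.lang_fixU σ).subgroupOf (N1 F q)) =>
        (((u : ↥(N1 F q)) : Fˣ) : F)) hab
    exact Subtype.ext (Units.ext (ι.injective h1))
  · intro u
    have hu := u.2
    rw [Subgroup.mem_subgroupOf, PSLn.lang_mem_fixU] at hu
    obtain ⟨a, ha⟩ := (hι _).mp hu
    have ha1 : a ^ (q₀ + 1) = 1 := by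
      apply ι.injective
      rw [← hpow, ha, map_one]
      exact ulang_N1_pow (u : ↥(N1 F q))
    refine ⟨ulang_mkN1 a ha1, ?_⟩
    apply Subtype.ext
    apply Subtype.ext
    apply Units.ext
    exact ha

theorem ulang_iota_mem_GU {F₀ : Type v} [Field F₀] [Fintype F₀] {q₀ : ℕ}
    (hF : Fintype.card F = q ^ 2) (hF₀ : Fintype.card F₀ = q₀ ^ 2) (r : ℕ) (hro : Odd r)
    (hq₀ : q = q₀ ^ r) (ι : F₀ →+* F) (γ : GL (Fin n) F₀) (hγ : γ ∈ Cfsg.GU n F₀ q₀) :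
    Matrix.GeneralLinearGroup.map ι γ ∈ Cfsg.GU n F q := by
  rw [PSLn.lang_mem_GU (ulang_tau hF) q (ulang_tau_apply hF)]
  have h0 := (PSLn.lang_mem_GU (ulang_tau hF₀) q₀ (ulang_tau_apply hF₀) γ).mp hγ
  show ((γ : Matrix (Fin n) (Fin n) F₀).map ι)ᵀ
    * ((γ : Matrix (Fin n) (Fin n) F₀).map ι).map (ulang_tau hF) = 1
  rw [← ulang_map_tau_iota hF hF₀ r hro hq₀, ← Matrix.transpose_map, ← Matrix.map_mul, h0,
    Matrix.map_one _ (map_zero ι) (map_one ι)]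

/-- entrywise embedding of the unitary group over the fixed field -/
noncomputable def ulang_theta {F₀ : Type v} [Field F₀] [Fintype F₀] {q₀ : ℕ}
    (hF : Fintype.card F = q ^ 2) (hF₀ : Fintype.card F₀ = q₀ ^ 2) (r : ℕ) (hro : Odd r)
    (hq₀ : q = q₀ ^ r) (ι : F₀ →+* F) : ↥(Cfsg.GU n F₀ q₀) →* ↥(Cfsg.GU n F q) :=
  ((Matrix.GeneralLinearGroup.map ι).comp (Subgroup.subtype _)).codRestrict (Cfsg.GU n F q)
    (fun γ => ulang_iota_mem_GU hF hF₀ r hro hq₀ ι γ.1 γ.2)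

theorem ulang_theta_coe {F₀ : Type v} [Field F₀] [Fintype F₀] {q₀ : ℕ}
    (hF : Fintype.card F = q ^ 2) (hF₀ : Fintype.card F₀ = q₀ ^ 2) (r : ℕ) (hro : Odd r)
    (hq₀ : q = q₀ ^ r) (ι : F₀ →+* F) (γ : ↥(Cfsg.GU n F₀ q₀)) :
    (((ulang_theta hF hF₀ r hro hq₀ ι γ : ↥(Cfsg.GU n F q)) : GL (Fin n) F) :
      Matrix (Fin n) (Fin n) F)
      = ((γ : GL (Fin n) F₀) : Matrix (Fin n) (Fin n) F₀).map ι := rfl

theorem ulang_theta_fixed {F₀ : Type v} [Field F₀] [Fintype F₀] {q₀ : ℕ}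
    (hF : Fintype.card F = q ^ 2) (hF₀ : Fintype.card F₀ = q₀ ^ 2) (r : ℕ) (hro : Odd r)
    (hq₀ : q = q₀ ^ r) (σ : RingAut F) (ι : F₀ →+* F)
    (hι : ∀ x, σ x = x ↔ x ∈ Set.range ι) (γ : ↥(Cfsg.GU n F₀ q₀)) :
    mapGU σ (ulang_theta hF hF₀ r hro hq₀ ι γ) = ulang_theta hF hF₀ r hro hq₀ ι γ := by
  apply Subtype.ext
  apply Units.ext
  exact ulang_map_fixed σ ι hι _

theorem ulang_theta_surj {F₀ : Type v} [Field F₀] [Fintype F₀] {q₀ : ℕ}
    (hF : Fintype.card F = q ^ 2) (hF₀ : Fintype.card F₀ = q₀ ^ 2) (r : ℕ) (hro : Odd r)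
    (hq₀ : q = q₀ ^ r) (σ : RingAut F) (ι : F₀ →+* F)
    (hι : ∀ x, σ x = x ↔ x ∈ Set.range ι) (g₀ : ↥(Cfsg.GU n F q))
    (hfix : mapGU σ g₀ = g₀) :
    ∃ γ : ↥(Cfsg.GU n F₀ q₀), ulang_theta hF hF₀ r hro hq₀ ι γ = g₀ := by
  have hfix' : ((g₀ : GL (Fin n) F) : Matrix (Fin n) (Fin n) F).map σ
      = ((g₀ : GL (Fin n) F) : Matrix (Fin n) (Fin n) F) :=
    congrArg (fun k : ↥(Cfsg.GU n F q) =>
      ((k : GL (Fin n) F) : Matrix (Fin n) (Fin n) F)) hfix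
  obtain ⟨M₀, hM₀⟩ := ulang_pullback σ ι hι _ hfix'
  have hdet : M₀.det ≠ 0 := by
    intro h0
    have h1 := RingHom.map_det ι M₀
    rw [h0, map_zero] at h1
    have h2 : ((g₀ : GL (Fin n) F) : Matrix (Fin n) (Fin n) F).det = 0 := by
      rw [← hM₀]
      exact h1.symm
    apply (Matrix.GeneralLinearGroup.det (g₀ : GL (Fin n) F)).ne_zero
    rw [Matrix.GeneralLinearGroup.val_det_apply]
    exact h2
  have hG := (PSLn.lang_mem_GU (ulang_tau hF) q (ulang_tau_apply hF)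
    (g₀ : GL (Fin n) F)).mp g₀.2
  have hmem : Matrix.GeneralLinearGroup.mkOfDetNeZero M₀ hdet ∈ Cfsg.GU n F₀ q₀ := by
    rw [PSLn.lang_mem_GU (ulang_tau hF₀) q₀ (ulang_tau_apply hF₀)]
    show M₀ᵀ * M₀.map (ulang_tau hF₀) = 1
    apply Matrix.map_injective ι.injective
    show (M₀ᵀ * M₀.map (ulang_tau hF₀)).map ι = (1 : Matrix (Fin n) (Fin n) F₀).map ι
    rw [Matrix.map_mul, Matrix.transpose_map, ulang_map_tau_iota hF hF₀ r hro hq₀, hM₀, hG,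
      Matrix.map_one _ (map_zero ι) (map_one ι)]
  refine ⟨⟨_, hmem⟩, ?_⟩
  apply Subtype.ext
  apply Units.ext
  exact hM₀

/-- the kernel of `GU_n(q₀) → Aut(PSU_n(q))` consists of the scalar matrices -/
theorem ulang_theta_ker {F₀ : Type v} [Field F₀] [Fintype F₀] {q₀ : ℕ}
    (hF : Fintype.card F = q ^ 2) (hF₀ : Fintype.card F₀ = q₀ ^ 2) (r : ℕ) (hro : Odd r)
    (hq₀ : q = q₀ ^ r) (p : ℕ) [Fact p.Prime] [CharP F p]
    (hn : 3 ≤ n) (h32 : ¬ (n = 3 ∧ q = 2)) (ι : F₀ →+* F) (γ : ↥(Cfsg.GU n F₀ q₀)) :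
    γ ∈ (Cfsg.Geo.scalars (Fin n) F₀).subgroupOf (Cfsg.GU n F₀ q₀)
      ↔ (uD (ulang_theta hF hF₀ r hro hq₀ ι γ) : MulAut (Cfsg.PSU n F q)) = 1 := by
  have hιinj : Function.Injective ι := ι.injective
  rw [Subgroup.mem_subgroupOf, Cfsg.Geo.mem_scalars_iff, ulang_uD_eq_one_iff hF p hn h32,
    ulang_theta_coe]
  constructor
  · rintro ⟨c₀, hc₀⟩
    refine ⟨ι (c₀ : F₀), ?_⟩
    rw [hc₀]
    ext i j
    rw [Matrix.map_apply, Matrix.smul_apply, Matrix.smul_apply, Matrix.one_apply,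
      Matrix.one_apply, smul_eq_mul, smul_eq_mul, map_mul]
    by_cases hij : i = j
    · rw [if_pos hij, if_pos hij, map_one]
    · rw [if_neg hij, if_neg hij, map_zero]
  · rintro ⟨c, hc⟩
    have hsc : ((γ : GL (Fin n) F₀) : Matrix (Fin n) (Fin n) F₀)
        = (((γ : GL (Fin n) F₀) : Matrix (Fin n) (Fin n) F₀) ⟨0, by omega⟩ ⟨0, by omega⟩)
          • (1 : Matrix (Fin n) (Fin n) F₀) := by
      ext i j
      have h1 := congrFun (congrFun hc i) j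
      have h2 := congrFun (congrFun hc ⟨0, by omega⟩) ⟨0, by omega⟩
      rw [Matrix.map_apply, Matrix.smul_apply, Matrix.one_apply, smul_eq_mul] at h1 h2
      rw [if_pos rfl, mul_one] at h2
      rw [Matrix.smul_apply, Matrix.one_apply, smul_eq_mul]
      by_cases hij : i = j
      · rw [if_pos hij, mul_one] at h1
        rw [if_pos hij, mul_one]
        exact hιinj (h1.trans h2.symm)
      · rw [if_neg hij, mul_zero] at h1
        rw [if_neg hij, mul_zero]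
        exact hιinj (h1.trans (map_zero ι).symm)
    have hc₀0 := PSLn.lang_smul_ne_zero (by omega) (γ : GL (Fin n) F₀) _ hsc
    exact ⟨Units.mk0 _ hc₀0, hsc⟩

end Cent

section Iso

variable {F : Type u} [Field F] [Fintype F] {q n : ℕ}

/-- the centraliser in `Inndiag` of a conjugate of `x₀` is the image of a group `Γ` mapping
onto the centraliser of `x₀` in `GU_n(q)` modulo scalars -/
theorem ulang_centralizer_iso {Γ : Type v} [Group Γ] (θ : Γ →* ↥(Cfsg.GU n F q))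
    (x₀ : MulAut (Cfsg.PSU n F q)) (h₁ : ↥(Cfsg.GU n F q))
    (ha : ∀ γ, θ γ ∈ ulang_cGU x₀)
    (hb : ∀ g ∈ ulang_cGU x₀, ∃ γ : Γ, (uD g : MulAut (Cfsg.PSU n F q)) = uD (θ γ))
    (N : Subgroup Γ) [N.Normal]
    (hN : ∀ γ, γ ∈ N ↔ (uD (θ γ) : MulAut (Cfsg.PSU n F q)) = 1) :
    Nonempty (↥(Cfsg.inndiagPSU n F q
        ⊓ Subgroup.centralizer {uD h₁ * x₀ * (uD h₁)⁻¹}) ≃* Γ ⧸ N) := by
  set x : MulAut (Cfsg.PSU n F q) := uD h₁ * x₀ * (uD h₁)⁻¹ with hx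
  let Θ₀ : Γ →* MulAut (Cfsg.PSU n F q) :=
    (MulAut.conj (uD h₁ : MulAut (Cfsg.PSU n F q))).toMonoidHom.comp (uD.comp θ)
  have hΘ₀ : ∀ γ, Θ₀ γ = uD h₁ * uD (θ γ) * (uD h₁)⁻¹ := fun γ => rfl
  have hmem : ∀ γ, Θ₀ γ ∈ Cfsg.inndiagPSU n F q ⊓ Subgroup.centralizer {x} := by
    intro γ
    refine Subgroup.mem_inf.mpr ⟨?_, ?_⟩
    · rw [hΘ₀, ← map_mul, ← map_inv, ← map_mul]
      exact ulang_uD_mem_inndiag _
    · rw [Subgroup.mem_centralizer_iff]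
      intro y hy
      rw [Set.mem_singleton_iff] at hy
      subst hy
      have h1 := (ulang_mem_cGU x₀ (θ γ)).mp (ha γ)
      rw [hΘ₀, hx]
      calc uD h₁ * x₀ * (uD h₁)⁻¹ * (uD h₁ * uD (θ γ) * (uD h₁)⁻¹)
          = uD h₁ * (x₀ * uD (θ γ)) * (uD h₁)⁻¹ := by group
        _ = uD h₁ * (uD (θ γ) * x₀) * (uD h₁)⁻¹ := by rw [h1]
        _ = uD h₁ * uD (θ γ) * (uD h₁)⁻¹ * (uD h₁ * x₀ * (uD h₁)⁻¹) := by
            group
  let Θ : Γ →* ↥(Cfsg.inndiagPSU n F q ⊓ Subgroup.centralizer {x}) :=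
    Θ₀.codRestrict _ hmem
  have hker : Θ.ker = N := by
    ext γ
    rw [MonoidHom.mem_ker, hN]
    constructor
    · intro h
      have h1 : Θ₀ γ = 1 := congrArg Subtype.val h
      rw [hΘ₀] at h1
      have h2 : (uD (θ γ) : MulAut (Cfsg.PSU n F q))
          = (uD h₁)⁻¹ * (uD h₁ * uD (θ γ) * (uD h₁)⁻¹) * uD h₁ := by group
      rw [h2, h1]
      group
    · intro h
      apply Subtype.ext
      show Θ₀ γ = 1
      rw [hΘ₀, h]
      group
  have hsurj : Function.Surjective Θ := by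
    rintro ⟨y, hy⟩
    obtain ⟨hy1, hy2⟩ := Subgroup.mem_inf.mp hy
    obtain ⟨g, rfl⟩ := (ulang_mem_inndiag y).mp hy1
    rw [Subgroup.mem_centralizer_iff] at hy2
    have h1 := hy2 x rfl
    have h2 : h₁⁻¹ * g * h₁ ∈ ulang_cGU x₀ := by
      rw [ulang_mem_cGU, map_mul, map_mul, map_inv]
      calc (uD h₁)⁻¹ * uD g * uD h₁ * x₀
          = (uD h₁)⁻¹ * (uD g * (uD h₁ * x₀ * (uD h₁)⁻¹)) * uD h₁ := by group
        _ = (uD h₁)⁻¹ * ((uD h₁ * x₀ * (uD h₁)⁻¹) * uD g) * uD h₁ := by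
            rw [← hx, h1]
        _ = x₀ * ((uD h₁)⁻¹ * uD g * uD h₁) := by group
    obtain ⟨γ, hγ⟩ := hb _ h2
    refine ⟨γ, ?_⟩
    apply Subtype.ext
    show Θ₀ γ = uD g
    rw [hΘ₀, ← hγ, map_mul, map_mul, map_inv]
    group
  exact ⟨((QuotientGroup.quotientMulEquivOfEq hker.symm).trans
    (QuotientGroup.quotientKerEquivOfSurjective Θ hsurj)).symm⟩

/-- **field automorphisms of `PSU_n(q)` of odd prime order `r`**: `r ∣ f`, the centraliser in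
`Inndiag` is `PGU_n(q₀)` with `q₀ = p ^ (f / r)`, and the `Inndiag`-class splits into
`gcd(n, (q + 1) / (q₀ + 1))` classes under the inner automorphisms -/
theorem ulang_field_class (p f : ℕ) [Fact p.Prime] (hq : q = p ^ f)
    (hF : Fintype.card F = q ^ 2) (hn : 3 ≤ n) (h32 : ¬ (n = 3 ∧ q = 2))
    (x : MulAut (Cfsg.PSU n F q)) (hx : Cfsg.IsFieldAutClassPSU x) (r : ℕ)
    (hxr : orderOf x = r) (F₀ : Type v) [Field F₀] [Fintype F₀]
    (hF₀ : Fintype.card F₀ = p ^ (2 * (f / r))) :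
    r ∣ f ∧
      Nonempty (↥(Cfsg.inndiagPSU n F q ⊓ Subgroup.centralizer {x})
        ≃* Cfsg.PGU n F₀ (p ^ (f / r))) ∧
      Cfsg.splitClassCount (Cfsg.inndiagPSU n F q) (Cfsg.Inn (Cfsg.PSU n F q)) x
        = Nat.gcd n ((q + 1) / (p ^ (f / r) + 1)) := by
  have : CharP F p := charP_of_card_sq hq hF
  obtain ⟨σ, h, hσ, hodd, hxe⟩ := ulang_field_reduce p f hq hF hn h32 x hx
  have hσr : orderOf σ = r := by
    rw [← hxr, hxe, PSLn.lang_orderOf_conj, ulang_orderOf_uF hF p hn h32]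
  have hro : Odd r := hσr ▸ hodd
  obtain ⟨hrf, hq₀, -, -, -⟩ := ulang_fixed_field p f hq hF σ r hσr hro
  have hF' : Fintype.card F = p ^ (2 * f) := by rw [hF, hq, ← pow_mul, mul_comm]
  have hF₀' : Fintype.card F₀ = p ^ (2 * f / r) := by
    rw [hF₀, Nat.mul_div_assoc 2 hrf]
  have hF₀sq : Fintype.card F₀ = (p ^ (f / r)) ^ 2 := by
    rw [hF₀, mul_comm, pow_mul]
  obtain ⟨ι, hι⟩ := PSLn.lang_exists_embedding p (2 * f) hF' σ r hσr hro.pos F₀ hF₀'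
  refine ⟨hrf, ?_, ?_⟩
  · rw [hxe]
    refine ulang_centralizer_iso (ulang_theta hF hF₀sq r hro hq₀ ι) (uF σ) h ?_ ?_
      ((Cfsg.Geo.scalars (Fin n) F₀).subgroupOf (Cfsg.GU n F₀ (p ^ (f / r)))) ?_
    · intro γ
      rw [ulang_cGU_field hF p hn h32 σ r hσr hro hq₀ hF₀sq ι hι]
      exact ⟨1, _, ulang_theta_fixed hF hF₀sq r hro hq₀ σ ι hι γ, by rw [map_one, one_mul]⟩
    · intro g hg
      obtain ⟨c, g₀, hfix, rfl⟩ :=
        (ulang_cGU_field hF p hn h32 σ r hσr hro hq₀ hF₀sq ι hι g).mp hg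
      obtain ⟨γ, hγ⟩ := ulang_theta_surj hF hF₀sq r hro hq₀ σ ι hι g₀ hfix
      exact ⟨γ, by rw [hγ, map_mul, uD_scalarGU, one_mul]⟩
    · intro γ
      exact ulang_theta_ker hF hF₀sq r hro hq₀ p hn h32 ι γ
  · rw [ulang_split_count hF (by omega) x, hxe, ulang_cGU_conj,
      ulang_det_cGU_field hF p hn h32 σ r hσr hro hq₀ hF₀sq ι hι (by omega)]
    have hA := ulang_card_fixN1 hF σ r hro hq₀ hF₀sq ι hι
    have hN : Nat.card ↥(N1 F q) = q + 1 := Cfsg.Agent.Helper5.card_norm_one hF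
    have hdvd : Nat.card ↥((PSLn.lang_fixU σ).subgroupOf (N1 F q)) ∣ Nat.card ↥(N1 F q) :=
      Subgroup.card_subgroup_dvd_card _
    have hm : Nat.card ↥((PSLn.lang_fixU σ).subgroupOf (N1 F q))
        * ((q + 1) / (p ^ (f / r) + 1)) = Nat.card ↥(N1 F q) := by
      rw [hA, hN] at hdvd ⊢
      exact Nat.mul_div_cancel' hdvd
    exact PSLn.lang_cyclic_index _ _ hm n

end Iso

end Cfsg.Agent.Helper44.PSUn
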