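import Mathlib
import Cfsg.Agent.Helper45.IDMinus
import Cfsg.Agent.Helper43.OrthSemi
import Cfsg.Agent.Helper43.USimDet
import Cfsg.Agent.Helper43.NormGen

set_option autoImplicit false

/-!
Piece AL1 of CALL S2720 (helper43): a finite field `K ⊇ F` with an involution `σ ≠ 1` over `F` and a
linear form `ℓ` with `ℓ 1 ≠ 0`: the norm-one group is cyclic of even order `n`, acts freely, and
the number of its orbits on `{a ≠ 0 | ℓ (σ a * a) = d}` is odd for `d ≠ 0` and even for `d = 0`.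
-/

namespace Cfsg.Agent.Helper44.PFAL1

open Cfsg Matrix Polynomial Cfsg.Agent.Helper45 Cfsg.Agent.Helper45.ID

universe u

variable {ι : Type} [Fintype ι] [DecidableEq ι] {F : Type u} [Field F] [Fintype F]

/-- AL1: a finite field `K ⊇ F` with an involution `σ ≠ 1` over `F` and a linear form `ℓ` with
`ℓ 1 ≠ 0`.  `ζ` generates the norm-one group `N = {a | σ a * a = 1}`, `n = #N` (even since
`-1 ∈ N`); `a ↦ σ a * a` maps `Kˣ` onto the units of the fixed field `K₀` (norm surjectivity: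
`Cfsg.Agent.Helper43.NormGen.norm_surj_gen`) with fibres of size `n`, so the count is
`n * #{b ∈ K₀ | b ≠ 0 ∧ ℓ b = d}`; `ℓ` is onto on `K₀` and its fibres there have odd size. -/
theorem pf_al1 {K : Type*} [Field K] [Finite K] [Algebra F K] (hq : Odd (Fintype.card F))
    (σ : K →ₐ[F] K) (hσ : ∀ a, σ (σ a) = a) (hσ1 : ∃ a, σ a ≠ a) (ℓ : K →ₗ[F] F)
    (hℓ : ℓ 1 ≠ 0) :
    ∃ (ζ : K) (n : ℕ) (o : F → ℕ), σ ζ * ζ = 1 ∧ Even n ∧ 0 < n ∧ ζ ^ n = 1 ∧
      (∀ i : ℕ, ζ ^ i = 1 → n ∣ i) ∧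
      (∀ d : F, Nat.card {a : K // a ≠ 0 ∧ ℓ (σ a * a) = d} = n * o d) ∧
      (∀ d : F, d ≠ 0 → Odd (o d)) ∧ Even (o 0) := by
  classical
  have h2F : (2 : F) ≠ 0 := Helper45.two_ne_zero_of_odd_card hq
  have h2K : (2 : K) ≠ 0 := by
    intro h
    apply h2F
    apply (algebraMap F K).injective
    rw [map_ofNat, map_zero]
    exact h
  haveI : Fintype K := Fintype.ofFinite K
  -- norm surjectivity
  have hnorm : ∀ b : K, b ≠ 0 → σ b = b → ∃ c : K, c ≠ 0 ∧ σ c * c = b := by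
    intro b hb hσb
    haveI : Fact (ringChar K).Prime := ⟨CharP.char_is_prime K (ringChar K)⟩
    obtain ⟨θ, hθ⟩ := hσ1
    have hε0 : θ - σ θ ≠ 0 := sub_ne_zero.mpr (Ne.symm hθ)
    have hε : (σ : K →+* K) ((Units.mk0 (θ - σ θ) hε0 : Kˣ) : K)
        = -((Units.mk0 (θ - σ θ) hε0 : Kˣ) : K) := by
      show σ (θ - σ θ) = -(θ - σ θ)
      rw [map_sub, hσ]
      ring
    have hlam : (2⁻¹ : K) + (σ : K →+* K) (2⁻¹ : K) = 1 := by
      show (2⁻¹ : K) + σ (2⁻¹ : K) = 1
      rw [map_inv₀, map_ofNat, ← two_mul, mul_inv_cancel₀ h2K]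
    obtain ⟨c, hc⟩ := Cfsg.Agent.Helper43.NormGen.norm_surj_gen (S := K) (ringChar K)
      (CharP.cast_eq_zero K (ringChar K)) (σ : K →+* K) hσ (Units.mk0 _ hε0) hε (2⁻¹ : K) hlam
      (Units.mk0 b hb) hσb
    refine ⟨c, c.ne_zero, ?_⟩
    rw [mul_comm]
    exact hc
  choose! s hs using hnorm
  -- the norm one group
  obtain ⟨ν, hν⟩ : ∃ ν : Kˣ →* Kˣ, ∀ a : Kˣ, ((ν a : Kˣ) : K) = σ (a : K) * (a : K) :=
    ⟨(Units.map (σ : K →* K)) * MonoidHom.id Kˣ, fun a => rfl⟩
  obtain ⟨N, hN⟩ : ∃ N : Subgroup Kˣ, N = ν.ker := ⟨_, rfl⟩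
  have hmemN : ∀ a : Kˣ, a ∈ N ↔ σ (a : K) * (a : K) = 1 := by
    intro a
    rw [hN, MonoidHom.mem_ker]
    constructor
    · intro h
      rw [← hν, h, Units.val_one]
    · intro h
      apply Units.ext
      rw [hν, h, Units.val_one]
  obtain ⟨ζ', hζ'⟩ := IsCyclic.exists_generator (α := ↥N)
  have horder : orderOf ζ' = Nat.card ↥N := orderOf_eq_card_of_forall_mem_zpowers hζ'
  -- the fixed kernel
  obtain ⟨H, hH⟩ : ∃ H : Submodule F K, ∀ b : K, b ∈ H ↔ (σ b = b ∧ ℓ b = 0) := by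
    refine ⟨{ carrier := {b | σ b = b ∧ ℓ b = 0}
              add_mem' := ?_
              zero_mem' := ?_
              smul_mem' := ?_ }, fun b => Iff.rfl⟩
    · rintro x y ⟨hx1, hx2⟩ ⟨hy1, hy2⟩
      exact ⟨by rw [map_add, hx1, hy1], by rw [map_add, hx2, hy2, add_zero]⟩
    · exact ⟨map_zero σ, map_zero ℓ⟩
    · rintro c x ⟨hx1, hx2⟩
      exact ⟨by rw [map_smul, hx1], by rw [map_smul, hx2, smul_zero]⟩
  have htodd : Odd (Nat.card ↥H) := by
    rw [Module.natCard_eq_pow_finrank (K := F) (V := ↥H), Nat.card_eq_fintype_card]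
    exact hq.pow
  have hfib : ∀ d : F, Nat.card {b : K // σ b = b ∧ ℓ b = d} = Nat.card ↥H := by
    intro d
    obtain ⟨b₀, hb₀⟩ : ∃ b₀ : K, b₀ = (d / ℓ 1) • (1 : K) := ⟨_, rfl⟩
    have hb1 : σ b₀ = b₀ := by rw [hb₀, map_smul, map_one σ]
    have hb2 : ℓ b₀ = d := by
      rw [hb₀, map_smul, smul_eq_mul, div_mul_cancel₀ _ hℓ]
    apply Nat.card_congr
    exact
      { toFun := fun b => ⟨b.1 - b₀, (hH _).mpr ⟨by rw [map_sub, b.2.1, hb1],
          by rw [map_sub, b.2.2, hb2, sub_self]⟩⟩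
        invFun := fun h => ⟨b₀ + h.1, ⟨by rw [map_add, hb1, ((hH _).mp h.2).1],
          by rw [map_add, hb2, ((hH _).mp h.2).2, add_zero]⟩⟩
        left_inv := fun b => Subtype.ext (by simp)
        right_inv := fun h => Subtype.ext (by simp) }
  refine ⟨((ζ' : Kˣ) : K), Nat.card ↥N,
    fun d => Nat.card {b : K // b ≠ 0 ∧ σ b = b ∧ ℓ b = d}, ?_, ?_, ?_, ?_, ?_, ?_, ?_, ?_⟩
  · exact (hmemN _).mp ζ'.2
  · -- even order
    have hm1 : (-1 : Kˣ) ∈ N := by
      rw [hmemN]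
      simp
    have ho : orderOf (⟨-1, hm1⟩ : ↥N) = 2 := by
      apply orderOf_eq_prime
      · apply Subtype.ext
        simp
      · intro h
        have h1 : ((-1 : Kˣ) : K) = 1 := by
          have := congrArg (fun x : ↥N => ((x : Kˣ) : K)) h
          simpa using this
        rw [Units.val_neg, Units.val_one] at h1
        apply h2K
        linear_combination -h1
    rw [even_iff_two_dvd, ← ho]
    exact orderOf_dvd_natCard _
  · exact Nat.card_pos
  · have h1 : ζ' ^ Nat.card ↥N = 1 := pow_card_eq_one'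
    have h2 : (((ζ' ^ Nat.card ↥N : ↥N) : Kˣ) : K) = 1 := by
      rw [h1]
      rfl
    rw [Subgroup.coe_pow, Units.val_pow_eq_pow_val] at h2
    exact h2
  · intro i hi
    rw [← horder]
    apply orderOf_dvd_of_pow_eq_one
    apply Subtype.ext
    apply Units.ext
    simpa using hi
  · -- the count
    intro d
    rw [mul_comm, ← Nat.card_prod]
    apply Nat.card_congr
    symm
    refine Equiv.ofBijective (fun bu : {b : K // b ≠ 0 ∧ σ b = b ∧ ℓ b = d} × ↥N =>
      (⟨s bu.1.1 * ((bu.2 : Kˣ) : K), ?_⟩ : {a : K // a ≠ 0 ∧ ℓ (σ a * a) = d})) ⟨?_, ?_⟩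
    · have h1 := hs bu.1.1 bu.1.2.1 bu.1.2.2.1
      refine ⟨mul_ne_zero h1.1 (Units.ne_zero _), ?_⟩
      have h2 : σ (s bu.1.1 * ((bu.2 : Kˣ) : K)) * (s bu.1.1 * ((bu.2 : Kˣ) : K)) = bu.1.1 := by
        have h3 := (hmemN _).mp bu.2.2
        rw [map_mul]
        calc σ (s bu.1.1) * σ ((bu.2 : Kˣ) : K) * (s bu.1.1 * ((bu.2 : Kˣ) : K))
            = (σ (s bu.1.1) * s bu.1.1) * (σ ((bu.2 : Kˣ) : K) * ((bu.2 : Kˣ) : K)) := by ring
          _ = bu.1.1 := by rw [h1.2, h3, mul_one]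
      rw [h2]
      exact bu.1.2.2.2
    · -- injective
      rintro ⟨⟨b, hb⟩, u⟩ ⟨⟨b', hb'⟩, u'⟩ h
      have h0 : s b * ((u : Kˣ) : K) = s b' * ((u' : Kˣ) : K) := congrArg Subtype.val h
      have h1 := hs b hb.1 hb.2.1
      have h1' := hs b' hb'.1 hb'.2.1
      have hn : ∀ (b : K) (u : ↥N), σ (s b) * s b = b →
          σ (s b * ((u : Kˣ) : K)) * (s b * ((u : Kˣ) : K)) = b := by
        intro b u hb
        have h3 := (hmemN _).mp u.2
        rw [map_mul]
        calc σ (s b) * σ ((u : Kˣ) : K) * (s b * ((u : Kˣ) : K))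
            = (σ (s b) * s b) * (σ ((u : Kˣ) : K) * ((u : Kˣ) : K)) := by ring
          _ = b := by rw [hb, h3, mul_one]
      have hbb : b = b' := by
        rw [← hn b u h1.2, ← hn b' u' h1'.2, h0]
      subst hbb
      have huu : ((u : Kˣ) : K) = ((u' : Kˣ) : K) := mul_left_cancel₀ h1.1 h0
      have : u = u' := Subtype.ext (Units.ext huu)
      rw [this]
    · -- surjective
      rintro ⟨a, ha0, had⟩
      have hb0 : σ a * a ≠ 0 := by
        apply mul_ne_zero _ ha0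
        intro h
        have := hσ a
        rw [h, map_zero] at this
        exact ha0 this.symm
      have hbσ : σ (σ a * a) = σ a * a := by
        rw [map_mul, hσ, mul_comm]
      have h1 := hs (σ a * a) hb0 hbσ
      have hu0 : a / s (σ a * a) ≠ 0 := div_ne_zero ha0 h1.1
      have huN : Units.mk0 (a / s (σ a * a)) hu0 ∈ N := by
        rw [hmemN]
        show σ (a / s (σ a * a)) * (a / s (σ a * a)) = 1
        rw [map_div₀, div_mul_div_comm, h1.2, div_self hb0]
      refine ⟨⟨⟨σ a * a, hb0, hbσ, had⟩, ⟨Units.mk0 _ hu0, huN⟩⟩, ?_⟩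
      apply Subtype.ext
      show s (σ a * a) * (a / s (σ a * a)) = a
      rw [mul_div_cancel₀ _ h1.1]
  · -- odd
    intro d hd
    have : Nat.card {b : K // b ≠ 0 ∧ σ b = b ∧ ℓ b = d} = Nat.card {b : K // σ b = b ∧ ℓ b = d} := by
      apply Nat.card_congr
      apply Equiv.subtypeEquivRight
      intro b
      constructor
      · intro h
        exact h.2
      · intro h
        refine ⟨?_, h⟩
        rintro rfl
        have h' := h.2
        rw [map_zero] at h'
        exact hd h'.symm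
    show Odd (Nat.card {b : K // b ≠ 0 ∧ σ b = b ∧ ℓ b = d})
    rw [this, hfib d]
    exact htodd
  · -- even
    have h1 := hfib 0
    rw [Nat.card_eq_fintype_card, Fintype.card_subtype] at h1
    have h2 : Nat.card {b : K // b ≠ 0 ∧ σ b = b ∧ ℓ b = 0}
        = ((Finset.univ.filter fun b : K => σ b = b ∧ ℓ b = 0).filter fun b => b ≠ 0).card := by
      rw [Nat.card_eq_fintype_card, Fintype.card_subtype, Finset.filter_filter]
      congr 1
      apply Finset.filter_congr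
      intro b _
      tauto
    have h3 : ((Finset.univ.filter fun b : K => σ b = b ∧ ℓ b = 0).filter fun b => ¬ b ≠ 0)
        = {0} := by
      ext b
      simp only [Finset.mem_filter, Finset.mem_univ, true_and, not_not, Finset.mem_singleton]
      constructor
      · intro h
        exact h.2
      · rintro rfl
        exact ⟨⟨map_zero σ, map_zero ℓ⟩, rfl⟩
    have h4 := Finset.card_filter_add_card_filter_not
      (s := Finset.univ.filter fun b : K => σ b = b ∧ ℓ b = 0) (fun b => b ≠ 0)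
    rw [h3, Finset.card_singleton, ← h2, h1] at h4
    show Even (Nat.card {b : K // b ≠ 0 ∧ σ b = b ∧ ℓ b = 0})
    rcases htodd with ⟨m, hm⟩
    exact ⟨m, by omega⟩

end Cfsg.Agent.Helper44.PFAL1
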