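import Mathlib
import Cfsg.Agent.Helper45.IDMinus

set_option autoImplicit false

/-!
Helper44 copies of the pieces ADJ and EV of CALL S2720 (helper43), used by `PFMODEL1`.
-/

namespace Cfsg.Agent.Helper44.PFEVADJ

open Cfsg Matrix Polynomial

universe u

variable {ι : Type} [Fintype ι] [DecidableEq ι] {F : Type u} [Field F] [Fintype F]

/-- ADJ: the adjoint of `a(G)` is `a(G⁻¹)`, `G⁻¹ = G ^ (r - 1)` -/
theorem adj_aux (Q : QuadraticForm F (ι → F)) (G : Matrix ι ι F) (hG : ∀ x, Q (G *ᵥ x) = Q x)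
    (r : ℕ) (hr0 : 0 < r) (hGr : G ^ r = 1) (a : F[X]) (x y : ι → F) :
    QuadraticMap.polar ⇑Q ((aeval G a) *ᵥ x) y
      = QuadraticMap.polar ⇑Q x ((aeval (G ^ (r - 1)) a) *ᵥ y) := by
  have hpol : ∀ x y : ι → F, QuadraticMap.polar ⇑Q (G *ᵥ x) (G *ᵥ y) = QuadraticMap.polar ⇑Q x y := by
    intro x y
    unfold QuadraticMap.polar
    rw [← Matrix.mulVec_add, hG, hG, hG]
  have hGinv : G * G ^ (r - 1) = 1 := by
    rw [← pow_succ', Nat.sub_add_cancel hr0, hGr]
  have h1 : ∀ x y : ι → F, QuadraticMap.polar ⇑Q (G *ᵥ x) y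
      = QuadraticMap.polar ⇑Q x ((G ^ (r - 1)) *ᵥ y) := by
    intro x y
    have e : G *ᵥ ((G ^ (r - 1)) *ᵥ y) = y := by
      rw [Matrix.mulVec_mulVec, hGinv, Matrix.one_mulVec]
    rw [← hpol x, e]
  have hk : ∀ (k : ℕ) (x y : ι → F), QuadraticMap.polar ⇑Q ((G ^ k) *ᵥ x) y
      = QuadraticMap.polar ⇑Q x (((G ^ (r - 1)) ^ k) *ᵥ y) := by
    intro k
    induction k with
    | zero =>
      intro x y
      rw [pow_zero, pow_zero, Matrix.one_mulVec, Matrix.one_mulVec]
    | succ k ih =>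
      intro x y
      rw [pow_succ, ← Matrix.mulVec_mulVec, ih, h1, Matrix.mulVec_mulVec, ← pow_succ']
  induction a using Polynomial.induction_on' with
  | add p q hp hq =>
    rw [map_add, Matrix.add_mulVec, QuadraticMap.polar_add_left, hp, hq, map_add,
      Matrix.add_mulVec, QuadraticMap.polar_add_right]
  | monomial n c =>
    rw [← C_mul_X_pow_eq_monomial, map_mul, aeval_C, map_pow, aeval_X, map_mul, aeval_C, map_pow,
      aeval_X, Algebra.algebraMap_eq_smul_one, smul_mul_assoc, one_mul, smul_mul_assoc, one_mul,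
      Matrix.smul_mulVec, Matrix.smul_mulVec, QuadraticMap.polar_smul_left,
      QuadraticMap.polar_smul_right, hk]

/-- EV: the cyclic module generated by a vector killed by the irreducible `f(G)` is `F[X]/(f)` -/
theorem ev_aux (G : Matrix ι ι F) (f : F[X]) (hf : Irreducible f) (v : ι → F) (hv : v ≠ 0)
    (hfv : (aeval G f) *ᵥ v = 0) :
    ∃ j : AdjoinRoot f →ₗ[F] (ι → F), Function.Injective j ∧
      ∀ a : F[X], j (AdjoinRoot.mk f a) = (aeval G a) *ᵥ v := by
  have hkill : ∀ c : F[X], (aeval G (f * c)) *ᵥ v = 0 := by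
    intro c
    rw [mul_comm, map_mul, ← Matrix.mulVec_mulVec, hfv, Matrix.mulVec_zero]
  have hwd : ∀ a b : F[X], AdjoinRoot.mk f a = AdjoinRoot.mk f b →
      (aeval G a) *ᵥ v = (aeval G b) *ᵥ v := by
    intro a b hab
    obtain ⟨c, hc⟩ := AdjoinRoot.mk_eq_mk.mp hab
    have : a = b + f * c := by rw [← hc]; ring
    rw [this, map_add, Matrix.add_mulVec, hkill, add_zero]
  obtain ⟨j₀, hj₀def⟩ : ∃ j₀ : AdjoinRoot f → (ι → F), j₀ = fun x =>
      (aeval G (Function.surjInv (AdjoinRoot.mk_surjective (g := f)) x)) *ᵥ v := ⟨_, rfl⟩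
  have hj₀ : ∀ a : F[X], j₀ (AdjoinRoot.mk f a) = (aeval G a) *ᵥ v := by
    intro a
    rw [hj₀def]
    exact hwd _ _ (Function.surjInv_eq (AdjoinRoot.mk_surjective (g := f)) (AdjoinRoot.mk f a))
  have hadd : ∀ x y : AdjoinRoot f, j₀ (x + y) = j₀ x + j₀ y := by
    intro x y
    induction x using AdjoinRoot.induction_on with
    | ih a =>
      induction y using AdjoinRoot.induction_on with
      | ih b =>
        rw [← map_add, hj₀, hj₀, hj₀, map_add, Matrix.add_mulVec]
  have hsmul : ∀ (c : F) (x : AdjoinRoot f), j₀ (c • x) = c • j₀ x := by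
    intro c x
    induction x using AdjoinRoot.induction_on with
    | ih a =>
      rw [AdjoinRoot.smul_mk, hj₀, hj₀, map_smul, Matrix.smul_mulVec]
  refine ⟨{ toFun := j₀, map_add' := hadd, map_smul' := hsmul }, ?_, hj₀⟩
  rw [← LinearMap.ker_eq_bot, LinearMap.ker_eq_bot']
  intro x hx
  induction x using AdjoinRoot.induction_on with
  | ih a =>
    have hx' : (aeval G a) *ᵥ v = 0 := by
      rw [← hj₀]
      exact hx
    rw [AdjoinRoot.mk_eq_zero]
    by_contra hnd
    obtain ⟨s, t, hst⟩ := (hf.coprime_iff_not_dvd).mpr hnd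
    apply hv
    have h1 : (aeval G (s * f + t * a)) *ᵥ v = v := by
      rw [hst, map_one, Matrix.one_mulVec]
    rw [map_add, Matrix.add_mulVec, mul_comm s f, hkill, zero_add, map_mul,
      ← Matrix.mulVec_mulVec, hx', Matrix.mulVec_zero] at h1
    exact h1.symm

end Cfsg.Agent.Helper44.PFEVADJ
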