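import Mathlib
import Cfsg.Agent.Helper45.IDMinus
import Cfsg.Agent.Helper43.OrthSemi
import Cfsg.Agent.Helper43.USimDet
import Cfsg.Agent.Helper43.NormGen
import Cfsg.Agent.Helper44.PFAL1
import Cfsg.Agent.Helper44.PFEVADJ

set_option autoImplicit false

/-!
Piece MODEL1 of CALL S2720 (helper43): the model `M = K = F[X]/(f)` when `ker f(G)` contains an
anisotropic vector.
-/

namespace Cfsg.Agent.Helper44.PFMODEL1

open Cfsg Matrix Polynomial Cfsg.Agent.Helper45 Cfsg.Agent.Helper45.ID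

universe u

variable {ι : Type} [Fintype ι] [DecidableEq ι] {F : Type u} [Field F] [Fintype F]

/-- MODEL1: the model `M = K = F[X]/(f)` when `ker f(G)` contains an anisotropic vector `v`.
`j a = a(G) v` (`pf_ev`); `f(G⁻¹) v = 0` (else `f(G⁻¹)` is invertible on `F[G] v` and
`B(v, v) = 0` by `pf_adj`), so `X ↦ X ^ (r - 1)` induces an involution `σ ≠ 1` of `K` with
`j (σ a) = a(G⁻¹) v`; `Q (j a) = ℓ (σ a * a) / 2` with `ℓ a = B(j a, v)`; apply `pf_al1`;
`z` = multiplication by `ζ`, `γ` = multiplication by the root. -/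
theorem pf_model1 (Q : QuadraticForm F (ι → F)) (hq : Odd (Fintype.card F))
    (G : Matrix ι ι F) (hG : ∀ x, Q (G *ᵥ x) = Q x) {r : ℕ} (hr : r.Prime) (hro : Odd r)
    (hGr : G ^ r = 1) (f : F[X]) (hf : Irreducible f) (hfd : f ∣ Polynomial.X ^ r - 1)
    (hf1 : f.eval 1 ≠ 0) (v : ι → F) (hfv : (aeval G f) *ᵥ v = 0) (hQv : Q v ≠ 0) :
    ∃ (j : AdjoinRoot f →ₗ[F] (ι → F)) (z γ : AdjoinRoot f →ₗ[F] AdjoinRoot f) (n : ℕ)
      (o : F → ℕ),
      (∀ m, Q (j (z m)) = Q (j m)) ∧ (∀ m, G *ᵥ j m = j (γ m)) ∧ (∀ m, z (γ m) = γ (z m)) ∧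
      (∀ m, (∀ m', QuadraticMap.polar ⇑Q (j m) (j m') = 0) → m = 0) ∧ Even n ∧ 0 < n ∧
      (∀ m, m ≠ 0 → ∀ i : ℕ, (z ^ i) m = m → n ∣ i) ∧ z ^ n = 1 ∧
      (∀ d : F, Nat.card {m : AdjoinRoot f // m ≠ 0 ∧ Q (j m) = d} = n * o d) ∧
      (∀ d : F, d ≠ 0 → Odd (o d)) ∧ Even (o 0) := by
  classical
  haveI : Fact (Irreducible f) := ⟨hf⟩
  haveI : Module.Finite F (AdjoinRoot f) := (AdjoinRoot.powerBasis hf.ne_zero).finite
  haveI : Finite (AdjoinRoot f) := Module.finite_of_finite F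
  have h2 : (2 : F) ≠ 0 := two_ne_zero_of_odd_card hq
  have hv0 : v ≠ 0 := by
    rintro rfl
    exact hQv (map_zero Q)
  have hr0 : 0 < r := hr.pos
  obtain ⟨j, hjinj, hj⟩ := Cfsg.Agent.Helper44.PFEVADJ.ev_aux G f hf v hv0 hfv
  obtain ⟨H, hH⟩ : ∃ H : Matrix ι ι F, H = G ^ (r - 1) := ⟨_, rfl⟩
  have hadj : ∀ (a : F[X]) (x y : ι → F), QuadraticMap.polar ⇑Q ((aeval G a) *ᵥ x) y
      = QuadraticMap.polar ⇑Q x ((aeval H a) *ᵥ y) := by
    intro a x y
    rw [hH]
    exact Cfsg.Agent.Helper44.PFEVADJ.adj_aux Q G hG r hr0 hGr a x y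
  have hpolself : ∀ x : ι → F, QuadraticMap.polar ⇑Q x x = 2 * Q x := by
    intro x
    rw [QuadraticMap.polar_self, nsmul_eq_mul]
    norm_num
  -- the root has order dividing `r`
  have hroot : (AdjoinRoot.root f) ^ r = 1 := by
    have h := AdjoinRoot.mk_eq_zero.mpr hfd
    rw [map_sub, map_pow, AdjoinRoot.mk_X, map_one, sub_eq_zero] at h
    exact h
  have hj1 : j 1 = v := by
    have h := hj 1
    rw [map_one (AdjoinRoot.mk f), map_one (aeval G), Matrix.one_mulVec] at h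
    exact h
  have hjmul : ∀ (a : F[X]) (m : AdjoinRoot f), j (AdjoinRoot.mk f a * m) = (aeval G a) *ᵥ j m := by
    intro a m
    induction m using AdjoinRoot.induction_on with
    | ih b =>
      rw [← map_mul, hj, hj, map_mul, Matrix.mulVec_mulVec]
  have hcomp : ∀ a : F[X], aeval G (a.comp (Polynomial.X ^ (r - 1))) = aeval H a := by
    intro a
    rw [Polynomial.aeval_comp, map_pow, aeval_X, hH]
  have hmkcomp : ∀ a : F[X], AdjoinRoot.mk f (a.comp (Polynomial.X ^ (r - 1)))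
      = aeval (AdjoinRoot.root f ^ (r - 1)) a := by
    intro a
    rw [← AdjoinRoot.aeval_eq, Polynomial.aeval_comp, map_pow, aeval_X]
  -- `f(G⁻¹) v = 0`
  have hκ : AdjoinRoot.mk f (f.comp (Polynomial.X ^ (r - 1))) = 0 := by
    by_contra hne
    have h1 : j (AdjoinRoot.mk f (f.comp (Polynomial.X ^ (r - 1)))
        * (AdjoinRoot.mk f (f.comp (Polynomial.X ^ (r - 1))))⁻¹)
        = (aeval H f) *ᵥ j (AdjoinRoot.mk f (f.comp (Polynomial.X ^ (r - 1))))⁻¹ := by
      rw [hjmul, hcomp]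
    rw [mul_inv_cancel₀ hne, hj1] at h1
    have h3 : QuadraticMap.polar ⇑Q v v = 0 := by
      nth_rewrite 2 [h1]
      rw [← hadj f v, hfv]
      exact QuadraticMap.polar_zero_left _ _
    rw [hpolself] at h3
    rcases mul_eq_zero.mp h3 with h | h
    · exact h2 h
    · exact hQv h
  have hκ' : f.eval₂ ((Algebra.ofId F (AdjoinRoot f) : F →ₐ[F] AdjoinRoot f) : F →+* AdjoinRoot f)
      (AdjoinRoot.root f ^ (r - 1)) = 0 := by
    have h := hmkcomp f
    rw [hκ] at h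
    rw [Polynomial.aeval_def] at h
    exact h.symm
  obtain ⟨σ, hσdef⟩ : ∃ σ : AdjoinRoot f →ₐ[F] AdjoinRoot f,
      σ = AdjoinRoot.liftAlgHom f (Algebra.ofId F (AdjoinRoot f)) (AdjoinRoot.root f ^ (r - 1)) hκ' :=
    ⟨_, rfl⟩
  have hσroot : σ (AdjoinRoot.root f) = AdjoinRoot.root f ^ (r - 1) := by
    rw [hσdef]
    exact AdjoinRoot.liftAlgHom_root _ _ _ _
  have hσmk : ∀ a : F[X], σ (AdjoinRoot.mk f a) = AdjoinRoot.mk f (a.comp (Polynomial.X ^ (r - 1))) := by
    intro a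
    rw [hmkcomp, hσdef, AdjoinRoot.liftAlgHom_mk, Polynomial.aeval_def]
    rfl
  have hrr : AdjoinRoot.root f ^ ((r - 1) * (r - 1)) = AdjoinRoot.root f := by
    have h2r : 2 ≤ r := hr.two_le
    have e : (r - 1) * (r - 1) = r * (r - 2) + 1 := by
      obtain ⟨k, rfl⟩ : ∃ k, r = k + 2 := ⟨r - 2, by omega⟩
      simp only [Nat.add_sub_cancel]
      have : k + 2 - 1 = k + 1 := by omega
      rw [this]
      ring
    rw [e, pow_succ, pow_mul, hroot, one_pow, one_mul]
  have hσσ : ∀ a, σ (σ a) = a := by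
    have h : σ.comp σ = AlgHom.id F (AdjoinRoot f) := by
      apply AdjoinRoot.algHom_ext
      rw [AlgHom.comp_apply, hσroot, map_pow, hσroot, ← pow_mul, hrr]
      rfl
    intro a
    have := congrArg (fun φ : AdjoinRoot f →ₐ[F] AdjoinRoot f => φ a) h
    exact this
  have hσ1 : ∃ a, σ a ≠ a := by
    refine ⟨AdjoinRoot.root f, ?_⟩
    rw [hσroot]
    intro h
    have hsq : AdjoinRoot.root f * AdjoinRoot.root f = 1 := by
      have h3 : AdjoinRoot.root f ^ (r - 1) * AdjoinRoot.root f = 1 := by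
        rw [← pow_succ, Nat.sub_add_cancel hr.one_le, hroot]
      rw [h] at h3
      exact h3
    obtain ⟨k, hk⟩ := hro
    have hone : AdjoinRoot.root f = 1 := by
      have h4 : AdjoinRoot.root f ^ r = AdjoinRoot.root f := by
        rw [hk, pow_succ, pow_mul, pow_two, hsq, one_pow, one_mul]
      rw [hroot] at h4
      exact h4.symm
    have h5 : aeval (AdjoinRoot.root f) f = 0 := by
      rw [AdjoinRoot.aeval_eq, AdjoinRoot.mk_self]
    rw [hone] at h5
    have h6 : aeval (1 : AdjoinRoot f) f = algebraMap F (AdjoinRoot f) (f.eval 1) := by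
      have := Polynomial.aeval_algebraMap_apply (AdjoinRoot f) (1 : F) f
      rw [map_one] at this
      rw [this, Polynomial.coe_aeval_eq_eval]
    rw [h6] at h5
    apply hf1
    apply (algebraMap F (AdjoinRoot f)).injective
    rw [h5, map_zero]
  have hσinj : ∀ a, σ a = 0 → a = 0 := by
    intro a ha
    have := hσσ a
    rw [ha, map_zero] at this
    exact this.symm
  -- the bilinear form through `σ`
  have hB : ∀ a b : AdjoinRoot f, QuadraticMap.polar ⇑Q (j a) (j b)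
      = QuadraticMap.polar ⇑Q v (j (σ a * b)) := by
    intro a b
    induction a using AdjoinRoot.induction_on with
    | ih a' =>
      rw [hj, hadj, hσmk, hjmul, hcomp]
  obtain ⟨ℓ, hℓ⟩ : ∃ ℓ : AdjoinRoot f →ₗ[F] F,
      ∀ c, ℓ c = 2⁻¹ * QuadraticMap.polar ⇑Q v (j c) :=
    ⟨(2⁻¹ : F) • ((QuadraticMap.polarBilin Q v).comp j), fun c => rfl⟩
  have hQj : ∀ a : AdjoinRoot f, Q (j a) = ℓ (σ a * a) := by
    intro a
    rw [hℓ, ← hB, hpolself, ← mul_assoc, inv_mul_cancel₀ h2, one_mul]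
  have hℓ1 : ℓ 1 ≠ 0 := by
    rw [hℓ, hj1, hpolself, ← mul_assoc, inv_mul_cancel₀ h2, one_mul]
    exact hQv
  obtain ⟨ζ, n, o, hζ, hn, hn0, hζn, hζfree, hcount, hodd, heven⟩ :=
    Cfsg.Agent.Helper44.PFAL1.pf_al1 (K := AdjoinRoot f) hq σ hσσ hσ1 ℓ hℓ1
  have hzpow : ∀ (i : ℕ) (m : AdjoinRoot f),
      ((LinearMap.mulLeft F ζ) ^ i) m = ζ ^ i * m := by
    intro i
    induction i with
    | zero =>
      intro m
      rw [pow_zero, pow_zero, one_mul, Module.End.one_apply]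
    | succ i ih =>
      intro m
      rw [pow_succ, Module.End.mul_apply, LinearMap.mulLeft_apply, ih, pow_succ, mul_assoc]
  refine ⟨j, LinearMap.mulLeft F ζ, LinearMap.mulLeft F (AdjoinRoot.root f), n, o,
    ?_, ?_, ?_, ?_, hn, hn0, ?_, ?_, ?_, hodd, heven⟩
  · intro m
    rw [hQj, hQj, LinearMap.mulLeft_apply, map_mul σ]
    congr 1
    calc σ ζ * σ m * (ζ * m) = (σ ζ * ζ) * (σ m * m) := by ring
      _ = σ m * m := by rw [hζ, one_mul]
  · intro m
    rw [LinearMap.mulLeft_apply, ← AdjoinRoot.mk_X, hjmul, aeval_X]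
  · intro m
    rw [LinearMap.mulLeft_apply, LinearMap.mulLeft_apply, LinearMap.mulLeft_apply,
      LinearMap.mulLeft_apply, mul_left_comm]
  · intro m hm
    by_contra hm0
    have hσm : σ m ≠ 0 := fun h => hm0 (hσinj m h)
    have h := hm (σ m)⁻¹
    rw [hB, mul_inv_cancel₀ hσm, hj1, hpolself] at h
    rcases mul_eq_zero.mp h with h | h
    · exact h2 h
    · exact hQv h
  · intro m hm i hi
    rw [hzpow] at hi
    apply hζfree
    have h : (ζ ^ i - 1) * m = 0 := by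
      rw [sub_mul, hi, one_mul, sub_self]
    rcases mul_eq_zero.mp h with h | h
    · exact sub_eq_zero.mp h
    · exact absurd h hm
  · apply LinearMap.ext
    intro m
    rw [hzpow, hζn, one_mul, Module.End.one_apply]
  · intro d
    rw [← hcount d]
    apply Nat.card_congr
    apply Equiv.subtypeEquivRight
    intro m
    rw [hQj]

end Cfsg.Agent.Helper44.PFMODEL1
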