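import Cfsg.Agent.Helper2.Transfer

set_option autoImplicit false

namespace Cfsg.Agent.Helper44

open Cfsg Subgroup

universe u

/-- TRS. Transfer: an element of `L' ∩ Z(L)` generating a Hall subgroup of `L` is trivial
(`Helper2.eq_one_of_mem_hall_of_mem_center_of_mem_commutator` in `↥L`,
H := (zpowers w).subgroupOf L). -/
theorem bg15_transfer_kill {Δ : Type u} [Group Δ] [Finite Δ] (L : Subgroup Δ) (w : Δ)
    (hwL : w ∈ L) (hcent : ∀ g ∈ L, g * w = w * g) (hcomm : w ∈ ⁅L, L⁆)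
    (hHall : (orderOf w).Coprime ((zpowers w).relIndex L)) : w = 1 := by
  have hsub : (zpowers w).subgroupOf L = zpowers (⟨w, hwL⟩ : ↥L) := by
    ext y
    rw [Subgroup.mem_subgroupOf, Subgroup.mem_zpowers_iff, Subgroup.mem_zpowers_iff]
    constructor
    · rintro ⟨n, hn⟩
      exact ⟨n, Subtype.ext (by rw [Subgroup.coe_zpow]; exact hn)⟩
    · rintro ⟨n, hn⟩
      refine ⟨n, ?_⟩
      have := congrArg Subtype.val hn
      rwa [Subgroup.coe_zpow] at this
  have hord : orderOf (⟨w, hwL⟩ : ↥L) = orderOf w := by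
    rw [← Subgroup.orderOf_coe]
  have hidx : (zpowers (⟨w, hwL⟩ : ↥L)).index = (zpowers w).relIndex L := by
    rw [← hsub]
    rfl
  have hc : (⟨w, hwL⟩ : ↥L) ∈ Subgroup.center ↥L := by
    rw [Subgroup.mem_center_iff]
    intro g
    exact Subtype.ext (hcent g.1 g.2)
  have hc' : (⟨w, hwL⟩ : ↥L) ∈ commutator ↥L := by
    rw [← Subgroup.map_subtype_commutator] at hcomm
    obtain ⟨y, hy, hyw⟩ := hcomm
    have : y = ⟨w, hwL⟩ := Subtype.ext hyw
    rwa [← this]
  have h := Cfsg.Agent.Helper2.eq_one_of_mem_hall_of_mem_center_of_mem_commutator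
    (zpowers (⟨w, hwL⟩ : ↥L))
    (by rw [Nat.card_zpowers, hord, hidx]; exact hHall) ⟨w, hwL⟩
    (Subgroup.mem_zpowers _) hc hc'
  exact congrArg Subtype.val h

end Cfsg.Agent.Helper44
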