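import Cfsg.Agent.Helper44.OSum

set_option autoImplicit false

/-!
Helper library (helper44): the parity of the dimension of the fixed space of an isometry (the
Dickson invariant in the form `dim ker (g - 1) mod 2`) in characteristic two: multiplying by a
reflection changes the dimension of the fixed space by exactly one.  Consequently no reflection
lies in `Ω`.
-/

namespace Cfsg.Agent.Helper44

open Cfsg Matrix Cfsg.Agent.Helper45

universe u

section FixPar

variable {ι : Type} [Fintype ι] [DecidableEq ι] {F : Type u} [Field F]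
  (Q : QuadraticForm F (ι → F))

/-- the fixed space of an isometry -/
def fixSub (g : ↥(isometryGroup F ⇑Q)) : Submodule F (ι → F) :=
  LinearMap.ker (Matrix.toLin' ((g : GL ι F) : Matrix ι ι F) - LinearMap.id)

theorem mem_fixSub (g : ↥(isometryGroup F ⇑Q)) (x : ι → F) :
    x ∈ fixSub Q g ↔ mv ⇑Q g x = x := by
  rw [fixSub, LinearMap.mem_ker, LinearMap.sub_apply, Matrix.toLin'_apply, LinearMap.id_apply,
    sub_eq_zero]

/-- the image of `g - 1` is orthogonal to the fixed space of `g` -/
theorem polar_sub_fix (g : ↥(isometryGroup F ⇑Q)) (x w : ι → F) (hw : mv ⇑Q g w = w) :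
    QuadraticMap.polar ⇑Q (mv ⇑Q g x - x) w = 0 := by
  rw [QuadraticMap.polar_sub_left]
  nth_rewrite 1 [← hw]
  rw [mv_polar Q g, sub_self]

/-- if `a` is not orthogonal to the fixed space of `g`, the fixed space of `r_a g` is a hyperplane
in the fixed space of `g` -/
theorem finrank_fix_refl_of_ne (a : ι → F) (ha : Q a ≠ 0) (g : ↥(isometryGroup F ⇑Q))
    (x₀ : ι → F) (hx₀ : mv ⇑Q g x₀ = x₀) (hne : QuadraticMap.polar ⇑Q a x₀ ≠ 0) :
    Module.finrank F ↥(fixSub Q (reflO Q a ha * g)) + 1 = Module.finrank F ↥(fixSub Q g) := by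
  set ψ : (ι → F) →ₗ[F] F := QuadraticMap.polarBilin Q a with hψ
  have hψa : ∀ x, ψ x = QuadraticMap.polar ⇑Q a x := fun x => rfl
  have h1 : fixSub Q (reflO Q a ha * g) = fixSub Q g ⊓ LinearMap.ker ψ := by
    ext x
    rw [Submodule.mem_inf, mem_fixSub, mem_fixSub, LinearMap.mem_ker, hψa, mv_mul, mv_reflO]
    constructor
    · intro h
      by_cases hc : (Q a)⁻¹ * QuadraticMap.polar ⇑Q a (mv ⇑Q g x) = 0
      · rw [hc, zero_smul, sub_zero] at h
        refine ⟨h, ?_⟩
        rw [h] at hc
        rcases mul_eq_zero.mp hc with h3 | h3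
        · exact absurd h3 (inv_ne_zero ha)
        · exact h3
      · exfalso
        apply hne
        have h3 : a = ((Q a)⁻¹ * QuadraticMap.polar ⇑Q a (mv ⇑Q g x))⁻¹ • (mv ⇑Q g x - x) := by
          have h4 : mv ⇑Q g x - x = ((Q a)⁻¹ * QuadraticMap.polar ⇑Q a (mv ⇑Q g x)) • a := by
            rw [sub_eq_iff_eq_add] at h
            rw [sub_eq_iff_eq_add, add_comm]
            exact h
          rw [h4, smul_smul, inv_mul_cancel₀ hc, one_smul]
        rw [h3, QuadraticMap.polar_smul_left, polar_sub_fix Q g x x₀ hx₀, smul_zero]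
    · rintro ⟨h3, h4⟩
      rw [h3, h4, mul_zero, zero_smul, sub_zero]
  rw [h1]
  have hsurj : Function.Surjective ψ := by
    intro c
    refine ⟨(c / QuadraticMap.polar ⇑Q a x₀) • x₀, ?_⟩
    rw [map_smul, hψa, smul_eq_mul, div_mul_cancel₀ _ hne]
  have hK : Module.finrank F ↥(LinearMap.ker ψ) + 1 = Fintype.card ι := by
    have h5 := LinearMap.finrank_range_add_finrank_ker ψ
    rw [LinearMap.range_eq_top.mpr hsurj, finrank_top, Module.finrank_self,
      Module.finrank_fintype_fun_eq_card] at h5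
    omega
  have hsup : fixSub Q g ⊔ LinearMap.ker ψ = ⊤ := by
    rw [eq_top_iff]
    intro v _
    rw [Submodule.mem_sup]
    refine ⟨(ψ v / QuadraticMap.polar ⇑Q a x₀) • x₀, ?_,
      v - (ψ v / QuadraticMap.polar ⇑Q a x₀) • x₀, ?_, by abel⟩
    · exact Submodule.smul_mem _ _ ((mem_fixSub Q g x₀).mpr hx₀)
    · rw [LinearMap.mem_ker, map_sub, map_smul, hψa x₀, smul_eq_mul, div_mul_cancel₀ _ hne, sub_self]
  have h6 := Submodule.finrank_sup_add_finrank_inf_eq (fixSub Q g) (LinearMap.ker ψ)
  rw [hsup, finrank_top, Module.finrank_fintype_fun_eq_card] at h6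
  omega

/-- in characteristic two, multiplying an isometry by a reflection changes the dimension of the
fixed space by exactly one -/
theorem finrank_fix_refl [CharP F 2] (hQ : (QuadraticMap.polarBilin Q).Nondegenerate)
    (a : ι → F) (ha : Q a ≠ 0) (g : ↥(isometryGroup F ⇑Q)) :
    Module.finrank F ↥(fixSub Q (reflO Q a ha * g)) + 1 = Module.finrank F ↥(fixSub Q g)
      ∨ Module.finrank F ↥(fixSub Q (reflO Q a ha * g)) = Module.finrank F ↥(fixSub Q g) + 1 := by
  have h20 : (2 : F) = 0 := CharTwo.two_eq_zero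
  by_cases hex : ∃ x₀, mv ⇑Q g x₀ = x₀ ∧ QuadraticMap.polar ⇑Q a x₀ ≠ 0
  · obtain ⟨x₀, hx₀, hne⟩ := hex
    exact Or.inl (finrank_fix_refl_of_ne Q a ha g x₀ hx₀ hne)
  · right
    push Not at hex
    set B := QuadraticMap.polarBilin Q with hB
    set L : (ι → F) →ₗ[F] (ι → F) :=
      Matrix.toLin' ((g : GL ι F) : Matrix ι ι F) - LinearMap.id with hL
    have hLa : ∀ x, L x = mv ⇑Q g x - x := by
      intro x
      rw [hL, LinearMap.sub_apply, Matrix.toLin'_apply, LinearMap.id_apply]
    have hle : LinearMap.range L ≤ LinearMap.BilinForm.orthogonal B (fixSub Q g) := by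
      rintro y ⟨x, rfl⟩
      rw [mem_orthogonal_iff']
      intro w hw
      rw [hLa]
      exact polar_sub_fix Q g x w ((mem_fixSub Q g w).mp hw)
    have hfr1 : Module.finrank F ↥(LinearMap.BilinForm.orthogonal B (fixSub Q g))
        = Module.finrank F (ι → F) - Module.finrank F ↥(fixSub Q g) :=
      LinearMap.BilinForm.finrank_orthogonal hQ (fixSub Q g)
    have hfr2 := LinearMap.finrank_range_add_finrank_ker L
    have hker : LinearMap.ker L = fixSub Q g := rfl
    rw [hker] at hfr2
    have heq : LinearMap.range L = LinearMap.BilinForm.orthogonal B (fixSub Q g) := by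
      apply Submodule.eq_of_le_of_finrank_eq hle
      omega
    have haR : a ∈ LinearMap.range L := by
      rw [heq, mem_orthogonal_iff']
      intro x hx
      exact hex x ((mem_fixSub Q g x).mp hx)
    obtain ⟨v, hv⟩ := haR
    rw [hLa] at hv
    -- `g v = v + a`
    have hgv : mv ⇑Q g v = v + a := by rw [← hv]; abel
    have hQa : Q a = QuadraticMap.polar ⇑Q a v := by
      have h3 : Q (v + a) = Q v := by rw [← hgv, mv_quad ⇑Q g]
      rw [Helper13.Q_add', QuadraticMap.polar_comm] at h3
      have h4 : Q a + QuadraticMap.polar ⇑Q a v = 0 := by linear_combination h3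
      have h5 : QuadraticMap.polar ⇑Q a v + QuadraticMap.polar ⇑Q a v = 0 := by
        rw [← two_mul, h20, zero_mul]
      linear_combination h4 - h5
    have hfix : mv ⇑Q (reflO Q a ha * g) v = v := by
      rw [mv_mul, mv_reflO, hgv, QuadraticMap.polar_add_right, polar_self_eq, h20, zero_mul,
        add_zero, ← hQa, inv_mul_cancel₀ ha, one_smul]
      abel
    have hne : QuadraticMap.polar ⇑Q a v ≠ 0 := by rw [← hQa]; exact ha
    have h7 := finrank_fix_refl_of_ne Q a ha (reflO Q a ha * g) v hfix hne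
    rw [← mul_assoc, reflO_mul_self, one_mul] at h7
    exact h7.symm

end FixPar

section NoRefl

variable {ι : Type} [Fintype ι] [DecidableEq ι] {F : Type u} [Field F] [Fintype F] [CharP F 2]
  (Q : QuadraticForm F (ι → F))

/-- in characteristic two no reflection lies in `Ω` -/
theorem refl_not_mem_omega (hQ : (QuadraticMap.polarBilin Q).Nondegenerate)
    (hex : (∃ t : F, t ≠ 0 ∧ t ≠ 1) ∨ Fintype.card ι ≠ 4) (a : ι → F) (ha : Q a ≠ 0) :
    reflO Q a ha ∉ Omega F ⇑Q := by
  have hstep : ∀ (b : ι → F) (hb : Q b ≠ 0) (g : ↥(isometryGroup F ⇑Q)),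
      (Even (Module.finrank F ↥(fixSub Q (reflO Q b hb * g)))
        ↔ ¬ Even (Module.finrank F ↥(fixSub Q g))) := by
    intro b hb g
    rcases finrank_fix_refl Q hQ b hb g with h | h
    · rw [← h, Nat.even_add_one, not_not]
    · rw [h, Nat.even_add_one]
  have hP : ∀ x ∈ pairGroup Q, ∀ g : ↥(isometryGroup F ⇑Q),
      (Even (Module.finrank F ↥(fixSub Q (x * g))) ↔ Even (Module.finrank F ↥(fixSub Q g))) := by
    intro x hx
    refine Subgroup.closure_induction
      (p := fun (x : ↥(isometryGroup F ⇑Q)) _ => ∀ g : ↥(isometryGroup F ⇑Q),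
        (Even (Module.finrank F ↥(fixSub Q (x * g))) ↔ Even (Module.finrank F ↥(fixSub Q g))))
      ?_ ?_ ?_ ?_ hx
    · rintro x ⟨b, c, hb, hc, rfl⟩ g
      rw [mul_assoc, hstep b hb, hstep c hc, not_not]
    · intro g
      rw [one_mul]
    · intro x y _ _ hx hy g
      rw [mul_assoc, hx, hy]
    · intro x _ hx g
      rw [← hx (x⁻¹ * g), mul_inv_cancel_left]
  intro hmem
  rw [omega_eq_pairGroup Q hQ hex] at hmem
  have h1 := hP _ hmem 1
  have h2 := hstep a ha 1
  rw [h2] at h1
  exact (not_iff_self h1)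

end NoRefl

end Cfsg.Agent.Helper44
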