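import Cfsg.Agent.Helper44.OmegaStab2
import Cfsg.Agent.S2626
import Cfsg.Agent.Helper43.Spinor2

set_option autoImplicit false

/-!
Helper library (helper44): orthogonal direct sums `Q₁ ⊕ Q₂` of quadratic forms on `F^k`, `F^l`:
the bundled quadratic form, non-degeneracy, and the fact that squares of isometries lie in `Ω`
when the isometry group is generated by reflections.
-/

namespace Cfsg.Agent.Helper44

open Cfsg Matrix Cfsg.Agent.Helper45

universe u

section OSum

variable {F : Type u} [Field F] {k l : ℕ}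

/-- the orthogonal direct sum of two quadratic forms, with underlying function
`v ↦ Q₁ (v ∘ inl) + Q₂ (v ∘ inr)` -/
def sumQF (Q₁ : QuadraticForm F (Fin k → F)) (Q₂ : QuadraticForm F (Fin l → F)) :
    QuadraticForm F (Fin k ⊕ Fin l → F) :=
  Helper43.qfOfEq
    (Q₁.comp (LinearMap.funLeft F F (Sum.inl : Fin k → Fin k ⊕ Fin l))
      + Q₂.comp (LinearMap.funLeft F F (Sum.inr : Fin l → Fin k ⊕ Fin l)))
    (fun v : Fin k ⊕ Fin l → F => Q₁ (v ∘ Sum.inl) + Q₂ (v ∘ Sum.inr)) (fun _ => rfl)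

theorem sumQF_coe (Q₁ : QuadraticForm F (Fin k → F)) (Q₂ : QuadraticForm F (Fin l → F)) :
    ⇑(sumQF Q₁ Q₂) = fun v : Fin k ⊕ Fin l → F => Q₁ (v ∘ Sum.inl) + Q₂ (v ∘ Sum.inr) := rfl

theorem sumQF_apply (Q₁ : QuadraticForm F (Fin k → F)) (Q₂ : QuadraticForm F (Fin l → F))
    (v : Fin k ⊕ Fin l → F) : sumQF Q₁ Q₂ v = Q₁ (v ∘ Sum.inl) + Q₂ (v ∘ Sum.inr) := rfl

theorem sumQF_polar (Q₁ : QuadraticForm F (Fin k → F)) (Q₂ : QuadraticForm F (Fin l → F))
    (u v : Fin k ⊕ Fin l → F) :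
    QuadraticMap.polar ⇑(sumQF Q₁ Q₂) u v
      = QuadraticMap.polar ⇑Q₁ (u ∘ Sum.inl) (v ∘ Sum.inl)
        + QuadraticMap.polar ⇑Q₂ (u ∘ Sum.inr) (v ∘ Sum.inr) := by
  unfold QuadraticMap.polar
  rw [sumQF_apply, sumQF_apply, sumQF_apply]
  have e1 : (u + v) ∘ Sum.inl = u ∘ Sum.inl + v ∘ (Sum.inl : Fin k → Fin k ⊕ Fin l) := rfl
  have e2 : (u + v) ∘ Sum.inr = u ∘ Sum.inr + v ∘ (Sum.inr : Fin l → Fin k ⊕ Fin l) := rfl
  rw [e1, e2]
  ring

theorem sumQF_nondeg (Q₁ : QuadraticForm F (Fin k → F)) (Q₂ : QuadraticForm F (Fin l → F))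
    (h₁ : (QuadraticMap.polarBilin Q₁).Nondegenerate)
    (h₂ : (QuadraticMap.polarBilin Q₂).Nondegenerate) :
    (QuadraticMap.polarBilin (sumQF Q₁ Q₂)).Nondegenerate := by
  constructor
  · intro x hx
    have hl : x ∘ Sum.inl = 0 := by
      apply h₁.1
      intro y
      have h3 : QuadraticMap.polar ⇑(sumQF Q₁ Q₂) x (Sum.elim y 0) = 0 := hx (Sum.elim y 0)
      rw [sumQF_polar] at h3
      have e : (Sum.elim y (0 : Fin l → F)) ∘ Sum.inr = 0 := rfl
      rw [e, QuadraticMap.polar_zero_right, add_zero] at h3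
      exact h3
    have hr : x ∘ Sum.inr = 0 := by
      apply h₂.1
      intro y
      have h3 : QuadraticMap.polar ⇑(sumQF Q₁ Q₂) x (Sum.elim 0 y) = 0 := hx (Sum.elim 0 y)
      rw [sumQF_polar] at h3
      have e : (Sum.elim (0 : Fin k → F) y) ∘ Sum.inl = 0 := rfl
      rw [e, QuadraticMap.polar_zero_right, zero_add] at h3
      exact h3
    funext a
    rcases a with a | a
    · exact congrFun hl a
    · exact congrFun hr a
  · intro x hx
    have hl : x ∘ Sum.inl = 0 := by
      apply h₁.2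
      intro y
      have h3 : QuadraticMap.polar ⇑(sumQF Q₁ Q₂) (Sum.elim y 0) x = 0 := hx (Sum.elim y 0)
      rw [sumQF_polar] at h3
      have e : (Sum.elim y (0 : Fin l → F)) ∘ Sum.inr = 0 := rfl
      rw [e, QuadraticMap.polar_zero_left, add_zero] at h3
      exact h3
    have hr : x ∘ Sum.inr = 0 := by
      apply h₂.2
      intro y
      have h3 : QuadraticMap.polar ⇑(sumQF Q₁ Q₂) (Sum.elim 0 y) x = 0 := hx (Sum.elim 0 y)
      rw [sumQF_polar] at h3
      have e : (Sum.elim (0 : Fin k → F) y) ∘ Sum.inl = 0 := rfl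
      rw [e, QuadraticMap.polar_zero_left, zero_add] at h3
      exact h3
    funext a
    rcases a with a | a
    · exact congrFun hl a
    · exact congrFun hr a

end OSum

section Squares

variable {ι : Type} [Fintype ι] [DecidableEq ι] {F : Type u} [Field F]
  (Q : QuadraticForm F (ι → F))

/-- if the isometry group is generated by reflections, its abelianisation has exponent two -/
theorem abel_sq_eq_one (hR : reflGroup Q = ⊤) (x : ↥(isometryGroup F ⇑Q)) :
    Abelianization.of x * Abelianization.of x = 1 := by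
  have hx : x ∈ reflGroup Q := by rw [hR]; trivial
  refine Subgroup.closure_induction
    (p := fun (x : ↥(isometryGroup F ⇑Q)) _ => Abelianization.of x * Abelianization.of x = 1)
    ?_ ?_ ?_ ?_ hx
  · rintro x ⟨a, ha, rfl⟩
    rw [← map_mul, reflO_mul_self, map_one]
  · rw [map_one, one_mul]
  · intro x y _ _ hx hy
    rw [map_mul, mul_mul_mul_comm, hx, hy, one_mul]
  · intro x _ hx
    rw [map_inv, ← mul_inv, hx, inv_one]

theorem mem_omega_of_abel (x : ↥(isometryGroup F ⇑Q)) (h : Abelianization.of x = 1) :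
    x ∈ Omega F ⇑Q := by
  have hker : x ∈ (Abelianization.of : ↥(isometryGroup F ⇑Q) →* _).ker := MonoidHom.mem_ker.mpr h
  rw [Abelianization.ker_of] at hker
  exact hker

end Squares

end Cfsg.Agent.Helper44
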