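import Cfsg.Agent.Helper44.FixPar

set_option autoImplicit false

/-!
Helper library (helper44): the embedding `O(Q₁) → O(Q₁ ⊕ Q₂)` and `Ω`: an isometry of the first
summand whose extension by the identity lies in `Ω(Q₁ ⊕ Q₂)` lies in `Ω(Q₁)`.
-/

namespace Cfsg.Agent.Helper44

open Cfsg Matrix Cfsg.Agent.Helper45

universe u

section Emb

variable {F : Type u} [Field F] {k l : ℕ}
  (Q₁ : QuadraticForm F (Fin k → F)) (Q₂ : QuadraticForm F (Fin l → F))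

/-- the embedding of `O(Q₁)` into `O(Q₁ ⊕ Q₂)` -/
def embL : ↥(isometryGroup F ⇑Q₁) →* ↥(isometryGroup F ⇑(sumQF Q₁ Q₂)) :=
  (S2626.blockIso ⇑Q₁ ⇑Q₂).comp (MonoidHom.inl _ _)

theorem embL_coe (g : ↥(isometryGroup F ⇑Q₁)) :
    (((embL Q₁ Q₂ g : ↥(isometryGroup F ⇑(sumQF Q₁ Q₂))) : GL (Fin k ⊕ Fin l) F) :
      Matrix (Fin k ⊕ Fin l) (Fin k ⊕ Fin l) F)
      = Matrix.fromBlocks ((g : GL (Fin k) F) : Matrix (Fin k) (Fin k) F) 0 0 1 := rfl

theorem mv_embL (g : ↥(isometryGroup F ⇑Q₁)) (x : Fin k ⊕ Fin l → F) :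
    mv ⇑(sumQF Q₁ Q₂) (embL Q₁ Q₂ g) x = Sum.elim (mv ⇑Q₁ g (x ∘ Sum.inl)) (x ∘ Sum.inr) := by
  show (Matrix.fromBlocks ((g : GL (Fin k) F) : Matrix (Fin k) (Fin k) F) 0 0 1) *ᵥ x = _
  rw [S2626.block_mulVec, Matrix.one_mulVec]

theorem sumQF_elim_zero (a : Fin k → F) : sumQF Q₁ Q₂ (Sum.elim a 0) = Q₁ a := by
  rw [sumQF_apply]
  simp only [Sum.elim_comp_inl, Sum.elim_comp_inr]
  rw [map_zero, add_zero]

theorem embL_reflO (a : Fin k → F) (ha : Q₁ a ≠ 0) (ha' : sumQF Q₁ Q₂ (Sum.elim a 0) ≠ 0) :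
    embL Q₁ Q₂ (reflO Q₁ a ha) = reflO (sumQF Q₁ Q₂) (Sum.elim a 0) ha' := by
  apply ext_mv
  intro x
  rw [mv_embL, mv_reflO, mv_reflO, sumQF_polar, sumQF_elim_zero]
  simp only [Sum.elim_comp_inl, Sum.elim_comp_inr]
  rw [QuadraticMap.polar_zero_left, add_zero]
  funext i
  rcases i with i | i
  · simp
  · simp

theorem embL_mem_omega (g : ↥(isometryGroup F ⇑Q₁)) (hg : g ∈ Omega F ⇑Q₁) :
    embL Q₁ Q₂ g ∈ Omega F ⇑(sumQF Q₁ Q₂) :=
  S2626.map_mem_commutator (embL Q₁ Q₂) hg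

/-- if there is no non-singular vector, the isometry group is trivial (when generated by
reflections) -/
theorem eq_one_of_no_nonsingular {ι : Type} [Fintype ι] [DecidableEq ι]
    (Q : QuadraticForm F (ι → F)) (hR : reflGroup Q = ⊤) (hns : ∀ a, Q a = 0)
    (g : ↥(isometryGroup F ⇑Q)) : g = 1 := by
  have hg : g ∈ reflGroup Q := by rw [hR]; trivial
  refine Subgroup.closure_induction (p := fun (g : ↥(isometryGroup F ⇑Q)) _ => g = 1)
    ?_ ?_ ?_ ?_ hg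
  · rintro x ⟨a, ha, rfl⟩
    exact absurd (hns a) ha
  · rfl
  · intro x y _ _ hx hy
    rw [hx, hy, one_mul]
  · intro x _ hx
    rw [hx, inv_one]

end Emb

section EmbFin

variable {F : Type u} [Field F] [Fintype F] {k l : ℕ}
  (Q₁ : QuadraticForm F (Fin k → F)) (Q₂ : QuadraticForm F (Fin l → F))

/-- the sign characters of `Q₁ ⊕ Q₂` restrict to the sign characters of `Q₁` -/
theorem spin_embL (h2 : (2 : F) ≠ 0) (h₁ : (QuadraticMap.polarBilin Q₁).Nondegenerate)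
    (ε : F) (hε : ¬ IsSquare ε) (g : ↥(isometryGroup F ⇑Q₁)) :
    spin ⇑(sumQF Q₁ Q₂) 1 (embL Q₁ Q₂ g) = spin ⇑Q₁ 1 g
      ∧ spin ⇑(sumQF Q₁ Q₂) ε (embL Q₁ Q₂ g) = spin ⇑Q₁ ε g := by
  have hR : reflGroup Q₁ = ⊤ := reflGroup_eq_top Q₁ h2 h₁
  have hg : g ∈ reflGroup Q₁ := by rw [hR]; trivial
  refine Subgroup.closure_induction
    (p := fun (g : ↥(isometryGroup F ⇑Q₁)) _ =>
      spin ⇑(sumQF Q₁ Q₂) 1 (embL Q₁ Q₂ g) = spin ⇑Q₁ 1 g
        ∧ spin ⇑(sumQF Q₁ Q₂) ε (embL Q₁ Q₂ g) = spin ⇑Q₁ ε g) ?_ ?_ ?_ ?_ hg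
  · rintro x ⟨a, ha, rfl⟩
    have ha' : sumQF Q₁ Q₂ (Sum.elim a 0) ≠ 0 := by rw [sumQF_elim_zero]; exact ha
    rw [embL_reflO Q₁ Q₂ a ha ha']
    by_cases hsq : IsSquare (Q₁ a)
    · have hsq' : IsSquare (sumQF Q₁ Q₂ (Sum.elim a 0)) := by rw [sumQF_elim_zero]; exact hsq
      rw [spin_one_reflO_sq _ h2 _ ha' hsq', spin_one_reflO_sq _ h2 _ ha hsq,
        spin_eps_reflO_sq _ h2 ε hε _ ha' hsq', spin_eps_reflO_sq _ h2 ε hε _ ha hsq]
      exact ⟨rfl, rfl⟩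
    · have hsq' : ¬ IsSquare (sumQF Q₁ Q₂ (Sum.elim a 0)) := by rw [sumQF_elim_zero]; exact hsq
      rw [spin_one_reflO_nsq _ h2 _ ha' hsq', spin_one_reflO_nsq _ h2 _ ha hsq,
        spin_eps_reflO_nsq _ h2 ε hε _ ha' hsq', spin_eps_reflO_nsq _ h2 ε hε _ ha hsq]
      exact ⟨rfl, rfl⟩
  · rw [map_one, map_one, map_one, map_one, map_one]
    exact ⟨rfl, rfl⟩
  · intro x y _ _ hx hy
    rw [map_mul, map_mul, map_mul, map_mul, map_mul, hx.1, hx.2, hy.1, hy.2]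
    exact ⟨rfl, rfl⟩
  · intro x _ hx
    rw [map_inv, map_inv, map_inv, map_inv, map_inv, hx.1, hx.2]
    exact ⟨rfl, rfl⟩

/-- a homomorphism to an abelian group kills `Ω` -/
theorem hom_omega_eq_one {ι : Type} [Fintype ι] [DecidableEq ι] (Q : QuadraticForm F (ι → F))
    {A : Type*} [CommGroup A] (f : ↥(isometryGroup F ⇑Q) →* A) (g : ↥(isometryGroup F ⇑Q))
    (hg : g ∈ Omega F ⇑Q) : f g = 1 := by
  have h1 : Omega F ⇑Q ≤ f.ker := Abelianization.commutator_subset_ker f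
  exact MonoidHom.mem_ker.mp (h1 hg)

/-- in dimension at most one, an isometry with trivial sign characters is trivial -/
theorem eq_one_of_spin_of_le_one (h2 : (2 : F) ≠ 0)
    (h₁ : (QuadraticMap.polarBilin Q₁).Nondegenerate) (hk : k ≤ 1)
    (ε : F) (hε : ¬ IsSquare ε) (g : ↥(isometryGroup F ⇑Q₁))
    (hs1 : spin ⇑Q₁ 1 g = 1) (hs2 : spin ⇑Q₁ ε g = 1) : g = 1 := by
  have hR : reflGroup Q₁ = ⊤ := reflGroup_eq_top Q₁ h2 h₁
  by_cases hns : ∃ a, Q₁ a ≠ 0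
  · obtain ⟨a, ha⟩ := hns
    have ha0 : a ≠ 0 := ne_zero_of_quad_ne_zero Q₁ a ha
    have hmult : ∀ x : Fin k → F, ∃ t : F, x = t • a := by
      intro x
      have hk' : k = 0 ∨ k = 1 := by omega
      rcases hk' with rfl | rfl
      · exact ⟨1, Subsingleton.elim _ _⟩
      · have ha00 : a 0 ≠ 0 := by
          intro h
          apply ha0
          funext i
          rw [Subsingleton.elim i 0, h]
          rfl
        refine ⟨x 0 / a 0, ?_⟩
        funext i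
        rw [Subsingleton.elim i 0, Pi.smul_apply, smul_eq_mul, div_mul_cancel₀ _ ha00]
    have hrefl : ∀ (b : Fin k → F) (hb : Q₁ b ≠ 0), reflO Q₁ b hb = reflO Q₁ a ha := by
      intro b hb
      obtain ⟨t, rfl⟩ := hmult b
      have ht : t ≠ 0 := by
        rintro rfl
        rw [zero_smul, map_zero] at hb
        exact hb rfl
      exact reflO_smul Q₁ t ht a ha hb
    have hg : g ∈ reflGroup Q₁ := by rw [hR]; trivial
    have hor : g = 1 ∨ g = reflO Q₁ a ha := by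
      refine Subgroup.closure_induction
        (p := fun (g : ↥(isometryGroup F ⇑Q₁)) _ => g = 1 ∨ g = reflO Q₁ a ha) ?_ ?_ ?_ ?_ hg
      · rintro x ⟨b, hb, rfl⟩
        exact Or.inr (hrefl b hb)
      · exact Or.inl rfl
      · intro x y _ _ hx hy
        rcases hx with rfl | rfl <;> rcases hy with rfl | rfl
        · left; rw [one_mul]
        · right; rw [one_mul]
        · right; rw [mul_one]
        · left; exact reflO_mul_self Q₁ a ha
      · intro x _ hx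
        rcases hx with rfl | rfl
        · left; rw [inv_one]
        · right; exact reflO_inv Q₁ a ha
    rcases hor with h | h
    · exact h
    · exfalso
      rw [h] at hs1 hs2
      by_cases hsq : IsSquare (Q₁ a)
      · rw [spin_one_reflO_sq _ h2 _ ha hsq] at hs1
        exact absurd hs1 (by decide)
      · rw [spin_eps_reflO_nsq _ h2 ε hε _ ha hsq] at hs2
        exact absurd hs2 (by decide)
  · push Not at hns
    exact eq_one_of_no_nonsingular Q₁ hR hns g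

/-- an isometry of the first summand whose extension by the identity lies in `Ω(Q₁ ⊕ Q₂)` lies in
`Ω(Q₁)` -/
theorem mem_omega_of_embL (h : Fintype.card F ≠ 2 ∨ (k ≠ 4 ∧ k + l ≠ 4))
    (h₁ : (QuadraticMap.polarBilin Q₁).Nondegenerate)
    (h₂ : (QuadraticMap.polarBilin Q₂).Nondegenerate) (g : ↥(isometryGroup F ⇑Q₁))
    (hg : embL Q₁ Q₂ g ∈ Omega F ⇑(sumQF Q₁ Q₂)) : g ∈ Omega F ⇑Q₁ := by
  classical
  have hnd : (QuadraticMap.polarBilin (sumQF Q₁ Q₂)).Nondegenerate := sumQF_nondeg Q₁ Q₂ h₁ h₂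
  have hex₁ : (∃ t : F, t ≠ 0 ∧ t ≠ 1) ∨ Fintype.card (Fin k) ≠ 4 := by
    rcases h with h | h
    · exact Or.inl (exists_ne_zero_one h)
    · right; rw [Fintype.card_fin]; exact h.1
  have hex : (∃ t : F, t ≠ 0 ∧ t ≠ 1) ∨ Fintype.card (Fin k ⊕ Fin l) ≠ 4 := by
    rcases h with h | h
    · exact Or.inl (exists_ne_zero_one h)
    · right; rw [Fintype.card_sum, Fintype.card_fin, Fintype.card_fin]; exact h.2
  by_cases h2 : (2 : F) = 0
  · haveI : CharP F 2 := CharTwo.of_one_ne_zero_of_two_eq_zero one_ne_zero h2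
    by_cases hns : ∃ a, Q₁ a ≠ 0
    · obtain ⟨a, ha⟩ := hns
      rcases omega_dichotomy Q₁ h₁ hex₁ a ha g with h3 | h3
      · exact h3
      · exfalso
        have ha' : sumQF Q₁ Q₂ (Sum.elim a 0) ≠ 0 := by rw [sumQF_elim_zero]; exact ha
        have h4 : embL Q₁ Q₂ (g * reflO Q₁ a ha) ∈ Omega F ⇑(sumQF Q₁ Q₂) :=
          embL_mem_omega Q₁ Q₂ _ h3
        rw [map_mul, embL_reflO Q₁ Q₂ a ha ha'] at h4
        have h5 : reflO (sumQF Q₁ Q₂) (Sum.elim a 0) ha' ∈ Omega F ⇑(sumQF Q₁ Q₂) := by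
          have h6 := mul_mem (inv_mem hg) h4
          rw [inv_mul_cancel_left] at h6
          exact h6
        exact refl_not_mem_omega (sumQF Q₁ Q₂) hnd hex _ ha' h5
    · push Not at hns
      rw [eq_one_of_no_nonsingular Q₁ (reflGroup_eq_top_of Q₁ h₁ hex₁) hns g]
      exact one_mem _
  · obtain ⟨ε, hε⟩ := FiniteField.exists_nonsquare (ringChar_ne_two h2)
    obtain ⟨e1, e2⟩ := spin_embL Q₁ Q₂ h2 h₁ ε hε g
    have hs1 : spin ⇑Q₁ 1 g = 1 := by
      rw [← e1]; exact hom_omega_eq_one (sumQF Q₁ Q₂) _ _ hg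
    have hs2 : spin ⇑Q₁ ε g = 1 := by
      rw [← e2]; exact hom_omega_eq_one (sumQF Q₁ Q₂) _ _ hg
    by_cases hk : 2 ≤ k
    · rw [mem_omega_iff Q₁ h2 h₁ (by rw [Fintype.card_fin]; exact hk) ε hε]
      exact ⟨hs1, hs2⟩
    · rw [eq_one_of_spin_of_le_one Q₁ h2 h₁ (by omega) ε hε g hs1 hs2]
      exact one_mem _

end EmbFin

end Cfsg.Agent.Helper44
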