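import Mathlib
import Cfsg.Agent.Helper44.OmZ

/-!
# Involutory graph-field automorphisms of `PΩ⁺_{2m}(q)`, `m ≥ 5`: the main theorem

* `plus_gf_count` : the number of `PΩ⁺`-classes in the `Inndiag`-class, `q` odd;
* `plus_graph_field_class` : the full statement.
-/

set_option autoImplicit false
set_option linter.unusedSimpArgs false
set_option linter.unusedSectionVars false
set_option linter.unusedVariables false

namespace Cfsg.Agent.Helper44.POm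

open Matrix Cfsg
open Cfsg.Agent.Helper45.OO (semiAut semiMap glMap polarGram)

universe u v

section count

variable {F : Type u} [Field F] [Fintype F] {F₀ : Type v} [Field F₀] [Fintype F₀] {n : ℕ}

set_option maxHeartbeats 1600000 in
/-- **the class count for an involutory graph-field automorphism of `PΩ⁺_{2n+2}(q)`, `q` odd** -/
theorem plus_gf_count (hodd : Odd (Fintype.card F)) (hn : 4 ≤ n)
    (hR : Helper45.reflGroup (Helper43.plusQF (n + 1) F) = ⊤)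
    (σ : RingAut F) (hσ : orderOf σ = 2)
    (h : GL (PI n) F) (hh : IsSemisimilarityPair (quadFormPlus (n + 1) F) h σ)
    (ι : F₀ →+* F) (hι : ∀ x, σ x = x ↔ x ∈ Set.range ι)
    (hsq : ∀ c : F₀, IsSquare (ι c)) (a₀ b₀ : F₀)
    (hab₀ : ∀ z₁ z₂ : F₀, z₁ ^ 2 + a₀ * z₁ * z₂ + b₀ * z₂ ^ 2 = 0 → z₁ = 0 ∧ z₂ = 0)
    (k : Matrix (PI n) (MI n) F) (k' : Matrix (MI n) (PI n) F) (h1 : k * k' = 1)
    (h2 : k' * k = 1) (lam e : F) (hlam : lam ≠ 0) (he : e ≠ 0)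
    (hk : ∀ v, quadFormPlus (n + 1) F (k *ᵥ v) = lam * quadFormMinus n F (ι a₀) (ι b₀) v)
    (hhk : (h : Matrix (PI n) (PI n) F) * k.map σ = e • k) :
    ((Even n ∧ Fintype.card F₀ % 4 = 1) →
      splitClassCount (inndiagPOmegaPlus (n + 1) F) (Inn (POmega F (quadFormPlus (n + 1) F)))
        (semiAut (quadFormPlus (n + 1) F) h σ hh) = 4) ∧
    (¬ (Even n ∧ Fintype.card F₀ % 4 = 1) →
      splitClassCount (inndiagPOmegaPlus (n + 1) F) (Inn (POmega F (quadFormPlus (n + 1) F)))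
        (semiAut (quadFormPlus (n + 1) F) h σ hh) = 2) := by
  classical
  have hn1 : n ≠ 1 := by omega
  have h2F : (2 : F) ≠ 0 := Helper45.two_ne_zero_of_odd_card hodd
  have h2₀ : (2 : F₀) ≠ 0 := two_ne_zero_sub h2F ι
  have hodd₀ : Odd (Fintype.card F₀) := by
    rw [Nat.odd_iff]
    exact FiniteField.odd_card_of_char_ne_two (Helper45.ringChar_ne_two h2₀)
  have hσ2 : ∀ y, σ (σ y) = y := by
    intro y
    have h3 : σ ^ 2 = 1 := by
      rw [← hσ]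
      exact pow_orderOf_eq_one σ
    have h4 : (σ ^ 2) y = y := by
      rw [h3]
      rfl
    rw [pow_two] at h4
    exact h4
  have hQ := Helper45.plusQF_nondeg' (F := F) (n + 1)
  have hcard2 : 2 ≤ Fintype.card (PI n) := by
    rw [Fintype.card_sum, Fintype.card_fin]
    omega
  have hn5 : 5 ≤ Fintype.card (PI n) := by
    rw [Fintype.card_sum, Fintype.card_fin]
    omega
  have hq4 : Fintype.card F % 4 = 1 := by
    have hm1 : IsSquare (-1 : F) := by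
      have h3 := hsq (-1)
      rwa [map_neg, map_one] at h3
    rw [FiniteField.isSquare_neg_one_iff] at hm1
    have h3 := Nat.odd_iff.mp hodd
    omega
  have hneg : Helper45.negO (Helper43.plusQF (n + 1) F)
      ∈ Omega F ⇑(Helper43.plusQF (n + 1) F) :=
    (Helper45.negO_plus_mem_iff (m := n + 1) hodd h2F (by omega)).mpr (by
      rw [Nat.pow_mod, hq4]
      simp)
  have hscal : ∀ g : GL (PI n) F,
      g ∈ Geo.quadSimilarityGroup (F := F) ⇑(Helper43.plusQF (n + 1) F) →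
      Helper45.Ind ⇑(Helper43.plusQF (n + 1) F) g 1 →
      ∃ c : F, (g : Matrix (PI n) (PI n) F) = c • (1 : Matrix (PI n) (PI n) F) :=
    fun g hg h1 => Helper45.OO.scalar_of_ind (Helper43.plusQF (n + 1) F) hQ hn5 g hg h1
  have D : Helper45.KData (quadFormPlus (n + 1) F) (n + 1) (S2722.gramJ (n + 1) F)
      (S2722.v0 F (0 : Fin (n + 1))) := by
    constructor
    · simp
    · exact S2722.quad_eq
    · exact S2722.gramJ_transpose
    · exact S2722.gramJ_det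
    · exact S2722.quad_v0 _
    · exact h2F
  obtain ⟨c₁, hc₁⟩ := FiniteField.exists_nonsquare (Helper45.ringChar_ne_two h2F)
  have hc₁0 : c₁ ≠ 0 := by
    rintro rfl
    exact hc₁ ⟨0, by simp⟩
  obtain ⟨gg, hgg, hdetgg⟩ := S2722.exists_g1 (m := n + 1) h2F c₁ hc₁0
  have hG : inndiagPOmegaPlus (n + 1) F
      = Helper45.ID.autK (Helper43.plusQF (n + 1) F) D :=
    Helper45.ID.inndiag_plus_eq h2F 0 D
  have hidx4 : (Inn (POmega F (quadFormPlus (n + 1) F))).relIndex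
      (inndiagPOmegaPlus (n + 1) F) = 4 := by
    rw [hG]
    exact Helper45.ID.relIndex_inn_autK (Helper43.plusQF (n + 1) F) hodd hQ hcard2 D hscal gg c₁
      hgg hc₁ hdetgg hneg
  have hidx2 : (psoAut F (quadFormPlus (n + 1) F)).relIndex
      (inndiagPOmegaPlus (n + 1) F) = 2 := by
    rw [hG]
    exact Helper45.ID.relIndex_pso_autK (Helper43.plusQF (n + 1) F) hodd D hscal gg c₁
      hgg hc₁ hdetgg
  have hidxPT : (Inn (POmega F (quadFormPlus (n + 1) F))).relIndex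
      (psoAut F (quadFormPlus (n + 1) F)) = 2 :=
    Helper45.pso_relIndex_two (Helper43.plusQF (n + 1) F) h2F hQ hcard2 hscal hneg
  have hTP : Inn (POmega F (quadFormPlus (n + 1) F)) ≤ psoAut F (quadFormPlus (n + 1) F) :=
    Helper45.inn_le_psoAut (Helper43.plusQF (n + 1) F)
  have hPG : psoAut F (quadFormPlus (n + 1) F) ≤ inndiagPOmegaPlus (n + 1) F := by
    rw [hG]
    exact Helper45.ID.psoAut_le_autK (Helper43.plusQF (n + 1) F) D
  have hnormT : ∀ g ∈ inndiagPOmegaPlus (n + 1) F,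
      ∀ t ∈ Inn (POmega F (quadFormPlus (n + 1) F)),
      g * t * g⁻¹ ∈ Inn (POmega F (quadFormPlus (n + 1) F)) :=
    fun g _ t ht => (innNormal (POmega F (quadFormPlus (n + 1) F))).conj_mem t ht g
  obtain ⟨x, hxdef⟩ : ∃ x, x = semiAut (quadFormPlus (n + 1) F) h σ hh := ⟨_, rfl⟩
  rw [← hxdef]
  have hcent : ∀ c ∈ inndiagPOmegaPlus (n + 1) F, c * x = x * c →
      ∃ γ : ↥(pscmGrp hn1 a₀ b₀ hab₀),
        c = pscpD hR (pscpTh hn1 hR ι a₀ b₀ hab₀ k k' h1 h2 lam hk γ) := by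
    intro c hc hcx
    rw [← pscpD_range hR] at hc
    obtain ⟨g, rfl⟩ := hc
    rw [hxdef] at hcx
    exact plus_comm_descend hn hn1 hR σ 2 hσ (by norm_num) h hh ι hι a₀ b₀ hab₀ k k' h1 h2 lam e
      hlam he hk hhk g hcx
  have hcomm : ∀ γ : ↥(pscmGrp hn1 a₀ b₀ hab₀),
      pscpD hR (pscpTh hn1 hR ι a₀ b₀ hab₀ k k' h1 h2 lam hk γ) * x
        = x * pscpD hR (pscpTh hn1 hR ι a₀ b₀ hab₀ k k' h1 h2 lam hk γ) := by
    intro γ
    rw [hxdef, pscpD_apply]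
    exact plus_fixed_comm σ h hh ι hι k k' h1 h2 e he hhk
      ((γ : GL (MI n) F₀) : Matrix (MI n) (MI n) F₀) _
      (pscpTh_coe hn1 hR ι a₀ b₀ hab₀ k k' h1 h2 lam hk γ) _
  have hcentP : ∀ γ : ↥(pscmGrp hn1 a₀ b₀ hab₀),
      pscpD hR (pscpTh hn1 hR ι a₀ b₀ hab₀ k k' h1 h2 lam hk γ)
        ∈ psoAut F (quadFormPlus (n + 1) F) :=
    fun γ => pscpTh_pso hodd hn1 hR ι hsq a₀ b₀ hab₀ k k' h1 h2 lam hk γ
  -- the explicit similarity
  obtain ⟨c₀, hc₀⟩ := FiniteField.exists_nonsquare (Helper45.ringChar_ne_two h2₀)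
  have hc₀0 : c₀ ≠ 0 := by
    rintro rfl
    exact hc₀ ⟨0, by simp⟩
  obtain ⟨z₁, z₂, hz⟩ := S2726.exists_norm a₀ b₀ (Nat.odd_iff.mp hodd₀) h2₀
    (S2726.disc_ne a₀ b₀ h2₀ hab₀) c₀
  obtain ⟨s, hs'⟩ := hsq c₀
  have hs : s * s = ι c₀ := hs'.symm
  have hs0 : s ≠ 0 := by
    rintro rfl
    rw [mul_zero] at hs
    exact hc₀0 (ι.injective (by rw [map_zero]; exact hs.symm))
  have hdet1 : (G1 n a₀ b₀ c₀ z₁ z₂).det = c₀ ^ (n + 1) := by
    rw [G1_det, hz, pow_succ]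
  obtain ⟨g₁, hg₁⟩ : ∃ g₁ : GL (MI n) F₀,
      (g₁ : Matrix (MI n) (MI n) F₀) = G1 n a₀ b₀ c₀ z₁ z₂ :=
    ⟨Matrix.GeneralLinearGroup.mkOfDetNeZero (G1 n a₀ b₀ c₀ z₁ z₂)
      (by rw [hdet1]; exact pow_ne_zero _ hc₀0), rfl⟩
  have hg₁sim : ∀ v, quadFormMinus n F₀ a₀ b₀ ((g₁ : Matrix (MI n) (MI n) F₀) *ᵥ v)
      = c₀ * quadFormMinus n F₀ a₀ b₀ v := by
    intro v
    rw [hg₁]
    exact G1_sim a₀ b₀ c₀ z₁ z₂ hz v
  have hg₁P : PreservesSingularClassesMinus n a₀ b₀ (g₁ : Matrix (MI n) (MI n) F₀) :=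
    (Helper45.ID.pres_minus_iff hodd₀ a₀ b₀ hab₀ g₁ c₀ hc₀0 hg₁sim).mpr (by rw [hg₁, hdet1])
  obtain ⟨γ₁, hγ₁⟩ : ∃ γ₁ : ↥(pscmGrp hn1 a₀ b₀ hab₀), (γ₁ : GL (MI n) F₀) = g₁ :=
    ⟨⟨g₁, ⟨Units.mk0 c₀ hc₀0, hg₁sim⟩, hg₁P⟩, rfl⟩
  obtain ⟨hT, -⟩ := T_not_isSquare σ hσ2 ι hι a₀ b₀ hab₀ h2F c₀ z₁ z₂ hz hc₀ s hs
  have hT0 : 2 * s + 2 * ι z₁ + ι a₀ * ι z₂ ≠ 0 := by
    intro h0
    exact hT ⟨0, by rw [h0]; ring⟩
  have hkey := g1_inn_iff hodd hn hn1 hR hq4 ι a₀ b₀ hab₀ k k' h1 h2 lam hlam hk c₀ z₁ z₂ hz s hs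
    hs0 hT0 γ₁ (by rw [hγ₁, hg₁])
  have harith := sqclass_main σ hσ2 ι hι a₀ b₀ hab₀ h2F c₀ z₁ z₂ hz hc₀ s hs n
  obtain ⟨β₁, hβ₁⟩ : ∃ β₁, β₁ = pscpD hR (pscpTh hn1 hR ι a₀ b₀ hab₀ k k' h1 h2 lam hk γ₁) :=
    ⟨_, rfl⟩
  rw [← hβ₁] at hkey
  have hβ₁P : β₁ ∈ psoAut F (quadFormPlus (n + 1) F) := by
    rw [hβ₁]
    exact hcentP γ₁
  have hβ₁x : β₁ * x = x * β₁ := by
    rw [hβ₁]
    exact hcomm γ₁
  have hdecomp : ∀ γ : ↥(pscmGrp hn1 a₀ b₀ hab₀),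
      pscpD hR (pscpTh hn1 hR ι a₀ b₀ hab₀ k k' h1 h2 lam hk γ)
          ∈ Inn (POmega F (quadFormPlus (n + 1) F)) ∨
        pscpD hR (pscpTh hn1 hR ι a₀ b₀ hab₀ k k' h1 h2 lam hk γ) * β₁⁻¹
          ∈ Inn (POmega F (quadFormPlus (n + 1) F)) := by
    intro γ
    obtain ⟨cγ, hcγ⟩ := id γ.2.1
    by_cases hsqc : IsSquare (cγ : F₀)
    · left
      obtain ⟨e₀, he₀⟩ := hsqc
      have he₀0 : e₀ ≠ 0 := by
        rintro rfl
        rw [mul_zero] at he₀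
        exact cγ.ne_zero he₀
      exact pscpTh_inn_of_sq hodd hn1 hR ι hsq a₀ b₀ hab₀ k k' h1 h2 lam hlam hk γ e₀ he₀0
        (fun v => by rw [← he₀]; exact hcγ v)
    · right
      obtain ⟨e', he'⟩ := Helper45.isSquare_mul_of_not h2₀ hsqc hc₀
      have he'0 : e' ≠ 0 := by
        rintro rfl
        rw [mul_zero] at he'
        exact (mul_ne_zero cγ.ne_zero hc₀0) he'
      have hγ' : ∀ v, quadFormMinus n F₀ a₀ b₀
          ((((γ * γ₁⁻¹ : ↥(pscmGrp hn1 a₀ b₀ hab₀)) : GL (MI n) F₀) :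
            Matrix (MI n) (MI n) F₀) *ᵥ v)
          = ((e' * c₀⁻¹) * (e' * c₀⁻¹)) * quadFormMinus n F₀ a₀ b₀ v := by
        intro v
        have h5 : quadFormMinus n F₀ a₀ b₀ v = c₀ * quadFormMinus n F₀ a₀ b₀
            ((((γ₁⁻¹ : ↥(pscmGrp hn1 a₀ b₀ hab₀)) : GL (MI n) F₀) :
              Matrix (MI n) (MI n) F₀) *ᵥ v) := by
          rw [← hg₁sim, ← hγ₁, Matrix.mulVec_mulVec, ← Units.val_mul, ← Subgroup.coe_mul,
            mul_inv_cancel, Subgroup.coe_one, Units.val_one, Matrix.one_mulVec]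
        have h6 : quadFormMinus n F₀ a₀ b₀
            ((((γ₁⁻¹ : ↥(pscmGrp hn1 a₀ b₀ hab₀)) : GL (MI n) F₀) :
              Matrix (MI n) (MI n) F₀) *ᵥ v) = c₀⁻¹ * quadFormMinus n F₀ a₀ b₀ v := by
          rw [eq_inv_mul_iff_mul_eq₀ hc₀0]
          exact h5.symm
        rw [Subgroup.coe_mul, Units.val_mul, ← Matrix.mulVec_mulVec, hcγ, h6]
        have h7 : (e' * c₀⁻¹) * (e' * c₀⁻¹) = (cγ : F₀) * c₀⁻¹ := by
          field_simp
          linear_combination (-1 : F₀) * he'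
        rw [h7, mul_assoc]
      have h8 := pscpTh_inn_of_sq hodd hn1 hR ι hsq a₀ b₀ hab₀ k k' h1 h2 lam hlam hk
        (γ * γ₁⁻¹) (e' * c₀⁻¹) (mul_ne_zero he'0 (inv_ne_zero hc₀0)) hγ'
      rw [map_mul, map_mul, map_inv, map_inv, ← hβ₁] at h8
      exact h8
  have hInnG : Inn (POmega F (quadFormPlus (n + 1) F)) ≤ inndiagPOmegaPlus (n + 1) F :=
    hTP.trans hPG
  -- an element conjugating `x` into its `Inn`-class is `Inn` times a centralising element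
  have hfactor : ∀ g ∈ inndiagPOmegaPlus (n + 1) F,
      ∀ t ∈ Inn (POmega F (quadFormPlus (n + 1) F)), g * x * g⁻¹ = t * x * t⁻¹ →
      ∃ γ : ↥(pscmGrp hn1 a₀ b₀ hab₀),
        g = t * pscpD hR (pscpTh hn1 hR ι a₀ b₀ hab₀ k k' h1 h2 lam hk γ) := by
    intro g hg t ht hgt
    have h3 : (t⁻¹ * g) * x = x * (t⁻¹ * g) := by
      have h4 : t⁻¹ * (g * x * g⁻¹) * g = t⁻¹ * (t * x * t⁻¹) * g := by rw [hgt]
      calc t⁻¹ * g * x = t⁻¹ * (g * x * g⁻¹) * g := by group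
        _ = t⁻¹ * (t * x * t⁻¹) * g := h4
        _ = x * (t⁻¹ * g) := by group
    obtain ⟨γ, hγ⟩ := hcent (t⁻¹ * g) (mul_mem (inv_mem (hInnG ht)) hg) h3
    exact ⟨γ, by rw [← hγ]; group⟩
  constructor
  · intro hcase
    have hβ₁T : β₁ ∈ Inn (POmega F (quadFormPlus (n + 1) F)) := hkey.mpr (harith.mpr hcase)
    have hall : ∀ γ : ↥(pscmGrp hn1 a₀ b₀ hab₀),
        pscpD hR (pscpTh hn1 hR ι a₀ b₀ hab₀ k k' h1 h2 lam hk γ)
          ∈ Inn (POmega F (quadFormPlus (n + 1) F)) := by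
      intro γ
      rcases hdecomp γ with h3 | h3
      · exact h3
      · have h4 := mul_mem h3 hβ₁T
        rwa [inv_mul_cancel_right] at h4
    rw [splitCount_eq_relIndex (inndiagPOmegaPlus (n + 1) F)
      (Inn (POmega F (quadFormPlus (n + 1) F))) (Inn (POmega F (quadFormPlus (n + 1) F))) x
      hnormT ?_, hidx4]
    intro g hg
    constructor
    · intro hgT
      exact ⟨g, hgT, rfl⟩
    · rintro ⟨t, ht, hgt⟩
      obtain ⟨γ, hγ⟩ := hfactor g hg t ht hgt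
      rw [hγ]
      exact mul_mem ht (hall γ)
  · intro hcase
    have hβ₁T : β₁ ∉ Inn (POmega F (quadFormPlus (n + 1) F)) :=
      fun h3 => hcase (harith.mp (hkey.mp h3))
    rw [splitCount_eq_relIndex (inndiagPOmegaPlus (n + 1) F)
      (Inn (POmega F (quadFormPlus (n + 1) F))) (psoAut F (quadFormPlus (n + 1) F)) x
      hnormT ?_, hidx2]
    intro g hg
    constructor
    · intro hgP
      by_cases hgT : g ∈ Inn (POmega F (quadFormPlus (n + 1) F))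
      · exact ⟨g, hgT, rfl⟩
      · refine ⟨g * β₁⁻¹, ?_, ?_⟩
        · rw [mul_mem_iff_relIndex_two (psoAut F (quadFormPlus (n + 1) F))
            (Inn (POmega F (quadFormPlus (n + 1) F))) hidxPT hgP (inv_mem hβ₁P), inv_mem_iff]
          exact ⟨fun h3 => absurd h3 hgT, fun h3 => absurd h3 hβ₁T⟩
        · have h3 : β₁⁻¹ * x * β₁ = x := by
            rw [mul_assoc, ← hβ₁x, inv_mul_cancel_left]
          calc g * x * g⁻¹ = g * (β₁⁻¹ * x * β₁) * g⁻¹ := by rw [h3]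
            _ = g * β₁⁻¹ * x * (g * β₁⁻¹)⁻¹ := by group
    · rintro ⟨t, ht, hgt⟩
      obtain ⟨γ, hγ⟩ := hfactor g hg t ht hgt
      rw [hγ]
      exact mul_mem (hTP ht) (hcentP γ)

end count

section main

variable {F : Type u} [Field F] [Fintype F] {F₀ : Type v} [Field F₀] [Fintype F₀]

set_option maxHeartbeats 1600000 in
/-- **involutory graph-field automorphisms of `PΩ⁺_{2n+2}(q)`, `n ≥ 4`** -/
theorem plus_graph_field_class (p f : ℕ) [Fact p.Prime] (hF : Fintype.card F = p ^ f)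
    (n : ℕ) (hn : 4 ≤ n)
    (x : MulAut (POmega F (quadFormPlus (n + 1) F)))
    (hx : IsGraphFieldAutClassPOmegaPlus (n + 1) x) (hx2 : orderOf x = 2)
    (hF₀ : Fintype.card F₀ = p ^ (f / 2)) :
    Even f ∧
    (∀ y : MulAut (POmega F (quadFormPlus (n + 1) F)),
      IsGraphFieldAutClassPOmegaPlus (n + 1) y → orderOf y = 2 →
        IsConjUnder (inndiagPOmegaPlus (n + 1) F) x y) ∧
    (∃ a₀ b₀ : F₀, (∀ z₁ z₂ : F₀, z₁ ^ 2 + a₀ * z₁ * z₂ + b₀ * z₂ ^ 2 = 0 → z₁ = 0 ∧ z₂ = 0) ∧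
      Nonempty (↥(inndiagPOmegaPlus (n + 1) F ⊓ Subgroup.centralizer {x})
        ≃* ↥(inndiagPOmegaMinus n F₀ a₀ b₀))) ∧
    (p = 2 → splitClassCount (inndiagPOmegaPlus (n + 1) F)
      (Inn (POmega F (quadFormPlus (n + 1) F))) x = 1) ∧
    ((p ≠ 2 ∧ Odd (n + 1) ∧ p ^ (f / 2) % 4 = 1) →
      splitClassCount (inndiagPOmegaPlus (n + 1) F)
        (Inn (POmega F (quadFormPlus (n + 1) F))) x = 4) ∧
    ((p ≠ 2 ∧ ¬ (Odd (n + 1) ∧ p ^ (f / 2) % 4 = 1)) →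
      splitClassCount (inndiagPOmegaPlus (n + 1) F)
        (Inn (POmega F (quadFormPlus (n + 1) F))) x = 2) := by
  classical
  have hp : p.Prime := Fact.out
  have hR : Helper45.reflGroup (Helper43.plusQF (n + 1) F) = ⊤ :=
    Helper44.reflGroup_eq_top_of _ (Helper45.plusQF_nondeg' (F := F) (n + 1)) (Or.inr (by
      rw [Fintype.card_sum, Fintype.card_fin]
      omega))
  obtain ⟨Θ, hΘ1, hΘ2⟩ := plus_theta (F := F) (n + 1) (by omega)
  have hne := plus_theta_ne_one Θ hΘ1 x (Or.inr hx)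
  have hxr' : x ^ 2 = 1 := by
    rw [← hx2]
    exact pow_orderOf_eq_one x
  have hσr : orderOf (Θ x) = 2 := by
    have h1 : (Θ x) ^ 2 = 1 := by rw [← map_pow, hxr', map_one]
    have h4 := orderOf_dvd_of_pow_eq_one h1
    rcases (Nat.dvd_prime Nat.prime_two).1 h4 with h5 | h5
    · exact absurd (orderOf_eq_one_iff.1 h5) hne
    · exact h5
  obtain ⟨σ, h, hh, ex⟩ : ∃ (σ : RingAut F) (h : GL (PI n) F)
      (hh : IsSemisimilarityPair (quadFormPlus (n + 1) F) h σ),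
      x = semiAut (quadFormPlus (n + 1) F) h σ hh := by
    obtain ⟨h, hh, e⟩ := hΘ2 x
    exact ⟨Θ x, h, hh, e⟩
  have hΘx : Θ x = σ := by
    rw [ex]
    exact hΘ1 h σ hh
  rw [hΘx] at hσr
  have hx1 : semiAut (quadFormPlus (n + 1) F) h σ hh ^ 2 = 1 := by
    rw [← ex]
    exact hxr'
  obtain ⟨hrf, -⟩ := PSLn.lang_card_fix p f hF σ 2 hσr (by norm_num)
  obtain ⟨ι, hι⟩ := PSLn.lang_exists_embedding p f hF σ 2 hσr (by norm_num) F₀ hF₀
  obtain ⟨ζ₀, hζ₀⟩ := exists_aniso_fin F₀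
  have hab₀ : ∀ z₁ z₂ : F₀, z₁ ^ 2 + 1 * z₁ * z₂ + ζ₀ * z₂ ^ 2 = 0 → z₁ = 0 ∧ z₂ = 0 :=
    fun z₁ z₂ hz => Cfsg.Agent.S2617.aniso ζ₀ hζ₀ z₁ z₂ hz
  have hζσ : σ (ι ζ₀) = ι ζ₀ := (hι _).mpr ⟨ζ₀, rfl⟩
  have hζK : ∀ t : ↥(PSpn.fixF σ), t ^ 2 + t + (⟨ι ζ₀, hζσ⟩ : ↥(PSpn.fixF σ)) ≠ 0 := by
    intro t ht
    obtain ⟨w, hw⟩ := (hι _).mp t.2
    have ht' : (t : F) ^ 2 + (t : F) + ι ζ₀ = 0 := congrArg Subtype.val ht
    rw [← hw] at ht'
    have h3 : ι (w ^ 2 + w + ζ₀) = 0 := by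
      rw [map_add, map_add, map_pow]
      exact ht'
    exact hζ₀ w (ι.injective (h3.trans (map_zero ι).symm))
  have hnp := graph_field_not_psc (by omega) hR Θ hΘ2 x hx σ h hh ex
  have hmodel : ∃ (k : Matrix (PI n) (MI n) F) (k' : Matrix (MI n) (PI n) F) (lam e : F),
      k * k' = 1 ∧ k' * k = 1 ∧ lam ≠ 0 ∧ e ≠ 0 ∧
      (∀ v, quadFormPlus (n + 1) F (k *ᵥ v) = lam * quadFormMinus n F (ι 1) (ι ζ₀) v) ∧
      (h : Matrix (PI n) (PI n) F) * k.map σ = e • k := by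
    rcases plus_lang n (by omega) σ 2 hσr (by norm_num) ⟨ι ζ₀, hζσ⟩ hζK h hh hx1 with
      ⟨k₁, k₁', lam₁, e₁, h11, h12, hlam₁, he₁, hQ₁, hk₁⟩ |
      ⟨k₁, k₁', lam₁, e₁, h11, h12, hlam₁, he₁, hQ₁, hk₁⟩
    · exfalso
      obtain ⟨kk, hkk⟩ : ∃ kk : GL (PI n) F, (kk : Matrix (PI n) (PI n) F) = k₁ :=
        ⟨⟨k₁, k₁', h11, h12⟩, rfl⟩
      have hkks : kk ∈ Geo.quadSimilarityGroup (F := F) (quadFormPlus (n + 1) F) :=
        ⟨Units.mk0 lam₁ hlam₁, fun v => by rw [hkk]; exact hQ₁ v⟩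
      exact hnp (plus_type_psc hR σ h kk (sim_of_semi h σ hh) hkks e₁ he₁
        (by rw [hkk]; exact hk₁))
    · refine ⟨k₁, k₁', lam₁, e₁, h11, h12, hlam₁, he₁, ?_, hk₁⟩
      intro v
      rw [map_one]
      exact hQ₁ v
  obtain ⟨k, k', lam, e, h11, h12, hlam, he, hk, hhk⟩ := hmodel
  have hconj : ∀ y : MulAut (POmega F (quadFormPlus (n + 1) F)),
      IsGraphFieldAutClassPOmegaPlus (n + 1) y → orderOf y = 2 →
        IsConjUnder (inndiagPOmegaPlus (n + 1) F) x y := by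
    intro y hy hy2
    have hney := plus_theta_ne_one Θ hΘ1 y (Or.inr hy)
    have hyr' : y ^ 2 = 1 := by
      rw [← hy2]
      exact pow_orderOf_eq_one y
    have hτr : orderOf (Θ y) = 2 := by
      have h1 : (Θ y) ^ 2 = 1 := by rw [← map_pow, hyr', map_one]
      have h4 := orderOf_dvd_of_pow_eq_one h1
      rcases (Nat.dvd_prime Nat.prime_two).1 h4 with h5 | h5
      · exact absurd (orderOf_eq_one_iff.1 h5) hney
      · exact h5
    have hτσ : Θ y = σ := PSLn.lang_involution_unique p f hF (Θ y) σ hτr hσr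
    obtain ⟨τ, hτ, g, hg, ey⟩ : ∃ (τ : RingAut F) (_ : τ = σ) (g : GL (PI n) F)
        (hg : IsSemisimilarityPair (quadFormPlus (n + 1) F) g τ),
        y = semiAut (quadFormPlus (n + 1) F) g τ hg := ⟨Θ y, hτσ, hΘ2 y⟩
    subst hτ
    have hgnp := graph_field_not_psc (by omega) hR Θ hΘ2 y hy τ g hg ey
    have hy1 : semiAut (quadFormPlus (n + 1) F) g τ hg ^ 2 = 1 := by
      rw [← ey]
      exact hyr'
    have hcl : PreservesSingularClasses (quadFormPlus (n + 1) F)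
          (h : Matrix (PI n) (PI n) F) ↔
        PreservesSingularClasses (quadFormPlus (n + 1) F) (g : Matrix (PI n) (PI n) F) :=
      ⟨fun hP => absurd hP hnp, fun hP => absurd hP hgnp⟩
    obtain ⟨κ, hκ, hκeq⟩ := plus_conj n (by omega) τ 2 hσr (by norm_num) h g hh hg hx1 hy1 hcl
    exact ⟨κ, hκ, by rw [ey, hκeq, ← ex]⟩
  refine ⟨even_iff_two_dvd.mpr hrf, hconj, ⟨1, ζ₀, hab₀, ?_⟩, ?_, ?_, ?_⟩
  · rw [ex]
    exact plus_centralizer_iso hn hR σ 2 hσr (by norm_num) h hh ι hι 1 ζ₀ hab₀ k k' h11 h12 lam e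
      hlam he hk hhk
  · intro hp2
    haveI : CharP F p := Helper44.charP_of_card p f hF
    have h2 : ringChar F = 2 := by rw [ringChar.eq F p, hp2]
    apply splitCount_one_of_forall
    intro δ hδ
    exact ⟨δ, inndiag_plus_le_inn_char2 (by omega) h2 hR hδ, rfl⟩
  · rintro ⟨hp2, hoddn, hq4⟩
    have hodd : Odd (Fintype.card F) := by
      rw [hF]
      exact Odd.pow (hp.odd_of_ne_two hp2)
    have hsq := fun c => isSquare_iota_of_two p f hF hodd hF₀ hrf ι c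
    rw [ex]
    refine (plus_gf_count hodd hn hR σ hσr h hh ι hι hsq 1 ζ₀ hab₀ k k' h11 h12 lam e hlam he hk
      hhk).1 ⟨?_, ?_⟩
    · obtain ⟨j, hj⟩ := hoddn
      exact ⟨j, by omega⟩
    · rw [hF₀]
      exact hq4
  · rintro ⟨hp2, hnot⟩
    have hodd : Odd (Fintype.card F) := by
      rw [hF]
      exact Odd.pow (hp.odd_of_ne_two hp2)
    have hsq := fun c => isSquare_iota_of_two p f hF hodd hF₀ hrf ι c
    rw [ex]
    refine (plus_gf_count hodd hn hR σ hσr h hh ι hι hsq 1 ζ₀ hab₀ k k' h11 h12 lam e hlam he hk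
      hhk).2 ?_
    rintro ⟨hev, hc⟩
    apply hnot
    refine ⟨Even.add_one hev, ?_⟩
    rw [← hF₀]
    exact hc

end main

end Cfsg.Agent.Helper44.POm
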