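import Cfsg.Agent.Helper44.OmegaStab

set_option autoImplicit false

/-!
Helper library (helper44): more on stabilisers and spinor characters in odd characteristic:
a rotation stabilising a totally singular subspace, and the relation between the determinant and
the two spinor characters.
-/

namespace Cfsg.Agent.Helper44

open Cfsg Matrix Cfsg.Agent.Helper45

universe u

section StabOdd2

variable {ι : Type} [Fintype ι] [DecidableEq ι] {F : Type u} [Field F] [Fintype F]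
  (Q : QuadraticForm F (ι → F))

/-- a non-zero totally singular subspace is stabilised by an isometry with both spinor characters
equal to `-1` -/
theorem exists_rot_stab (h2 : (2 : F) ≠ 0) (hQ : (QuadraticMap.polarBilin Q).Nondegenerate) (ε : F)
    (hε : ¬ IsSquare ε) (U : Submodule F (ι → F)) (hU0 : ∀ u ∈ U, Q u = 0)
    (hpos : 0 < Module.finrank F ↥U) :
    ∃ s : ↥(isometryGroup F ⇑Q), (∀ x ∈ U, mv ⇑Q s x ∈ U) ∧ spin ⇑Q 1 s = -1 ∧ spin ⇑Q ε s = -1 := by
  obtain ⟨⟨e₀, he₀U⟩, he₀ne⟩ := Module.finrank_pos_iff_exists_ne_zero.mp hpos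
  have he₀0 : e₀ ≠ 0 := fun h => he₀ne (Subtype.ext h)
  obtain ⟨s₃, b, d, hbe, hse, hsfix, hs1, hsε⟩ :=
    exists_rot Q h2 hQ ε hε e₀ (hU0 e₀ he₀U) he₀0
  refine ⟨s₃, ?_, hs1, hsε⟩
  intro x hx
  set c := QuadraticMap.polar ⇑Q b x / QuadraticMap.polar ⇑Q b e₀ with hc
  have hx' : x - c • e₀ ∈ U := U.sub_mem hx (U.smul_mem _ he₀U)
  have e1 : QuadraticMap.polar ⇑Q b (x - c • e₀) = 0 := by
    rw [QuadraticMap.polar_sub_right, QuadraticMap.polar_smul_right, smul_eq_mul, hc,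
      div_mul_cancel₀ _ hbe, sub_self]
  have e2 : QuadraticMap.polar ⇑Q e₀ (x - c • e₀) = 0 :=
    polar_eq_zero_of_singular Q U hU0 e₀ _ he₀U hx'
  have e3 : x = c • e₀ + (x - c • e₀) := by abel
  rw [e3, mv_add, mv_smul, hse, hsfix _ e1 e2]
  exact U.add_mem (U.smul_mem _ (U.smul_mem _ he₀U)) hx'

/-- the product of the two spinor characters is the determinant: an isometry of determinant one
has equal spinor characters -/
theorem spin_eq_of_det_eq_one (h2 : (2 : F) ≠ 0) (hQ : (QuadraticMap.polarBilin Q).Nondegenerate)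
    (ε : F) (hε : ¬ IsSquare ε) (g : ↥(isometryGroup F ⇑Q))
    (hdet : ((g : GL ι F) : Matrix ι ι F).det = 1) : spin ⇑Q 1 g = spin ⇑Q ε g := by
  have key : ∀ g : ↥(isometryGroup F ⇑Q),
      (((g : GL ι F) : Matrix ι ι F).det = 1 ∧ spin ⇑Q 1 g * spin ⇑Q ε g = 1) ∨
      (((g : GL ι F) : Matrix ι ι F).det = -1 ∧ spin ⇑Q 1 g * spin ⇑Q ε g = -1) := by
    intro g
    have hg : g ∈ reflGroup Q := by rw [reflGroup_eq_top Q h2 hQ]; trivial
    refine Subgroup.closure_induction (p := fun (g : ↥(isometryGroup F ⇑Q)) _ =>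
      (((g : GL ι F) : Matrix ι ι F).det = 1 ∧ spin ⇑Q 1 g * spin ⇑Q ε g = 1) ∨
      (((g : GL ι F) : Matrix ι ι F).det = -1 ∧ spin ⇑Q 1 g * spin ⇑Q ε g = -1)) ?_ ?_ ?_ ?_ hg
    · rintro g ⟨v, hv, rfl⟩
      right
      refine ⟨Helper13.reflection_det Q v hv, ?_⟩
      by_cases hsq : IsSquare (Q v)
      · rw [spin_one_reflO_sq Q h2 v hv hsq, spin_eps_reflO_sq Q h2 ε hε v hv hsq, mul_one]
      · rw [spin_one_reflO_nsq Q h2 v hv hsq, spin_eps_reflO_nsq Q h2 ε hε v hv hsq, one_mul]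
    · left
      refine ⟨?_, by rw [map_one, map_one, one_mul]⟩
      show ((1 : GL ι F) : Matrix ι ι F).det = 1
      rw [Units.val_one, Matrix.det_one]
    · intro x y _ _ hx hy
      have hdm : (((x * y : ↥(isometryGroup F ⇑Q)) : GL ι F) : Matrix ι ι F).det
          = ((x : GL ι F) : Matrix ι ι F).det * ((y : GL ι F) : Matrix ι ι F).det := by
        show (((x : GL ι F) * (y : GL ι F) : GL ι F) : Matrix ι ι F).det = _
        rw [Units.val_mul, Matrix.det_mul]
      have hsm : spin ⇑Q 1 (x * y) * spin ⇑Q ε (x * y)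
          = (spin ⇑Q 1 x * spin ⇑Q ε x) * (spin ⇑Q 1 y * spin ⇑Q ε y) := by
        rw [map_mul, map_mul, mul_mul_mul_comm]
      rw [hdm, hsm]
      rcases hx with ⟨hx1, hx2⟩ | ⟨hx1, hx2⟩ <;> rcases hy with ⟨hy1, hy2⟩ | ⟨hy1, hy2⟩
      · left; rw [hx1, hx2, hy1, hy2]; exact ⟨by ring, by rfl⟩
      · right; rw [hx1, hx2, hy1, hy2]; exact ⟨by ring, by rfl⟩
      · right; rw [hx1, hx2, hy1, hy2]; exact ⟨by ring, by rfl⟩
      · left; rw [hx1, hx2, hy1, hy2]; exact ⟨by ring, by rfl⟩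
    · intro x _ hx
      have hdm : (((x⁻¹ : ↥(isometryGroup F ⇑Q)) : GL ι F) : Matrix ι ι F).det
          * ((x : GL ι F) : Matrix ι ι F).det = 1 := by
        rw [← Matrix.det_mul]
        have : (((x⁻¹ : ↥(isometryGroup F ⇑Q)) : GL ι F) : Matrix ι ι F) * ((x : GL ι F) : Matrix ι ι F)
            = 1 := by
          show (((x : GL ι F)⁻¹ * (x : GL ι F) : GL ι F) : Matrix ι ι F) = 1
          rw [inv_mul_cancel, Units.val_one]
        rw [this, Matrix.det_one]
      have hsm : spin ⇑Q 1 x⁻¹ * spin ⇑Q ε x⁻¹ = (spin ⇑Q 1 x * spin ⇑Q ε x)⁻¹ := by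
        rw [map_inv, map_inv, mul_inv]
      rw [hsm]
      rcases hx with ⟨hx1, hx2⟩ | ⟨hx1, hx2⟩
      · left
        rw [hx1, mul_one] at hdm
        exact ⟨hdm, by rw [hx2, inv_one]⟩
      · right
        rw [hx1] at hdm
        refine ⟨by linear_combination -hdm, by rw [hx2]; rfl⟩
  rcases key g with ⟨-, h⟩ | ⟨h, -⟩
  · have h3 : spin ⇑Q ε g * spin ⇑Q ε g = 1 := Int.units_mul_self _
    calc spin ⇑Q 1 g = spin ⇑Q 1 g * (spin ⇑Q ε g * spin ⇑Q ε g) := by rw [h3, mul_one]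
      _ = (spin ⇑Q 1 g * spin ⇑Q ε g) * spin ⇑Q ε g := by rw [mul_assoc]
      _ = spin ⇑Q ε g := by rw [h, one_mul]
  · exfalso
    rw [hdet] at h
    apply h2
    linear_combination h

end StabOdd2

end Cfsg.Agent.Helper44
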