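import Mathlib
import Cfsg.Agent.Helper45.IDMinus

set_option autoImplicit false

/-!
Piece AL2 of CALL S2720 (helper43): a finite field `K ⊇ F` and a linear form `ℓ` with `ℓ 1 ≠ 0`:
`Kˣ` is cyclic of even order `n`, and the number of pairs `(a, b) ≠ 0` with `ℓ (a * b) = d` is
`n * (#ker ℓ + [d = 0])`.
-/

namespace Cfsg.Agent.Helper44.PFAL2

open Cfsg Matrix Polynomial

universe u

variable {ι : Type} [Fintype ι] [DecidableEq ι] {F : Type u} [Field F] [Fintype F]

/-- AL2: a finite field `K ⊇ F` and a linear form `ℓ` with `ℓ 1 ≠ 0`.  `ζ` generates `Kˣ`,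
`n = #K - 1`, and `#{(a, b) ≠ 0 | ℓ (a * b) = d} = n * (#ker ℓ + [d = 0])`. -/
theorem pf_al2 {K : Type*} [Field K] [Finite K] [Algebra F K] (hq : Odd (Fintype.card F))
    (ℓ : K →ₗ[F] F) (hℓ : ℓ 1 ≠ 0) :
    ∃ (ζ : K) (n : ℕ) (o : F → ℕ), ζ ≠ 0 ∧ Even n ∧ 0 < n ∧ ζ ^ n = 1 ∧
      (∀ i : ℕ, ζ ^ i = 1 → n ∣ i) ∧
      (∀ d : F, Nat.card {ab : K × K // ab ≠ 0 ∧ ℓ (ab.1 * ab.2) = d} = n * o d) ∧
      (∀ d : F, d ≠ 0 → Odd (o d)) ∧ Even (o 0) := by
  classical
  haveI : Fintype K := Fintype.ofFinite K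
  obtain ⟨ζ', hζ'⟩ := IsCyclic.exists_generator (α := Kˣ)
  have horder : orderOf ζ' = Nat.card Kˣ := orderOf_eq_card_of_forall_mem_zpowers hζ'
  have hKodd : Odd (Nat.card K) := by
    rw [Module.natCard_eq_pow_finrank (K := F) (V := K), Nat.card_eq_fintype_card]
    exact hq.pow
  have hHodd : Odd (Nat.card ↥(LinearMap.ker ℓ)) := by
    rw [Module.natCard_eq_pow_finrank (K := F) (V := ↥(LinearMap.ker ℓ)), Nat.card_eq_fintype_card]
    exact hq.pow
  have hfib : ∀ d : F, Nat.card {b : K // ℓ b = d} = Nat.card ↥(LinearMap.ker ℓ) := by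
    intro d
    obtain ⟨b₀, hb₀⟩ : ∃ b₀ : K, b₀ = (d / ℓ 1) • (1 : K) := ⟨_, rfl⟩
    have hb2 : ℓ b₀ = d := by
      rw [hb₀, map_smul, smul_eq_mul, div_mul_cancel₀ _ hℓ]
    apply Nat.card_congr
    exact
      { toFun := fun b => ⟨b.1 - b₀, LinearMap.mem_ker.mpr (by rw [map_sub, b.2, hb2, sub_self])⟩
        invFun := fun h => ⟨b₀ + h.1, by rw [map_add, hb2, LinearMap.mem_ker.mp h.2, add_zero]⟩
        left_inv := fun b => Subtype.ext (by simp)
        right_inv := fun h => Subtype.ext (by simp) }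
  have hunit : ∀ d : F, Nat.card {u : Unit // d = 0} = if d = 0 then 1 else 0 := by
    intro d
    by_cases hd : d = 0
    · rw [if_pos hd]
      haveI : Unique {u : Unit // d = 0} := ⟨⟨⟨(), hd⟩⟩, fun _ => Subtype.ext rfl⟩
      exact Nat.card_unique
    · rw [if_neg hd]
      haveI : IsEmpty {u : Unit // d = 0} := ⟨fun x => hd x.2⟩
      exact Nat.card_of_isEmpty
  refine ⟨((ζ' : Kˣ) : K), Nat.card Kˣ,
    fun d => Nat.card ({c : K // ℓ c = d} ⊕ {u : Unit // d = 0}), ?_, ?_, ?_, ?_, ?_, ?_, ?_, ?_⟩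
  · exact Units.ne_zero _
  · rw [Nat.card_units]
    rcases hKodd with ⟨m, hm⟩
    exact ⟨m, by omega⟩
  · exact Nat.card_pos
  · have h1 : ζ' ^ Nat.card Kˣ = 1 := pow_card_eq_one'
    have h2 : ((ζ' ^ Nat.card Kˣ : Kˣ) : K) = 1 := by
      rw [h1]
      rfl
    rw [Units.val_pow_eq_pow_val] at h2
    exact h2
  · intro i hi
    rw [← horder]
    apply orderOf_dvd_of_pow_eq_one
    apply Units.ext
    simpa using hi
  · -- the count
    intro d
    rw [← Nat.card_prod]
    apply Nat.card_congr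
    symm
    refine Equiv.ofBijective (fun p : Kˣ × ({c : K // ℓ c = d} ⊕ {u : Unit // d = 0}) =>
      (Sum.elim (fun c : {c : K // ℓ c = d} =>
          (⟨((p.1 : K), ((p.1⁻¹ : Kˣ) : K) * c.1), ?_⟩ :
            {ab : K × K // ab ≠ 0 ∧ ℓ (ab.1 * ab.2) = d}))
        (fun w : {u : Unit // d = 0} =>
          (⟨((0 : K), (p.1 : K)), ?_⟩ : {ab : K × K // ab ≠ 0 ∧ ℓ (ab.1 * ab.2) = d}))
        p.2)) ⟨?_, ?_⟩
    · refine ⟨?_, ?_⟩
      · intro h
        exact Units.ne_zero p.1 (congrArg Prod.fst h)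
      · show ℓ ((p.1 : K) * (((p.1⁻¹ : Kˣ) : K) * c.1)) = d
        rw [← mul_assoc, Units.mul_inv, one_mul]
        exact c.2
    · refine ⟨?_, ?_⟩
      · intro h
        exact Units.ne_zero p.1 (congrArg Prod.snd h)
      · show ℓ ((0 : K) * (p.1 : K)) = d
        rw [zero_mul, map_zero]
        exact w.2.symm
    · -- injective
      rintro ⟨a, (c | w)⟩ ⟨a', (c' | w')⟩ h
      · have h0 : ((a : K), ((a⁻¹ : Kˣ) : K) * c.1) = ((a' : K), ((a'⁻¹ : Kˣ) : K) * c'.1) :=
          congrArg Subtype.val h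
        have h1 : (a : K) = (a' : K) := congrArg Prod.fst h0
        have h2 : ((a⁻¹ : Kˣ) : K) * c.1 = ((a'⁻¹ : Kˣ) : K) * c'.1 := congrArg Prod.snd h0
        have haa : a = a' := Units.ext h1
        subst haa
        have hcc : c.1 = c'.1 := mul_left_cancel₀ (Units.ne_zero _) h2
        have : c = c' := Subtype.ext hcc
        rw [this]
      · exfalso
        have h0 : ((a : K), ((a⁻¹ : Kˣ) : K) * c.1) = ((0 : K), (a' : K)) :=
          congrArg Subtype.val h
        exact Units.ne_zero a (congrArg Prod.fst h0)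
      · exfalso
        have h0 : ((0 : K), (a : K)) = ((a' : K), ((a'⁻¹ : Kˣ) : K) * c'.1) :=
          congrArg Subtype.val h
        exact Units.ne_zero a' (congrArg Prod.fst h0).symm
      · have h0 : ((0 : K), (a : K)) = ((0 : K), (a' : K)) := congrArg Subtype.val h
        have haa : a = a' := Units.ext (congrArg Prod.snd h0)
        subst haa
        have : w = w' := Subtype.ext rfl
        rw [this]
    · -- surjective
      rintro ⟨⟨a, b⟩, hab0, habd⟩
      by_cases ha : a = 0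
      · subst ha
        have hb : b ≠ 0 := by
          rintro rfl
          exact hab0 rfl
        have hd : d = 0 := by
          have h := habd
          simp only [zero_mul, map_zero] at h
          exact h.symm
        refine ⟨⟨Units.mk0 b hb, Sum.inr ⟨(), hd⟩⟩, ?_⟩
        apply Subtype.ext
        rfl
      · refine ⟨⟨Units.mk0 a ha, Sum.inl ⟨a * b, habd⟩⟩, ?_⟩
        apply Subtype.ext
        show ((a : K), ((Units.mk0 a ha)⁻¹ : Kˣ).1 * (a * b)) = (a, b)
        congr 1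
        rw [← mul_assoc]
        have : ((Units.mk0 a ha)⁻¹ : Kˣ).1 * a = 1 := by
          have h := Units.inv_mul (Units.mk0 a ha)
          exact h
        rw [this, one_mul]
  · -- odd
    intro d hd
    show Odd (Nat.card ({c : K // ℓ c = d} ⊕ {u : Unit // d = 0}))
    rw [Nat.card_sum, hfib d, hunit d, if_neg hd, add_zero]
    exact hHodd
  · -- even
    show Even (Nat.card ({c : K // ℓ c = (0 : F)} ⊕ {u : Unit // (0 : F) = 0}))
    rw [Nat.card_sum, hfib 0, hunit 0, if_pos rfl]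
    rcases hHodd with ⟨m, hm⟩
    exact ⟨m + 1, by omega⟩

end Cfsg.Agent.Helper44.PFAL2
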