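import Mathlib
import Cfsg.Agent.Helper45.IDMinus
import Cfsg.Agent.Helper44.PFEVADJ
import Cfsg.Agent.Helper44.PFAL2

set_option autoImplicit false

/-!
Piece MODEL2 of CALL S2720 (helper43): the model `M = K × K`, `K = F[X]/(f)`, when `Q` vanishes on
`ker f(G)` and on `ker f(G⁻¹)`.
-/

namespace Cfsg.Agent.Helper44.PFMODEL2

open Cfsg Matrix Polynomial

universe u

variable {ι : Type} [Fintype ι] [DecidableEq ι] {F : Type u} [Field F] [Fintype F]

/-- MODEL2: the model `M = K × K` when `Q` vanishes on `ker f(G)` and on `ker f(G⁻¹)`.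
`j (a, b) = a(G) v + b(G⁻¹) v'` (`pf_ev` twice), `Q (j (a, b)) = ℓ (a * b)` with
`ℓ a = B(a(G) v, v')` (`pf_adj`); apply `pf_al2`; `z (a, b) = (ζ a, ζ⁻¹ b)`,
`γ (a, b) = (root * a, root ^ (r - 1) * b)`. -/
theorem pf_model2 (Q : QuadraticForm F (ι → F)) (hq : Odd (Fintype.card F))
    (G : Matrix ι ι F) (hG : ∀ x, Q (G *ᵥ x) = Q x) {r : ℕ} (hr : r.Prime)
    (hGr : G ^ r = 1) (f : F[X]) (hf : Irreducible f) (hfd : f ∣ Polynomial.X ^ r - 1)
    (v v' : ι → F) (hfv : (aeval G f) *ᵥ v = 0) (hfv' : (aeval (G ^ (r - 1)) f) *ᵥ v' = 0)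
    (hvv' : QuadraticMap.polar ⇑Q v v' ≠ 0)
    (hE : ∀ w : ι → F, (aeval G f) *ᵥ w = 0 → Q w = 0)
    (hE' : ∀ w : ι → F, (aeval (G ^ (r - 1)) f) *ᵥ w = 0 → Q w = 0) :
    ∃ (j : AdjoinRoot f × AdjoinRoot f →ₗ[F] (ι → F))
      (z γ : AdjoinRoot f × AdjoinRoot f →ₗ[F] AdjoinRoot f × AdjoinRoot f) (n : ℕ)
      (o : F → ℕ),
      (∀ m, Q (j (z m)) = Q (j m)) ∧ (∀ m, G *ᵥ j m = j (γ m)) ∧ (∀ m, z (γ m) = γ (z m)) ∧
      (∀ m, (∀ m', QuadraticMap.polar ⇑Q (j m) (j m') = 0) → m = 0) ∧ Even n ∧ 0 < n ∧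
      (∀ m, m ≠ 0 → ∀ i : ℕ, (z ^ i) m = m → n ∣ i) ∧ z ^ n = 1 ∧
      (∀ d : F, Nat.card {m : AdjoinRoot f × AdjoinRoot f // m ≠ 0 ∧ Q (j m) = d} = n * o d) ∧
      (∀ d : F, d ≠ 0 → Odd (o d)) ∧ Even (o 0) := by
  classical
  haveI : Fact (Irreducible f) := ⟨hf⟩
  haveI : Module.Finite F (AdjoinRoot f) := (AdjoinRoot.powerBasis hf.ne_zero).finite
  haveI : Finite (AdjoinRoot f) := Module.finite_of_finite F
  have hv0 : v ≠ 0 := by
    rintro rfl
    exact hvv' (QuadraticMap.polar_zero_left _ _)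
  have hv'0 : v' ≠ 0 := by
    rintro rfl
    exact hvv' (QuadraticMap.polar_zero_right _ _)
  have hr0 : 0 < r := hr.pos
  obtain ⟨H, hH⟩ : ∃ H : Matrix ι ι F, H = G ^ (r - 1) := ⟨_, rfl⟩
  rw [← hH] at hfv' hE'
  obtain ⟨j₁, hj₁inj, hj₁⟩ := Cfsg.Agent.Helper44.PFEVADJ.ev_aux G f hf v hv0 hfv
  obtain ⟨j₂, hj₂inj, hj₂⟩ := Cfsg.Agent.Helper44.PFEVADJ.ev_aux H f hf v' hv'0 hfv'
  have hadj : ∀ (a : F[X]) (x y : ι → F), QuadraticMap.polar ⇑Q ((aeval G a) *ᵥ x) y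
      = QuadraticMap.polar ⇑Q x ((aeval H a) *ᵥ y) := by
    intro a x y
    rw [hH]
    exact Cfsg.Agent.Helper44.PFEVADJ.adj_aux Q G hG r hr0 hGr a x y
  have hGG : G ^ ((r - 1) * (r - 1)) = G := by
    have h2r : 2 ≤ r := hr.two_le
    have e : (r - 1) * (r - 1) = r * (r - 2) + 1 := by
      obtain ⟨k, rfl⟩ : ∃ k, r = k + 2 := ⟨r - 2, by omega⟩
      simp only [Nat.add_sub_cancel]
      have : k + 2 - 1 = k + 1 := by omega
      rw [this]
      ring
    rw [e, pow_succ, pow_mul, hGr, one_pow, one_mul]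
  have hj₁1 : j₁ 1 = v := by
    have h := hj₁ 1
    rw [map_one (AdjoinRoot.mk f), map_one (aeval G), Matrix.one_mulVec] at h
    exact h
  have hj₂1 : j₂ 1 = v' := by
    have h := hj₂ 1
    rw [map_one (AdjoinRoot.mk f), map_one (aeval H), Matrix.one_mulVec] at h
    exact h
  have hj₁mul : ∀ (a : F[X]) (m : AdjoinRoot f),
      j₁ (AdjoinRoot.mk f a * m) = (aeval G a) *ᵥ j₁ m := by
    intro a m
    induction m using AdjoinRoot.induction_on with
    | ih b =>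
      rw [← map_mul, hj₁, hj₁, map_mul, Matrix.mulVec_mulVec]
  have hj₂mul : ∀ (a : F[X]) (m : AdjoinRoot f),
      j₂ (AdjoinRoot.mk f a * m) = (aeval H a) *ᵥ j₂ m := by
    intro a m
    induction m using AdjoinRoot.induction_on with
    | ih b =>
      rw [← map_mul, hj₂, hj₂, map_mul, Matrix.mulVec_mulVec]
  -- `Q` vanishes on the two images
  have hQ1 : ∀ a : AdjoinRoot f, Q (j₁ a) = 0 := by
    intro a
    apply hE
    induction a using AdjoinRoot.induction_on with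
    | ih a' =>
      rw [hj₁, Matrix.mulVec_mulVec, ← map_mul, mul_comm, map_mul, ← Matrix.mulVec_mulVec, hfv,
        Matrix.mulVec_zero]
  have hQ2 : ∀ b : AdjoinRoot f, Q (j₂ b) = 0 := by
    intro b
    apply hE'
    induction b using AdjoinRoot.induction_on with
    | ih b' =>
      rw [hj₂, Matrix.mulVec_mulVec, ← map_mul, mul_comm, map_mul, ← Matrix.mulVec_mulVec, hfv',
        Matrix.mulVec_zero]
  have hpol11 : ∀ a a' : AdjoinRoot f, QuadraticMap.polar ⇑Q (j₁ a) (j₁ a') = 0 := by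
    intro a a'
    unfold QuadraticMap.polar
    rw [← map_add, hQ1, hQ1, hQ1, sub_zero, sub_zero]
  have hpol22 : ∀ b b' : AdjoinRoot f, QuadraticMap.polar ⇑Q (j₂ b) (j₂ b') = 0 := by
    intro b b'
    unfold QuadraticMap.polar
    rw [← map_add, hQ2, hQ2, hQ2, sub_zero, sub_zero]
  obtain ⟨ℓ, hℓ'⟩ : ∃ ℓ : AdjoinRoot f →ₗ[F] F,
      ∀ c, ℓ c = QuadraticMap.polar ⇑Q v' (j₁ c) :=
    ⟨(QuadraticMap.polarBilin Q v').comp j₁, fun c => rfl⟩
  have hℓ : ∀ c, ℓ c = QuadraticMap.polar ⇑Q (j₁ c) v' := by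
    intro c
    rw [hℓ', QuadraticMap.polar_comm]
  have hB : ∀ a b : AdjoinRoot f, QuadraticMap.polar ⇑Q (j₁ a) (j₂ b) = ℓ (a * b) := by
    intro a b
    induction b using AdjoinRoot.induction_on with
    | ih b' =>
      rw [hℓ, hj₂, ← hadj, mul_comm, hj₁mul]
  have hQj : ∀ a b : AdjoinRoot f, Q (j₁ a + j₂ b) = ℓ (a * b) := by
    intro a b
    rw [QuadraticMap.map_add Q, hQ1, hQ2, hB, zero_add, zero_add]
  have hℓ1 : ℓ 1 ≠ 0 := by
    rw [hℓ, hj₁1]
    exact hvv'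
  obtain ⟨ζ, n, o, hζ0, hn, hn0, hζn, hζfree, hcount, hodd, heven⟩ :=
    Cfsg.Agent.Helper44.PFAL2.pf_al2 (K := AdjoinRoot f) hq ℓ hℓ1
  have hzpow : ∀ (i : ℕ) (m : AdjoinRoot f × AdjoinRoot f),
      (((LinearMap.mulLeft F ζ).prodMap (LinearMap.mulLeft F ζ⁻¹)) ^ i) m
        = (ζ ^ i * m.1, ζ⁻¹ ^ i * m.2) := by
    intro i
    induction i with
    | zero =>
      intro m
      rw [pow_zero, pow_zero, pow_zero, one_mul, one_mul, Module.End.one_apply]
    | succ i ih =>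
      intro m
      rw [pow_succ, Module.End.mul_apply, ih, LinearMap.prodMap_apply, LinearMap.mulLeft_apply,
        LinearMap.mulLeft_apply, pow_succ, pow_succ, mul_assoc, mul_assoc]
  refine ⟨j₁.coprod j₂, (LinearMap.mulLeft F ζ).prodMap (LinearMap.mulLeft F ζ⁻¹),
    (LinearMap.mulLeft F (AdjoinRoot.root f)).prodMap
      (LinearMap.mulLeft F (AdjoinRoot.root f ^ (r - 1))), n, o,
    ?_, ?_, ?_, ?_, hn, hn0, ?_, ?_, ?_, hodd, heven⟩
  · rintro ⟨a, b⟩
    rw [LinearMap.prodMap_apply, LinearMap.coprod_apply, LinearMap.coprod_apply,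
      LinearMap.mulLeft_apply, LinearMap.mulLeft_apply, hQj, hQj]
    congr 1
    calc ζ * a * (ζ⁻¹ * b) = (ζ * ζ⁻¹) * (a * b) := by ring
      _ = a * b := by rw [mul_inv_cancel₀ hζ0, one_mul]
  · rintro ⟨a, b⟩
    rw [LinearMap.prodMap_apply, LinearMap.coprod_apply, LinearMap.coprod_apply,
      LinearMap.mulLeft_apply, LinearMap.mulLeft_apply, Matrix.mulVec_add]
    congr 1
    · rw [← AdjoinRoot.mk_X, hj₁mul, aeval_X]
    · rw [← AdjoinRoot.mk_X, ← map_pow, hj₂mul, map_pow, aeval_X, hH, ← pow_mul, hGG]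
  · rintro ⟨a, b⟩
    simp only [LinearMap.prodMap_apply, LinearMap.mulLeft_apply]
    rw [mul_left_comm ζ, mul_left_comm ζ⁻¹]
  · rintro ⟨a, b⟩ hm
    have ha : a = 0 := by
      by_contra ha0
      have h := hm (0, a⁻¹)
      rw [LinearMap.coprod_apply, LinearMap.coprod_apply, map_zero, zero_add,
        QuadraticMap.polar_add_left, hpol22, add_zero, hB, mul_inv_cancel₀ ha0] at h
      exact hℓ1 h
    have hb : b = 0 := by
      by_contra hb0
      have h := hm (b⁻¹, 0)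
      rw [LinearMap.coprod_apply, LinearMap.coprod_apply, map_zero, add_zero,
        QuadraticMap.polar_add_left, hpol11, zero_add, QuadraticMap.polar_comm, hB,
        inv_mul_cancel₀ hb0] at h
      exact hℓ1 h
    rw [ha, hb]
    rfl
  · rintro ⟨a, b⟩ hm i hi
    rw [hzpow] at hi
    have h1 : ζ ^ i * a = a := congrArg Prod.fst hi
    have h2 : ζ⁻¹ ^ i * b = b := congrArg Prod.snd hi
    apply hζfree
    by_cases ha : a = 0
    · have hb : b ≠ 0 := by
        rintro rfl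
        apply hm
        rw [ha]
        rfl
      have h : (ζ⁻¹ ^ i - 1) * b = 0 := by
        rw [sub_mul, h2, one_mul, sub_self]
      rcases mul_eq_zero.mp h with h | h
      · have h3 : ζ⁻¹ ^ i = 1 := sub_eq_zero.mp h
        rw [inv_pow] at h3
        exact inv_eq_one.mp h3
      · exact absurd h hb
    · have h : (ζ ^ i - 1) * a = 0 := by
        rw [sub_mul, h1, one_mul, sub_self]
      rcases mul_eq_zero.mp h with h | h
      · exact sub_eq_zero.mp h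
      · exact absurd h ha
  · apply LinearMap.ext
    intro m
    rw [hzpow, hζn, inv_pow, hζn, inv_one, one_mul, one_mul, Module.End.one_apply]
  · intro d
    rw [← hcount d]
    apply Nat.card_congr
    apply Equiv.subtypeEquivRight
    rintro ⟨a, b⟩
    rw [LinearMap.coprod_apply, hQj]

end Cfsg.Agent.Helper44.PFMODEL2
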