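import Mathlib
import Cfsg.Prelude.Def_GeometricClasses
import Cfsg.Prelude.Def_Classical
import Cfsg.Agent.Helper35.S88Defs
import Cfsg.Agent.Helper96.OHAll
import Cfsg.Agent.Helper31.OHOFIX
import Cfsg.Agent.Helper33.OType

/-!
# Sub-CALL S88OO (helper35), piece BADCORE (helper44)
-/

set_option autoImplicit false

namespace Cfsg.Agent.Helper44.S88OO

open Module Polynomial Cfsg Cfsg.Geo
open Cfsg.Agent.Helper13.TIu Cfsg.Agent.Helper96.OH Cfsg.Agent.Helper35.S88
open scoped MatrixGroups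

universe u

/-- BADCORE: `Q` of plus type on an even-dimensional space, `T` an isometry with
`T ^ r = 1` (`r` odd prime, `r ≠ 0` in `F`), `i = ord_r(q)` odd, `W` an invariant ELLIPTIC subspace
of even dimension `m`.  Then `m = 2 i s + w` with `0 < w < dim ker (T - 1)`. -/
theorem oo_bad_core {ι : Type} [Fintype ι] [DecidableEq ι] {F : Type u} [Field F] [Fintype F]
    (Q : (ι → F) → F) (hQ : IsNondegenerateQuadraticForm Q)
    (hplus : OPl Q ⊤) (hev : Even (Fintype.card ι))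
    (T : Module.End F (ι → F)) (hT : OPres Q T) (r : ℕ) [Fact r.Prime] (hr2 : 2 < r)
    (hrF : (r : F) ≠ 0) (hTr : T ^ r = 1) (i : ℕ)
    (hi : i = orderOf ((Fintype.card F : ℕ) : ZMod r)) (hodd : Odd i)
    (m : ℕ) (hme : Even m) (W : Submodule F (ι → F))
    (hW : finrank F W = m ∧ ONd Q W ∧ ¬ OPl Q W) (hWT : W.map T ≤ W) :
    ∃ s w, m = 2 * i * s + w ∧ 0 < w ∧ w < finrank F (LinearMap.ker (T - 1)) := by
  classical
  obtain ⟨hWm, hWnd, hWnp⟩ := hW
  have hr0 : 0 < r := by omega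
  have hc : 2 * i = if Even i then i else 2 * i := by
    rw [if_neg (Nat.not_even_iff_odd.mpr hodd)]
  have hodd' : Odd (orderOf ((Fintype.card F : ℕ) : ZMod r)) := hi ▸ hodd
  -- the decomposition of `W`
  obtain ⟨hW0nd, P, hPW, hPT, hPnd, hPk, hsup, horth, hdim⟩ :=
    Cfsg.Agent.Helper31.OH5992.o_fix Q hQ T hT r hr0 hrF hTr W hWT hWnd
  have hPdvd : 2 * i ∣ finrank F P :=
    Cfsg.Agent.Helper96.OHAll.oall_cdvd_aux Q hQ T hT r hr2 hrF hTr i (2 * i) hi hc
      (finrank F P) P rfl hPT hPnd hPk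
  have hPpl : OPl Q P :=
    Cfsg.Agent.Helper96.OHAll.oall_type_odd Q hQ T hT r hr2 hrF hTr hodd' P hPT hPnd hPk
  obtain ⟨s, hs⟩ := hPdvd
  have hPev : Even (finrank F P) := by rw [hs]; exact ⟨i * s, by ring⟩
  have hw_ev : Even (finrank F (W ⊓ LinearMap.ker (T - 1) : Submodule F (ι → F))) := by
    have h1 : Even (finrank F P +
        finrank F (W ⊓ LinearMap.ker (T - 1) : Submodule F (ι → F))) := by
      rw [hdim, hWm]; exact hme
    exact (Nat.even_add.mp h1).mp hPev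
  have hmul := Cfsg.Agent.Helper33.o_type_mul Q hQ _ P hW0nd hPnd horth hw_ev hPev
  rw [hsup] at hmul
  have hW0np : ¬ OPl Q (W ⊓ LinearMap.ker (T - 1)) := by
    intro h
    exact hWnp (hmul.mpr ⟨fun _ => hPpl, fun _ => h⟩)
  have hw_pos : 0 < finrank F (W ⊓ LinearMap.ker (T - 1) : Submodule F (ι → F)) := by
    by_contra hcon
    have h0 : finrank F (W ⊓ LinearMap.ker (T - 1) : Submodule F (ι → F)) = 0 := by omega
    have hbot : W ⊓ LinearMap.ker (T - 1) = ⊥ := Submodule.finrank_eq_zero.mp h0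
    rw [hbot] at hW0np
    exact hW0np (Cfsg.Agent.Helper33.o_plus_bot Q hQ)
  -- the decomposition of the whole space
  have htopT : (⊤ : Submodule F (ι → F)).map T ≤ ⊤ := le_top
  obtain ⟨hF0nd, P', hP'le, hP'T, hP'nd, hP'k, hsup', horth', hdim'⟩ :=
    Cfsg.Agent.Helper31.OH5992.o_fix Q hQ T hT r hr0 hrF hTr ⊤ htopT (ond_top Q hQ)
  rw [top_inf_eq] at hF0nd hsup' horth' hdim'
  have hP'dvd : 2 * i ∣ finrank F P' :=
    Cfsg.Agent.Helper96.OHAll.oall_cdvd_aux Q hQ T hT r hr2 hrF hTr i (2 * i) hi hc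
      (finrank F P') P' rfl hP'T hP'nd hP'k
  have hP'pl : OPl Q P' :=
    Cfsg.Agent.Helper96.OHAll.oall_type_odd Q hQ T hT r hr2 hrF hTr hodd' P' hP'T hP'nd hP'k
  obtain ⟨s', hs'⟩ := hP'dvd
  have hP'ev : Even (finrank F P') := by rw [hs']; exact ⟨i * s', by ring⟩
  have hFix_ev : Even (finrank F (LinearMap.ker (T - 1))) := by
    have h1 : Even (finrank F P' + finrank F (LinearMap.ker (T - 1))) := by
      rw [hdim', finrank_top, Module.finrank_fintype_fun_eq_card]; exact hev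
    exact (Nat.even_add.mp h1).mp hP'ev
  have hmul' := Cfsg.Agent.Helper33.o_type_mul Q hQ _ P' hF0nd hP'nd horth' hFix_ev hP'ev
  rw [hsup'] at hmul'
  have hFixpl : OPl Q (LinearMap.ker (T - 1)) := (hmul'.mp hplus).mpr hP'pl
  have hle : finrank F (W ⊓ LinearMap.ker (T - 1) : Submodule F (ι → F)) ≤
      finrank F (LinearMap.ker (T - 1)) := Submodule.finrank_mono inf_le_right
  have hne : finrank F (W ⊓ LinearMap.ker (T - 1) : Submodule F (ι → F)) ≠
      finrank F (LinearMap.ker (T - 1)) := by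
    intro heq
    have hEq : W ⊓ LinearMap.ker (T - 1) = LinearMap.ker (T - 1) :=
      Submodule.eq_of_le_of_finrank_eq inf_le_right heq
    rw [hEq] at hW0np
    exact hW0np hFixpl
  refine ⟨s, finrank F (W ⊓ LinearMap.ker (T - 1) : Submodule F (ι → F)), ?_, hw_pos,
    lt_of_le_of_ne hle hne⟩
  rw [← hWm, ← hdim, hs]

end Cfsg.Agent.Helper44.S88OO
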