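import Mathlib
import Cfsg.Agent.Helper90.SFRDefs
import Cfsg.Agent.Helper41.IMSSC
import Cfsg.Agent.Helper99.SFRRATSUM
import Cfsg.Agent.Helper99.SFRDIAG
import Cfsg.Agent.Helper10.SFRRATPAIR
import Cfsg.Agent.Helper34.SFRFROB

/-!
# S5965, piece RATEX: a semisimple map of odd prime order with inverse-symmetric eigenspaces is
rational over the subfield `F₀` when `r ∣ q₀ + 1`
-/

set_option autoImplicit false

namespace Cfsg.Agent.Helper44

open Module Polynomial Cfsg.Agent.Helper90.SFR

section lin
variable {F : Type*} [Field F] {V : Type*} [AddCommGroup V] [Module F V] [FiniteDimensional F V]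

/-- the dimension of an eigenspace of a map with an eigenbasis -/
theorem sfr_finrank_ker_diag [DecidableEq F] {ι : Type*} [Fintype ι] [DecidableEq ι] (T : V →ₗ[F] V)
    (b : Basis ι F V) (c : ι → F) (hb : ∀ i, T (b i) = c i • b i) (ζ : F) :
    finrank F (LinearMap.ker (T - ζ • (1 : Module.End F V)))
      = (Finset.univ.filter fun i => c i = ζ).card := by
  have hmat : LinearMap.toMatrix b b (T - ζ • (1 : Module.End F V))
      = Matrix.diagonal (fun i => c i - ζ) := by
    ext i j
    rw [LinearMap.toMatrix_apply, Matrix.diagonal_apply]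
    have : (T - ζ • (1 : Module.End F V)) (b j) = (c j - ζ) • b j := by
      rw [LinearMap.sub_apply, LinearMap.smul_apply, Module.End.one_apply, hb, sub_smul]
    rw [this, map_smul, Finsupp.smul_apply, Basis.repr_self, Finsupp.single_apply, smul_eq_mul]
    by_cases hij : i = j
    · subst hij
      simp
    · rw [if_neg hij, if_neg (fun h => hij h.symm), mul_zero]
  have hrank : finrank F (LinearMap.range (T - ζ • (1 : Module.End F V)))
      = Fintype.card {i // c i - ζ ≠ 0} := by
    rw [← Matrix.rank_diagonal, ← hmat, Matrix.rank_eq_finrank_range_toLin _ b b,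
      Matrix.toLin_toMatrix]
  have hrn := LinearMap.finrank_range_add_finrank_ker (T - ζ • (1 : Module.End F V))
  rw [hrank, Module.finrank_eq_card_basis b] at hrn
  have hcount : Fintype.card {i // c i - ζ ≠ 0} + (Finset.univ.filter fun i => c i = ζ).card
      = Fintype.card ι := by
    rw [Fintype.card_subtype]
    have h1 : (Finset.univ.filter fun i => c i - ζ ≠ 0) = Finset.univ.filter fun i => ¬ c i = ζ := by
      apply Finset.filter_congr
      intro i _
      rw [ne_eq, sub_eq_zero]
    rw [h1, add_comm, Finset.card_filter_add_card_filter_not, Finset.card_univ]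
  omega

/-- kernels add up over an invariant decomposition -/
theorem sfr_finrank_ker_compl (f : V →ₗ[F] V) (W W' : Submodule F V)
    (hW : ∀ v ∈ W, f v ∈ W) (hW' : ∀ v ∈ W', f v ∈ W') (hc : IsCompl W W') :
    finrank F (LinearMap.ker f)
      = finrank F (LinearMap.ker (f.restrict hW)) + finrank F (LinearMap.ker (f.restrict hW')) := by
  have e1 : finrank F (LinearMap.ker (f.restrict hW)) = finrank F ↥(W ⊓ LinearMap.ker f) := by
    rw [LinearMap.ker_restrict, ← Submodule.map_comap_subtype, Submodule.finrank_map_subtype_eq]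
  have e2 : finrank F (LinearMap.ker (f.restrict hW')) = finrank F ↥(W' ⊓ LinearMap.ker f) := by
    rw [LinearMap.ker_restrict, ← Submodule.map_comap_subtype, Submodule.finrank_map_subtype_eq]
  rw [e1, e2]
  have hinf : (W ⊓ LinearMap.ker f) ⊓ (W' ⊓ LinearMap.ker f) = ⊥ := by
    rw [eq_bot_iff]
    intro x hx
    have : x ∈ W ⊓ W' := ⟨hx.1.1, hx.2.1⟩
    rw [hc.inf_eq_bot] at this
    exact this
  have hsup : (W ⊓ LinearMap.ker f) ⊔ (W' ⊓ LinearMap.ker f) = LinearMap.ker f := by
    apply le_antisymm
    · exact sup_le inf_le_right inf_le_right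
    · intro x hx
      have hx' : x ∈ W ⊔ W' := by
        rw [hc.sup_eq_top]
        exact Submodule.mem_top
      obtain ⟨w, hw, w', hw', rfl⟩ := Submodule.mem_sup.mp hx'
      have h0 : f w + f w' = 0 := by
        rw [← map_add]
        exact hx
      have h1 : f w ∈ W ⊓ W' := by
        refine ⟨hW w hw, ?_⟩
        have : f w = -f w' := eq_neg_of_add_eq_zero_left h0
        rw [this]
        exact W'.neg_mem (hW' w' hw')
      rw [hc.inf_eq_bot, Submodule.mem_bot] at h1
      have h2 : f w' = 0 := by
        rw [h1, zero_add] at h0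
        exact h0
      exact Submodule.add_mem_sup ⟨hw, h1⟩ ⟨hw', h2⟩
  have h := Submodule.finrank_sup_add_finrank_inf_eq (W ⊓ LinearMap.ker f) (W' ⊓ LinearMap.ker f)
  rw [hsup, hinf, finrank_bot, add_zero] at h
  exact h

end lin

section fin

/-- auxiliary form of `rat_sym` for the induction on the dimension -/
theorem sfr_rat_sym_aux.{u, v} {F : Type u} [Field F] [Fintype F]
    (F₀ : Subfield F) (q₀ : ℕ) (hF₀ : Nat.card ↥F₀ = q₀) (r : ℕ) [Fact r.Prime] (hr2 : r ≠ 2)
    (hrF : (r : F) ≠ 0) (hr : r ∣ Fintype.card F - 1) (hr1 : r ∣ q₀ + 1) (n : ℕ) :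
    ∀ (V : Type v) [AddCommGroup V] [Module F V] [FiniteDimensional F V] (T : V →ₗ[F] V),
      finrank F V = n → T ^ r = 1 →
      (∀ ζ : F, ζ ^ r = 1 → finrank F (LinearMap.ker (T - ζ • (1 : Module.End F V)))
        = finrank F (LinearMap.ker (T - ζ⁻¹ • (1 : Module.End F V)))) → IsRat F₀ T := by
  classical
  induction n using Nat.strong_induction_on with
  | _ n ih =>
    intro V _ _ _ T hn hT hsym
    by_cases h1 : T = 1
    · refine ⟨Fin (finrank F V), inferInstance, Module.finBasis F V, fun i j => ?_⟩
      rw [h1, Module.End.one_apply, Basis.repr_self, Finsupp.single_apply]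
      split_ifs
      · exact F₀.one_mem
      · exact F₀.zero_mem
    · have hrp : r.Prime := Fact.out
      -- a primitive root
      have hcard : r ∣ Fintype.card Fˣ := by
        rw [Fintype.card_units]
        exact hr
      obtain ⟨x, hx⟩ := exists_prime_orderOf_dvd_card r hcard
      have hω : (x : F) ^ r = 1 := by
        rw [← Units.val_pow_eq_pow_val, ← hx, pow_orderOf_eq_one, Units.val_one]
      have hω1 : (x : F) ≠ 1 := by
        intro h
        have : x = 1 := Units.ext h
        rw [this, orderOf_one] at hx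
        exact hrp.one_lt.ne hx
      obtain ⟨b, e, hb⟩ := Cfsg.Agent.Helper99.diag_basis T r hrF hT (x : F) hω hω1 n hn
      have hex : ∃ i, (x : F) ^ (e i) ≠ 1 := by
        by_contra hcon
        push_neg at hcon
        apply h1
        apply b.ext
        intro i
        rw [hb i, hcon i, one_smul, Module.End.one_apply]
      obtain ⟨i₀, hi₀⟩ := hex
      obtain ⟨ξ, hξdef⟩ : ∃ ξ : F, ξ = (x : F) ^ (e i₀) := ⟨_, rfl⟩
      have hξr : ξ ^ r = 1 := by
        rw [hξdef, ← pow_mul, mul_comm, pow_mul, hω, one_pow]
      have hξ1 : ξ ≠ 1 := by rw [hξdef]; exact hi₀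
      have hξ0 : ξ ≠ 0 := by
        rintro h
        rw [h, zero_pow hrp.ne_zero] at hξr
        exact zero_ne_one hξr
      have hξ2 : ξ ≠ ξ⁻¹ := by
        intro h
        have hsq : ξ * ξ = 1 := by
          nth_rewrite 2 [h]
          exact mul_inv_cancel₀ hξ0
        obtain ⟨k, hk⟩ := hrp.eq_two_or_odd'.resolve_left hr2
        have : ξ ^ r = ξ := by
          rw [hk, pow_succ, pow_mul, pow_two, hsq, one_pow, one_mul]
        rw [hξr] at this
        exact hξ1 this.symm
      obtain ⟨v, hvdef⟩ : ∃ v : V, v = b i₀ := ⟨_, rfl⟩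
      have hv0 : v ≠ 0 := by rw [hvdef]; exact b.ne_zero i₀
      have hv : T v = ξ • v := by rw [hvdef, hξdef]; exact hb i₀
      -- an eigenvector for the inverse
      have hker : LinearMap.ker (T - ξ⁻¹ • (1 : Module.End F V)) ≠ ⊥ := by
        intro hbot
        have h2 := hsym ξ hξr
        rw [hbot, finrank_bot] at h2
        have hvmem : v ∈ LinearMap.ker (T - ξ • (1 : Module.End F V)) := by
          rw [LinearMap.mem_ker, LinearMap.sub_apply, LinearMap.smul_apply, Module.End.one_apply,
            hv, sub_self]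
        have h3 : LinearMap.ker (T - ξ • (1 : Module.End F V)) = ⊥ := Submodule.finrank_eq_zero.mp h2
        rw [h3, Submodule.mem_bot] at hvmem
        exact hv0 hvmem
      obtain ⟨w, hwmem, hw0⟩ := (Submodule.ne_bot_iff _).mp hker
      have hw : T w = ξ⁻¹ • w := by
        rw [LinearMap.mem_ker, LinearMap.sub_apply, LinearMap.smul_apply, Module.End.one_apply,
          sub_eq_zero] at hwmem
        exact hwmem
      -- the plane
      have hli : LinearIndependent F ![v, w] := by
        rw [LinearIndependent.pair_iff]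
        intro s t hst
        have h3 : T (s • v + t • w) = 0 := by rw [hst, map_zero]
        rw [map_add, map_smul, map_smul, hv, hw] at h3
        have h4 : (s * (ξ - ξ⁻¹)) • v = 0 := by
          have h5 : (s * (ξ - ξ⁻¹)) • v = (s • ξ • v + t • ξ⁻¹ • w) - ξ⁻¹ • (s • v + t • w) := by
            rw [smul_add, smul_smul, smul_smul, smul_smul, smul_smul, mul_sub, sub_smul]
            rw [mul_comm ξ⁻¹ s, mul_comm ξ⁻¹ t]
            abel
          rw [h5, h3, hst, smul_zero, sub_zero]
        have hs : s = 0 := by
          rcases smul_eq_zero.mp h4 with h | h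
          · rcases mul_eq_zero.mp h with h | h
            · exact h
            · exact absurd (sub_eq_zero.mp h) hξ2
          · exact absurd h hv0
        refine ⟨hs, ?_⟩
        rw [hs, zero_smul, zero_add] at hst
        rcases smul_eq_zero.mp hst with h | h
        · exact h
        · exact absurd h hw0
      obtain ⟨W, hWdef⟩ : ∃ W : Submodule F V, W = Submodule.span F (Set.range ![v, w]) := ⟨_, rfl⟩
      have hvW : v ∈ W := by rw [hWdef]; exact Submodule.subset_span ⟨0, rfl⟩
      have hwW : w ∈ W := by rw [hWdef]; exact Submodule.subset_span ⟨1, rfl⟩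
      have hW : ∀ y ∈ W, T y ∈ W := by
        intro y hy
        rw [hWdef] at hy
        refine Submodule.span_induction (p := fun y _ => T y ∈ W) ?_ ?_ ?_ ?_ hy
        · rintro _ ⟨i, rfl⟩
          fin_cases i
          · show T v ∈ W
            rw [hv]
            exact W.smul_mem _ hvW
          · show T w ∈ W
            rw [hw]
            exact W.smul_mem _ hwW
        · rw [map_zero]
          exact W.zero_mem
        · intro y z _ _ hy hz
          rw [map_add]
          exact W.add_mem hy hz
        · intro a y _ hy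
          rw [map_smul]
          exact W.smul_mem _ hy
      obtain ⟨bW, hbW⟩ : ∃ bW : Basis (Fin 2) F ↥W, ∀ i, (bW i : V) = ![v, w] i := by
        subst hWdef
        exact ⟨Basis.span hli, fun i => congrArg Subtype.val (Basis.span_apply hli i)⟩
      have hb0 : (T.restrict hW) (bW 0) = ξ • bW 0 := by
        apply Subtype.ext
        rw [LinearMap.restrict_coe_apply, Submodule.coe_smul, hbW 0]
        exact hv
      have hb1 : (T.restrict hW) (bW 1) = ξ⁻¹ • bW 1 := by
        apply Subtype.ext
        rw [LinearMap.restrict_coe_apply, Submodule.coe_smul, hbW 1]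
        exact hw
      -- rationality of the trace of the plane
      obtain ⟨σ, hσ1, hσ2⟩ := Cfsg.Agent.Helper34.frob_hom F₀ q₀ hF₀
      have hξq : ξ ^ q₀ = ξ⁻¹ := by
        obtain ⟨k, hk⟩ := hr1
        have h3 : ξ ^ q₀ * ξ = 1 := by
          rw [← pow_succ, hk, pow_mul, hξr, one_pow]
        exact eq_inv_of_mul_eq_one_left h3
      have hξF : ξ + ξ⁻¹ ∈ F₀ := by
        rw [← hσ2, map_add, hσ1, hσ1, hξq, inv_pow, hξq, inv_inv, add_comm]
      have hratW : IsRat F₀ (T.restrict hW) := Cfsg.Agent.Helper10.rat_pair F₀ (T.restrict hW) ξ hξ0 hξF hξ2 bW hb0 hb1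
      -- the complement
      have hT1 : T ^ r = (1 : F) • (1 : Module.End F V) := by rw [hT, one_smul]
      have hmapW : W.map T ≤ W := by
        rintro _ ⟨y, hy, rfl⟩
        exact hW y hy
      obtain ⟨W', -, hmapW', hinf, hsup⟩ :=
        Cfsg.Agent.Helper41.ss_compl T r hrF 1 one_ne_zero hT1 W ⊤ le_top hmapW le_top
      have hW' : ∀ y ∈ W', T y ∈ W' := fun y hy => hmapW' ⟨y, hy, rfl⟩
      have hc : IsCompl W W' := IsCompl.of_eq hinf hsup
      have hdimW : finrank F ↥W = 2 := by
        rw [Module.finrank_eq_card_basis bW, Fintype.card_fin]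
      have hdim : finrank F ↥W + finrank F ↥W' = n := by
        rw [Submodule.finrank_add_eq_of_isCompl hc, hn]
      have hT' : (T.restrict hW') ^ r = 1 := by
        rw [Module.End.pow_restrict]
        ext y
        rw [LinearMap.restrict_coe_apply]
        simp only [hT]
        rfl
      have hsubW : ∀ ζ : F, (T - ζ • (1 : Module.End F V)).restrict
          (fun y hy => W.sub_mem (hW y hy) (W.smul_mem ζ hy))
          = T.restrict hW - ζ • (1 : Module.End F ↥W) := by
        intro ζ
        ext y
        rfl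
      have hsubW' : ∀ ζ : F, (T - ζ • (1 : Module.End F V)).restrict
          (fun y hy => W'.sub_mem (hW' y hy) (W'.smul_mem ζ hy))
          = T.restrict hW' - ζ • (1 : Module.End F ↥W') := by
        intro ζ
        ext y
        rfl
      have hadd : ∀ ζ : F, finrank F (LinearMap.ker (T - ζ • (1 : Module.End F V)))
          = finrank F (LinearMap.ker (T.restrict hW - ζ • (1 : Module.End F ↥W)))
            + finrank F (LinearMap.ker (T.restrict hW' - ζ • (1 : Module.End F ↥W'))) := by
        intro ζ
        rw [← hsubW, ← hsubW']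
        exact sfr_finrank_ker_compl _ W W' _ _ hc
      have hcW : ∀ i, (T.restrict hW) (bW i) = ![ξ, ξ⁻¹] i • bW i := by
        intro i
        fin_cases i
        · exact hb0
        · exact hb1
      have hsymW : ∀ ζ : F, ζ ≠ 0 → finrank F (LinearMap.ker (T.restrict hW - ζ • (1 : Module.End F ↥W)))
          = finrank F (LinearMap.ker (T.restrict hW - ζ⁻¹ • (1 : Module.End F ↥W))) := by
        intro ζ hζ0
        rw [sfr_finrank_ker_diag (T.restrict hW) bW ![ξ, ξ⁻¹] hcW ζ,
          sfr_finrank_ker_diag (T.restrict hW) bW ![ξ, ξ⁻¹] hcW ζ⁻¹]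
        have hi1 : ξ = ζ⁻¹ ↔ ξ⁻¹ = ζ := by
          constructor
          · intro h
            rw [h, inv_inv]
          · intro h
            rw [← h, inv_inv]
        have hi2 : ξ⁻¹ = ζ⁻¹ ↔ ξ = ζ := inv_inj
        rw [Finset.card_filter, Finset.card_filter, Fin.sum_univ_two, Fin.sum_univ_two]
        simp only [Matrix.cons_val_zero, Matrix.cons_val_one]
        simp only [hi1, hi2]
        exact add_comm _ _
      have hsym' : ∀ ζ : F, ζ ^ r = 1 →
          finrank F (LinearMap.ker (T.restrict hW' - ζ • (1 : Module.End F ↥W')))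
            = finrank F (LinearMap.ker (T.restrict hW' - ζ⁻¹ • (1 : Module.End F ↥W'))) := by
        intro ζ hζ
        have hζ0 : ζ ≠ 0 := by
          rintro rfl
          rw [zero_pow hrp.ne_zero] at hζ
          exact zero_ne_one hζ
        have e1 := hadd ζ
        have e2 := hadd ζ⁻¹
        have e3 := hsym ζ hζ
        have e4 := hsymW ζ hζ0
        omega
      have hratW' : IsRat F₀ (T.restrict hW') :=
        ih (finrank F ↥W') (by omega) ↥W' (T.restrict hW') rfl hT' hsym'
      exact Cfsg.Agent.Helper99.rat_sum F₀ T W W' hW hW' hc hratW hratW'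

/-- PIECE RATEX -/
theorem rat_sym {F : Type*} [Field F] [Fintype F]
    {V : Type*} [AddCommGroup V] [Module F V] [FiniteDimensional F V]
    (F₀ : Subfield F) (q₀ : ℕ) (hF₀ : Nat.card ↥F₀ = q₀) (r : ℕ) [Fact r.Prime] (hr2 : r ≠ 2)
    (hrF : (r : F) ≠ 0) (hr : r ∣ Fintype.card F - 1) (hr1 : r ∣ q₀ + 1) (T : V →ₗ[F] V)
    (hT : T ^ r = 1)
    (hsym : ∀ ζ : F, ζ ^ r = 1 → finrank F (LinearMap.ker (T - ζ • (1 : Module.End F V)))
      = finrank F (LinearMap.ker (T - ζ⁻¹ • (1 : Module.End F V)))) : IsRat F₀ T :=
  sfr_rat_sym_aux F₀ q₀ hF₀ r hr2 hrF hr hr1 (finrank F V) V T rfl hT hsym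

end fin

end Cfsg.Agent.Helper44
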