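import Mathlib
import Cfsg.Agent.Helper44.UCDefs

set_option autoImplicit false

/-!
Piece SIM of CALL S2646 (helper44): `N (1 + c N)⁻¹` is similar to the nilpotent shift `N`.
-/

namespace Cfsg.Agent.Helper44.UCSIM

open Matrix Polynomial Cfsg.Agent.Helper21.JCent Cfsg.Agent.Helper44.UC

/-- powers of the shift -/
theorem nilp_pow_apply {K : Type*} [Field K] {t : ℕ} (d : Fin t → ℕ) (j : ℕ)
    (p r : (k : Fin t) × Fin (d k)) :
    (nilp K d ^ j) p r = if p.1 = r.1 ∧ (p.2 : ℕ) = (r.2 : ℕ) + j then 1 else 0 := by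
  classical
  induction j generalizing p with
  | zero =>
    rw [pow_zero, Matrix.one_apply]
    by_cases h : p = r
    · subst h
      simp
    · rw [if_neg h, if_neg]
      rintro ⟨h1, h2⟩
      apply h
      obtain ⟨p1, p2⟩ := p
      obtain ⟨r1, r2⟩ := r
      simp only at h1 h2
      subst h1
      congr 1
      exact Fin.ext (by simpa using h2)
  | succ j ih =>
    obtain ⟨l, i⟩ := p
    rw [pow_succ', nilp_mul_apply]
    split_ifs with h1 h2 h2
    · rw [ih]
      rw [if_pos]
      refine ⟨h2.1, ?_⟩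
      have := h2.2
      simp only at this ⊢
      omega
    · rw [ih]
      rw [if_neg]
      rintro ⟨h3, h4⟩
      apply h2
      refine ⟨h3, ?_⟩
      simp only at h4 ⊢
      omega
    · exfalso
      have := h2.2
      simp only at this
      omega
    · rfl

/-- polynomials in the shift are Toeplitz matrices -/
theorem aeval_nilp_apply {K : Type*} [Field K] {t : ℕ} (d : Fin t → ℕ) (f : K[X])
    (p r : (k : Fin t) × Fin (d k)) :
    (aeval (nilp K d) f) p r
      = if p.1 = r.1 ∧ (r.2 : ℕ) ≤ (p.2 : ℕ) then f.coeff ((p.2 : ℕ) - (r.2 : ℕ)) else 0 := by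
  induction f using Polynomial.induction_on' with
  | add f g hf hg =>
    rw [map_add, Matrix.add_apply, hf, hg, Polynomial.coeff_add]
    split_ifs <;> simp
  | monomial n a =>
    rw [← C_mul_X_pow_eq_monomial, map_mul, aeval_C, map_pow, aeval_X,
      Algebra.algebraMap_eq_smul_one, smul_mul_assoc, one_mul, Matrix.smul_apply, nilp_pow_apply,
      Polynomial.coeff_C_mul, Polynomial.coeff_X_pow, smul_eq_mul]
    by_cases h1 : p.1 = r.1
    · by_cases h3 : (p.2 : ℕ) = (r.2 : ℕ) + n
      · rw [if_pos ⟨h1, h3⟩, if_pos ⟨h1, by omega⟩, if_pos (by omega)]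
      · rw [if_neg (fun h => h3 h.2), mul_zero]
        by_cases h2 : (r.2 : ℕ) ≤ (p.2 : ℕ)
        · rw [if_pos ⟨h1, h2⟩, if_neg (by omega), mul_zero]
        · rw [if_neg (fun h => h2 h.2)]
    · rw [if_neg (fun h => h1 h.1), if_neg (fun h => h1 h.1), mul_zero]

/-- SIM: `N (1 + c N)⁻¹` is similar to the shift `N = nilp K d`. -/
theorem uc_sim {K : Type*} [Field K] {t : ℕ} (d : Fin t → ℕ) (hd : ∀ k, 1 ≤ d k) (c : K) :
    IsUnit ((1 : Matrix ((k : Fin t) × Fin (d k)) ((k : Fin t) × Fin (d k)) K)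
        + c • nilp K d).det ∧
    ∃ P : Matrix ((k : Fin t) × Fin (d k)) ((k : Fin t) × Fin (d k)) K, IsUnit P.det ∧
      P * nilp K d = (nilp K d * (1 + c • nilp K d)⁻¹) * P := by
  classical
  obtain ⟨D, hD⟩ : ∃ D : ℕ, D = Finset.univ.sup d + 1 := ⟨_, rfl⟩
  have hdD : ∀ k : Fin t, d k < D := by
    intro k
    rw [hD]
    exact Nat.lt_succ_of_le (Finset.le_sup (Finset.mem_univ k))
  obtain ⟨g, hg⟩ : ∃ g : K[X], g = ∑ s ∈ Finset.range D, (C (-c) * X) ^ s := ⟨_, rfl⟩
  have hg0 : g.coeff 0 = 1 := by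
    rw [hg, Polynomial.finset_sum_coeff]
    rw [Finset.sum_eq_single 0]
    · simp
    · intro s _ hs
      rw [mul_pow, ← C_pow, Polynomial.coeff_C_mul, Polynomial.coeff_X_pow, if_neg (Ne.symm hs),
        mul_zero]
    · intro h
      exfalso
      apply h
      rw [Finset.mem_range, hD]
      omega
  have hND : nilp K d ^ D = 0 := by
    ext p r
    rw [nilp_pow_apply, if_neg, Matrix.zero_apply]
    rintro ⟨-, h2⟩
    have := hdD p.1
    have := p.2.2
    omega
  have hgeom : (1 + C c * X) * g = 1 - (C (-c) * X) ^ D := by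
    have h := geom_sum_mul (C (-c) * X : K[X]) D
    rw [← hg] at h
    have e : (1 + C c * X : K[X]) = -(C (-c) * X - 1) := by
      rw [C_neg]
      ring
    rw [e, neg_mul, mul_comm, h]
    ring
  obtain ⟨G, hG⟩ : ∃ G : Matrix ((k : Fin t) × Fin (d k)) ((k : Fin t) × Fin (d k)) K,
      G = aeval (nilp K d) g := ⟨_, rfl⟩
  have hinv : (1 + c • nilp K d) * G = 1 := by
    have hgeom' := hgeom
    rw [mul_pow, ← C_pow] at hgeom'
    have h := congrArg (aeval (nilp K d)) hgeom'
    simp only [map_mul, map_add, map_one, map_sub, map_pow, aeval_C, aeval_X, hND, mul_zero,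
      sub_zero] at h
    rw [Algebra.algebraMap_eq_smul_one, smul_mul_assoc, one_mul, ← hG] at h
    exact h
  have hunit : IsUnit ((1 : Matrix ((k : Fin t) × Fin (d k)) ((k : Fin t) × Fin (d k)) K)
      + c • nilp K d).det := Matrix.isUnit_det_of_right_inverse hinv
  have hW : (1 + c • nilp K d)⁻¹ = G := Matrix.inv_eq_right_inv hinv
  refine ⟨hunit, ?_⟩
  rw [hW]
  have hNG : ∀ j : ℕ, (nilp K d * G) ^ j = aeval (nilp K d) (X ^ j * g ^ j) := by
    intro j
    have h1 : nilp K d * G = aeval (nilp K d) (X * g) := by rw [map_mul, aeval_X, hG]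
    rw [h1, ← map_pow, mul_pow]
  -- the entries of the powers at the first columns of the blocks
  have hent : ∀ (j : ℕ) (p : (k : Fin t) × Fin (d k)) (k : Fin t),
      ((nilp K d * G) ^ j) p ⟨k, ⟨0, hd k⟩⟩
        = if p.1 = k ∧ j ≤ (p.2 : ℕ) then (g ^ j).coeff ((p.2 : ℕ) - j) else 0 := by
    intro j p k
    rw [hNG, aeval_nilp_apply]
    simp only [Nat.zero_le, and_true, Nat.sub_zero]
    rw [Polynomial.coeff_X_pow_mul']
    by_cases h1 : p.1 = k
    · by_cases h2 : j ≤ (p.2 : ℕ)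
      · rw [if_pos h1, if_pos h2, if_pos ⟨h1, h2⟩]
      · rw [if_pos h1, if_neg h2, if_neg (fun h => h2 h.2)]
    · rw [if_neg h1, if_neg (fun h => h1 h.1)]
  refine ⟨Matrix.of fun p r => ((nilp K d * G) ^ (r.2 : ℕ)) p ⟨r.1, ⟨0, hd r.1⟩⟩, ?_, ?_⟩
  · -- determinant one
    have hbt : (Matrix.of fun (p r : (k : Fin t) × Fin (d k)) =>
        ((nilp K d * G) ^ (r.2 : ℕ)) p ⟨r.1, ⟨0, hd r.1⟩⟩).BlockTriangular
        (fun p => OrderDual.toDual (p.2 : ℕ)) := by
      intro p r hpr
      have hlt : (p.2 : ℕ) < (r.2 : ℕ) := hpr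
      rw [Matrix.of_apply, hent, if_neg]
      rintro ⟨-, h2⟩
      omega
    rw [hbt.det]
    have hone : ∀ a ∈ Finset.univ.image (fun p : (k : Fin t) × Fin (d k) =>
        OrderDual.toDual (p.2 : ℕ)),
        ((Matrix.of fun (p r : (k : Fin t) × Fin (d k)) =>
          ((nilp K d * G) ^ (r.2 : ℕ)) p ⟨r.1, ⟨0, hd r.1⟩⟩).toSquareBlock
          (fun p => OrderDual.toDual (p.2 : ℕ)) a).det = 1 := by
      intro a _
      have : (Matrix.of fun (p r : (k : Fin t) × Fin (d k)) =>
          ((nilp K d * G) ^ (r.2 : ℕ)) p ⟨r.1, ⟨0, hd r.1⟩⟩).toSquareBlock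
          (fun p => OrderDual.toDual (p.2 : ℕ)) a = 1 := by
        ext ⟨x, hx⟩ ⟨y, hy⟩
        rw [Matrix.toSquareBlock_def, Matrix.of_apply, Matrix.of_apply, hent, Matrix.one_apply]
        have hxy : (x.2 : ℕ) = (y.2 : ℕ) := by
          have h1 : OrderDual.toDual (x.2 : ℕ) = OrderDual.toDual (y.2 : ℕ) := hx.trans hy.symm
          exact h1
        by_cases h : x = y
        · subst h
          rw [if_pos ⟨rfl, le_refl _⟩, if_pos rfl, Nat.sub_self, Polynomial.coeff_zero_eq_eval_zero,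
            Polynomial.eval_pow, ← Polynomial.coeff_zero_eq_eval_zero, hg0, one_pow]
        · rw [if_neg, if_neg]
          · intro h'
            exact h (Subtype.ext_iff.mp h')
          · rintro ⟨h1, -⟩
            apply h
            obtain ⟨x1, x2⟩ := x
            obtain ⟨y1, y2⟩ := y
            simp only at h1 hxy
            subst h1
            congr 1
            exact Fin.ext hxy
      rw [this, Matrix.det_one]
    rw [Finset.prod_congr rfl hone, Finset.prod_const_one]
    exact isUnit_one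
  · -- the intertwining relation
    ext p ⟨k, i⟩
    rw [mul_nilp_apply]
    have hR : ((nilp K d * G) * Matrix.of fun (p r : (k : Fin t) × Fin (d k)) =>
        ((nilp K d * G) ^ (r.2 : ℕ)) p ⟨r.1, ⟨0, hd r.1⟩⟩) p ⟨k, i⟩
        = ((nilp K d * G) ^ ((i : ℕ) + 1)) p ⟨k, ⟨0, hd k⟩⟩ := by
      rw [pow_succ', Matrix.mul_apply, Matrix.mul_apply]
      rfl
    rw [hR]
    split_ifs with h
    · rfl
    · rw [hent, if_neg]
      rintro ⟨h1, h2⟩
      have hp := p.2.2
      have hi := i.2
      have hdk : d p.1 = d k := congrArg d h1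
      omega
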