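import Mathlib
import Cfsg.Agent.Helper44.SPCDefs
import Cfsg.Agent.Helper44.UCSIM
import Cfsg.Agent.Helper46.UCH0U
import Cfsg.Agent.Helper46.UCH0M
import Cfsg.Agent.S2582
import Cfsg.Agent.Helper10.SPCCAY
import Cfsg.Agent.Helper10.SPCLIFT
import Cfsg.Agent.Helper42.SPCALTCLS
import Cfsg.Agent.Helper42.SPCCLS
import Cfsg.Agent.Helper42.SPCSQRT
import Cfsg.Agent.Helper46.SPCADJ
import Cfsg.Agent.Helper46.SPCBETH0
import Cfsg.Agent.Helper46.SPCBETSURJ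
import Cfsg.Agent.Helper46.SPCH0SK
import Cfsg.Agent.Helper46.SPCSYMTYPE
import Cfsg.Agent.Helper46.SPCXCOMM
import Cfsg.Agent.Helper47.SPCCONGEQV
import Cfsg.Agent.Helper47.SPCQPROD
import Cfsg.Agent.Helper47.SPCREIDX
import Cfsg.Agent.Helper47.SPCSKC
import Cfsg.Agent.Helper84.SPCLEVI
import Cfsg.Agent.Helper84.SPCRADNIL
import Cfsg.Agent.Helper84.SPCTBMUL
import Cfsg.Agent.Helper84.SPCTBUNIT
import Cfsg.Agent.Helper7.SPCSYMCLS

/-!
Assembly of CALL S2676 (helper44): the number of conjugacy classes of elements of order `p` of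
`Sp_2m(q)`, `q` odd.
-/

set_option autoImplicit false

namespace Cfsg.Agent.Helper44.SPC

open Matrix Cfsg.Agent.Helper21.JCent Cfsg.Agent.Helper44.UC
open Cfsg.Agent.Helper10.SPCCAY Cfsg.Agent.Helper10.SPCLIFT Cfsg.Agent.Helper42.SPCALTCLS Cfsg.Agent.Helper42.SPCCLS Cfsg.Agent.Helper42.SPCSQRT Cfsg.Agent.Helper46.SPCADJ Cfsg.Agent.Helper46.SPCBETH0 Cfsg.Agent.Helper46.SPCBETSURJ Cfsg.Agent.Helper46.SPCH0SK Cfsg.Agent.Helper46.SPCSYMTYPE Cfsg.Agent.Helper46.SPCXCOMM Cfsg.Agent.Helper47.SPCCONGEQV Cfsg.Agent.Helper47.SPCQPROD Cfsg.Agent.Helper47.SPCREIDX Cfsg.Agent.Helper47.SPCSKC Cfsg.Agent.Helper84.SPCLEVI Cfsg.Agent.Helper84.SPCRADNIL Cfsg.Agent.Helper84.SPCTBMUL Cfsg.Agent.Helper84.SPCTBUNIT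
open Cfsg.Agent.Helper7.SPCSYMCLS

section red

variable {F : Type*} [Field F] {t : ℕ} (d : Fin t → ℕ) (hd : ∀ k, 1 ≤ d k)

theorem h0_mul_inv : H0 F d * (H0 F d)⁻¹ = 1 :=
  Matrix.mul_nonsing_inv _ (Cfsg.Agent.Helper46.UCH0U.uc_h0_unit d)

theorem h0_inv_mul : (H0 F d)⁻¹ * H0 F d = 1 :=
  Matrix.nonsing_inv_mul _ (Cfsg.Agent.Helper46.UCH0U.uc_h0_unit d)

theorem h0_factor (ψ : Matrix ((k : Fin t) × Fin (d k)) ((k : Fin t) × Fin (d k)) F) :
    H0 F d * ((H0 F d)⁻¹ * ψ) = ψ := by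
  rw [← Matrix.mul_assoc, h0_mul_inv, Matrix.one_mul]

include hd in
/-- BETCONG: the reductions transform by congruence with the diagonal blocks. -/
theorem spc_betcong (i : Fin (Finset.univ.sup d + 1))
    (ψ c : Matrix ((k : Fin t) × Fin (d k)) ((k : Fin t) × Fin (d k)) F)
    (hs : (nilp F d)ᵀ * ψ + ψ * nilp F d = 0) (hc : c * nilp F d = nilp F d * c) :
    bet d hd i (cᵀ * ψ * c) = (tb d hd i c)ᵀ * bet d hd i ψ * tb d hd i c := by
  have hx := spc_xcomm d ψ hs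
  obtain ⟨hc', htb'⟩ := spc_adj d hd c hc
  have e1 : cᵀ * ψ * c = H0 F d * (((H0 F d)⁻¹ * cᵀ * H0 F d) * ((H0 F d)⁻¹ * ψ) * c) := by
    rw [Matrix.mul_assoc ((H0 F d)⁻¹ * cᵀ * H0 F d), Matrix.mul_assoc ((H0 F d)⁻¹ * cᵀ),
      Matrix.mul_assoc (H0 F d)⁻¹ cᵀ, ← Matrix.mul_assoc (H0 F d) (H0 F d)⁻¹, h0_mul_inv,
      Matrix.one_mul, ← Matrix.mul_assoc (H0 F d) ((H0 F d)⁻¹ * ψ) c, h0_factor,
      ← Matrix.mul_assoc]
  have hcx : ((H0 F d)⁻¹ * cᵀ * H0 F d) * ((H0 F d)⁻¹ * ψ) * nilp F d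
      = nilp F d * (((H0 F d)⁻¹ * cᵀ * H0 F d) * ((H0 F d)⁻¹ * ψ)) := by
    rw [Matrix.mul_assoc, hx, ← Matrix.mul_assoc, hc', Matrix.mul_assoc]
  have e2 : bet d hd i ψ = (-1 : F) ^ ((i : ℕ) - 1) • tb d hd i ((H0 F d)⁻¹ * ψ) := by
    rw [← spc_beth0, h0_factor]
  rw [e1, spc_beth0, spc_tbmul d hd i _ c hcx hc, spc_tbmul d hd i _ _ hc' hx, htb', e2,
    Matrix.mul_smul, Matrix.smul_mul]

include hd in
/-- invertibility of a skew form of the shift in terms of its reductions -/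
theorem spc_skunit (ψ : Matrix ((k : Fin t) × Fin (d k)) ((k : Fin t) × Fin (d k)) F)
    (hs : (nilp F d)ᵀ * ψ + ψ * nilp F d = 0) :
    IsUnit ψ.det ↔ ∀ i, IsUnit (bet d hd i ψ).det := by
  have hx := spc_xcomm d ψ hs
  have e1 : ψ.det = (H0 F d).det * ((H0 F d)⁻¹ * ψ).det := by
    rw [← Matrix.det_mul, h0_factor]
  have hH := Cfsg.Agent.Helper46.UCH0U.uc_h0_unit (K := F) d
  have e2 : ∀ i, bet d hd i ψ = (-1 : F) ^ ((i : ℕ) - 1) • tb d hd i ((H0 F d)⁻¹ * ψ) := by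
    intro i
    rw [← spc_beth0, h0_factor]
  have hsgn : ∀ n : ℕ, IsUnit ((-1 : F) ^ n) := fun n => (isUnit_one.neg).pow n
  rw [e1, IsUnit.mul_iff, spc_tbunit d hd _ hx]
  constructor
  · rintro ⟨-, h⟩ i
    rw [e2, Matrix.det_smul]
    exact ((hsgn _).pow _).mul (h i)
  · intro h
    refine ⟨hH, fun i => ?_⟩
    have := h i
    rw [e2, Matrix.det_smul, IsUnit.mul_iff] at this
    exact this.2

include hd in
/-- BETLIFT: skew forms with congruent reductions are congruent under the centraliser. -/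
theorem spc_betlift (h2 : (2 : F) ≠ 0)
    (ψ ψ' : Matrix ((k : Fin t) × Fin (d k)) ((k : Fin t) × Fin (d k)) F)
    (hψ : IsSkF (nilp F d) ψ) (hψ' : IsSkF (nilp F d) ψ')
    (g : ∀ i : Fin (Finset.univ.sup d + 1),
      Matrix {x : Fin t // dd d x = i} {x : Fin t // dd d x = i} F)
    (hg : ∀ i, IsUnit (g i).det)
    (hgb : ∀ i, bet d hd i ψ' = (g i)ᵀ * bet d hd i ψ * g i) :
    ∃ c : Matrix ((k : Fin t) × Fin (d k)) ((k : Fin t) × Fin (d k)) F,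
      IsUnit c.det ∧ c * nilp F d = nilp F d * c ∧ ψ' = cᵀ * ψ * c := by
  obtain ⟨hT, hU, hS⟩ := hψ
  obtain ⟨hT', hU', hS'⟩ := hψ'
  obtain ⟨c0, hc0, hc0g⟩ := spc_levi d hd g
  have hc0u : IsUnit c0.det := (spc_tbunit d hd c0 hc0).mpr (fun i => by rw [hc0g]; exact hg i)
  -- the intermediate form
  obtain ⟨φ, hφ⟩ : ∃ φ : Matrix ((k : Fin t) × Fin (d k)) ((k : Fin t) × Fin (d k)) F,
      φ = c0ᵀ * ψ * c0 := ⟨_, rfl⟩
  have hφT : φᵀ = -φ := by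
    rw [hφ, Matrix.transpose_mul, Matrix.transpose_mul, Matrix.transpose_transpose, hT]
    simp [Matrix.mul_assoc]
  have hφU : IsUnit φ.det := by
    rw [hφ, Matrix.det_mul, Matrix.det_mul, Matrix.det_transpose]
    exact (hc0u.mul hU).mul hc0u
  have hφS : (nilp F d)ᵀ * φ + φ * nilp F d = 0 := by
    have h1 : (nilp F d)ᵀ * c0ᵀ = c0ᵀ * (nilp F d)ᵀ := by
      rw [← Matrix.transpose_mul, ← Matrix.transpose_mul, hc0]
    rw [hφ]
    calc (nilp F d)ᵀ * (c0ᵀ * ψ * c0) + c0ᵀ * ψ * c0 * nilp F d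
        = c0ᵀ * ((nilp F d)ᵀ * ψ + ψ * nilp F d) * c0 := by
          rw [Matrix.mul_add, Matrix.add_mul, ← Matrix.mul_assoc, ← Matrix.mul_assoc, h1,
            Matrix.mul_assoc (c0ᵀ * ψ) c0, hc0]
          simp only [Matrix.mul_assoc]
      _ = 0 := by rw [hS, Matrix.mul_zero, Matrix.zero_mul]
  have hφb : ∀ i, bet d hd i φ = bet d hd i ψ' := by
    intro i
    rw [hφ, spc_betcong d hd i ψ c0 hS hc0, hc0g, hgb]
  -- `φ⁻¹ ψ' - 1` is nilpotent
  have hxφ := spc_xcomm d φ hφS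
  have hx' := spc_xcomm d ψ' hS'
  have hφinv : φ⁻¹ * φ = 1 := Matrix.nonsing_inv_mul _ hφU
  have hφinv' : φ * φ⁻¹ = 1 := Matrix.mul_nonsing_inv _ hφU
  obtain ⟨y, hy⟩ : ∃ y : Matrix ((k : Fin t) × Fin (d k)) ((k : Fin t) × Fin (d k)) F,
      y = φ⁻¹ * ψ' := ⟨_, rfl⟩
  have hφy : φ * y = ψ' := by rw [hy, ← Matrix.mul_assoc, hφinv', Matrix.one_mul]
  have hyN : y * nilp F d = nilp F d * y := by
    -- `φ (y N) = ψ' N = -Nᵀ ψ' = -Nᵀ φ y = φ N y`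
    have h1 : φ * (y * nilp F d) = φ * (nilp F d * y) := by
      have a1 : ψ' * nilp F d = -((nilp F d)ᵀ * ψ') := eq_neg_of_add_eq_zero_right hS'
      have a2 : φ * nilp F d = -((nilp F d)ᵀ * φ) := eq_neg_of_add_eq_zero_right hφS
      rw [← Matrix.mul_assoc, hφy, a1, ← Matrix.mul_assoc, a2, ← hφy, Matrix.neg_mul,
        Matrix.mul_assoc]
    have h2 := congrArg (fun z => φ⁻¹ * z) h1
    simp only [← Matrix.mul_assoc, hφinv, Matrix.one_mul] at h2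
    simpa [Matrix.mul_assoc] using h2
  have hyb : ∀ i, tb d hd i (y - 1) = 0 := by
    intro i
    have e1 : (H0 F d)⁻¹ * ψ' = ((H0 F d)⁻¹ * φ) * y := by
      rw [Matrix.mul_assoc, hφy]
    have e2 : tb d hd i ((H0 F d)⁻¹ * ψ') = tb d hd i ((H0 F d)⁻¹ * φ) * tb d hd i y := by
      rw [e1, spc_tbmul d hd i _ _ hxφ hyN]
    have e3 : tb d hd i ((H0 F d)⁻¹ * ψ') = tb d hd i ((H0 F d)⁻¹ * φ) := by
      have hb := hφb i
      rw [← h0_factor d φ, ← h0_factor d ψ', spc_beth0, spc_beth0] at hb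
      have hsgn : ((-1 : F) ^ ((i : ℕ) - 1)) ≠ 0 := pow_ne_zero _ (neg_ne_zero.mpr one_ne_zero)
      exact (smul_right_injective _ hsgn hb).symm
    have hu : IsUnit (tb d hd i ((H0 F d)⁻¹ * φ)).det := by
      have hdet : IsUnit ((H0 F d)⁻¹ * φ).det := by
        rw [Matrix.det_mul]
        exact ((Matrix.isUnit_nonsing_inv_det_iff).mpr
          (Cfsg.Agent.Helper46.UCH0U.uc_h0_unit d)).mul hφU
      exact (spc_tbunit d hd _ hxφ).mp hdet i
    have e4 : tb d hd i y = 1 := by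
      have h5 : tb d hd i ((H0 F d)⁻¹ * φ) * tb d hd i y = tb d hd i ((H0 F d)⁻¹ * φ) * 1 := by
        rw [← e2, e3, Matrix.mul_one]
      have h6 := congrArg (fun z => (tb d hd i ((H0 F d)⁻¹ * φ))⁻¹ * z) h5
      simp only [← Matrix.mul_assoc, Matrix.nonsing_inv_mul _ hu, Matrix.one_mul] at h6
      exact h6
    ext l k
    have h7 := congrFun (congrFun e4 l) k
    rw [tb_apply] at h7
    rw [tb_apply, Matrix.sub_apply, h7, Matrix.zero_apply, Matrix.one_apply, Matrix.one_apply]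
    by_cases hlk : l = k
    · subst hlk
      simp
    · rw [if_neg hlk, if_neg, sub_zero]
      intro h'
      exact hlk (Subtype.ext (congrArg Sigma.fst h'))
  have hnil : IsNilpotent (y - 1) := by
    apply spc_radnil d hd (y - 1) _ hyb
    rw [Matrix.sub_mul, Matrix.mul_sub, hyN, Matrix.one_mul, Matrix.mul_one]
  obtain ⟨a, hau, haN, ha⟩ := spc_lift (nilp F d) φ ψ' hφT hT' hφU hU' hφS hS'
    (by rw [← hy]; exact spc_sqrt h2 (y - 1) hnil)
  refine ⟨c0 * a, ?_, ?_, ?_⟩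
  · rw [Matrix.det_mul]
    exact hc0u.mul hau
  · rw [Matrix.mul_assoc, haN, ← Matrix.mul_assoc, hc0, Matrix.mul_assoc]
  · rw [ha, hφ, Matrix.transpose_mul]
    simp only [Matrix.mul_assoc]

end red

section orb

variable {F : Type*} [Field F] [Fintype F] {t : ℕ} (d : Fin t → ℕ) (hd : ∀ k, 1 ≤ d k)

include hd in
/-- ORBRED: the orbits of the centraliser of the shift on its skew forms are classified by the
congruence classes of the reductions. -/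
theorem spc_orbred (h2 : (2 : F) ≠ 0) :
    Nat.card (Quot (skRel (nilp F d)))
      = ∏ i : Fin (Finset.univ.sup d + 1),
          Nat.card (Quot (congRel (F := F) (ι := {x : Fin t // dd d x = i}) (i : ℕ))) := by
  classical
  apply spc_qprod (skRel (nilp F d))
    (fun i => congRel (F := F) (ι := {x : Fin t // dd d x = i}) (i : ℕ))
    (fun i => spc_congeqv (i : ℕ))
    (fun ψ i => ⟨bet d hd i ψ.1, ((spc_skunit d hd ψ.1 ψ.2.2.2).mp ψ.2.2.1) i,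
      spc_symtype d hd i ψ.1 ψ.2.1 ψ.2.2.2⟩)
  · rintro ψ ψ' ⟨c, hcu, hcN, hc⟩ i
    refine ⟨tb d hd i c, (spc_tbunit d hd c hcN).mp hcu i, ?_⟩
    show bet d hd i ψ'.1 = _
    rw [hc, spc_betcong d hd i ψ.1 c ψ.2.2.2 hcN]
  · intro ψ ψ' h
    choose g hgu hg using h
    obtain ⟨c, hcu, hcN, hc⟩ := spc_betlift d hd h2 ψ.1 ψ'.1 ψ.2 ψ'.2 g hgu hg
    exact ⟨c, hcu, hcN, hc⟩
  · intro β
    obtain ⟨ψ, hψT, hψS, hψb⟩ := spc_betsurj d hd (fun i => (β i).1) (fun i => (β i).2.2)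
    have hu : IsUnit ψ.det :=
      (spc_skunit d hd ψ hψS).mpr (fun i => by rw [hψb]; exact (β i).2.1)
    refine ⟨⟨ψ, hψT, hu, hψS⟩, ?_⟩
    funext i
    exact Subtype.ext (hψb i)

include hd in
/-- ORBCOUNT: the number of symplectic classes of Jordan type `d`. -/
theorem spc_orbcount (h2 : (2 : F) ≠ 0) {m : ℕ}
    (e : ((k : Fin t) × Fin (d k)) ≃ (Fin m ⊕ Fin m)) :
    Nat.card {C : ConjClasses (Matrix.symplecticGroup (Fin m) F) //
        ∃ g : Matrix.symplecticGroup (Fin m) F, ConjClasses.mk g = C ∧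
          IsConj (Matrix.reindex e e (Cfsg.jordanTypeMatrix d F))
            (g : Matrix (Fin m ⊕ Fin m) (Fin m ⊕ Fin m) F)}
      = ∏ i : Fin (Finset.univ.sup d + 1),
          nOrb (i : ℕ) (Fintype.card {x : Fin t // dd d x = i}) := by
  classical
  obtain ⟨hN, P, hP, hPN⟩ := Cfsg.Agent.Helper44.UCSIM.uc_sim (K := F) d hd (2 : F)⁻¹
  rw [spc_cls h2 m, spc_reidx e, jordan_eq, spc_cay h2 (nilp F d) hN,
    spc_skc _ (nilp F d) P hP hPN, spc_orbred d hd h2]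
  refine Finset.prod_congr rfl (fun i _ => ?_)
  unfold nOrb
  by_cases hi : Even (i : ℕ)
  · rw [if_pos hi, spc_symcls h2 (i : ℕ) hi]
  · rw [if_neg hi, spc_altcls h2 (i : ℕ) (Nat.not_even_iff_odd.mp hi)]

end orb

end Cfsg.Agent.Helper44.SPC
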