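import Mathlib
import Cfsg.Agent.Helper44.SPCDefs

/-!
Piece JNF of CALL S2676 (helper44): Jordan normal form of a unipotent matrix.
-/

set_option autoImplicit false

namespace Cfsg.Agent.Helper44.SPCJNF

open Matrix Cfsg.Agent.Helper21.JCent Cfsg.Agent.Helper44.UC Cfsg.Agent.Helper44.SPC

universe u v

section jb

variable {F : Type u} [Field F]

/-- Jordan basis data of an endomorphism -/
def JB {V : Type v} [AddCommGroup V] [Module F V] (φ : V →ₗ[F] V) : Prop :=
  ∃ (κ : Type) (_ : Fintype κ) (d : κ → ℕ) (b : Module.Basis ((k : κ) × Fin (d k)) F V),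
    (∀ k, 1 ≤ d k) ∧
    ∀ (k : κ) (j : Fin (d k)),
      φ (b ⟨k, j⟩) = if h : (j : ℕ) + 1 < d k then b ⟨k, ⟨(j : ℕ) + 1, h⟩⟩ else 0

/-- the extended chain family -/
def chain {V : Type v} {κ' : Type} (d' : κ' → ℕ) {s : ℕ} (v : κ' → V)
    (w : ((k : κ') × Fin (d' k)) → V) (u : Fin s → V) :
    ((k : κ' ⊕ Fin s) × Fin (Sum.elim (fun k => d' k + 1) (fun _ => 1) k)) → V
  | ⟨Sum.inl k, j⟩ => Fin.cases (v k) (fun j' => w ⟨k, j'⟩) j
  | ⟨Sum.inr i, _⟩ => u i

theorem jb_exists : ∀ (n : ℕ) (V : Type v) [AddCommGroup V] [Module F V] [FiniteDimensional F V]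
    (φ : V →ₗ[F] V), Module.finrank F V = n → IsNilpotent φ → JB φ := by
  intro n
  induction n using Nat.strong_induction_on with
  | _ n ih =>
    intro V _ _ _ φ hn hnil
    classical
    by_cases h0 : n = 0
    · have hsub : Subsingleton V := Module.finrank_zero_iff.mp (hn.trans h0)
      exact ⟨Empty, inferInstance, fun k => k.elim, Module.Basis.empty V, fun k => k.elim,
        fun k => k.elim⟩
    · obtain ⟨W, hW⟩ : ∃ W : Submodule F V, W = LinearMap.range φ := ⟨_, rfl⟩
      have hrn := LinearMap.finrank_range_add_finrank_ker φ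
      have hker : LinearMap.ker φ ≠ ⊥ := by
        intro hk
        have hinj : Function.Injective φ := LinearMap.ker_eq_bot.mp hk
        obtain ⟨k, hk'⟩ := hnil
        have hinj' : Function.Injective ⇑(φ ^ k) := by
          rw [Module.End.coe_pow]
          exact hinj.iterate k
        rw [hk'] at hinj'
        have hsub : Subsingleton V := ⟨fun a b => hinj' (by simp)⟩
        exact h0 (hn.symm.trans (Module.finrank_zero_iff.mpr hsub))
      have hkpos : 0 < Module.finrank F (LinearMap.ker φ) := by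
        rw [Nat.pos_iff_ne_zero]
        intro h
        exact hker (Submodule.finrank_eq_zero.mp h)
      have hlt : Module.finrank F W < n := by
        rw [hW]
        omega
      have hmaps : ∀ x ∈ W, φ x ∈ W := fun x _ => by
        rw [hW]
        exact LinearMap.mem_range_self φ x
      have hnil' : IsNilpotent (φ.restrict hmaps) := by
        obtain ⟨k, hk⟩ := hnil
        refine ⟨k, ?_⟩
        rw [Module.End.pow_restrict]
        ext w
        simp [hk]
      obtain ⟨κ', instκ', d', b', hd', hb'⟩ :=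
        ih (Module.finrank F W) hlt W (φ.restrict hmaps) rfl hnil'
      have hb'V : ∀ (k : κ') (j : Fin (d' k)), φ (b' ⟨k, j⟩ : V)
          = if h : (j : ℕ) + 1 < d' k then (b' ⟨k, ⟨(j : ℕ) + 1, h⟩⟩ : V) else 0 := by
        intro k j
        have h := congrArg (fun w : W => (w : V)) (hb' k j)
        simp only [LinearMap.coe_restrict_apply] at h
        rw [h]
        split_ifs <;> rfl
      have hv : ∀ k : κ', ∃ v : V, φ v = (b' ⟨k, ⟨0, hd' k⟩⟩ : V) := by
        intro k
        have h : (b' ⟨k, ⟨0, hd' k⟩⟩ : V) ∈ W := (b' ⟨k, ⟨0, hd' k⟩⟩).2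
        have h' : (b' ⟨k, ⟨0, hd' k⟩⟩ : V) ∈ LinearMap.range φ := hW ▸ h
        obtain ⟨x, hx⟩ := LinearMap.mem_range.mp h'
        exact ⟨x, hx⟩
      choose v hv using hv
      obtain ⟨z, hz⟩ : ∃ z : κ' → V, z = fun k =>
          (b' ⟨k, ⟨d' k - 1, Nat.sub_lt (hd' k) Nat.one_pos⟩⟩ : V) := ⟨_, rfl⟩
      have hzker : ∀ k, φ (z k) = 0 := by
        intro k
        rw [hz, hb'V, dif_neg]
        simp only [not_lt]
        have := hd' k
        omega
      have hzli : LinearIndependent F z := by
        have h1 : LinearIndependent F (fun x => (b' x : V)) :=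
          b'.linearIndependent.map' W.subtype (Submodule.ker_subtype W)
        have h2 := h1.comp (fun k : κ' =>
          (⟨k, ⟨d' k - 1, Nat.sub_lt (hd' k) Nat.one_pos⟩⟩ : (k : κ') × Fin (d' k)))
          (by intro a b h; exact congrArg Sigma.fst h)
        rw [hz]
        exact h2
      obtain ⟨Z, hZ⟩ : ∃ Z : Submodule F V, Z = Submodule.span F (Set.range z) := ⟨_, rfl⟩
      have hZK : Z ≤ LinearMap.ker φ := by
        rw [hZ, Submodule.span_le]
        rintro _ ⟨k, rfl⟩
        exact LinearMap.mem_ker.mpr (hzker k)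
      obtain ⟨Q₁, hQ₁⟩ := Submodule.exists_isCompl Z
      obtain ⟨Q, hQ⟩ : ∃ Q : Submodule F V, Q = Q₁ ⊓ LinearMap.ker φ := ⟨_, rfl⟩
      have hKsup : LinearMap.ker φ = Z ⊔ Q := by
        rw [hQ, ← sup_inf_assoc_of_le Q₁ hZK, hQ₁.sup_eq_top, top_inf_eq]
      have hZQ : Z ⊓ Q = ⊥ := by
        rw [hQ, ← inf_assoc, hQ₁.inf_eq_bot, bot_inf_eq]
      have hfinK : Module.finrank F (LinearMap.ker φ)
          = Fintype.card κ' + Module.finrank F Q := by
        have h1 := Submodule.finrank_sup_add_finrank_inf_eq Z Q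
        rw [hZQ, finrank_bot, add_zero, ← hKsup] at h1
        rw [h1, hZ, finrank_span_eq_card hzli]
      -- the new family
      obtain ⟨c, hc⟩ : ∃ c : ((k : κ' ⊕ Fin (Module.finrank F Q)) ×
          Fin (Sum.elim (fun k => d' k + 1) (fun _ => 1) k)) → V,
          c = chain d' v (fun x => (b' x : V)) (fun i => (Module.finBasis F Q i : V)) := ⟨_, rfl⟩
      have hc0 : ∀ k : κ', c ⟨Sum.inl k, (0 : Fin (d' k + 1))⟩ = v k := by
        intro k; rw [hc]; rfl
      have hcs : ∀ (k : κ') (j : Fin (d' k)), c ⟨Sum.inl k, j.succ⟩ = (b' ⟨k, j⟩ : V) := by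
        intro k j; rw [hc]; rfl
      have hcr : ∀ (i : Fin (Module.finrank F Q)) (j : Fin 1),
          c ⟨Sum.inr i, j⟩ = (Module.finBasis F Q i : V) := by
        intro i j; rw [hc]; rfl
      obtain ⟨S, hS⟩ : ∃ S : Submodule F V, S = Submodule.span F (Set.range c) := ⟨_, rfl⟩
      have hb_in : ∀ (k : κ') (j : Fin (d' k)), (b' ⟨k, j⟩ : V) ∈ S := by
        intro k j
        rw [hS, ← hcs]
        exact Submodule.subset_span ⟨_, rfl⟩
      have hu_in : ∀ i : Fin (Module.finrank F Q), (Module.finBasis F Q i : V) ∈ S := by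
        intro i
        rw [hS, ← hcr i 0]
        exact Submodule.subset_span ⟨_, rfl⟩
      have hv_in : ∀ k : κ', v k ∈ S := by
        intro k
        rw [hS, ← hc0]
        exact Submodule.subset_span ⟨_, rfl⟩
      have hWspan : W = Submodule.span F (Set.range (fun x => (b' x : V))) := by
        have h1 := b'.span_eq
        have h2 := congrArg (Submodule.map W.subtype) h1
        rw [Submodule.map_span, Submodule.map_subtype_top, ← Set.range_comp] at h2
        exact h2.symm
      have hWS : W ≤ S.map φ := by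
        rw [hWspan, Submodule.span_le]
        rintro _ ⟨⟨k, ⟨j, hj⟩⟩, rfl⟩
        rcases j with _ | j'
        · exact ⟨v k, hv_in k, hv k⟩
        · refine ⟨(b' ⟨k, ⟨j', by omega⟩⟩ : V), hb_in k _, ?_⟩
          rw [hb'V, dif_pos (by simpa using hj)]
      have hKS : LinearMap.ker φ ≤ S := by
        rw [hKsup]
        apply sup_le
        · rw [hZ, Submodule.span_le]
          rintro _ ⟨k, rfl⟩
          rw [hz]
          exact hb_in k _
        · have h1 := (Module.finBasis F Q).span_eq
          have h2 := congrArg (Submodule.map Q.subtype) h1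
          rw [Submodule.map_span, Submodule.map_subtype_top, ← Set.range_comp] at h2
          rw [← h2, Submodule.span_le]
          rintro _ ⟨i, rfl⟩
          exact hu_in i
      have htop : ⊤ ≤ S := by
        intro x _
        have hx : φ x ∈ W := by
          rw [hW]
          exact LinearMap.mem_range_self φ x
        obtain ⟨y, hyS, hy⟩ := hWS hx
        have hxy : x - y ∈ LinearMap.ker φ := by
          rw [LinearMap.mem_ker, map_sub, hy, sub_self]
        have := S.add_mem hyS (hKS hxy)
        rwa [add_sub_cancel] at this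
      have hcard : Fintype.card ((k : κ' ⊕ Fin (Module.finrank F Q)) ×
          Fin (Sum.elim (fun k => d' k + 1) (fun _ => 1) k)) = Module.finrank F V := by
        have hWc : Module.finrank F W = ∑ k : κ', d' k := by
          rw [Module.finrank_eq_card_basis b', Fintype.card_sigma]
          simp
        have hWc' : Module.finrank F (LinearMap.range φ) = ∑ k : κ', d' k := by
          rw [← hWc, hW]
        rw [Fintype.card_sigma]
        have e1 : ∀ k : κ' ⊕ Fin (Module.finrank F Q),
            Fintype.card (Fin (Sum.elim (fun k => d' k + 1) (fun _ => 1) k))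
              = Sum.elim (fun k => d' k + 1) (fun _ => 1) k := fun k => Fintype.card_fin _
        rw [Finset.sum_congr rfl (fun k _ => e1 k), Fintype.sum_sum_type]
        simp only [Sum.elim_inl, Sum.elim_inr, Finset.sum_add_distrib,
          Finset.sum_const, Finset.card_univ, smul_eq_mul, mul_one, Fintype.card_fin]
        omega
      rw [hS] at htop
      refine ⟨κ' ⊕ Fin (Module.finrank F Q), inferInstance,
        Sum.elim (fun k => d' k + 1) (fun _ => 1),
        basisOfTopLeSpanOfCardEqFinrank c htop hcard, ?_, ?_⟩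
      · rintro (k | i)
        · exact Nat.le_add_left 1 (d' k)
        · exact le_refl 1
      · rw [coe_basisOfTopLeSpanOfCardEqFinrank]
        rintro (k | i) j
        · refine Fin.cases ?_ (fun j' => ?_) j
          · rw [hc0, hv, dif_pos (by
              have := hd' k
              simp only [Fin.val_zero, Sum.elim_inl]
              omega)]
            exact (hcs k ⟨0, hd' k⟩).symm
          · rw [hcs, hb'V]
            by_cases hj : (j' : ℕ) + 1 < d' k
            · rw [dif_pos hj, dif_pos (by simpa using hj)]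
              exact (hcs k ⟨(j' : ℕ) + 1, hj⟩).symm
            · rw [dif_neg hj, dif_neg (by simpa using hj)]
        · rw [show c ⟨Sum.inr i, j⟩ = (Module.finBasis F Q i : V) from hcr i j, dif_neg (by
            have := j.2
            simp only [Sum.elim_inr] at this ⊢
            omega)]
          have hQle : Q ≤ LinearMap.ker φ := by
            rw [hQ]
            exact inf_le_right
          have hq : (Module.finBasis F Q i : V) ∈ LinearMap.ker φ :=
            hQle (Module.finBasis F Q i).2
          exact LinearMap.mem_ker.mp hq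

theorem jb_fin {V : Type v} [AddCommGroup V] [Module F V] [FiniteDimensional F V]
    (φ : V →ₗ[F] V) (hnil : IsNilpotent φ) :
    ∃ (t : ℕ) (d : Fin t → ℕ) (b : Module.Basis ((k : Fin t) × Fin (d k)) F V),
      (∀ k, 1 ≤ d k) ∧
      ∀ (k : Fin t) (j : Fin (d k)),
        φ (b ⟨k, j⟩) = if h : (j : ℕ) + 1 < d k then b ⟨k, ⟨(j : ℕ) + 1, h⟩⟩ else 0 := by
  obtain ⟨κ, _, d, b, hd, hb⟩ := jb_exists (Module.finrank F V) V φ rfl hnil
  refine ⟨Fintype.card κ, fun a => d ((Fintype.equivFin κ).symm a),
    b.reindex (Equiv.sigmaCongrLeft (β := fun k => Fin (d k)) (Fintype.equivFin κ).symm).symm,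
    fun a => hd _, ?_⟩
  intro a j
  simp only [Module.Basis.reindex_apply, Equiv.symm_symm]
  exact hb ((Fintype.equivFin κ).symm a) j

theorem sum_jordanBlock (n : ℕ) (f : Fin n → F) (j : Fin n) :
    ∑ j' : Fin n, f j' * Cfsg.jordanBlock n F j' j
      = f j + if h : (j : ℕ) + 1 < n then f ⟨(j : ℕ) + 1, h⟩ else 0 := by
  classical
  have key : ∀ j' : Fin n, f j' * Cfsg.jordanBlock n F j' j
      = (if j' = j then f j' else 0)
        + (if h : (j : ℕ) + 1 < n then (if j' = ⟨(j : ℕ) + 1, h⟩ then f j' else 0) else 0) := by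
    intro j'
    simp only [Cfsg.jordanBlock, Matrix.of_apply]
    by_cases h1 : (j' : ℕ) = j
    · have h1' : j' = j := Fin.ext h1
      subst h1'
      simp only [if_true, mul_one]
      by_cases h : (j' : ℕ) + 1 < n
      · rw [dif_pos h, if_neg (by intro hh; have := congrArg Fin.val hh; simp at this), add_zero]
      · rw [dif_neg h, add_zero]
    · have h1' : j' ≠ j := fun hh => h1 (congrArg Fin.val hh)
      rw [if_neg h1, if_neg h1', zero_add]
      by_cases h : (j : ℕ) + 1 < n
      · rw [dif_pos h]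
        by_cases h2 : (j' : ℕ) = (j : ℕ) + 1
        · rw [if_pos h2, if_pos (Fin.ext h2), mul_one]
        · rw [if_neg h2, if_neg (fun hh => h2 (congrArg Fin.val hh)), mul_zero]
      · rw [dif_neg h, if_neg (by have := j'.2; omega), mul_zero]
  rw [Finset.sum_congr rfl (fun j' _ => key j'), Finset.sum_add_distrib,
    Finset.sum_ite_eq' Finset.univ j f, if_pos (Finset.mem_univ _)]
  congr 1
  by_cases h : (j : ℕ) + 1 < n
  · simp only [dif_pos h]
    rw [Finset.sum_ite_eq' Finset.univ _ f, if_pos (Finset.mem_univ _)]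
  · simp only [dif_neg h, Finset.sum_const_zero]

end jb

theorem spc_jnf {F : Type*} [Field F] {ι : Type*} [Fintype ι] [DecidableEq ι] (A : Matrix ι ι F) (hA : IsNilpotent (A - 1)) : ∃ (t : ℕ) (d : Fin t → ℕ) (e : ((k : Fin t) × Fin (d k)) ≃ ι), (∀ k, 1 ≤ d k) ∧ IsConj (Matrix.reindex e e (Cfsg.jordanTypeMatrix d F)) A := by
  classical
  have hnil : IsNilpotent (Matrix.toLin' (A - 1)) := by
    obtain ⟨k, hk⟩ := hA
    refine ⟨k, ?_⟩
    rw [← Matrix.toLin'_pow, hk, map_zero]
  obtain ⟨t, d, b, hd, hb⟩ := jb_fin (Matrix.toLin' (A - 1)) hnil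
  obtain ⟨e, he⟩ : ∃ e : ((k : Fin t) × Fin (d k)) ≃ ι, e = b.indexEquiv (Pi.basisFun F ι) :=
    ⟨_, rfl⟩
  refine ⟨t, d, e, hd, ?_⟩
  obtain ⟨C, hC⟩ : ∃ C : Matrix ι ι F, C = (Pi.basisFun F ι).toMatrix (b.reindex e) := ⟨_, rfl⟩
  obtain ⟨C', hC'⟩ : ∃ C' : Matrix ι ι F, C' = (b.reindex e).toMatrix (Pi.basisFun F ι) :=
    ⟨_, rfl⟩
  have h1 : C * C' = 1 := by
    rw [hC, hC']
    exact Module.Basis.toMatrix_mul_toMatrix_flip _ _
  have h2 : C' * C = 1 := by
    rw [hC, hC']
    exact Module.Basis.toMatrix_mul_toMatrix_flip _ _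
  have hCe : ∀ (i : ι) (x : (k : Fin t) × Fin (d k)), C i (e x) = b x i := by
    intro i x
    rw [hC, Module.Basis.toMatrix_apply, Pi.basisFun_repr, Module.Basis.reindex_apply,
      Equiv.symm_apply_apply]
  have hAb : ∀ x : (k : Fin t) × Fin (d k), A *ᵥ b x = b x + Matrix.toLin' (A - 1) (b x) := by
    intro x
    rw [Matrix.toLin'_apply, Matrix.sub_mulVec, Matrix.one_mulVec]
    abel
  refine ⟨⟨C, C', h1, h2⟩, ?_⟩
  show C * _ = A * C
  ext i i'
  obtain ⟨⟨k, j⟩, rfl⟩ := e.surjective i'
  have hR : (A * C) i (e ⟨k, j⟩) = (A *ᵥ b ⟨k, j⟩) i := by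
    rw [Matrix.mul_apply]
    simp only [Matrix.mulVec, dotProduct, hCe]
  rw [hR, hAb, hb, Matrix.mul_apply, ← Equiv.sum_comp e]
  simp only [Matrix.reindex_apply, Matrix.submatrix_apply, Equiv.symm_apply_apply, hCe]
  rw [Fintype.sum_sigma, Finset.sum_eq_single k]
  · simp only [Cfsg.jordanTypeMatrix, Matrix.blockDiagonal'_apply_eq]
    rw [sum_jordanBlock (d k) (fun j' => b ⟨k, j'⟩ i) j, Pi.add_apply]
    congr 1
    split_ifs <;> rfl
  · intro k' _ hk'
    apply Finset.sum_eq_zero
    intro j' _
    simp only [Cfsg.jordanTypeMatrix]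
    rw [Matrix.blockDiagonal'_apply_ne _ _ _ hk', mul_zero]
  · intro h
    exact absurd (Finset.mem_univ k) h

end Cfsg.Agent.Helper44.SPCJNF
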