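import Mathlib
import Cfsg.Agent.Helper44.SPCAsm
import Cfsg.Agent.Helper47.SPCJPERM
import Cfsg.Agent.Helper47.SPCJUNIQ
import Cfsg.Agent.Helper47.SPCORDTYPE
import Cfsg.Agent.Helper47.SPCPRODCOUNT
import Cfsg.Agent.Helper44.SPCJNF
import Cfsg.Agent.Helper10.SPCENUM
import Cfsg.Agent.Helper10.SPCFIBRE
import Cfsg.Agent.Helper10.SPCUNIP

/-!
Global assembly of CALL S2676 (helper44): counting the classes of elements of order `p` of
`Sp_2m(q)` by Jordan type.
-/

set_option autoImplicit false
open Classical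

namespace Cfsg.Agent.Helper44.SPC

open Matrix Cfsg.Agent.Helper21.JCent Cfsg.Agent.Helper44.UC
open Cfsg.Agent.Helper47.SPCJPERM Cfsg.Agent.Helper47.SPCJUNIQ Cfsg.Agent.Helper47.SPCORDTYPE Cfsg.Agent.Helper47.SPCPRODCOUNT Cfsg.Agent.Helper44.SPCJNF
open Cfsg.Agent.Helper10.SPCENUM Cfsg.Agent.Helper10.SPCFIBRE Cfsg.Agent.Helper10.SPCUNIP

/-- the all-ones partition -/
def onesP (n : ℕ) : Nat.Partition n where
  parts := Multiset.replicate n 1
  parts_pos := by
    intro i hi
    rw [Multiset.eq_of_mem_replicate hi]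
    exact Nat.one_pos
  parts_sum := by simp

/-- `g` has Jordan type `μ` -/
def HasType {F : Type*} [Field F] (m : ℕ) (g : Matrix.symplecticGroup (Fin m) F)
    (μ : Nat.Partition (2 * m)) : Prop :=
  ∃ (t : ℕ) (d : Fin t → ℕ) (e : ((k : Fin t) × Fin (d k)) ≃ (Fin m ⊕ Fin m)),
    (∀ k, 1 ≤ d k) ∧ Multiset.map d Finset.univ.val = μ.parts ∧
      IsConj (Matrix.reindex e e (Cfsg.jordanTypeMatrix d F))
        (g : Matrix (Fin m ⊕ Fin m) (Fin m ⊕ Fin m) F)

theorem count_map_univ {t : ℕ} (d : Fin t → ℕ) (j : ℕ) :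
    (Multiset.map d Finset.univ.val).count j
      = (Finset.univ.filter (fun k : Fin t => d k = j)).card := by
  rw [Multiset.count_map, Finset.card_def, Finset.filter_val]
  congr 1
  apply Multiset.filter_congr
  intro x _
  exact eq_comm

theorem sum_of_equiv {m t : ℕ} (d : Fin t → ℕ)
    (e : ((k : Fin t) × Fin (d k)) ≃ (Fin m ⊕ Fin m)) : ∑ k, d k = 2 * m := by
  have h := Fintype.card_congr e
  rw [Cfsg.Agent.Helper43.JordanForms.card_sigma_fin, Fintype.card_sum, Fintype.card_fin] at h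
  omega

/-- the partition of a Jordan type -/
def typeOf {m t : ℕ} (d : Fin t → ℕ) (hd : ∀ k, 1 ≤ d k) (hsum : ∑ k, d k = 2 * m) :
    Nat.Partition (2 * m) where
  parts := Multiset.map d Finset.univ.val
  parts_pos := by
    intro i hi
    obtain ⟨k, -, rfl⟩ := Multiset.mem_map.mp hi
    exact hd k
  parts_sum := hsum

theorem spc_main {F : Type*} [Field F] [Fintype F] {p : ℕ} [Fact p.Prime] [CharP F p] (hp : p ≠ 2) (m : ℕ) : Nat.card {C : ConjClasses ↥(Matrix.symplecticGroup (Fin m) F) // ∃ g : Matrix.symplecticGroup (Fin m) F, ConjClasses.mk g = C ∧ orderOf g = p} = (∑ μ ∈ Finset.univ.filter (fun μ : Nat.Partition (2 * m) => (∀ a ∈ μ.parts, a ≤ p) ∧ ∀ j : ℕ, Odd j → Even (μ.parts.count j)), 2 ^ ((μ.parts.toFinset.filter (fun j : ℕ => Even j)).card)) - 1 := by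
  have hpp : p.Prime := Fact.out
  have h2 : (2 : F) ≠ 0 := by
    intro h
    have h' : ((2 : ℕ) : F) = 0 := by exact_mod_cast h
    have hdvd : p ∣ 2 := (CharP.cast_eq_zero_iff F p 2).mp h'
    exact hp ((Nat.prime_dvd_prime_iff_eq hpp Nat.prime_two).mp hdvd)
  obtain ⟨P, hP⟩ : ∃ P : Finset (Nat.Partition (2 * m)), P = Finset.univ.filter
      (fun μ : Nat.Partition (2 * m) => (∀ a ∈ μ.parts, a ≤ p) ∧
        ∀ j : ℕ, Odd j → Even (μ.parts.count j)) := ⟨_, rfl⟩
  rw [← hP]
  have hmemP : ∀ μ, μ ∈ P ↔ (∀ a ∈ μ.parts, a ≤ p) ∧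
      ∀ j : ℕ, Odd j → Even (μ.parts.count j) := by
    intro μ
    rw [hP, Finset.mem_filter]
    simp
  have honesP : onesP (2 * m) ∈ P := by
    rw [hmemP]
    constructor
    · intro a ha
      rw [show a = 1 from Multiset.eq_of_mem_replicate ha]
      exact hpp.one_lt.le
    · intro j hj
      show Even (Multiset.count j (Multiset.replicate (2 * m) 1))
      rw [Multiset.count_replicate]
      split_ifs
      · exact even_two_mul m
      · exact Even.zero
  have hone : 2 ^ (((onesP (2 * m)).parts.toFinset.filter (fun j : ℕ => Even j)).card) = 1 := by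
    have h0 : ((onesP (2 * m)).parts.toFinset.filter (fun j : ℕ => Even j)) = ∅ := by
      apply Finset.filter_eq_empty_iff.mpr
      intro x hx
      rw [Multiset.mem_toFinset] at hx
      rw [show x = 1 from Multiset.eq_of_mem_replicate hx]
      decide
    rw [h0, Finset.card_empty, pow_zero]
  -- the fibres
  have hex : ∀ C : {C : ConjClasses ↥(Matrix.symplecticGroup (Fin m) F) //
      ∃ g : Matrix.symplecticGroup (Fin m) F, ConjClasses.mk g = C ∧ orderOf g = p},
      ∃ μ ∈ P.erase (onesP (2 * m)), ∃ g : Matrix.symplecticGroup (Fin m) F,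
        ConjClasses.mk g = C.1 ∧ HasType m g μ := by
    rintro ⟨C, g, hgC, hgo⟩
    have hgp : (g : Matrix (Fin m ⊕ Fin m) (Fin m ⊕ Fin m) F) ^ p = 1 := by
      have h := pow_orderOf_eq_one g
      rw [hgo] at h
      have h' := congrArg (fun x : Matrix.symplecticGroup (Fin m) F =>
        (x : Matrix (Fin m ⊕ Fin m) (Fin m ⊕ Fin m) F)) h
      simpa using h'
    obtain ⟨t, d, e, hd, hconj⟩ := spc_jnf (g : Matrix (Fin m ⊕ Fin m) (Fin m ⊕ Fin m) F)
      (spc_unip _ hgp)
    have hsum : ∑ k, d k = 2 * m := sum_of_equiv d e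
    obtain ⟨hle, k0, hk0⟩ := (spc_ordtype d hd e g hconj).mp hgo
    have hpar := (Cfsg.Agent.S2582.result d hd hsum).mp ⟨e, g, hconj⟩
    refine ⟨typeOf d hd hsum, ?_, g, hgC, t, d, e, hd, rfl, hconj⟩
    rw [Finset.mem_erase]
    constructor
    · intro h
      have hk : d k0 ∈ (typeOf d hd hsum).parts :=
        Multiset.mem_map_of_mem d (Finset.mem_univ_val k0)
      rw [h] at hk
      exact hk0 (Multiset.eq_of_mem_replicate hk)
    · rw [hmemP]
      constructor
      · intro a ha
        have ha' : a ∈ Multiset.map d Finset.univ.val := ha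
        obtain ⟨k, -, rfl⟩ := Multiset.mem_map.mp ha'
        exact hle k
      · intro j hj
        show Even (Multiset.count j (Multiset.map d Finset.univ.val))
        rw [count_map_univ]
        exact hpar j hj
  have huniq : ∀ (C : {C : ConjClasses ↥(Matrix.symplecticGroup (Fin m) F) //
      ∃ g : Matrix.symplecticGroup (Fin m) F, ConjClasses.mk g = C ∧ orderOf g = p})
      (μ μ' : Nat.Partition (2 * m)),
      (∃ g : Matrix.symplecticGroup (Fin m) F, ConjClasses.mk g = C.1 ∧ HasType m g μ) →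
      (∃ g : Matrix.symplecticGroup (Fin m) F, ConjClasses.mk g = C.1 ∧ HasType m g μ') →
      μ = μ' := by
    rintro ⟨C, hC⟩ μ μ' ⟨g, hg, t, d, e, hd, hmap, hconj⟩ ⟨g', hg', t', d', e', hd', hmap', hconj'⟩
    have hgg : IsConj g g' := ConjClasses.mk_eq_mk_iff_isConj.mp (hg.trans hg'.symm)
    have hgg' : IsConj (g : Matrix (Fin m ⊕ Fin m) (Fin m ⊕ Fin m) F)
        (g' : Matrix (Fin m ⊕ Fin m) (Fin m ⊕ Fin m) F) :=
      (Submonoid.subtype (Matrix.symplecticGroup (Fin m) F)).map_isConj hgg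
    have h1 := (hconj.trans hgg').trans hconj'.symm
    have h3 := spc_juniq d d' hd hd' e e' h1
    apply Nat.Partition.ext
    rw [← hmap, ← hmap', h3]
  have hfib := spc_fibre (P.erase (onesP (2 * m)))
    (fun (C : {C : ConjClasses ↥(Matrix.symplecticGroup (Fin m) F) //
      ∃ g : Matrix.symplecticGroup (Fin m) F, ConjClasses.mk g = C ∧ orderOf g = p})
      (μ : Nat.Partition (2 * m)) =>
      ∃ g : Matrix.symplecticGroup (Fin m) F, ConjClasses.mk g = C.1 ∧ HasType m g μ) hex huniq
  have hcount : ∀ μ ∈ P.erase (onesP (2 * m)),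
      Nat.card {C : {C : ConjClasses ↥(Matrix.symplecticGroup (Fin m) F) //
        ∃ g : Matrix.symplecticGroup (Fin m) F, ConjClasses.mk g = C ∧ orderOf g = p} //
        ∃ g : Matrix.symplecticGroup (Fin m) F, ConjClasses.mk g = C.1 ∧ HasType m g μ}
      = 2 ^ ((μ.parts.toFinset.filter (fun j : ℕ => Even j)).card) := by
    intro μ hμ
    obtain ⟨hne, hμP⟩ := Finset.mem_erase.mp hμ
    obtain ⟨hle, hpar⟩ := (hmemP μ).mp hμP
    obtain ⟨t, d, hd, hmap⟩ := spc_enum (2 * m) μ
    have hsum : ∑ k, d k = 2 * m := by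
      have h := μ.parts_sum
      rw [← hmap] at h
      exact h
    have hcard : Fintype.card ((k : Fin t) × Fin (d k)) = Fintype.card (Fin m ⊕ Fin m) := by
      rw [Cfsg.Agent.Helper43.JordanForms.card_sigma_fin, hsum, Fintype.card_sum,
        Fintype.card_fin]
      ring
    obtain ⟨e⟩ : Nonempty (((k : Fin t) × Fin (d k)) ≃ (Fin m ⊕ Fin m)) :=
      ⟨Fintype.equivOfCardEq hcard⟩
    have hdle : ∀ k, d k ≤ p := fun k =>
      hle _ (by rw [← hmap]; exact Multiset.mem_map_of_mem d (Finset.mem_univ_val k))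
    have hdne : ∃ k, d k ≠ 1 := by
      by_contra hcon
      push Not at hcon
      apply hne
      apply Nat.Partition.ext
      show μ.parts = Multiset.replicate (2 * m) 1
      rw [← hmap]
      have h1 : Multiset.map d Finset.univ.val = Multiset.replicate t 1 := by
        rw [Multiset.eq_replicate]
        constructor
        · simp
        · intro b hb
          obtain ⟨k, -, rfl⟩ := Multiset.mem_map.mp hb
          exact hcon k
      have h3 : t = 2 * m := by
        have h := hsum
        simp only [hcon] at h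
        simpa using h
      rw [h1, h3]
    have hpard : ∀ j, Odd j → Even (Finset.univ.filter (fun k : Fin t => d k = j)).card := by
      intro j hj
      rw [← count_map_univ, hmap]
      exact hpar j hj
    have heq : Nat.card {C : {C : ConjClasses ↥(Matrix.symplecticGroup (Fin m) F) //
        ∃ g : Matrix.symplecticGroup (Fin m) F, ConjClasses.mk g = C ∧ orderOf g = p} //
        ∃ g : Matrix.symplecticGroup (Fin m) F, ConjClasses.mk g = C.1 ∧ HasType m g μ}
        = Nat.card {C : ConjClasses (Matrix.symplecticGroup (Fin m) F) //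
          ∃ g : Matrix.symplecticGroup (Fin m) F, ConjClasses.mk g = C ∧
            IsConj (Matrix.reindex e e (Cfsg.jordanTypeMatrix d F))
              (g : Matrix (Fin m ⊕ Fin m) (Fin m ⊕ Fin m) F)} := by
      apply Nat.card_congr
      refine ⟨fun x => ⟨x.1.1, ?_⟩, fun z => ⟨⟨z.1, ?_⟩, ?_⟩, fun x => Subtype.ext (Subtype.ext rfl),
        fun z => Subtype.ext rfl⟩
      · obtain ⟨g, hg, t', d', e', hd', hmap', hconj'⟩ := x.2
        exact ⟨g, hg, (spc_jperm d d' e e' (hmap.trans hmap'.symm)).trans hconj'⟩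
      · obtain ⟨g, hg, hconj⟩ := z.2
        exact ⟨g, hg, (spc_ordtype d hd e g hconj).mpr ⟨hdle, hdne⟩⟩
      · obtain ⟨g, hg, hconj⟩ := z.2
        exact ⟨g, hg, t, d, e, hd, hmap, hconj⟩
    rw [heq, spc_orbcount d hd h2 e, spc_prodcount d hpard, ← hmap]
    rfl
  rw [hfib, Finset.sum_congr rfl hcount]
  have hadd := Finset.add_sum_erase P
    (fun μ : Nat.Partition (2 * m) => 2 ^ ((μ.parts.toFinset.filter (fun j : ℕ => Even j)).card))
    honesP
  rw [hone] at hadd
  omega

end Cfsg.Agent.Helper44.SPC
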