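import Mathlib
import Cfsg.Agent.Helper44.SPUDefs
import Cfsg.Agent.Helper61.TICNTA
import Cfsg.Agent.Helper41.TICNTB
import Cfsg.Agent.Helper22.SPURAD
import Cfsg.Agent.Helper37.SPULEMA
import Cfsg.Agent.Helper12.SPUCONJ
import Cfsg.Agent.Helper5.SPULEVI
import Cfsg.Agent.Helper37.SPULEVIKER
import Cfsg.Agent.Helper84.SPUPCOUNT
import Cfsg.Agent.Helper20.SPUISODIM
import Cfsg.Agent.Helper51.SPUISON
import Cfsg.Agent.Helper87.SPUQID

/-!
Assembly of CALL S2316 (helper44): `Sp_2m(q)` has exactly `q^(2m²)` elements of `p`-power order.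
-/

set_option autoImplicit false
open Classical

namespace Cfsg.Agent.Helper44.SPU

open Matrix
open Cfsg.Agent.Helper22.SPURAD Cfsg.Agent.Helper37.SPULEMA Cfsg.Agent.Helper12.SPUCONJ Cfsg.Agent.Helper5.SPULEVI Cfsg.Agent.Helper37.SPULEVIKER Cfsg.Agent.Helper84.SPUPCOUNT Cfsg.Agent.Helper20.SPUISODIM Cfsg.Agent.Helper51.SPUISON Cfsg.Agent.Helper87.SPUQID

variable {F : Type*} [Field F] [Fintype F] {m : ℕ}

/-- the number of `p`-elements of `Sp_2m(F)` -/
noncomputable def UC (p m : ℕ) (F : Type*) [Field F] : ℕ :=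
  Nat.card {g : Matrix.symplecticGroup (Fin m) F // ∃ k : ℕ, orderOf g = p ^ k}

/-- the number of `p`-elements of `Sp_2m(F)` fixing `W` pointwise -/
noncomputable def NW (p : ℕ) (W : Submodule F (Fin m ⊕ Fin m → F)) : ℕ :=
  Nat.card {g : Matrix.symplecticGroup (Fin m) F // (∃ j : ℕ, orderOf g = p ^ j) ∧
    ∀ v ∈ W, (g : Matrix (Fin m ⊕ Fin m) (Fin m ⊕ Fin m) F) *ᵥ v = v}

theorem card_F_pos : 2 ≤ Fintype.card F := Fintype.one_lt_card

/-- the number of `p`-elements fixing a totally isotropic `k`-space pointwise -/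
theorem spu_NW (p : ℕ) [Fact p.Prime] [CharP F p] (W : Submodule F (Fin m ⊕ Fin m → F))
    (hW : Iso m F W) :
    NW p W = Fintype.card F ^ (Module.finrank F W * (Module.finrank F W + 1) / 2 +
      2 * Module.finrank F W * (m - Module.finrank F W)) * UC p (m - Module.finrank F W) F := by
  obtain ⟨k, hWk⟩ : ∃ k, Module.finrank F W = k := ⟨_, rfl⟩
  rw [hWk]
  have hk : k ≤ m := hWk ▸ spu_isodim W hW
  obtain ⟨π, hπ⟩ := spu_levi (F := F) hk
  have hker := spu_leviker hk π hπ
  obtain ⟨n, -, hn⟩ := FiniteField.card F p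
  have hker' : Nat.card π.ker = p ^ ((n : ℕ) * (k * (k + 1) / 2 + 2 * k * (m - k))) := by
    rw [hker, hn, pow_mul]
  have h1 := spu_pcount π hπ p _ hker'
  unfold NW UC
  rw [spu_conj p hk W hWk hW, h1, hker]

/-- the number of totally isotropic `k`-subspaces -/
theorem spu_isocount {k : ℕ} (hk : k ≤ m) :
    Nat.card {W : Submodule F (Fin m ⊕ Fin m → F) // Module.finrank F W = k ∧ Iso m F W} =
      isoN (Fintype.card F) m k := by
  have h1 := (Cfsg.Agent.Helper41.TI5955.cnt_b F m k).symm.trans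
    (Cfsg.Agent.Helper61.TI5955.cnt_a F m k hk)
  have h2 := spu_ison (Fintype.card F) card_F_pos m k hk
  have hpos : 0 < ∏ j ∈ Finset.range k, (Fintype.card F ^ k - Fintype.card F ^ j) := by
    apply Finset.prod_pos
    intro j hj
    rw [Finset.mem_range] at hj
    exact Nat.sub_pos_of_lt (Nat.pow_lt_pow_right card_F_pos hj)
  exact Nat.eq_of_mul_eq_mul_right hpos (h1.trans h2.symm)

/-- grouping the totally isotropic subspaces by dimension -/
theorem spu_group (c : ℕ → ℤ) :
    ∑ W : Submodule F (Fin m ⊕ Fin m → F),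
        (if Iso m F W then c (Module.finrank F W) else 0) =
      ∑ k ∈ Finset.range (m + 1), c k * (isoN (Fintype.card F) m k : ℤ) := by
  rw [← Finset.sum_filter]
  rw [← Finset.sum_fiberwise_of_maps_to (s := Finset.univ.filter (fun W => Iso m F W))
    (t := Finset.range (m + 1)) (g := fun W => Module.finrank F W)
    (fun W hW => Finset.mem_range.mpr (Nat.lt_succ_of_le
      (spu_isodim W (Finset.mem_filter.mp hW).2)))]
  apply Finset.sum_congr rfl
  intro k hk
  rw [Finset.mem_range] at hk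
  have e1 : ∀ W ∈ (Finset.univ.filter
      (fun W : Submodule F (Fin m ⊕ Fin m → F) => Iso m F W)).filter
      (fun W : Submodule F (Fin m ⊕ Fin m → F) => Module.finrank F W = k),
      c (Module.finrank F W) = c k := by
    intro W hW
    rw [(Finset.mem_filter.mp hW).2]
  rw [Finset.sum_congr rfl e1, Finset.sum_const, nsmul_eq_mul, mul_comm]
  congr 2
  rw [← spu_isocount (F := F) (Nat.lt_succ_iff.mp hk), Nat.card_eq_fintype_card,
    Fintype.card_subtype, Finset.filter_filter]
  congr 1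
  ext W
  simp only [Finset.mem_filter, Finset.mem_univ, true_and]
  exact and_comm

/-- the double counting identity -/
theorem spu_dbl (p : ℕ) [Fact p.Prime] [CharP F p] :
    ∑ W : Submodule F (Fin m ⊕ Fin m → F),
      (if Iso m F W then wt (Fintype.card F) (Module.finrank F W) * ((NW p W : ℤ) - 1) else 0)
        = 0 := by
  -- the set of `p`-elements
  obtain ⟨U, hU⟩ : ∃ U : Finset (Matrix.symplecticGroup (Fin m) F),
      U = Finset.univ.filter (fun g => ∃ k : ℕ, orderOf g = p ^ k) := ⟨_, rfl⟩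
  have h1U : (1 : Matrix.symplecticGroup (Fin m) F) ∈ U := by
    rw [hU, Finset.mem_filter]
    exact ⟨Finset.mem_univ _, 0, by rw [orderOf_one, pow_zero]⟩
  obtain ⟨T, hT⟩ : ∃ T : Matrix.symplecticGroup (Fin m) F → Submodule F (Fin m ⊕ Fin m → F) → ℤ,
      T = fun (g : Matrix.symplecticGroup (Fin m) F) W => if W ≤ fixSub g.1 ∧ Iso m F W
        then wt (Fintype.card F) (Module.finrank F W) else 0 := ⟨_, rfl⟩
  -- (a) the inner sum vanishes for `g ≠ 1`
  have ha : ∀ g ∈ U, g ≠ 1 → ∑ W : Submodule F (Fin m ⊕ Fin m → F), T g W = 0 := by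
    intro g hg hg1
    rw [hU, Finset.mem_filter] at hg
    obtain ⟨r, hr0, hrfix, hrad⟩ := spu_rad p g hg.2 hg1
    rw [hT]
    exact spu_lemA (fixSub (g : Matrix (Fin m ⊕ Fin m) (Fin m ⊕ Fin m) F)) r hr0 hrfix
      (fun y hy => hrad y hy)
  -- (b) the inner sum for `g = 1`
  have hb : ∑ W : Submodule F (Fin m ⊕ Fin m → F), T 1 W =
      ∑ W : Submodule F (Fin m ⊕ Fin m → F),
        (if Iso m F W then wt (Fintype.card F) (Module.finrank F W) else 0) := by
    apply Finset.sum_congr rfl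
    intro W _
    rw [hT]
    have hle : W ≤ fixSub ((1 : Matrix.symplecticGroup (Fin m) F) :
        Matrix (Fin m ⊕ Fin m) (Fin m ⊕ Fin m) F) := by
      intro v _
      rw [mem_fixSub]
      show (1 : Matrix (Fin m ⊕ Fin m) (Fin m ⊕ Fin m) F) *ᵥ v = v
      exact Matrix.one_mulVec v
    simp only [hle, true_and]
  -- (c) exchanging the sums
  have hc : ∀ W : Submodule F (Fin m ⊕ Fin m → F), ∑ g ∈ U, T g W =
      if Iso m F W then wt (Fintype.card F) (Module.finrank F W) * (NW p W : ℤ) else 0 := by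
    intro W
    by_cases hW : Iso m F W
    · rw [if_pos hW, hT]
      simp only [hW, and_true]
      rw [← Finset.sum_filter, Finset.sum_const, nsmul_eq_mul, mul_comm]
      congr 2
      unfold NW
      rw [Nat.card_eq_fintype_card, Fintype.card_subtype, hU, Finset.filter_filter]
      congr 1
      refine Finset.filter_congr (fun g _ => ?_)
      exact Iff.rfl
    · rw [if_neg hW, hT]
      simp only [hW, and_false, if_false, Finset.sum_const_zero]
  have hmain : ∑ g ∈ U, ∑ W : Submodule F (Fin m ⊕ Fin m → F), T g W =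
      ∑ W : Submodule F (Fin m ⊕ Fin m → F), T 1 W := by
    apply Finset.sum_eq_single_of_mem 1 h1U
    intro g hg hg1
    exact ha g hg hg1
  rw [Finset.sum_comm, hb, Finset.sum_congr rfl (fun W _ => hc W)] at hmain
  rw [← sub_eq_zero, ← Finset.sum_sub_distrib] at hmain
  refine Eq.trans (Finset.sum_congr rfl ?_) hmain
  intro W _
  by_cases hW : Iso m F W
  · simp only [if_pos hW]
    ring
  · simp only [if_neg hW, sub_zero]

theorem uE_zero (m : ℕ) : uE m 0 = 2 * m ^ 2 := by
  unfold uE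
  simp

/-- **Steinberg's count for the symplectic group.** -/
theorem spu_main (p : ℕ) [Fact p.Prime] [CharP F p] :
    ∀ m : ℕ, UC p m F = Fintype.card F ^ (2 * m ^ 2) := by
  intro m
  induction m using Nat.strong_induction_on with
  | _ m ih =>
    obtain ⟨q, hq⟩ : ∃ q, Fintype.card F = q := ⟨_, rfl⟩
    obtain ⟨c, hc⟩ : ∃ c : ℕ → ℤ, c = fun k => wt q k *
        (((q ^ (k * (k + 1) / 2 + 2 * k * (m - k)) * UC p (m - k) F : ℕ) : ℤ) - 1) := ⟨_, rfl⟩
    have hck : ∀ k, c k = wt q k *
        (((q ^ (k * (k + 1) / 2 + 2 * k * (m - k)) * UC p (m - k) F : ℕ) : ℤ) - 1) := by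
      intro k
      rw [hc]
    have h1 : ∑ k ∈ Finset.range (m + 1), c k * (isoN q m k : ℤ) = 0 := by
      rw [← hq, ← spu_group (F := F) (m := m) c]
      refine Eq.trans (Finset.sum_congr rfl ?_) (spu_dbl (F := F) (m := m) p)
      intro W _
      by_cases hW : Iso m F W
      · rw [if_pos hW, if_pos hW, hck, spu_NW p W hW, hq]
      · rw [if_neg hW, if_neg hW]
    have h2 := spu_qid q (hq ▸ card_F_pos) m
    rw [Finset.sum_range_succ'] at h1 h2
    have h3 : ∑ k ∈ Finset.range m, c (k + 1) * (isoN q m (k + 1) : ℤ) =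
        ∑ k ∈ Finset.range m, wt q (k + 1) * (isoN q m (k + 1) : ℤ) *
          ((q : ℤ) ^ (uE m (k + 1)) - 1) := by
      apply Finset.sum_congr rfl
      intro k hk
      rw [Finset.mem_range] at hk
      rw [hck, ih (m - (k + 1)) (by omega), hq, ← pow_add]
      have : (k + 1) * (k + 1 + 1) / 2 + 2 * (k + 1) * (m - (k + 1)) + 2 * (m - (k + 1)) ^ 2 =
          uE m (k + 1) := rfl
      rw [this]
      push_cast
      ring
    rw [h3] at h1
    have h4 : c 0 * (isoN q m 0 : ℤ) = wt q 0 * (isoN q m 0 : ℤ) * ((q : ℤ) ^ (uE m 0) - 1) := by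
      linarith
    have h5 : isoN q m 0 = 1 := by
      cases m <;> rfl
    rw [h5, hck, uE_zero] at h4
    simp only [wt, pow_zero, Nat.choose_zero_succ, Nat.cast_one, mul_one, one_mul, Nat.zero_mul,
      Nat.zero_div, Nat.mul_zero, Nat.add_zero, Nat.sub_zero, Nat.zero_add] at h4
    have h6 : ((UC p m F : ℕ) : ℤ) = ((q ^ (2 * m ^ 2) : ℕ) : ℤ) := by
      push_cast
      push_cast at h4
      linarith
    rw [hq]
    exact_mod_cast h6

end Cfsg.Agent.Helper44.SPU
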