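import Cfsg.Agent.Helper44.UnitaryOrder
import Cfsg.Agent.Helper44.OPlus

set_option autoImplicit false

/-!
Helper library (helper44): fixed-point-free isometries of order three of an alternating form
(a "unitary basis"), and the quadratic extension generated by a primitive cube root of unity
over a finite field with `q ≡ 2 (mod 3)` elements.
-/

namespace Cfsg.Agent.Helper44

open Polynomial Matrix

section Ord3Basis

variable {F : Type*} [Field F] {V : Type*} [AddCommGroup V] [Module F V] [FiniteDimensional F V]

/-- A unitary basis: if `X` with `X² + X + 1 = 0` preserves the alternating form `B`, and the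
norm form `a² - ab + b²` represents every scalar, then every `X`-invariant subspace on which `B`
is nondegenerate has vectors `b_i` with `B(b_i, b_j) = 0`, `B(b_i, X b_j) = δ_ij`, half as many
as the dimension. -/
theorem exists_ord3_basis (B : V →ₗ[F] V →ₗ[F] F) (X : V →ₗ[F] V)
    (halt : ∀ v, B v v = 0) (hX : ∀ v, X (X v) + X v + v = 0)
    (hBX : ∀ u v, B (X u) (X v) = B u v) (h3 : (3 : F) ≠ 0)
    (hN : ∀ t : F, ∃ a b : F, a ^ 2 - a * b + b ^ 2 = t) :
    ∀ (n : ℕ) (W : Submodule F V), Module.finrank F W = n → (∀ w ∈ W, X w ∈ W) →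
      (∀ w ∈ W, (∀ w' ∈ W, B w w' = 0) → w = 0) →
      ∃ (k : ℕ) (b : Fin k → V), (∀ i, b i ∈ W) ∧ (∀ i j, B (b i) (b j) = 0) ∧
        (∀ i j, B (b i) (X (b j)) = if i = j then 1 else 0) ∧ n = 2 * k := by
  have hanti : ∀ u v, B u v = -B v u := by
    intro u v
    have h := halt (u + v)
    simp only [map_add, LinearMap.add_apply, halt] at h
    linear_combination h
  have hX3 : ∀ v, X (X (X v)) = v := by
    intro v
    have h1 := hX v
    have h2 := hX (X v)
    have h3' : X (X (X v)) - v = 0 := by
      rw [← h1] at h2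
      have : X (X (X v)) + X (X v) + X v - (X (X v) + X v + v) = 0 := by rw [h2, sub_self]
      rw [← this]; abel
    exact sub_eq_zero.mp h3'
  have hXX : ∀ v, X (X v) = -X v - v := by
    intro v
    have h1 := hX v
    rw [← sub_eq_zero, ← h1]; abel
  intro n
  induction n using Nat.strong_induction_on with
  | _ n ih =>
    intro W hn hWX hnd
    by_cases hW : W = ⊥
    · refine ⟨0, Fin.elim0, fun i => i.elim0, fun i => i.elim0, fun i => i.elim0, ?_⟩
      rw [← hn, hW, finrank_bot]
    · -- a vector with `B v (X v) ≠ 0`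
      have hex : ∃ v ∈ W, B v (X v) ≠ 0 := by
        by_contra hcon
        push Not at hcon
        obtain ⟨w, hwW, hw0⟩ := Submodule.exists_mem_ne_zero_of_ne_bot hW
        apply hw0
        have hpol : ∀ u ∈ W, ∀ v ∈ W, B u (X v) + B v (X u) = 0 := by
          intro u hu v hv
          have h := hcon (u + v) (W.add_mem hu hv)
          simp only [map_add, LinearMap.add_apply, hcon u hu, hcon v hv] at h
          linear_combination h
        have hy : X w - X (X w) = 0 := by
          apply hnd _ (W.sub_mem (hWX w hwW) (hWX _ (hWX w hwW)))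
          intro u hu
          rw [hanti, map_sub, neg_eq_zero]
          have h1 := hpol u hu w hwW
          have h2 : B w (X u) = B (X (X w)) u := by
            rw [← hBX w (X u), ← hBX (X w) (X (X u)), hX3]
          rw [h2, hanti (X (X w)) u] at h1
          linear_combination h1
        have hXw : X w = X (X w) := sub_eq_zero.mp hy
        have hXw2 : X (X w) = w := by
          have := congrArg X hXw
          rw [hX3] at this
          exact this
        have h1 := hX w
        rw [hXw2, hXw, hXw2] at h1
        have h2 : (3 : F) • w = 0 := by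
          rw [← h1]
          have : (3 : F) = 1 + 1 + 1 := by norm_num
          rw [this, add_smul, add_smul, one_smul]
        exact (smul_eq_zero.mp h2).resolve_left h3
      obtain ⟨v, hvW, hv⟩ := hex
      obtain ⟨a, c, hac⟩ := hN (B v (X v))⁻¹
      set v₁ : V := a • v + c • X v with hv₁
      have hv₁W : v₁ ∈ W := W.add_mem (W.smul_mem _ hvW) (W.smul_mem _ (hWX v hvW))
      have hXv₁W : X v₁ ∈ W := hWX v₁ hv₁W
      have hv₁1 : B v₁ (X v₁) = 1 := by
        have e1 : B (X v) v = -B v (X v) := hanti _ _
        rw [hv₁]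
        simp only [map_add, map_smul, LinearMap.add_apply, LinearMap.smul_apply, smul_eq_mul,
          hXX, map_sub, map_neg, halt, e1]
        have : (a ^ 2 - a * c + c ^ 2) * B v (X v) = 1 := by
          rw [hac, inv_mul_cancel₀ hv]
        linear_combination this
      have hv₁2 : B (X v₁) v₁ = -1 := by rw [hanti, hv₁1]
      set W₁ : Submodule F V := W ⊓ LinearMap.ker (B v₁) with hW₁
      set W' : Submodule F V := W₁ ⊓ LinearMap.ker (B (X v₁)) with hW'
      have hd1 : Module.finrank F ↥W₁ + 1 = Module.finrank F ↥W :=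
        finrank_inf_ker W (B v₁) (X v₁) hXv₁W (by rw [hv₁1]; exact one_ne_zero)
      have hv₁W₁ : v₁ ∈ W₁ := ⟨hv₁W, by rw [SetLike.mem_coe, LinearMap.mem_ker, halt]⟩
      have hd2 : Module.finrank F ↥W' + 1 = Module.finrank F ↥W₁ :=
        finrank_inf_ker W₁ (B (X v₁)) v₁ hv₁W₁ (by rw [hv₁2]; norm_num)
      have hmem : ∀ w, w ∈ W' ↔ w ∈ W ∧ B v₁ w = 0 ∧ B (X v₁) w = 0 := by
        intro w
        constructor
        · rintro ⟨⟨h1, h2⟩, h3⟩
          exact ⟨h1, LinearMap.mem_ker.mp h2, LinearMap.mem_ker.mp h3⟩
        · rintro ⟨h1, h2, h3⟩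
          exact ⟨⟨h1, LinearMap.mem_ker.mpr h2⟩, LinearMap.mem_ker.mpr h3⟩
      have hW'X : ∀ w ∈ W', X w ∈ W' := by
        intro w hw
        rw [hmem] at hw ⊢
        obtain ⟨h1, h2, h3⟩ := hw
        refine ⟨hWX w h1, ?_, ?_⟩
        · rw [← hBX v₁ (X w), ← hBX (X v₁) (X (X w)), hX3, hXX, map_sub, map_neg,
            LinearMap.sub_apply, LinearMap.neg_apply, h2, h3]
          simp
        · rw [hBX, h2]
      have hW'nd : ∀ w ∈ W', (∀ w' ∈ W', B w w' = 0) → w = 0 := by
        intro w hw hw'
        have hw2 := (hmem w).mp hw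
        apply hnd w hw2.1
        intro u hu
        have hu' : u + (B (X v₁) u) • v₁ - (B v₁ u) • X v₁ ∈ W' := by
          rw [hmem]
          refine ⟨W.sub_mem (W.add_mem hu (W.smul_mem _ hv₁W)) (W.smul_mem _ hXv₁W), ?_, ?_⟩
          · simp only [map_sub, map_add, map_smul, smul_eq_mul, halt, hv₁1]
            ring
          · simp only [map_sub, map_add, map_smul, smul_eq_mul, halt, hv₁2]
            ring
        have h1 := hw' _ hu'
        simp only [map_sub, map_add, map_smul, smul_eq_mul] at h1
        have e1 : B w v₁ = 0 := by rw [hanti, hw2.2.1, neg_zero]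
        have e2 : B w (X v₁) = 0 := by rw [hanti, hw2.2.2, neg_zero]
        rw [e1, e2] at h1
        linear_combination h1
      have hlt : Module.finrank F ↥W' < n := by omega
      obtain ⟨k, b, hbW, hb0, hb1, hk⟩ := ih _ hlt W' rfl hW'X hW'nd
      refine ⟨k + 1, Fin.cons v₁ b, ?_, ?_, ?_, by omega⟩
      · intro i
        refine Fin.cases ?_ (fun i => ?_) i
        · rw [Fin.cons_zero]; exact hv₁W
        · rw [Fin.cons_succ]; exact ((hmem _).mp (hbW i)).1
      · intro i j
        refine Fin.cases ?_ (fun i => ?_) i <;> refine Fin.cases ?_ (fun j => ?_) j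
        · rw [Fin.cons_zero, halt]
        · rw [Fin.cons_zero, Fin.cons_succ]; exact ((hmem _).mp (hbW j)).2.1
        · rw [Fin.cons_zero, Fin.cons_succ, hanti, ((hmem _).mp (hbW i)).2.1, neg_zero]
        · rw [Fin.cons_succ, Fin.cons_succ]; exact hb0 i j
      · intro i j
        refine Fin.cases ?_ (fun i => ?_) i <;> refine Fin.cases ?_ (fun j => ?_) j
        · rw [Fin.cons_zero, hv₁1, if_pos rfl]
        · rw [Fin.cons_zero, Fin.cons_succ, if_neg (Fin.succ_ne_zero j).symm]
          exact ((hmem _).mp (hW'X _ (hbW j))).2.1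
        · rw [Fin.cons_zero, Fin.cons_succ, if_neg (Fin.succ_ne_zero i), hanti,
            ((hmem _).mp (hbW i)).2.2, neg_zero]
        · rw [Fin.cons_succ, Fin.cons_succ, hb1 i j]
          simp only [Fin.succ_inj]

end Ord3Basis

section CubicExt

universe u

variable {F : Type u} [Field F] [Fintype F] {q : ℕ}

theorem three_ne_zero_of_card (hF : Fintype.card F = q) (hq : q % 3 = 2) : (3 : F) ≠ 0 := by
  intro h
  obtain ⟨j, hj⟩ : ∃ j, q = 3 * j + 2 := ⟨q / 3, by omega⟩
  have hq0 : (q : F) = 0 := by rw [← hF]; exact Nat.cast_card_eq_zero F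
  rw [hj] at hq0
  push_cast at hq0
  have h2 : (2 : F) = 0 := by linear_combination hq0 - (j : F) * h
  exact one_ne_zero (by linear_combination h - h2 : (1 : F) = 0)

theorem no_cube_root_of_card (hF : Fintype.card F = q) (hq : q % 3 = 2) (r : F) :
    r ^ 2 + r + 1 ≠ 0 := by
  intro hr
  obtain ⟨j, hj⟩ : ∃ j, q = 3 * j + 2 := ⟨q / 3, by omega⟩
  have hr3 : r ^ 3 = 1 := by linear_combination (r - 1) * hr
  have hrq : r ^ q = r := by rw [← hF]; exact FiniteField.pow_card r
  rw [hj, pow_add, pow_mul, hr3, one_pow, one_mul] at hrq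
  have hr0 : r ≠ 0 := by
    rintro rfl
    simp at hr
  have hr1 : r = 1 := by
    have h : r * (r - 1) = 0 := by linear_combination hrq
    rcases mul_eq_zero.mp h with h | h
    · exact absurd h hr0
    · linear_combination h
  rw [hr1] at hr
  apply three_ne_zero_of_card hF hq
  linear_combination hr

/-- the quadratic extension generated by a primitive cube root of unity -/
theorem exists_cubic_ext (hF : Fintype.card F = q) (hq : q % 3 = 2) :
    ∃ (K : Type u) (_ : Field K) (_ : Fintype K) (_ : Algebra F K) (ω : K),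
      Fintype.card K = q ^ 2 ∧ ω ^ 2 + ω + 1 = 0 ∧ ∀ a : F, algebraMap F K a ≠ ω := by
  classical
  set f : F[X] := X ^ 2 + X + 1 with hf
  have hfdeg : f.natDegree = 2 := by rw [hf]; compute_degree!
  have hf0 : f ≠ 0 := by
    intro h
    rw [h, natDegree_zero] at hfdeg
    omega
  have hfirr : Irreducible f := by
    apply irreducible_of_degree_le_three_of_not_isRoot
    · rw [hfdeg]; simp
    · intro r hr
      apply no_cube_root_of_card hF hq r
      have : eval r f = 0 := hr
      simpa [hf] using this
  haveI : Fact (Irreducible f) := ⟨hfirr⟩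
  haveI : Module.Finite F (AdjoinRoot f) := (AdjoinRoot.powerBasis hf0).finite
  haveI : Finite (AdjoinRoot f) := Module.finite_of_finite F
  letI : Fintype (AdjoinRoot f) := Fintype.ofFinite _
  have hroot : (AdjoinRoot.root f) ^ 2 + AdjoinRoot.root f + 1 = 0 := by
    have := AdjoinRoot.eval₂_root f
    simpa [hf, eval₂_add, eval₂_pow] using this
  refine ⟨AdjoinRoot f, inferInstance, inferInstance, inferInstance, AdjoinRoot.root f, ?_, hroot, ?_⟩
  · have h := Module.card_eq_pow_finrank (K := F) (V := AdjoinRoot f)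
    rw [h, hF, (AdjoinRoot.powerBasis hf0).finrank, AdjoinRoot.powerBasis_dim, hfdeg]
  · intro a ha
    apply no_cube_root_of_card hF hq a
    apply (algebraMap F (AdjoinRoot f)).injective
    rw [map_add, map_add, map_pow, map_one, map_zero, ha]
    exact hroot

end CubicExt

end Cfsg.Agent.Helper44
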