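import Mathlib
import Cfsg.Agent.Helper44.SpT

/-!
# `Out(PSp_4(2^f))` (helper44), part U

The square of the exceptional automorphism of `PSp_4(2^f)` is, modulo inner-diagonal
automorphisms, the Frobenius field automorphism; hence `Out(PSp_4(2^f))` is cyclic of order
`2f`, generated by the class of the exceptional automorphism.
-/

set_option autoImplicit false
set_option linter.unusedSimpArgs false
set_option linter.unusedSectionVars false
set_option linter.unusedVariables false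

namespace Cfsg.Agent.Helper44.PSpn

open Matrix
open scoped Pointwise
open Cfsg.Agent.Helper13 (sympForm_add_left sympForm_add_right sympForm_smul_left
  sympForm_smul_right sympForm_swap sympForm_self sympForm_zero_left sympForm_zero_right
  sympForm_neg_left sympForm_neg_right sympForm_sub_left sympForm_sub_right)
open Cfsg.Agent.Helper5 (spTv spTv_mulVec sp_ext sp_sympForm sp_coe_one sp_mul_mulVec
  sp_inv_mulVec sp_mulVec_inv)

universe u

section out4

variable {F : Type u} [Field F] [Fintype F] [CharP F 2]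

/-- the squaring automorphism of a field with `2 ^ f` elements has order `f` -/
theorem orderOf_sq_aut (f : ℕ) (hf : 1 ≤ f) (hF : Fintype.card F = 2 ^ f) (σ : RingAut F)
    (hσ : ∀ c : F, σ c = c ^ 2) : orderOf σ = f := by
  have hpow : ∀ (j : ℕ) (c : F), (σ ^ j) c = c ^ (2 ^ j) := by
    intro j
    induction j with
    | zero =>
      intro c
      rw [pow_zero, pow_zero, pow_one]
      rfl
    | succ j ih =>
      intro c
      rw [pow_succ, RingAut.mul_apply, ih, hσ, ← pow_mul, ← pow_succ']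
  have hdiv : orderOf σ ∣ f := by
    have h1 := orderOf_dvd_natCard σ
    rwa [(Cfsg.Agent.Helper44.ringAut_cyclic_card 2 f hF).2] at h1
  have hn0 : 0 < orderOf σ := Nat.pos_of_dvd_of_pos hdiv (by omega)
  obtain ⟨ζ, hζ⟩ := IsCyclic.exists_generator (α := Fˣ)
  have hord : orderOf ζ = 2 ^ f - 1 := by
    rw [orderOf_eq_card_of_forall_mem_zpowers hζ, Nat.card_units,
      Nat.card_eq_fintype_card (α := F), hF]
  have h1 : ((ζ : Fˣ) : F) ^ (2 ^ orderOf σ) = ζ := by
    rw [← hpow, pow_orderOf_eq_one]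
    rfl
  have hle : 1 ≤ 2 ^ orderOf σ := Nat.one_le_two_pow
  have h2 : ζ ^ (2 ^ orderOf σ - 1) = 1 := by
    apply Units.ext
    rw [Units.val_pow_eq_pow_val, Units.val_one]
    have h3 : ((ζ : Fˣ) : F) ^ (2 ^ orderOf σ - 1) * ζ = 1 * ζ := by
      rw [← pow_succ, Nat.sub_add_cancel hle, h1, one_mul]
    exact mul_right_cancel₀ ζ.ne_zero h3
  have h4 : 2 ^ f - 1 ∣ 2 ^ orderOf σ - 1 := by
    rw [← hord]
    exact orderOf_dvd_of_pow_eq_one h2
  have h5 : 2 ≤ 2 ^ orderOf σ := by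
    calc 2 = 2 ^ 1 := (pow_one 2).symm
      _ ≤ 2 ^ orderOf σ := Nat.pow_le_pow_right (by norm_num) hn0
  have h6 : 2 ^ f - 1 ≤ 2 ^ orderOf σ - 1 := Nat.le_of_dvd (by omega) h4
  have h7 : 1 ≤ 2 ^ f := Nat.one_le_two_pow
  have h8 : 2 ^ f ≤ 2 ^ orderOf σ := by omega
  have h9 : f ≤ orderOf σ := (Nat.pow_le_pow_iff_right (by norm_num)).1 h8
  exact Nat.le_antisymm (Nat.le_of_dvd (by omega) hdiv) h9

theorem tv_single_inj (a b : F)
    (h : spTv 2 (Pi.single (Sum.inl 0) 1 : Fin 2 ⊕ Fin 2 → F) a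
      = spTv 2 (Pi.single (Sum.inl 0) 1 : Fin 2 ⊕ Fin 2 → F) b) : a = b := by
  have e := congrArg (fun s : Matrix.symplecticGroup (Fin 2) F =>
    (s : Matrix (Fin 2 ⊕ Fin 2) (Fin 2 ⊕ Fin 2) F) (Sum.inl 0) (Sum.inr 0)) h
  simp only [tv_single_apply] at e
  simpa [Matrix.one_apply, Matrix.J, Matrix.fromBlocks] using e

theorem gphAutP_sq_mem : gphAutP (F := F) ^ 2 ∈ semiS 2 F := by
  rw [semiS_iff]
  intro z hz
  rw [map_pow, pow_two, MulAut.mul_apply, liftAut2_gphAutP]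
  exact gphAut_swap.2 _ (gphAut_swap.1 z hz)

/-- the square of the exceptional automorphism is semilinear with respect to the squaring map -/
theorem gphAutP_sq :
    ∃ (g : ↥(Cfsg.GSp 2 F)) (σ : RingAut F), gphAutP (F := F) ^ 2 = sD g * sF σ ∧
      ∀ c : F, σ c = c ^ 2 := by
  obtain ⟨g, σ, hgσ⟩ := gphAutP_sq_mem (F := F)
  refine ⟨g, σ, hgσ, ?_⟩
  obtain ⟨ν, hν0, hν⟩ := GSp_mult g
  have key : ∀ c : F, spTv 2 (Pi.single (Sum.inl 0) 1 : Fin 2 ⊕ Fin 2 → F) (c ^ 2)
      = spTv 2 (semiV (g : GL (Fin 2 ⊕ Fin 2) F) σ (Pi.single (Sum.inl 0) 1)) (ν⁻¹ * σ c) := by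
    intro c
    rw [← semi_tv g ν hν0 hν, ← liftAut2_semi, ← hgσ, map_pow, liftAut2_gphAutP,
      pow_two (gphAut (F := F)), MulAut.mul_apply, gphAut_apply, gphAut_apply, gphHom_sq_tv]
  have h1 := key 1
  rw [one_pow, map_one, mul_one] at h1
  obtain ⟨l, hl0, hl⟩ := spTv_eq_point _ _ 1 ν⁻¹ single_ne_zero2 one_ne_zero h1
  have hw : semiV (g : GL (Fin 2 ⊕ Fin 2) F) σ (Pi.single (Sum.inl 0) 1)
      = l⁻¹ • (Pi.single (Sum.inl 0) 1 : Fin 2 ⊕ Fin 2 → F) := by
    conv_rhs => rw [hl]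
    rw [smul_smul, inv_mul_cancel₀ hl0, one_smul]
  have key2 : ∀ c : F, c ^ 2 = l⁻¹ * l⁻¹ * (ν⁻¹ * σ c) := by
    intro c
    have h2 := key c
    rw [hw, Cfsg.Agent.Helper5.spTv_smul] at h2
    exact tv_single_inj _ _ h2
  have k1 := key2 1
  rw [one_pow, map_one, mul_one] at k1
  intro c
  have h3 := key2 c
  rw [← mul_assoc, ← k1, one_mul] at h3
  exact h3.symm

theorem inn_le_semiS : Cfsg.Inn (Cfsg.PSp 2 F) ≤ semiS 2 F := by
  rintro _ ⟨x, rfl⟩
  obtain ⟨s, rfl⟩ := prS_surjective x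
  exact ⟨spGSp s, 1, by rw [map_one, mul_one]; exact conj_prS s⟩

/-- **`Out(PSp_4(2^f))` is cyclic of order `2f`** -/
theorem out_psp4_even (f : ℕ) (hf : 1 ≤ f) (hF : Fintype.card F = 2 ^ f) :
    IsCyclic (Cfsg.Out (Cfsg.PSp 2 F)) ∧ Nat.card (Cfsg.Out (Cfsg.PSp 2 F)) = 2 * f := by
  have hm1 : 1 ≤ 2 := by norm_num
  -- the order
  have hcardOut : Nat.card (Cfsg.Out (Cfsg.PSp 2 F)) = 2 * f := by
    have h1 := card_aut_psp (F := F) (m := 2) 2 f hF (le_refl 2)
    rw [if_pos ⟨rfl, rfl⟩] at h1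
    have hg : Nat.gcd 2 (2 ^ f - 1) = 1 := by
      have hodd : ¬ 2 ∣ 2 ^ f - 1 := by
        have h2 : 2 ∣ 2 ^ f := dvd_pow_self 2 (by omega)
        have h3 : 1 ≤ 2 ^ f := Nat.one_le_two_pow
        omega
      exact (Nat.Prime.coprime_iff_not_dvd Nat.prime_two).2 hodd
    rw [hg] at h1
    have h2 := Subgroup.card_mul_index (Cfsg.Inn (Cfsg.PSp 2 F))
    have hinj : Function.Injective (MulAut.conj : Cfsg.PSp 2 F →* MulAut (Cfsg.PSp 2 F)) := by
      rw [injective_iff_map_eq_one]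
      intro k hk
      exact conj_prS_eq_one 2 hm1 k hk
    have h3 : Nat.card ↥(Cfsg.Inn (Cfsg.PSp 2 F)) = Nat.card (Cfsg.PSp 2 F) :=
      (Nat.card_congr (MonoidHom.ofInjective hinj).toEquiv).symm
    rw [h3, h1] at h2
    have hpos : 0 < Nat.card (Cfsg.PSp 2 F) := Nat.card_pos
    have h4 : (Cfsg.Inn (Cfsg.PSp 2 F)).index = 2 * f := by
      apply Nat.eq_of_mul_eq_mul_left hpos
      rw [h2]
      ring
    exact h4
  refine ⟨?_, hcardOut⟩
  -- the class of the exceptional automorphism has order `2f`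
  obtain ⟨g, σ, hgσ, hσ⟩ := gphAutP_sq (F := F)
  have hordσ := orderOf_sq_aut f hf hF σ hσ
  have hkey : ∀ k : ℕ, gphAutP (F := F) ^ k ∈ Cfsg.Inn (Cfsg.PSp 2 F) → 2 * f ∣ k := by
    intro k hk
    have hk' := inn_le_semiS hk
    rcases Nat.even_or_odd' k with ⟨j, rfl | rfl⟩
    · apply Nat.mul_dvd_mul_left
      rw [← hordσ]
      apply orderOf_dvd_of_pow_eq_one
      rw [pow_mul] at hk
      obtain ⟨x, hx⟩ := hk
      obtain ⟨s, rfl⟩ := prS_surjective x
      rw [conj_prS] at hx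
      have e1 : (gphAutP (F := F) ^ 2) ^ j = sD (spGSp s) * sF 1 := by
        rw [← hx, map_one, mul_one]
      obtain ⟨gj, -, hgj⟩ := slang_semi_pow g σ j
      rw [hgσ, hgj] at e1
      exact sdecomp_unique 2 hm1 _ _ _ _ e1
    · exfalso
      apply gphAutP_not_mem (F := F)
      rw [pow_succ, pow_mul] at hk'
      exact (Subgroup.mul_mem_cancel_left _
        (Subgroup.pow_mem _ gphAutP_sq_mem j)).1 hk'
  have hord : orderOf (QuotientGroup.mk (gphAutP (F := F)) : Cfsg.Out (Cfsg.PSp 2 F))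
      = 2 * f := by
    apply Nat.dvd_antisymm
    · rw [← hcardOut]
      exact orderOf_dvd_natCard _
    · apply hkey
      have h1 := pow_orderOf_eq_one
        (QuotientGroup.mk (gphAutP (F := F)) : Cfsg.Out (Cfsg.PSp 2 F))
      rw [← QuotientGroup.mk_pow, QuotientGroup.eq_one_iff] at h1
      exact h1
  exact isCyclic_of_orderOf_eq_card _ (hord.trans hcardOut.symm)

end out4

end Cfsg.Agent.Helper44.PSpn
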