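import Mathlib
import Cfsg.Agent.Helper45.StDefs

/-!
Piece SUP5 of CALL S2547 (helper44): a subgroup of the isometry group containing all Eichler
transformations at two non-orthogonal singular vectors contains `Ω`.
-/

set_option autoImplicit false

universe u

namespace Cfsg.Agent.Helper44.StSUP5

open Cfsg Cfsg.Agent.Helper13 Cfsg.Agent.Helper95.SpBN Cfsg.Agent.Helper45 Cfsg.Agent.Helper45.St

variable {ι : Type} [Fintype ι] [DecidableEq ι] {F : Type u} [Field F]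
  {Q : QuadraticForm F (ι → F)}

/-- scaling step -/
theorem sup5_smul (K : Subgroup ↥(isometryGroup F ⇑Q)) (w : ι → F) (hw : Q w = 0)
    (hP : ∀ (b : ι → F) (hb : QuadraticMap.polar ⇑Q w b = 0), eichO Q w b hw hb ∈ K)
    (t : F) (ht : t ≠ 0) (hw' : Q (t • w) = 0)
    (b : ι → F) (hb : QuadraticMap.polar ⇑Q (t • w) b = 0) : eichO Q (t • w) b hw' hb ∈ K := by
  have hkt : mv ⇑Q (1 : ↥(isometryGroup F ⇑Q)) w = t⁻¹ • (t • w) := by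
    rw [mv_one, smul_smul, inv_mul_cancel₀ ht, one_smul]
  obtain ⟨b₀, hub₀, h⟩ := eichO_conj_eq Q 1 w (t • w) b t⁻¹ (inv_ne_zero ht) hkt hw hw' hb
  rw [h]
  exact K.mul_mem (K.mul_mem K.one_mem (hP b₀ hub₀)) (K.inv_mem K.one_mem)

/-- moving step -/
theorem sup5_move (K : Subgroup ↥(isometryGroup F ⇑Q)) (w w₁ : ι → F) (hw : Q w = 0)
    (hw₁ : Q w₁ = 0)
    (hP : ∀ (b : ι → F) (hb : QuadraticMap.polar ⇑Q w b = 0), eichO Q w b hw hb ∈ K)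
    (hP₁ : ∀ (b : ι → F) (hb : QuadraticMap.polar ⇑Q w₁ b = 0), eichO Q w₁ b hw₁ hb ∈ K)
    (h1 : QuadraticMap.polar ⇑Q w w₁ ≠ 0)
    (w₂ : ι → F) (hw₂ : Q w₂ = 0) (h2 : QuadraticMap.polar ⇑Q w w₂ ≠ 0)
    (b : ι → F) (hb : QuadraticMap.polar ⇑Q w₂ b = 0) : eichO Q w₂ b hw₂ hb ∈ K := by
  obtain ⟨β, hβ⟩ : ∃ β : F, β = QuadraticMap.polar ⇑Q w w₁ := ⟨_, rfl⟩
  obtain ⟨β₂, hβ₂⟩ : ∃ β₂ : F, β₂ = QuadraticMap.polar ⇑Q w w₂ := ⟨_, rfl⟩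
  have hβ0 : β ≠ 0 := by rw [hβ]; exact h1
  have hβ₂0 : β₂ ≠ 0 := by rw [hβ₂]; exact h2
  -- the rescaled vector
  obtain ⟨w₃, hw₃⟩ : ∃ w₃ : ι → F, w₃ = (β * β₂⁻¹) • w₂ := ⟨_, rfl⟩
  have hQ₃ : Q w₃ = 0 := by rw [hw₃, QuadraticMap.map_smul, hw₂, smul_zero]
  have h3 : QuadraticMap.polar ⇑Q w w₃ = β := by
    rw [hw₃, QuadraticMap.polar_smul_right, ← hβ₂, smul_eq_mul, mul_assoc, inv_mul_cancel₀ hβ₂0,
      mul_one]
  have hP₃ : ∀ (b : ι → F) (hb : QuadraticMap.polar ⇑Q w₃ b = 0), eichO Q w₃ b hQ₃ hb ∈ K := by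
    intro b hb
    obtain ⟨hperp, hmove⟩ := eich_move Q w w₁ w₃ hw₁ hQ₃ β hβ0 hβ.symm h3
    have hk : eichO Q w (β⁻¹ • (w₁ - w₃)) hw hperp ∈ K := hP _ hperp
    have hkt : mv ⇑Q (eichO Q w (β⁻¹ • (w₁ - w₃)) hw hperp) w₁ = (1 : F) • w₃ := by
      rw [mv_eichO, hmove, one_smul]
    obtain ⟨b₀, hub₀, h⟩ := eichO_conj_eq Q _ w₁ w₃ b 1 one_ne_zero hkt hw₁ hQ₃ hb
    rw [h]
    exact K.mul_mem (K.mul_mem hk (hP₁ b₀ hub₀)) (K.inv_mem hk)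
  have hw₂' : w₂ = (β₂ * β⁻¹) • w₃ := by
    rw [hw₃, smul_smul]
    have : β₂ * β⁻¹ * (β * β₂⁻¹) = 1 := by
      field_simp
    rw [this, one_smul]
  subst hw₂'
  exact sup5_smul K w₃ hQ₃ hP₃ (β₂ * β⁻¹) (mul_ne_zero hβ₂0 (inv_ne_zero hβ0)) hw₂ b hb

theorem p_SUP5 [Fintype F] (hQ : (QuadraticMap.polarBilin Q).Nondegenerate)
    (hn : 5 ≤ Fintype.card ι) (K : Subgroup ↥(isometryGroup F ⇑Q)) (u₀ u₁ : ι → F)
    (hu₀ : Q u₀ = 0) (hu₁ : Q u₁ = 0) (h01 : QuadraticMap.polar ⇑Q u₀ u₁ = 1)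
    (h0 : ∀ (b : ι → F) (hb : QuadraticMap.polar ⇑Q u₀ b = 0), eichO Q u₀ b hu₀ hb ∈ K)
    (h1 : ∀ (b : ι → F) (hb : QuadraticMap.polar ⇑Q u₁ b = 0), eichO Q u₁ b hu₁ hb ∈ K) :
    Omega F ⇑Q ≤ K := by
  rw [omega_eq_eichGroup Q hQ hn]
  unfold eichGroup
  rw [Subgroup.closure_le]
  rintro _ ⟨u, b, hu, hub, rfl⟩
  show eichO Q u b hu hub ∈ K
  have h01' : QuadraticMap.polar ⇑Q u₀ u₁ ≠ 0 := by rw [h01]; exact one_ne_zero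
  have hu₀0 : u₀ ≠ 0 := by
    rintro rfl
    apply h01'
    simp [QuadraticMap.polar]
  by_cases hu0 : u = 0
  · subst hu0
    have : eichO Q 0 b hu hub = 1 := by
      apply ext_mv
      intro x
      rw [mv_eichO, mv_one, Helper44.eich]
      simp [QuadraticMap.polar]
    rw [this]
    exact K.one_mem
  · obtain ⟨s, hs, hs0, hsu⟩ := exists_sing_nonperp2 Q hQ hn u₀ u hu₀ hu₀0 hu hu0
    have hPs : ∀ (b : ι → F) (hb : QuadraticMap.polar ⇑Q s b = 0), eichO Q s b hs hb ∈ K :=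
      fun b hb => sup5_move K u₀ u₁ hu₀ hu₁ h0 h1 h01' s hs
        (by rw [QuadraticMap.polar_comm]; exact hs0) b hb
    exact sup5_move K s u₀ hs hu₀ hPs h0 hs0 u hu hsu b hub

end Cfsg.Agent.Helper44.StSUP5
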