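import Mathlib
import Cfsg.Agent.Helper45.StDefs

/-!
Piece TORD of CALL S2547 (helper44): in characteristic two, an involution of `Ω` fixing the
hyperbolic frame of a form of dimension `2m + 2` is trivial (Dickson invariant).
-/

set_option autoImplicit false

universe u

namespace Cfsg.Agent.Helper44.StTORD

open Cfsg Cfsg.Agent.Helper13 Cfsg.Agent.Helper95.SpBN Cfsg.Agent.Helper45 Cfsg.Agent.Helper45.St

variable {ι : Type} [Fintype ι] [DecidableEq ι] {F : Type u} [Field F]
  {Q : QuadraticForm F (ι → F)} {m : ℕ} {L R : Fin m → ι}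

theorem p_TORD [CharP F 2] (hQ : (QuadraticMap.polarBilin Q).Nondegenerate)
    (hR : reflGroup Q = ⊤) (H : HypPairs Q m L R) (hcard : Fintype.card ι = 2 * m + 2)
    (g : ↥(isometryGroup F ⇑Q)) (hg : g ∈ Omega F ⇑Q)
    (hfix : ∀ a, mv ⇑Q g (ev L R F a) = ev L R F a) (hgg : g * g = 1) : g = 1 := by
  have hd : dick Q g = 0 := dick_eq_zero_of_mem_omega Q hQ hR g hg
  rw [dick_eq_zero_iff_even_rank] at hd
  have hrk := finrank_fixSub_add_rank Q g
  -- the frame span
  have hli : LinearIndependent F (ev L R F : Fin m ⊕ Fin m → ι → F) := by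
    have h := (Pi.basisFun F ι).linearIndependent.comp (idx L R) (idx_injective H)
    convert h using 1
    ext a c
    simp [ev, Pi.basisFun_apply]
  have hspan_le : Submodule.span F (Set.range (ev L R F : Fin m ⊕ Fin m → ι → F)) ≤ fixSub Q g := by
    rw [Submodule.span_le]
    rintro _ ⟨a, rfl⟩
    exact (mem_fixSub Q g _).mpr (hfix a)
  have hfr : Module.finrank F (Submodule.span F (Set.range (ev L R F : Fin m ⊕ Fin m → ι → F)))
      = 2 * m := by
    rw [finrank_span_eq_card hli]
    simp [two_mul]
  have hge : 2 * m ≤ Module.finrank F (fixSub Q g) := by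
    rw [← hfr]
    exact Submodule.finrank_mono hspan_le
  -- `g` preserves the frame coordinates
  have hcoord : ∀ (x : ι → F) (c : Fin m ⊕ Fin m), (mv ⇑Q g x) (idx L R c) = x (idx L R c) := by
    intro x c
    have h1 := polar_ev H (tauP m c) (mv ⇑Q g x)
    rw [tauP_tauP] at h1
    have h2 := polar_ev H (tauP m c) x
    rw [tauP_tauP] at h2
    rw [← h1, ← h2]
    conv_lhs => rw [← hfix (tauP m c)]
    rw [mv_polar]
  have hy : ∀ x : ι → F, mv ⇑Q g x - x ∈ fixSub Q g := by
    intro x
    rw [mem_fixSub, mv_sub, ← mv_mul, hgg, mv_one]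
    funext c
    rw [Pi.sub_apply, Pi.sub_apply, ← neg_sub, CharTwo.neg_eq]
  rcases Nat.lt_or_ge (Module.finrank F (fixSub Q g)) (2 * m + 1) with hlt | hge'
  · have heq : Submodule.span F (Set.range (ev L R F : Fin m ⊕ Fin m → ι → F)) = fixSub Q g :=
      Submodule.eq_of_le_of_finrank_le hspan_le (by rw [hfr]; omega)
    apply ext_mv
    intro x
    rw [mv_one]
    have hmem := hy x
    rw [← heq] at hmem
    obtain ⟨cf, hcf⟩ := (Submodule.mem_span_range_iff_exists_fun F).mp hmem
    have hc0 : ∀ b, cf b = 0 := by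
      intro b
      have h1 := congrFun hcf (idx L R b)
      rw [Pi.sub_apply, hcoord, sub_self, Finset.sum_apply] at h1
      simp only [Pi.smul_apply, ev_apply, smul_eq_mul, mul_ite, mul_one, mul_zero] at h1
      rw [Finset.sum_eq_single b] at h1
      · simpa using h1
      · intro a _ hab
        rw [if_neg (fun h => hab (idx_injective H h).symm)]
      · intro h
        exact absurd (Finset.mem_univ b) h
    rw [← sub_eq_zero, ← hcf]
    simp [hc0]
  · have hr0 : (((g : GL ι F) : Matrix ι ι F) - 1).rank = 0 := by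
      obtain ⟨k, hk⟩ := hd
      omega
    have htop : fixSub Q g = ⊤ := by
      apply Submodule.eq_top_of_finrank_eq
      rw [Module.finrank_fintype_fun_eq_card]
      omega
    apply ext_mv
    intro x
    rw [mv_one]
    exact (mem_fixSub Q g x).mp (by rw [htop]; trivial)

end Cfsg.Agent.Helper44.StTORD
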