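import Mathlib
import Cfsg.Prelude.Def_GeometricClasses
import Cfsg.Agent.Helper45.Spinor
import Cfsg.Agent.Helper98.OPar

/-!
# S5704, piece OSQ: in odd characteristic the square of an isometry lies in `Ω`
-/

set_option autoImplicit false

namespace Cfsg.Agent.Helper44.T5OSQ

open Matrix Cfsg Cfsg.Geo

/-- PIECE OSQ: odd characteristic: the square of an isometry lies in `Ω`. -/
theorem osq {ι : Type} [Fintype ι] [DecidableEq ι] {F : Type*} [Field F] [Fintype F]
    (h2 : (2 : F) ≠ 0) (Q : (ι → F) → F) (hQ : IsNondegenerateQuadraticForm Q)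
    (hc : 2 ≤ Fintype.card ι) (g : GL ι F) (hg : g ∈ isometryGroup F Q) :
    g * g ∈ omegaGL Q := by
  have hchar : ringChar F ≠ 2 := Helper45.ringChar_ne_two h2
  obtain ⟨ε, hε⟩ := FiniteField.exists_nonsquare hchar
  obtain ⟨g', hg'⟩ : ∃ g' : ↥(isometryGroup F ⇑(Helper98.op_qf Q hQ)), (g' : GL ι F) = g :=
    ⟨⟨g, hg⟩, rfl⟩
  have hmem : g' * g' ∈ Omega F ⇑(Helper98.op_qf Q hQ) := by
    rw [Helper45.mem_omega_iff (Helper98.op_qf Q hQ) h2 (Helper98.op_qf_nondeg Q hQ) hc ε hε]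
    constructor
    · rw [map_mul]
      exact Int.units_mul_self _
    · rw [map_mul]
      exact Int.units_mul_self _
  refine ⟨g' * g', hmem, ?_⟩
  rw [← hg']
  rfl

end Cfsg.Agent.Helper44.T5OSQ
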