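import Mathlib
import Cfsg.Prelude.Def_GeometricClasses
import Cfsg.Agent.Helper71.T4Defs
import Cfsg.Agent.Helper96.T5Defs
import Cfsg.Agent.Helper45.Eich
import Cfsg.Agent.Helper98.OPar
import Cfsg.Agent.Helper34.T5T2D

/-!
# S5704, piece T2E: a subgroup containing the Siegel elements `sg u x s w` contains `Ω`
-/

set_option autoImplicit false
set_option linter.unusedVariables false

namespace Cfsg.Agent.Helper44.T5T2E

open Matrix Cfsg Cfsg.Geo Cfsg.Agent.Helper71.T4 Cfsg.Agent.Helper96.T5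
open scoped Kronecker

variable {F : Type*} [Field F] {a b : ℕ}

/-- a Kronecker product of rank one operators is a rank one operator -/
theorem rk_kron (J₁ : Matrix (Fin a) (Fin a) F) (J₂ : Matrix (Fin b) (Fin b) F)
    (u s : Fin a → F) (x w : Fin b → F) :
    rk J₁ u s ⊗ₖ rk J₂ x w = rk (J₁ ⊗ₖ J₂) (pt u x) (pt s w) := by
  ext ⟨i, k⟩ ⟨j, l⟩
  rw [rk, rk, rk, kron_mulVec_pt]
  simp only [Matrix.kroneckerMap_apply, Matrix.vecMulVec_apply, pt]
  ring

/-- the action of a Siegel element on an arbitrary vector -/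
theorem sg_mulVec (J₁ : Matrix (Fin a) (Fin a) F) (J₂ : Matrix (Fin b) (Fin b) F)
    (u s : Fin a → F) (x w : Fin b → F) (v : Fin a × Fin b → F) :
    sg J₁ J₂ u x s w *ᵥ v = v + bf (J₁ ⊗ₖ J₂) v (pt s w) • pt u x
      - bf (J₁ ⊗ₖ J₂) v (pt u x) • pt s w := by
  rw [sg, Matrix.sub_mulVec, Matrix.add_mulVec, Matrix.one_mulVec, rk_kron, rk_kron, rk_mulVec,
    rk_mulVec]

variable {J₁ : Matrix (Fin a) (Fin a) F} {J₂ : Matrix (Fin b) (Fin b) F}
  {Q : (Fin a × Fin b → F) → F}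

/-- the Eichler transformation with two pure tensors is a Siegel element -/
theorem eichMat_eq_sg (hT : TQ J₁ J₂ Q) (u s : Fin a → F) (x w : Fin b → F) :
    Helper45.eichMat (Helper98.op_qf Q hT.nq) (pt u x) (pt s w) = sg J₁ J₂ u x s w := by
  apply Helper13.mulVec_ext
  intro v
  rw [Helper45.eichMat_mulVec, Helper44.eich, sg_mulVec]
  have h1 : QuadraticMap.polar ⇑(Helper98.op_qf Q hT.nq) (pt s w) v
      = bf (J₁ ⊗ₖ J₂) v (pt s w) := by
    rw [QuadraticMap.polar_comm]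
    exact hT.polar v (pt s w)
  have h2 : QuadraticMap.polar ⇑(Helper98.op_qf Q hT.nq) (pt u x) v
      = bf (J₁ ⊗ₖ J₂) v (pt u x) := by
    rw [QuadraticMap.polar_comm]
    exact hT.polar v (pt u x)
  have h3 : (Helper98.op_qf Q hT.nq) (pt s w) = 0 := hT.pure s w
  rw [h1, h2, h3, zero_mul, sub_zero]

/-- PIECE T2E -/
theorem t2e [Fintype F] (hT : TQ J₁ J₂ Q) (ha : 2 ≤ a) (hb : 3 ≤ b)
    (M : Subgroup (GL (Fin a × Fin b) F))
    (hB : ∀ (u s : Fin a → F) (x w : Fin b → F), bf J₂ x w = 0 → InM M (sg J₁ J₂ u x s w))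
    (hC : ∀ (u s : Fin a → F) (x w : Fin b → F), bf J₁ u s = 0 → InM M (sg J₁ J₂ u x s w)) :
    omegaGL Q ≤ M := by
  classical
  have hnd : (QuadraticMap.polarBilin (Helper98.op_qf Q hT.nq)).Nondegenerate :=
    Helper98.op_qf_nondeg Q hT.nq
  have hn : 5 ≤ Fintype.card (Fin a × Fin b) := by
    rw [Fintype.card_prod, Fintype.card_fin, Fintype.card_fin]
    nlinarith
  obtain ⟨M', hM'⟩ : ∃ M' : Subgroup ↥(isometryGroup F ⇑(Helper98.op_qf Q hT.nq)),
      M' = M.comap (isometryGroup F ⇑(Helper98.op_qf Q hT.nq)).subtype := ⟨_, rfl⟩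
  -- every pure tensor is an Eichler centre
  have key : ∀ (u : Fin a → F) (x : Fin b → F), u ≠ 0 → x ≠ 0 →
      pt u x ∈ Helper98.op_C (Helper98.op_qf Q hT.nq) M' := by
    intro u x hu hx
    have hv : (Helper98.op_qf Q hT.nq) (pt u x) = 0 := hT.pure u x
    refine ⟨hv, ?_⟩
    have hP := Cfsg.Agent.Helper34.T5T2D.t2d hT u x hu hx
      (fun r => ∃ h : QuadraticMap.polar ⇑(Helper98.op_qf Q hT.nq) (pt u x) r = 0,
        Helper45.eichO (Helper98.op_qf Q hT.nq) (pt u x) r hv h ∈ M') ?_ ?_ ?_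
    · intro r hr
      obtain ⟨h, hmem⟩ := hP r (by rw [← hT.polar]; exact hr)
      exact hmem
    · -- zero
      refine ⟨by rw [QuadraticMap.polar_zero_right], ?_⟩
      have : Helper45.eichO (Helper98.op_qf Q hT.nq) (pt u x) 0 hv
          (by rw [QuadraticMap.polar_zero_right]) = 1 := by
        apply Helper45.ext_mv
        intro y
        rw [Helper45.mv_eichO, Helper45.eich_zero, Helper45.mv_one]
      rw [this]
      exact M'.one_mem
    · -- sums
      rintro r r' ⟨h, hmem⟩ ⟨h', hmem'⟩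
      have hadd : QuadraticMap.polar ⇑(Helper98.op_qf Q hT.nq) (pt u x) (r + r') = 0 := by
        rw [QuadraticMap.polar_add_right, h, h', add_zero]
      refine ⟨hadd, ?_⟩
      rw [← Helper45.eichO_mul (Helper98.op_qf Q hT.nq) (pt u x) r r' hv h h' hadd]
      exact M'.mul_mem hmem hmem'
    · -- pure tensors
      intro s w hsw
      have hpol : QuadraticMap.polar ⇑(Helper98.op_qf Q hT.nq) (pt u x) (pt s w) = 0 := by
        have := hT.polar (pt u x) (pt s w)
        rw [bf_kron_pt] at this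
        rcases hsw with h | h
        · rw [h, zero_mul] at this
          exact this
        · rw [h, mul_zero] at this
          exact this
      refine ⟨hpol, ?_⟩
      have hin : InM M (sg J₁ J₂ u x s w) := by
        rcases hsw with h | h
        · exact hC u s x w h
        · exact hB u s x w h
      obtain ⟨g, hg, hgm⟩ := hin
      rw [hM']
      show ((Helper45.eichO (Helper98.op_qf Q hT.nq) (pt u x) (pt s w) hv hpol :
        ↥(isometryGroup F ⇑(Helper98.op_qf Q hT.nq))) : GL (Fin a × Fin b) F) ∈ M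
      have heq : ((Helper45.eichO (Helper98.op_qf Q hT.nq) (pt u x) (pt s w) hv hpol :
          ↥(isometryGroup F ⇑(Helper98.op_qf Q hT.nq))) : GL (Fin a × Fin b) F) = g := by
        apply Units.ext
        rw [hgm]
        exact eichMat_eq_sg hT u s x w
      rw [heq]
      exact hg
  -- two non-orthogonal centres
  obtain ⟨u₀, hu₀⟩ : ∃ u₀ : Fin a → F, u₀ ≠ 0 := by
    refine ⟨Pi.single ⟨0, by omega⟩ 1, ?_⟩
    intro h
    have := congrFun h ⟨0, by omega⟩
    simp at this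
  obtain ⟨x₀, hx₀⟩ : ∃ x₀ : Fin b → F, x₀ ≠ 0 := by
    refine ⟨Pi.single ⟨0, by omega⟩ 1, ?_⟩
    intro h
    have := congrFun h ⟨0, by omega⟩
    simp at this
  obtain ⟨ut, hut⟩ := exists_bf_eq_one J₁ hT.det₁ u₀ hu₀
  obtain ⟨xt, hxt⟩ := exists_bf_eq_one J₂ hT.det₂ x₀ hx₀
  have hut0 : ut ≠ 0 := by
    rintro rfl
    rw [bf_zero_right] at hut
    exact zero_ne_one hut
  have hxt0 : xt ≠ 0 := by
    rintro rfl
    rw [bf_zero_right] at hxt
    exact zero_ne_one hxt
  have hux : QuadraticMap.polar ⇑(Helper98.op_qf Q hT.nq) (pt u₀ x₀) (pt ut xt) ≠ 0 := by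
    have := hT.polar (pt u₀ x₀) (pt ut xt)
    rw [bf_kron_pt, hut, hxt, mul_one] at this
    intro h
    exact zero_ne_one (h.symm.trans this)
  have hle := Helper98.op_omega_le (Helper98.op_qf Q hT.nq) hnd hn M' (pt u₀ x₀) (pt ut xt)
    (key u₀ x₀ hu₀ hx₀) (key ut xt hut0 hxt0) hux
  intro g hg
  obtain ⟨y, hy, rfl⟩ := hg
  have := hle hy
  rw [hM'] at this
  exact this

end Cfsg.Agent.Helper44.T5T2E
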