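import Mathlib
import Cfsg.Agent.Helper97.TMDefs

set_option autoImplicit false

/-!
Piece EINV of CALL S2415 (helper97): the inverse of an Eichler transformation.
-/

universe u

namespace Cfsg.Agent.Helper44

open Cfsg Matrix Cfsg.Agent.Helper45 Cfsg.Agent.Helper98 Cfsg.Agent.Helper97.TM

variable {ι : Type} [Fintype ι] [DecidableEq ι] {F : Type u} [Field F]
  (Q : QuadraticForm F (ι → F))

/-- EINV -/
theorem tm_eichO_inv (u b : ι → F) (hu : Q u = 0) (hub : QuadraticMap.polar ⇑Q u b = 0)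
    (hub' : QuadraticMap.polar ⇑Q u (-b) = 0) :
    (eichO Q u b hu hub)⁻¹ = eichO Q u (-b) hu hub' := by
  apply inv_eq_of_mul_eq_one_right
  have h0 : QuadraticMap.polar ⇑Q u (b + -b) = 0 := by
    rw [add_neg_cancel]
    exact QuadraticMap.polar_zero_right _ _
  rw [eichO_mul Q u b (-b) hu hub hub' h0]
  have h0' : QuadraticMap.polar ⇑Q u 0 = 0 := QuadraticMap.polar_zero_right _ _
  rw [eichO_congr Q hu h0 h0' (add_neg_cancel b), eichO_zero Q u hu h0']

end Cfsg.Agent.Helper44
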