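import Mathlib
import Cfsg.Agent.Helper97.TMDefs

set_option autoImplicit false

/-!
Piece KSE of CALL S2415 (helper97): the basis vector `e_{i0}` of the minus-type form is a full
Eichler centre of `M` as soon as all other basis vectors orthogonal to it lie in `tD M e_{i0}`.
-/

universe u

namespace Cfsg.Agent.Helper44

open Cfsg Matrix Cfsg.Agent.Helper45 Cfsg.Agent.Helper98 Cfsg.Agent.Helper97.TM

variable {k : ℕ} {F : Type u} [Field F] {a b : F}

/-- KSE -/
theorem tm_centre_e [Fintype F] (M : Subgroup ↥(isometryGroup F ⇑(QM k F a b))) (i0 : Fin k)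
    (hE : ∀ j, j ≠ i0 → eM k F j ∈ tD (QM k F a b) M (eM k F i0) (QM_eM i0))
    (hF : ∀ j, j ≠ i0 → fM k F j ∈ tD (QM k F a b) M (eM k F i0) (QM_eM i0))
    (hZ : ∀ l : Fin 2, zM k F l ∈ tD (QM k F a b) M (eM k F i0) (QM_eM i0)) :
    eM k F i0 ∈ op_C (QM k F a b) M := by
  classical
  refine ⟨QM_eM i0, fun x hx => ?_⟩
  have hxb : x (Sum.inl (Sum.inr i0)) = 0 := by rwa [polar_eM_left] at hx
  have hself : eM k F i0 ∈ tD (QM k F a b) M (eM k F i0) (QM_eM i0) := by
    have h0 : QuadraticMap.polar ⇑(QM k F a b) (eM k F i0) (eM k F i0) = 0 := by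
      rw [polar_eM_left]
      simp
    refine ⟨h0, fun c => ?_⟩
    have e : eichO (QM k F a b) (eM k F i0) (c • eM k F i0) (QM_eM i0)
        (by rw [QuadraticMap.polar_smul_right, h0, smul_zero]) = 1 := by
      apply ext_mv
      intro y
      rw [mv_eichO, mv_one]
      unfold Helper44.eich
      rw [QM_smul_eM, QuadraticMap.polar_smul_left, polar_eM_left]
      simp only [smul_eq_mul, zero_mul, sub_zero, smul_smul]
      rw [mul_comm, add_sub_cancel_right]
    rw [e]
    exact M.one_mem
  have hx_eq : x = ∑ j : Fin k, (x (Sum.inl (Sum.inl j)) • eM k F j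
      + x (Sum.inl (Sum.inr j)) • fM k F j) + ∑ l : Fin 2, x (Sum.inr l) • zM k F l := by
    funext idx
    rcases idx with (j | j) | l
    · simp [Finset.sum_apply]
    · simp [Finset.sum_apply]
    · simp only [Pi.add_apply, Finset.sum_apply, Pi.smul_apply, eM_zz, fM_zz, smul_eq_mul,
        mul_zero, add_zero, Finset.sum_const_zero, zero_add, zM_zz, Fin.sum_univ_two]
      fin_cases l <;> simp
  have hxT : x ∈ tD (QM k F a b) M (eM k F i0) (QM_eM i0) := by
    rw [hx_eq]
    apply Submodule.add_mem
    · apply Submodule.sum_mem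
      intro j _
      apply Submodule.add_mem
      · apply Submodule.smul_mem
        by_cases hj : j = i0
        · subst hj
          exact hself
        · exact hE j hj
      · by_cases hj : j = i0
        · subst hj
          rw [hxb, zero_smul]
          exact Submodule.zero_mem _
        · exact Submodule.smul_mem _ _ (hF j hj)
    · apply Submodule.sum_mem
      intro l _
      exact Submodule.smul_mem _ _ (hZ l)
  obtain ⟨h, hM⟩ := hxT
  have h1 := hM 1
  rw [eichO_congr (QM k F a b) (QM_eM i0) _ hx (one_smul F x)] at h1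
  exact h1

end Cfsg.Agent.Helper44
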