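import Mathlib
import Cfsg.Agent.Helper97.TMDefs

set_option autoImplicit false

/-!
Piece TDC of CALL S2415 (helper97): a singular vector `u` whose Eichler parameter space
`tD` is all of `u^⊥` is a full Eichler centre.
-/

universe u

namespace Cfsg.Agent.Helper44

open Cfsg Matrix Cfsg.Agent.Helper45 Cfsg.Agent.Helper98 Cfsg.Agent.Helper97.TM

variable {ι : Type} [Fintype ι] [DecidableEq ι] {F : Type u} [Field F]
  (Q : QuadraticForm F (ι → F))

/-- TDC -/
theorem tm_op_C_of_tD [Fintype F] (M : Subgroup ↥(isometryGroup F ⇑Q)) (u : ι → F) (hu : Q u = 0)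
    (h : ∀ y, QuadraticMap.polar ⇑Q u y = 0 → y ∈ tD Q M u hu) : u ∈ op_C Q M := by
  refine ⟨hu, fun x hx => ?_⟩
  obtain ⟨_, hM⟩ := h x hx
  have h1 := hM 1
  rw [eichO_congr Q hu _ hx (one_smul F x)] at h1
  exact h1

end Cfsg.Agent.Helper44
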