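import Mathlib
import Cfsg.Agent.Helper44.UCDefs
import Cfsg.Agent.Helper46.UCH0M
import Cfsg.Agent.Helper46.UCH0S
import Cfsg.Agent.Helper46.UCH0U

set_option autoImplicit false

/-!
Piece PARAM of CALL S2646 (helper44): the skew forms of the nilpotent shift in the coordinates of
`Cfsg.Agent.Helper21.JCent`.
-/

namespace Cfsg.Agent.Helper44.UCPARAM

open Matrix Cfsg.Agent.Helper21.JCent Cfsg.Agent.Helper44.UC

/-- the value "`φ_{kl}(s)`" of a parameter family -/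
def cc {K : Type*} [Field K] {t : ℕ} (d : Fin t → ℕ)
    (c : ((k : Fin t) × Fin (d k)) → Fin t → K) (k l : Fin t) (s : ℕ) : K :=
  if h : s < d k then c ⟨k, ⟨d k - 1 - s, by omega⟩⟩ l else 0

theorem cc_eq {K : Type*} [Field K] {t : ℕ} (d : Fin t → ℕ)
    (c : ((k : Fin t) × Fin (d k)) → Fin t → K) (k l : Fin t) (s' : ℕ) (hs' : s' < d k) :
    cc d c k l (d k - 1 - s') = c ⟨k, ⟨s', hs'⟩⟩ l := by
  unfold cc
  rw [dif_pos (by omega)]
  congr 2
  apply Fin.ext
  show d k - 1 - (d k - 1 - s') = s'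
  omega

theorem cc_zero {K : Type*} [Field K] {t : ℕ} (d : Fin t → ℕ)
    (c : ((k : Fin t) × Fin (d k)) → Fin t → K)
    (hc : ∀ (p : (k : Fin t) × Fin (d k)) (k : Fin t), (p.2 : ℕ) + d k < d p.1 → c p k = 0)
    (k l : Fin t) (s : ℕ) (hs : d l ≤ s) : cc d c k l s = 0 := by
  unfold cc
  split_ifs with h
  · apply hc
    show d k - 1 - s + d l < d k
    omega
  · rfl

/-- the entries of `H0 * toMat d c` -/
theorem G_apply {K : Type*} [Field K] {t : ℕ} (d : Fin t → ℕ)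
    (hM : ∀ (X : Matrix ((k : Fin t) × Fin (d k)) ((k : Fin t) × Fin (d k)) K)
      (p r : (k : Fin t) × Fin (d k)), (H0 K d * X) p r
        = (-1) ^ (p.2 : ℕ) * X ⟨p.1, ⟨d p.1 - 1 - (p.2 : ℕ), by have := p.2.2; omega⟩⟩ r)
    (c : ((k : Fin t) × Fin (d k)) → Fin t → K) (p r : (k : Fin t) × Fin (d k)) :
    (H0 K d * toMat d c) p r = (-1) ^ (p.2 : ℕ) * cc d c p.1 r.1 ((p.2 : ℕ) + (r.2 : ℕ)) := by
  rw [hM]
  congr 1
  have hp := p.2.2
  have hr := r.2.2
  unfold cc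
  simp only [toMat, Matrix.of_apply]
  by_cases h : (p.2 : ℕ) + (r.2 : ℕ) < d p.1
  · rw [dif_pos h, dif_pos (by show (r.2 : ℕ) ≤ d p.1 - 1 - (p.2 : ℕ); omega)]
    congr 2
    apply Fin.ext
    show d p.1 - 1 - (p.2 : ℕ) - (r.2 : ℕ) = d p.1 - 1 - ((p.2 : ℕ) + (r.2 : ℕ))
    omega
  · rw [dif_neg h, dif_neg (by show ¬ (r.2 : ℕ) ≤ d p.1 - 1 - (p.2 : ℕ); omega)]

/-- the symmetry in terms of `cc` -/
theorem symC_iff {K : Type*} [Field K] {q : ℕ} {t : ℕ} (d : Fin t → ℕ)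
    (c : ((k : Fin t) × Fin (d k)) → Fin t → K) :
    SymC q d (Function.uncurry c) ↔
      ∀ (k l : Fin t) (s : ℕ), s < d k → s < d l →
        cc d c k l s = (-1) ^ s * (cc d c l k s) ^ q := by
  constructor
  · intro h k l s hk hl
    have hadm : d k ≤ d k - 1 - s + d l := by omega
    have h1 := h (⟨k, ⟨d k - 1 - s, by omega⟩⟩, l) hadm
    rw [theta_eq d _ hadm] at h1
    have e1 : sOf d ((⟨k, ⟨d k - 1 - s, by omega⟩⟩ : (k : Fin t) × Fin (d k)), l) = s := by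
      show d k - 1 - (d k - 1 - s) = s
      omega
    rw [e1] at h1
    have e2 : cc d c k l s = c ⟨k, ⟨d k - 1 - s, by omega⟩⟩ l := by
      unfold cc
      rw [dif_pos hk]
    have e3 : cc d c l k s = c ⟨l, ⟨d k - 1 - s + d l - d k, by omega⟩⟩ k := by
      unfold cc
      rw [dif_pos hl]
      congr 2
      apply Fin.ext
      show d l - 1 - s = d k - 1 - s + d l - d k
      omega
    rw [e2, e3]
    exact h1
  · intro h a hadm
    obtain ⟨⟨k, s'⟩, l⟩ := a
    have hs' := s'.2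
    have hadm' : d k ≤ (s' : ℕ) + d l := hadm
    have h1 := h k l (d k - 1 - (s' : ℕ)) (by omega) (by omega)
    rw [cc_eq d c k l (s' : ℕ) hs'] at h1
    rw [theta_eq d _ hadm]
    have e1 : sOf d ((⟨k, s'⟩ : (k : Fin t) × Fin (d k)), l) = d k - 1 - (s' : ℕ) := rfl
    rw [e1]
    have e3 : cc d c l k (d k - 1 - (s' : ℕ))
        = c ⟨l, ⟨(s' : ℕ) + d l - d k, by omega⟩⟩ k := by
      have e4 : d k - 1 - (s' : ℕ) = d l - 1 - ((s' : ℕ) + d l - d k) := by omega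
      rw [e4]
      exact cc_eq d c l k ((s' : ℕ) + d l - d k) (by omega)
    rw [e3] at h1
    exact h1

/-- hermitian symmetry of `H0 * toMat d c` -/
theorem herm_iff {K : Type*} [Field K] [Fintype K] {q : ℕ} (hK : Fintype.card K = q ^ 2)
    {t : ℕ} (d : Fin t → ℕ) (hd : ∀ k, 1 ≤ d k)
    (hM : ∀ (X : Matrix ((k : Fin t) × Fin (d k)) ((k : Fin t) × Fin (d k)) K)
      (p r : (k : Fin t) × Fin (d k)), (H0 K d * X) p r
        = (-1) ^ (p.2 : ℕ) * X ⟨p.1, ⟨d p.1 - 1 - (p.2 : ℕ), by have := p.2.2; omega⟩⟩ r)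
    (c : ((k : Fin t) × Fin (d k)) → Fin t → K)
    (hc : ∀ (p : (k : Fin t) × Fin (d k)) (k : Fin t), (p.2 : ℕ) + d k < d p.1 → c p k = 0) :
    hT q (H0 K d * toMat d c) = H0 K d * toMat d c ↔ SymC q d (Function.uncurry c) := by
  have hq0 : q ≠ 0 := (q_pos hK).ne'
  have hneg : ((-1 : K)) ^ q = -1 := by
    have h := Cfsg.Agent.Helper43.NormH90.sub_pow_q hK (0 : K) 1
    rw [zero_sub, zero_pow hq0, one_pow, zero_sub] at h
    exact h
  have hnegs : ∀ s : ℕ, (((-1 : K)) ^ s) ^ q = (-1) ^ s := by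
    intro s
    rw [← pow_mul, mul_comm, pow_mul, hneg]
  rw [symC_iff]
  constructor
  · intro h k l s hk hl
    have h1 := congrFun (congrFun h ⟨k, ⟨0, hd k⟩⟩) ⟨l, ⟨s, hl⟩⟩
    rw [hT_apply, G_apply d hM, G_apply d hM] at h1
    simp only [pow_zero, one_mul, zero_add, add_zero] at h1
    rw [mul_pow, hnegs] at h1
    exact h1.symm
  · intro h
    ext p r
    rw [hT_apply, G_apply d hM, G_apply d hM, mul_pow, hnegs, add_comm (r.2 : ℕ) (p.2 : ℕ)]
    by_cases h1 : (p.2 : ℕ) + (r.2 : ℕ) < d p.1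
    · by_cases h2 : (p.2 : ℕ) + (r.2 : ℕ) < d r.1
      · rw [h p.1 r.1 _ h1 h2, ← mul_assoc, ← pow_add]
        congr 1
        have e : (p.2 : ℕ) + ((p.2 : ℕ) + (r.2 : ℕ)) = 2 * (p.2 : ℕ) + (r.2 : ℕ) := by ring
        rw [e, pow_add, pow_mul]
        simp
      · rw [cc_zero d c hc p.1 r.1 _ (by omega)]
        have : cc d c r.1 p.1 ((p.2 : ℕ) + (r.2 : ℕ)) = 0 := by
          unfold cc
          rw [dif_neg h2]
        rw [this, zero_pow hq0, mul_zero, mul_zero]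
    · have e1 : cc d c p.1 r.1 ((p.2 : ℕ) + (r.2 : ℕ)) = 0 := by
        unfold cc
        rw [dif_neg h1]
      rw [e1, cc_zero d c hc r.1 p.1 _ (by omega), zero_pow hq0, mul_zero, mul_zero]

/-- PARAM with the three facts on `H0` as hypotheses -/
theorem param_core {K : Type*} [Field K] [Fintype K] {q : ℕ} (hK : Fintype.card K = q ^ 2)
    {t : ℕ} (d : Fin t → ℕ) (hd : ∀ k, 1 ≤ d k)
    (hU : IsUnit (H0 K d).det)
    (hS : hT q (nilp K d) * H0 K d + H0 K d * nilp K d = 0)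
    (hM : ∀ (X : Matrix ((k : Fin t) × Fin (d k)) ((k : Fin t) × Fin (d k)) K)
      (p r : (k : Fin t) × Fin (d k)), (H0 K d * X) p r
        = (-1) ^ (p.2 : ℕ) * X ⟨p.1, ⟨d p.1 - 1 - (p.2 : ℕ), by have := p.2.2; omega⟩⟩ r) :
    Nat.card ↥(skewForms q (nilp K d))
      = Nat.card {c : ((k : Fin t) × Fin (d k)) × Fin t → K //
          (∀ a, ¬ PP d a → ¬ RR d a → c a = 0) ∧ Good d hd (fun a => c a.1) ∧ SymC q d c} := by
  classical
  have hinv1 : (H0 K d)⁻¹ * H0 K d = 1 := Matrix.nonsing_inv_mul _ hU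
  have hinv2 : H0 K d * (H0 K d)⁻¹ = 1 := Matrix.mul_nonsing_inv _ hU
  have hS' : (H0 K d)⁻¹ * hT q (nilp K d) = -(nilp K d * (H0 K d)⁻¹) := by
    have h1 : hT q (nilp K d) * H0 K d = -(H0 K d * nilp K d) := eq_neg_of_add_eq_zero_left hS
    calc (H0 K d)⁻¹ * hT q (nilp K d)
        = (H0 K d)⁻¹ * (hT q (nilp K d) * H0 K d) * (H0 K d)⁻¹ := by
          rw [mul_assoc, mul_assoc, hinv2, mul_one]
      _ = -(nilp K d * (H0 K d)⁻¹) := by
          rw [h1, mul_neg, neg_mul, ← mul_assoc, hinv1, one_mul]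
  -- forward facts
  have hfwd : ∀ H : Matrix ((k : Fin t) × Fin (d k)) ((k : Fin t) × Fin (d k)) K,
      H ∈ skewForms q (nilp K d) →
      ((H0 K d)⁻¹ * H) * nilp K d = nilp K d * ((H0 K d)⁻¹ * H) ∧ IsUnit ((H0 K d)⁻¹ * H).det := by
    rintro H ⟨hHu, hHh, hHs⟩
    constructor
    · have h1 : H * nilp K d = -(hT q (nilp K d) * H) := eq_neg_of_add_eq_zero_right hHs
      rw [mul_assoc, h1, mul_neg, ← mul_assoc, hS', neg_mul, neg_neg, mul_assoc]
    · rw [Matrix.det_mul]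
      exact (Matrix.isUnit_nonsing_inv_det _ hU).mul hHu
  have hcond : ∀ X : Matrix ((k : Fin t) × Fin (d k)) ((k : Fin t) × Fin (d k)) K,
      X * nilp K d = nilp K d * X → (IsUnit X.det ↔
        ((∀ a, ¬ PP d a → ¬ RR d a → Function.uncurry (ofMat d hd X) a = 0) ∧
          Good d hd (fun a => Function.uncurry (ofMat d hd X) a.1))) := by
    intro X hX
    rw [← cond_iff d hd (ofMat d hd X), isUnit_det_iff d hd X hX]
    have h1 : topMat d hd X = atop d hd (ofMat d hd X) := by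
      rw [← topMat_toMat, toMat_ofMat d hd X hX]
    rw [h1]
    constructor
    · intro h
      exact ⟨ofMat_constraint d hd X hX, h⟩
    · intro h
      exact h.2
  apply Nat.card_congr
  refine
    { toFun := fun H => ⟨Function.uncurry (ofMat d hd ((H0 K d)⁻¹ * H.1)), ?_⟩
      invFun := fun c => ⟨H0 K d * toMat d (Function.curry c.1), ?_⟩
      left_inv := ?_
      right_inv := ?_ }
  · obtain ⟨hX, hXu⟩ := hfwd H.1 H.2
    obtain ⟨hz, hg⟩ := (hcond _ hX).mp hXu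
    refine ⟨hz, hg, ?_⟩
    rw [← herm_iff hK d hd hM _ (ofMat_constraint d hd _ hX), toMat_ofMat d hd _ hX,
      ← mul_assoc, hinv2, one_mul]
    exact H.2.2.1
  · obtain ⟨hz, hg, hs⟩ := c.2
    have hcc : ((∀ (p : (k : Fin t) × Fin (d k)) (k : Fin t),
        (p.2 : ℕ) + d k < d p.1 → Function.curry c.1 p k = 0) ∧
        IsUnit (atop d hd (Function.curry c.1)).det) := by
      rw [cond_iff d hd (Function.curry c.1), Function.uncurry_curry]
      exact ⟨hz, hg⟩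
    have hX := toMat_comm d (Function.curry c.1) hcc.1
    have hXu : IsUnit (toMat d (Function.curry c.1)).det := by
      rw [isUnit_det_iff d hd _ hX, topMat_toMat]
      exact hcc.2
    refine ⟨?_, ?_, ?_⟩
    · rw [Matrix.det_mul]
      exact hU.mul hXu
    · rw [herm_iff hK d hd hM _ hcc.1, Function.uncurry_curry]
      exact hs
    · rw [← mul_assoc, mul_assoc (H0 K d), hX, ← mul_assoc, ← add_mul, hS, zero_mul]
  · intro H
    apply Subtype.ext
    obtain ⟨hX, hXu⟩ := hfwd H.1 H.2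
    show H0 K d * toMat d (Function.curry (Function.uncurry (ofMat d hd ((H0 K d)⁻¹ * H.1)))) = H.1
    rw [Function.curry_uncurry, toMat_ofMat d hd _ hX, ← mul_assoc, hinv2, one_mul]
  · intro c
    apply Subtype.ext
    show Function.uncurry (ofMat d hd ((H0 K d)⁻¹ * (H0 K d * toMat d (Function.curry c.1)))) = c.1
    rw [← mul_assoc, hinv1, one_mul, ofMat_toMat, Function.uncurry_curry]

/-- PARAM: the skew forms of the shift in the coordinates of `Helper21.JCent`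
(`H = H0 * toMat d c`). -/
theorem uc_param {K : Type*} [Field K] [Fintype K] {q : ℕ} (hK : Fintype.card K = q ^ 2)
    {t : ℕ} (d : Fin t → ℕ) (hd : ∀ k, 1 ≤ d k) :
    Nat.card ↥(skewForms q (nilp K d))
      = Nat.card {c : ((k : Fin t) × Fin (d k)) × Fin t → K //
          (∀ a, ¬ PP d a → ¬ RR d a → c a = 0) ∧ Good d hd (fun a => c a.1) ∧ SymC q d c} :=
  param_core hK d hd (Cfsg.Agent.Helper46.UCH0U.uc_h0_unit d) (Cfsg.Agent.Helper46.UCH0S.uc_h0_skew hK d)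
    (Cfsg.Agent.Helper46.UCH0M.uc_h0_mul d)

end Cfsg.Agent.Helper44.UCPARAM
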