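import Mathlib
import Cfsg.Agent.Helper44.UCDefs
import Cfsg.Agent.S2587
import Cfsg.Agent.S2581
import Cfsg.Agent.Helper44.UnitaryOrder
import Cfsg.Agent.Helper44.UCPARAM
import Cfsg.Agent.Helper44.UCSIM
import Cfsg.Agent.Helper10.UCFIX
import Cfsg.Agent.Helper10.UCSKEWCONJ
import Cfsg.Agent.Helper46.UCH0M
import Cfsg.Agent.Helper46.UCH0S
import Cfsg.Agent.Helper46.UCH0U
import Cfsg.Agent.Helper57.UCBLKA
import Cfsg.Agent.Helper57.UCBLKB
import Cfsg.Agent.Helper57.UCSPLIT
import Cfsg.Agent.Helper58.UCHERMC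
import Cfsg.Agent.Helper58.UCORB
import Cfsg.Agent.Helper76.UCCAYLEY
import Cfsg.Agent.Helper84.UCTRANSC
import Cfsg.Agent.Helper84.UCTRANSF

set_option autoImplicit false

/-!
# Assembly of CALL S2646 (helper44): the centraliser of a unipotent element of `GU_n(q)`
-/

namespace Cfsg.Agent.Helper44.UC

open Matrix Cfsg.Agent.Helper21.JCent
open Cfsg.Agent.Helper44.UCPARAM Cfsg.Agent.Helper44.UCSIM Cfsg.Agent.Helper10.UCFIX
  Cfsg.Agent.Helper10.UCSKEWCONJ Cfsg.Agent.Helper46.UCH0M Cfsg.Agent.Helper46.UCH0S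
  Cfsg.Agent.Helper46.UCH0U Cfsg.Agent.Helper57.UCBLKA Cfsg.Agent.Helper57.UCBLKB
  Cfsg.Agent.Helper57.UCSPLIT Cfsg.Agent.Helper58.UCHERMC Cfsg.Agent.Helper58.UCORB
  Cfsg.Agent.Helper76.UCCAYLEY Cfsg.Agent.Helper84.UCTRANSC Cfsg.Agent.Helper84.UCTRANSF

/-- the number of invertible hermitian forms invariant under a unipotent element of type `d` -/
theorem uc_forms {K : Type*} [Field K] [Fintype K] {q n t : ℕ} (hK : Fintype.card K = q ^ 2)
    (d : Fin t → ℕ) (hd : ∀ k, 1 ≤ d k) (e : ((k : Fin t) × Fin (d k)) ≃ Fin n)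
    (A : Matrix (Fin n) (Fin n) K)
    (hA : IsConj (Matrix.reindex e e (Cfsg.jordanTypeMatrix d K)) A) :
    Nat.card ↥(invForms q A)
      = q ^ (∑ l : Fin t, ∑ k : Fin t, fcount (d l) (d k))
        * ∏ i : Fin (Finset.univ.sup d + 1),
            hermCount K q ((Finset.univ.filter (fun k : Fin t => d k = (i : ℕ))).card) := by
  classical
  have h4 := uc_transf hK d e A hA
  obtain ⟨lam, hlam⟩ := Cfsg.Agent.Helper43.NormH90.exists_trace_one hK
  obtain ⟨hBu, P, hP, hPN⟩ := uc_sim (K := K) d hd (lam ^ q)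
  have hJ : Cfsg.jordanTypeMatrix d K = 1 + nilp K d := jordan_eq d
  have hB : lam • (1 : Matrix ((k : Fin t) × Fin (d k)) ((k : Fin t) × Fin (d k)) K)
      + lam ^ q • Cfsg.jordanTypeMatrix d K = 1 + lam ^ q • nilp K d := by
    rw [hJ, smul_add, ← add_assoc, ← add_smul, hlam, one_smul]
  have h5 := uc_cayley hK lam hlam (Cfsg.jordanTypeMatrix d K) (by rw [hB]; exact hBu)
  have hJ1 : Cfsg.jordanTypeMatrix d K - 1 = nilp K d := by rw [hJ, add_sub_cancel_left]
  rw [hB, hJ1] at h5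
  have h6 := uc_skewconj hK _ _ P hP hPN
  have h7 := uc_param hK d hd
  have h8 := uc_split hK d hd
  have h9 : Nat.card {r : {a // RR d a} → K //
      ∀ a : {a // RR d a}, r a = (-1) ^ sOf d a.1 * (r ⟨theta d a.1, theta_RR d a.1 a.2⟩) ^ q}
      = q ^ Fintype.card {a // RR d a} :=
    uc_fix hK (R := {a // RR d a}) (fun a => ⟨theta d a.1, theta_RR d a.1 a.2⟩)
      (fun a => Subtype.ext (theta_theta d a.1)) (fun a => sOf d a.1)
      (fun a => sOf_theta d a.1 a.2.1)
  have h10 := uc_blka hK d hd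
  have h11 : ∀ i : Fin (Finset.univ.sup d + 1),
      Nat.card {M : Matrix {x : Fin t // dd d x = i} {x : Fin t // dd d x = i} K //
        IsUnit M.det ∧ M = (-1 : K) ^ ((i : ℕ) - 1) • hT q M}
      = hermCount K q ((Finset.univ.filter (fun k : Fin t => d k = (i : ℕ))).card) := by
    intro i
    rw [uc_blkb hK, card_block]
  rw [h4, h5, h6, h7, h8, h9, h10, card_RR, mul_comm]
  congr 1
  exact Finset.prod_congr rfl (fun i _ => h11 i)

/-- **the centraliser of a unipotent element of `GU_n(q)`** -/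
theorem uc_main {K : Type*} [Field K] [Fintype K] {q n t : ℕ} (hK : Fintype.card K = q ^ 2)
    (d : Fin t → ℕ) (hd : ∀ k, 1 ≤ d k) (e : ((k : Fin t) × Fin (d k)) ≃ Fin n)
    (u : ↥(Cfsg.GU n K q))
    (hu : IsConj (Matrix.reindex e e (Cfsg.jordanTypeMatrix d K))
      ((u : GL (Fin n) K) : Matrix (Fin n) (Fin n) K)) :
    (Nat.card ↥(Subgroup.centralizer ({u} : Set ↥(Cfsg.GU n K q))) : ℤ) = (q : ℤ) ^ (2 * (∑ i ∈ Finset.range (Finset.univ.sup d + 1), ∑ j ∈ Finset.range (Finset.univ.sup d + 1), if i < j then i * (Finset.univ.filter (fun k : Fin t => d k = i)).card * (Finset.univ.filter (fun k : Fin t => d k = j)).card else 0) + ∑ i ∈ Finset.range (Finset.univ.sup d + 1), (i - 1) * (Finset.univ.filter (fun k : Fin t => d k = i)).card ^ 2) * ∏ i ∈ Finset.range (Finset.univ.sup d + 1), ((q : ℤ) ^ ((Finset.univ.filter (fun k : Fin t => d k = i)).card * ((Finset.univ.filter (fun k : Fin t => d k = i)).card - 1) / 2) * ∏ j : Fin (Finset.univ.filter (fun k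 : Fin t => d k = i)).card, ((q : ℤ) ^ ((j : ℕ) + 1) - (-1) ^ ((j : ℕ) + 1))) := by
  classical
  obtain ⟨a, ha⟩ : ∃ a : ℕ → ℕ, a = fun i => (Finset.univ.filter (fun k : Fin t => d k = i)).card :=
    ⟨_, rfl⟩
  obtain ⟨γ, hγ⟩ : ∃ γ : ℕ, γ = 2 * (∑ i ∈ Finset.range (Finset.univ.sup d + 1),
      ∑ j ∈ Finset.range (Finset.univ.sup d + 1), if i < j then i * a i * a j else 0)
      + ∑ i ∈ Finset.range (Finset.univ.sup d + 1), (i - 1) * a i ^ 2 := ⟨_, rfl⟩
  have hq0 : 0 < q := q_pos hK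
  have h1 := uc_orb hK u
  have h2 := uc_transc d e (u : GL (Fin n) K) hu
  have h3 := Cfsg.Agent.S2581.result (F := K) (q := q ^ 2) hK d hd
  have hforms := uc_forms hK d hd e _ hu
  rw [exponent_eq] at hforms
  have hGL : ∀ b : ℕ, Nat.card (GL (Fin b) K)
      = ∏ j : Fin b, ((q ^ 2) ^ b - (q ^ 2) ^ (j : ℕ)) := by
    intro b
    rw [Matrix.card_GL_field, hK]
  have hherm : ∀ b : ℕ, ∏ j : Fin b, ((q ^ 2) ^ b - (q ^ 2) ^ (j : ℕ))
      = Nat.card ↥(Cfsg.GU b K q) * hermCount K q b := by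
    intro b
    rw [← hGL, uc_hermc hK]
  have hhpos : ∀ b : ℕ, 0 < hermCount K q b := by
    intro b
    rcases Nat.eq_zero_or_pos (hermCount K q b) with h | h
    · exfalso
      have h' := uc_hermc hK (q := q) (K := K) b
      rw [h, mul_zero] at h'
      exact (Nat.card_pos (α := GL (Fin b) K)).ne' h'
    · exact h
  -- the natural number identity
  have hnat : Nat.card ↥(Subgroup.centralizer ({u} : Set ↥(Cfsg.GU n K q)))
      = q ^ γ * ∏ i ∈ Finset.range (Finset.univ.sup d + 1), Nat.card ↥(Cfsg.GU (a i) K q) := by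
    rw [h2, h3, hforms] at h1
    rw [ha] at hγ ⊢
    simp only at hγ ⊢
    rw [← hγ] at h1
    have e1 : ∏ i ∈ Finset.range (Finset.univ.sup d + 1),
        ∏ j : Fin ((Finset.univ.filter (fun k : Fin t => d k = i)).card),
          ((q ^ 2) ^ (Finset.univ.filter (fun k : Fin t => d k = i)).card - (q ^ 2) ^ (j : ℕ))
        = (∏ i ∈ Finset.range (Finset.univ.sup d + 1),
            Nat.card ↥(Cfsg.GU ((Finset.univ.filter (fun k : Fin t => d k = i)).card) K q))
          * ∏ i ∈ Finset.range (Finset.univ.sup d + 1),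
            hermCount K q ((Finset.univ.filter (fun k : Fin t => d k = i)).card) := by
      rw [← Finset.prod_mul_distrib]
      exact Finset.prod_congr rfl (fun i _ => hherm _)
    have e2 : ∏ i : Fin (Finset.univ.sup d + 1),
        hermCount K q ((Finset.univ.filter (fun k : Fin t => d k = (i : ℕ))).card)
        = ∏ i ∈ Finset.range (Finset.univ.sup d + 1),
            hermCount K q ((Finset.univ.filter (fun k : Fin t => d k = i)).card) :=
      Fin.prod_univ_eq_prod_range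
        (fun i => hermCount K q ((Finset.univ.filter (fun k : Fin t => d k = i)).card)) _
    rw [e1, e2] at h1
    have hpos : 0 < q ^ γ * ∏ i ∈ Finset.range (Finset.univ.sup d + 1),
        hermCount K q ((Finset.univ.filter (fun k : Fin t => d k = i)).card) :=
      Nat.mul_pos (pow_pos hq0 _) (Finset.prod_pos (fun i _ => hhpos _))
    apply Nat.eq_of_mul_eq_mul_right hpos
    rw [← h1, ← pow_mul, mul_comm 2 γ, pow_mul, pow_two]
    ring
  rw [hnat]
  subst hγ
  subst ha
  push_cast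
  congr 1
  refine Finset.prod_congr rfl (fun i _ => ?_)
  exact Cfsg.Agent.Helper44.card_GU hK _

end Cfsg.Agent.Helper44.UC
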